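import Cfsg.Statements.S0386
import Cfsg.Agent.Helper1.Golay3

set_option autoImplicit false
open Cfsg

namespace Cfsg.Agent.S0386

/-- For a fixed dodecad, 132 octads meet it in 6 points, 132 in 2 points and 495 in 4 points. -/
theorem result (d : Finset Cfsg.GolayPt) (hd : d ∈ Cfsg.dodecads) : {o : Finset Cfsg.GolayPt | o ∈ Cfsg.octads ∧ (o ∩ d).card = 6}.ncard = 132 ∧ {o : Finset Cfsg.GolayPt | o ∈ Cfsg.octads ∧ (o ∩ d).card = 2}.ncard = 132 ∧ {o : Finset Cfsg.GolayPt | o ∈ Cfsg.octads ∧ (o ∩ d).card = 4}.ncard = 495 := by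
  have hS := Cfsg.Agent.Helper1.Golay.octads_steiner
  have hdc : d.card = 12 := hd.2
  have hN : ∀ c ∈ Cfsg.octads, (d ∩ c).card < 9 := fun c hc => by
    have h1 := Finset.card_le_card (Finset.inter_subset_right : d ∩ c ⊆ c)
    rw [hc.2] at h1
    omega
  have hm := fun j hj => Cfsg.Agent.Helper1.steiner_moment' hS d 9 hN j hj
  have z : ∀ i, i ≠ 2 → i ≠ 4 → i ≠ 6 → Cfsg.Agent.Helper1.interNum Cfsg.octads d i = 0 := by
    intro i h2 h4 h6
    apply Cfsg.Agent.Helper1.interNum_eq_zero_of_forall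
    intro c hc
    have h1 := Cfsg.Agent.Helper1.Golay.octad_dodecad_inter hc hd
    rw [Finset.inter_comm] at h1
    omega
  have m0 := hm 0 (by norm_num)
  have m1 := hm 1 (by norm_num)
  have m2 := hm 2 (by norm_num)
  simp only [Finset.sum_range_succ, Finset.sum_range_zero,
    z 0 (by norm_num) (by norm_num) (by norm_num), z 1 (by norm_num) (by norm_num) (by norm_num),
    z 3 (by norm_num) (by norm_num) (by norm_num), z 5 (by norm_num) (by norm_num) (by norm_num),
    z 7 (by norm_num) (by norm_num) (by norm_num), z 8 (by norm_num) (by norm_num) (by norm_num),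
    hdc, Cfsg.Agent.Helper1.Golay.card_golayPt] at m0 m1 m2
  norm_num [Nat.choose] at m0 m1 m2
  have e6 : Cfsg.Agent.Helper1.interNum Cfsg.octads d 6 = 132 := by omega
  have e2 : Cfsg.Agent.Helper1.interNum Cfsg.octads d 2 = 132 := by omega
  have e4 : Cfsg.Agent.Helper1.interNum Cfsg.octads d 4 = 495 := by omega
  have conv : ∀ i, {o : Finset Cfsg.GolayPt | o ∈ Cfsg.octads ∧ (o ∩ d).card = i}
      = {o : Finset Cfsg.GolayPt | o ∈ Cfsg.octads ∧ (d ∩ o).card = i} := by
    intro i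
    ext o
    simp only [Set.mem_ofPred_eq, Finset.inter_comm]
  rw [conv, conv, conv, Cfsg.Agent.Helper1.ncard_setOf_inter,
    Cfsg.Agent.Helper1.ncard_setOf_inter, Cfsg.Agent.Helper1.ncard_setOf_inter]
  exact ⟨e6, e2, e4⟩


end Cfsg.Agent.S0386
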