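import Mathlib
import Cfsg.Statements.S1226

set_option autoImplicit false
open Cfsg

namespace Cfsg.Agent.S1226

/-- Let G be a finite group with a Sylow 2-subgroup T that is neither cyclic nor normal, such that the centralizer of every involution is an elementary abelian 2-group. Then N_G(T) is a strongly embedded subgroup of G. -/
theorem result {G : Type*} [Group G] [Finite G] (T : Sylow 2 G) (hnc : ¬ IsCyclic (T : Subgroup G)) (hnn : ¬ (T : Subgroup G).Normal) (hC : ∀ t : G, orderOf t = 2 → IsMulCommutative (Subgroup.centralizer ({t} : Set G)) ∧ ∀ c ∈ Subgroup.centralizer ({t} : Set G), c ^ 2 = 1) : Cfsg.IsStronglyEmbedded (Subgroup.normalizer ((T : Subgroup G) : Set G)) := by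
  classical
  have : Fact (Nat.Prime 2) := ⟨Nat.prime_two⟩
  have hTcard : 2 ∣ Nat.card (T : Subgroup G) := by
    rcases (T.isPGroup').card_eq_or_dvd with h | h
    · exfalso
      apply hnc
      have : Subsingleton (T : Subgroup G) := (Nat.card_eq_one_iff_unique.mp h).1
      exact isCyclic_of_subsingleton
    · exact h
  have hexp2 : ∀ t : G, orderOf t = 2 → IsPGroup 2 (Subgroup.centralizer ({t} : Set G)) := by
    intro t ht c
    refine ⟨1, ?_⟩
    have := (hC t ht).2 c.1 c.2
    exact Subtype.ext (by simpa using this)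
  obtain ⟨t0, ht0T, ht0, hcent⟩ : ∃ t0 : G, t0 ∈ (T : Subgroup G) ∧ orderOf t0 = 2 ∧
      ∀ x ∈ (T : Subgroup G), x * t0 = t0 * x := by
    have : Nontrivial (T : Subgroup G) := by
      rw [← Finite.one_lt_card_iff_nontrivial]
      have := Nat.le_of_dvd Nat.card_pos hTcard
      omega
    have hcn := (T.isPGroup').center_nontrivial
    have hcp : IsPGroup 2 (Subgroup.center (T : Subgroup G)) := (T.isPGroup').to_subgroup _
    have hdvd : 2 ∣ Nat.card (Subgroup.center (T : Subgroup G)) := by
      rcases hcp.card_eq_or_dvd with h | h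
      · exfalso
        have : Subsingleton (Subgroup.center (T : Subgroup G)) := (Nat.card_eq_one_iff_unique.mp h).1
        exact not_subsingleton _ this
      · exact h
    obtain ⟨z, hz⟩ := exists_prime_orderOf_dvd_card' 2 hdvd
    refine ⟨((z : (T : Subgroup G)) : G), (z : (T : Subgroup G)).2, ?_, ?_⟩
    · rw [Subgroup.orderOf_coe, Subgroup.orderOf_coe]; exact hz
    · intro x hx
      have := Subgroup.mem_center_iff.mp z.2 ⟨x, hx⟩
      exact congrArg Subtype.val this
  have hT0 : Subgroup.centralizer ({t0} : Set G) = (T : Subgroup G) := by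
    apply T.3 (hexp2 t0 ht0)
    intro x hx
    rw [Subgroup.mem_centralizer_iff]
    intro y hy
    rw [Set.mem_singleton_iff] at hy
    rw [hy]; exact (hcent x hx).symm
  have hTcomm : ∀ x ∈ (T : Subgroup G), ∀ y ∈ (T : Subgroup G), x * y = y * x := by
    intro x hx y hy
    rw [← hT0] at hx hy
    have := (hC t0 ht0).1.is_comm.comm (⟨x, hx⟩ : Subgroup.centralizer ({t0} : Set G)) ⟨y, hy⟩
    exact congrArg Subtype.val this
  have hTz : ∀ z ∈ (T : Subgroup G), orderOf z = 2 →
      Subgroup.centralizer ({z} : Set G) = (T : Subgroup G) := by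
    intro z hz hz2
    apply T.3 (hexp2 z hz2)
    intro x hx
    rw [Subgroup.mem_centralizer_iff]
    intro y hy
    rw [Set.mem_singleton_iff] at hy
    rw [hy]; exact hTcomm z hz x hx
  have hA : ∀ z ∈ Subgroup.normalizer ((T : Subgroup G) : Set G), orderOf z = 2 →
      z ∈ (T : Subgroup G) := by
    intro z hz hz2
    have hP : IsPGroup 2 (Subgroup.zpowers z) := by
      apply IsPGroup.of_card (n := 1)
      rw [Nat.card_zpowers, hz2]; rfl
    have h1 : z ∈ Subgroup.zpowers z ⊓ Subgroup.normalizer ((T : Subgroup G) : Set G) :=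
      Subgroup.mem_inf.mpr ⟨Subgroup.mem_zpowers z, hz⟩
    have h2 : z ∈ Subgroup.zpowers z ⊓ (T : Subgroup G) := by
      rw [← hP.inf_normalizer_sylow T]; exact h1
    exact (Subgroup.mem_inf.mp h2).2
  refine ⟨?_, ?_, ?_⟩
  · intro h
    exact hnn (Subgroup.normalizer_eq_top_iff.mp h)
  · have h1 : Nat.card (T : Subgroup G) ∣ Nat.card (Subgroup.normalizer ((T : Subgroup G) : Set G)) :=
      Subgroup.card_dvd_of_le Subgroup.le_normalizer
    exact even_iff_two_dvd.mpr (hTcard.trans h1)
  · intro g hg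
    by_contra hodd
    rw [Nat.not_odd_iff_even, even_iff_two_dvd] at hodd
    obtain ⟨z, hz⟩ := exists_prime_orderOf_dvd_card' 2 hodd
    obtain ⟨hz1, hz2⟩ := Subgroup.mem_inf.mp z.2
    have hzo : orderOf (z : G) = 2 := by rw [Subgroup.orderOf_coe]; exact hz
    obtain ⟨y, hy, hyz⟩ := Subgroup.mem_map.mp hz2
    have hyo : orderOf y = 2 := by
      have h3 := orderOf_injective (MulAut.conj g).toMonoidHom (MulAut.conj g).injective y
      rw [hyz] at h3
      exact h3.symm.trans hzo
    have hyz' : g * y * g⁻¹ = (z : G) := by simpa using hyz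
    have hyT := hA y hy hyo
    have hzT := hA z hz1 hzo
    have hCy := hTz y hyT hyo
    have hCz := hTz z hzT hzo
    apply hg
    rw [Subgroup.mem_normalizer_iff]
    intro h
    have e1 : h ∈ (T : Subgroup G) ↔ h ∈ Subgroup.centralizer ({y} : Set G) := by rw [hCy]
    have e2 : g * h * g⁻¹ ∈ (T : Subgroup G) ↔ g * h * g⁻¹ ∈ Subgroup.centralizer ({(z : G)} : Set G) := by
      rw [hCz]
    rw [e1, e2, Subgroup.mem_centralizer_iff, Subgroup.mem_centralizer_iff]
    simp only [Set.mem_singleton_iff, forall_eq]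
    rw [← hyz']
    constructor
    · intro e
      calc g * y * g⁻¹ * (g * h * g⁻¹) = g * (y * h) * g⁻¹ := by group
        _ = g * (h * y) * g⁻¹ := by rw [e]
        _ = g * h * g⁻¹ * (g * y * g⁻¹) := by group
    · intro e
      have e' : g⁻¹ * (g * y * g⁻¹ * (g * h * g⁻¹)) * g = g⁻¹ * (g * h * g⁻¹ * (g * y * g⁻¹)) * g := by
        rw [e]
      calc y * h = g⁻¹ * (g * y * g⁻¹ * (g * h * g⁻¹)) * g := by group
        _ = g⁻¹ * (g * h * g⁻¹ * (g * y * g⁻¹)) * g := e'
        _ = h * y := by group


end Cfsg.Agent.S1226
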