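import Mathlib
import Cfsg.Agent.Helper2.StrEmbFix
import Cfsg.Statements.S1224

set_option autoImplicit false
open Cfsg

namespace Cfsg.Agent.S1224

/-- Let H be a strongly embedded subgroup of the finite group G and x ≠ y two cosets in G/H. Then the number of involutions i of G with i • x = y equals the number of involutions lying in H. -/
theorem result {G : Type*} [Group G] [Finite G] (H : Subgroup G) (hH : Cfsg.IsStronglyEmbedded H) (x y : G ⧸ H) (hxy : x ≠ y) : Nat.card {i : G // orderOf i = 2 ∧ i • x = y} = Nat.card {t : G // orderOf t = 2 ∧ t ∈ H} := by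
  have hF := Cfsg.Agent.Helper2.SE.uniqfix hH
  obtain ⟨t₀, ht₀, ht₀2⟩ := Cfsg.Agent.Lead.exists_invol_of_even_card hH.2.1
  induction x using QuotientGroup.induction_on with
  | H a =>
  induction y using QuotientGroup.induction_on with
  | H b =>
  -- an involution fixing `y`
  have hu₀ : orderOf (b * t₀ * b⁻¹) = 2 := Cfsg.Agent.Helper2.SE.orderOf_conj_two ht₀2
  have hu₀1 := Cfsg.Agent.Helper2.UF.ne_one_of_orderOf_two hu₀
  have hu₀2 := Cfsg.Agent.Helper2.UF.mul_self_of_orderOf_two hu₀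
  have hu₀y : (b * t₀ * b⁻¹) • ((b : G) : G ⧸ H) = ((b : G) : G ⧸ H) := by
    rw [Cfsg.Agent.Helper2.SE.smul_mk_eq_iff]
    have e : b⁻¹ * (b * t₀ * b⁻¹) * b = t₀ := by group
    rw [e]; exact ht₀
  obtain ⟨u₀, hu₀def⟩ : ∃ u₀ : G, u₀ = b * t₀ * b⁻¹ := ⟨_, rfl⟩
  rw [← hu₀def] at hu₀ hu₀1 hu₀2 hu₀y
  -- step A
  have hA : Nat.card {i : G // orderOf i = 2 ∧ i • ((a : G) : G ⧸ H) = ((b : G) : G ⧸ H)} =
      Nat.card {s : G // orderOf s = 2 ∧ s • ((a : G) : G ⧸ H) = ((a : G) : G ⧸ H)} := by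
    have hwd : ∀ i : G, orderOf i = 2 → i • ((a : G) : G ⧸ H) = ((b : G) : G ⧸ H) →
        orderOf (i * u₀ * i) = 2 ∧ (i * u₀ * i) • ((a : G) : G ⧸ H) = ((a : G) : G ⧸ H) := by
      intro i hi hix
      have hi2 := Cfsg.Agent.Helper2.UF.mul_self_of_orderOf_two hi
      have hiinv : i⁻¹ = i := inv_eq_of_mul_eq_one_left hi2
      have hiy : i • ((b : G) : G ⧸ H) = ((a : G) : G ⧸ H) := by
        rw [← hix, ← mul_smul, hi2, one_smul]
      refine ⟨?_, ?_⟩
      · have := Cfsg.Agent.Helper2.SE.orderOf_conj_two (g := i) hu₀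
        rwa [hiinv] at this
      · rw [mul_smul, mul_smul, hix, hu₀y, hiy]
    apply Nat.card_eq_of_bijective
      (fun i : {i : G // orderOf i = 2 ∧ i • ((a : G) : G ⧸ H) = ((b : G) : G ⧸ H)} =>
        (⟨i.1 * u₀ * i.1, hwd i.1 i.2.1 i.2.2⟩ :
          {s : G // orderOf s = 2 ∧ s • ((a : G) : G ⧸ H) = ((a : G) : G ⧸ H)}))
    constructor
    · rintro ⟨i, hi, hix⟩ ⟨i', hi', hi'x⟩ h
      have h' : i * u₀ * i = i' * u₀ * i' := congrArg Subtype.val h
      obtain ⟨hs'o, hs'x⟩ := hwd i hi hix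
      apply Subtype.ext
      exact Cfsg.Agent.Helper2.UF.conj_unique hF
        (Cfsg.Agent.Helper2.UF.ne_one_of_orderOf_two hs'o)
        (Cfsg.Agent.Helper2.UF.mul_self_of_orderOf_two hs'o) hu₀1 hu₀2 hs'x hu₀y hxy
        (Cfsg.Agent.Helper2.UF.mul_self_of_orderOf_two hi) rfl
        (Cfsg.Agent.Helper2.UF.mul_self_of_orderOf_two hi') h'.symm
    · rintro ⟨s', hs'o, hs'x⟩
      have hs'1 := Cfsg.Agent.Helper2.UF.ne_one_of_orderOf_two hs'o
      have hs'2 := Cfsg.Agent.Helper2.UF.mul_self_of_orderOf_two hs'o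
      obtain ⟨v, hv2, hv, _⟩ :=
        Cfsg.Agent.Helper2.UF.exists_conj hF hs'1 hs'2 hu₀1 hu₀2 hs'x hu₀y hxy
      obtain ⟨hvx, _⟩ := Cfsg.Agent.Helper2.UF.conj_swap hF hu₀1 hu₀2 hs'x hu₀y hv2 hv
      have hv1 : v ≠ 1 := by
        rintro rfl
        rw [one_smul] at hvx
        exact hxy hvx
      exact ⟨⟨v, Cfsg.Agent.Helper2.UF.orderOf_two_of hv1 hv2, hvx⟩, Subtype.ext hv⟩
  -- step B
  have hB : Nat.card {s : G // orderOf s = 2 ∧ s • ((a : G) : G ⧸ H) = ((a : G) : G ⧸ H)} =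
      Nat.card {t : G // orderOf t = 2 ∧ t ∈ H} := by
    apply Nat.card_eq_of_bijective
      (fun s : {s : G // orderOf s = 2 ∧ s • ((a : G) : G ⧸ H) = ((a : G) : G ⧸ H)} =>
        (⟨a⁻¹ * s.1 * a, Cfsg.Agent.Helper2.SE.orderOf_conj_two' s.2.1,
          (Cfsg.Agent.Helper2.SE.smul_mk_eq_iff s.1 a).mp s.2.2⟩ :
          {t : G // orderOf t = 2 ∧ t ∈ H}))
    constructor
    · rintro ⟨s, hs⟩ ⟨s', hs'⟩ h
      have h' : a⁻¹ * s * a = a⁻¹ * s' * a := congrArg Subtype.val h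
      apply Subtype.ext
      exact mul_left_cancel (mul_right_cancel h')
    · rintro ⟨t, hto, htH⟩
      refine ⟨⟨a * t * a⁻¹, Cfsg.Agent.Helper2.SE.orderOf_conj_two hto, ?_⟩, ?_⟩
      · rw [Cfsg.Agent.Helper2.SE.smul_mk_eq_iff]
        have e : a⁻¹ * (a * t * a⁻¹) * a = t := by group
        rw [e]; exact htH
      · apply Subtype.ext
        show a⁻¹ * (a * t * a⁻¹) * a = t
        group
  exact hA.trans hB


end Cfsg.Agent.S1224
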