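import Mathlib
import Cfsg.Agent.Helper2.LinExt
import Cfsg.Statements.S0865

set_option autoImplicit false
open Cfsg

namespace Cfsg.Agent.S0865

/-- Let N be a normal subgroup of the finite group G and λ a character of N of degree 1, invariant under conjugation by G, whose order (under pointwise multiplication) is coprime to the index of N. Then there is a character μ of G of degree 1 restricting to λ with the same order as λ, and μ is the only degree-1 character of G restricting to λ whose order is coprime to the index of N. -/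
theorem result {G : Type*} [Group G] [Finite G] (N : Subgroup G) [hN : N.Normal] (lam : N → ℂ) (hlam : Cfsg.IsCharacter N lam ∧ lam 1 = 1) (hinv : ∀ (g : G) (n : N), lam ⟨g * n * g⁻¹, hN.conj_mem (n : G) n.2 g⟩ = lam n) (hcop : Nat.Coprime N.index (orderOf lam)) : ∃ μ : G → ℂ, (Cfsg.IsCharacter G μ ∧ μ 1 = 1 ∧ (∀ n : N, μ n = lam n) ∧ orderOf μ = orderOf lam) ∧ ∀ μ' : G → ℂ, Cfsg.IsCharacter G μ' ∧ μ' 1 = 1 → (∀ n : N, μ' n = lam n) → Nat.Coprime N.index (orderOf μ') → μ' = μ := by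
  classical
  obtain ⟨hlamc, hlam1⟩ := hlam
  have hmul := Cfsg.Agent.Lead.isCharacter_linear_mul hlamc hlam1
  set ϕ := Cfsg.Agent.Helper2.LinExt.toUnitsHom lam hlamc hlam1 with hϕ
  have hϕv : ∀ n : N, ((ϕ n : ℂˣ) : ℂ) = lam n := fun n => rfl
  have hϕinv : ∀ (g : G) (n : N), ϕ ⟨g * n * g⁻¹, hN.conj_mem (n : G) n.2 g⟩ = ϕ n := by
    intro g n
    apply Units.ext
    exact hinv g n
  set τ : G →* ℂˣ := MonoidHom.transfer ϕ with hτ
  have hτN : ∀ n : N, τ (n : G) = ϕ n ^ N.index :=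
    Cfsg.Agent.Helper2.LinExt.transfer_apply_of_invariant N ϕ hϕinv
  set m := N.index with hm
  set o := orderOf lam with ho
  have hlamcard : lam ^ Nat.card N = 1 := by
    funext n
    rw [Pi.pow_apply, Pi.one_apply, ← hϕv, ← Units.val_pow_eq_pow_val, ← map_pow,
      pow_card_eq_one', map_one, Units.val_one]
  have ho_pos : 0 < o := by
    have h1 : o ∣ Nat.card N := orderOf_dvd_of_pow_eq_one hlamcard
    exact Nat.pos_of_dvd_of_pos h1 Nat.card_pos
  have hcop2 : Nat.Coprime (m * m) o := Nat.Coprime.mul_left hcop hcop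
  have hlamo : ∀ n : N, lam n ^ o = 1 := by
    intro n
    have h2 : lam ^ o = 1 := pow_orderOf_eq_one lam
    have h3 := congrFun h2 n
    rw [Pi.pow_apply, Pi.one_apply] at h3
    exact h3
  obtain ⟨b, hb⟩ : ∃ b : ℕ, ∀ n : N, lam n ^ (m * (m * b)) = lam n := by
    by_cases ho1 : o = 1
    · refine ⟨0, fun n => ?_⟩
      have h1 := hlamo n
      rw [ho1, pow_one] at h1
      rw [h1, one_pow]
    · have h1 : 1 < o := by omega
      obtain ⟨b, _, hb⟩ := Nat.exists_mul_mod_eq_one_of_coprime hcop2 h1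
      refine ⟨b, fun n => ?_⟩
      have h2 : m * (m * b) = o * (m * m * b / o) + 1 := by
        have h3 := Nat.div_add_mod (m * m * b) o
        rw [hb] at h3
        rw [← mul_assoc]
        exact h3.symm
      rw [h2, pow_succ, pow_mul, hlamo n, one_pow, one_mul]
  set a := m * b with ha
  let μh : G →* ℂˣ := τ ^ a
  let μ : G → ℂ := fun g => ((μh g : ℂˣ) : ℂ)
  have hμh : ∀ g, μh g = τ g ^ a := fun g => rfl
  have hμc := Cfsg.Agent.Helper2.LinExt.isCharacter_of_hom μh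
  have hμN : ∀ n : N, μ n = lam n := by
    intro n
    show ((μh (n : G) : ℂˣ) : ℂ) = lam n
    rw [hμh, hτN, ← pow_mul, Units.val_pow_eq_pow_val, hϕv]
    exact hb n
  have hτo : ∀ g : G, τ g ^ (o * m) = 1 := by
    intro g
    have hgm : g ^ m ∈ N := Subgroup.pow_index_mem N g
    have h1 : τ g ^ m = ϕ ⟨g ^ m, hgm⟩ ^ m := by
      rw [← map_pow]
      exact hτN ⟨g ^ m, hgm⟩
    rw [mul_comm, pow_mul, h1, ← pow_mul]
    apply Units.ext
    rw [Units.val_pow_eq_pow_val, hϕv, Units.val_one, mul_comm, pow_mul]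
    rw [hlamo, one_pow]
  have hμo : μ ^ o = 1 := by
    funext g
    show ((μh g : ℂˣ) : ℂ) ^ o = 1
    rw [← Units.val_pow_eq_pow_val, hμh, ← pow_mul]
    have h1 : a * o = (o * m) * b := by
      rw [ha]
      ring
    rw [h1, pow_mul, hτo, one_pow, Units.val_one]
  have hord : orderOf μ = o := by
    apply Nat.dvd_antisymm (orderOf_dvd_of_pow_eq_one hμo)
    apply orderOf_dvd_of_pow_eq_one
    funext n
    have h1 := congrFun (pow_orderOf_eq_one μ) (n : G)
    rw [Pi.pow_apply, Pi.one_apply, hμN] at h1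
    rw [Pi.pow_apply, Pi.one_apply, h1]
  refine ⟨μ, ⟨hμc.1, hμc.2, hμN, hord⟩, ?_⟩
  rintro μ' ⟨hμ'c, hμ'1⟩ hμ'N hcop'
  have hmul' := Cfsg.Agent.Lead.isCharacter_linear_mul hμ'c hμ'1
  funext g
  have hμg0 : μ g ≠ 0 := Units.ne_zero _
  have hpow' : ∀ (k : ℕ) (x : G), μ' (x ^ k) = μ' x ^ k := by
    intro k x
    induction k with
    | zero => simp [hμ'1]
    | succ k ih => rw [pow_succ, hmul', ih, pow_succ]
  have hpowμ : ∀ (k : ℕ) (x : G), μ (x ^ k) = μ x ^ k := by
    intro k x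
    simp [μ]
  have hgm : g ^ m ∈ N := Subgroup.pow_index_mem N g
  have h1 : (μ' g / μ g) ^ m = 1 := by
    rw [div_pow, ← hpow', ← hpowμ]
    have e1 : μ' (g ^ m) = lam ⟨g ^ m, hgm⟩ := hμ'N ⟨g ^ m, hgm⟩
    have e2 : μ (g ^ m) = lam ⟨g ^ m, hgm⟩ := hμN ⟨g ^ m, hgm⟩
    have e3 : μ (g ^ m) ≠ 0 := by
      rw [hpowμ]
      exact pow_ne_zero _ hμg0
    rw [e1, ← e2, div_self e3]
  have h2 : (μ' g / μ g) ^ (orderOf μ' * o) = 1 := by
    have e1 := congrFun (pow_orderOf_eq_one μ') g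
    rw [Pi.pow_apply, Pi.one_apply] at e1
    have e2 := congrFun hμo g
    rw [Pi.pow_apply, Pi.one_apply] at e2
    rw [div_pow, pow_mul, e1, one_pow, mul_comm, pow_mul, e2, one_pow, div_one]
  have h3 : (μ' g / μ g) ^ Nat.gcd m (orderOf μ' * o) = 1 := pow_gcd_eq_one.mpr ⟨h1, h2⟩
  have h4 : Nat.gcd m (orderOf μ' * o) = 1 := Nat.Coprime.mul_right hcop' hcop
  rw [h4, pow_one] at h3
  exact (div_eq_one_iff_eq hμg0).mp h3


end Cfsg.Agent.S0865
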