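import Mathlib
import Cfsg.Agent.Helper2.Proj
import Cfsg.Agent.Helper2.DetExt2
import Cfsg.Agent.Helper2.LinExt
import Cfsg.Statements.S0866

set_option autoImplicit false
open Cfsg

namespace Cfsg.Agent.S0866

/-- Let N be a normal subgroup of the finite group G and ϑ an irreducible character of N, invariant under conjugation by G, of degree d coprime to the index of N. Then ϑ is the restriction of an irreducible character of G if and only if the determinantal character of ϑ is the restriction of a character of G of degree 1. -/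
theorem result {G : Type*} [Group G] [Finite G] (N : Subgroup G) [hN : N.Normal] (ϑ : N → ℂ) (hϑ : Cfsg.IsIrrCharacter N ϑ) (hinv : ∀ (g : G) (n : N), ϑ ⟨g * n * g⁻¹, hN.conj_mem (n : G) n.2 g⟩ = ϑ n) (d : ℕ) (hd : ϑ 1 = d) (hcop : Nat.Coprime N.index d) : (∃ χ : G → ℂ, Cfsg.IsIrrCharacter G χ ∧ (∀ n : N, χ n = ϑ n)) ↔ ∃ μ : G → ℂ, Cfsg.IsCharacter G μ ∧ μ 1 = 1 ∧ ∀ n : N, μ n = Cfsg.detChar ϑ n := by
  classical
  constructor
  · rintro ⟨χ, hχ, hχN⟩
    obtain ⟨n, ρ, hi, rfl⟩ := hχ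
    let ρN : Representation ℂ N (Fin n → ℂ) := MonoidHom.comp ρ N.subtype
    have hρNchar : ρN.character = ϑ := by
      funext x
      exact hχN x
    have hiN : ρN.IsIrreducible :=
      Cfsg.Agent.Helper2.DetChar.isIrreducible_of_character_irr ρN (by rw [hρNchar]; exact hϑ)
    have hdetϑ : ∀ x : N, detChar ϑ x = LinearMap.det (ρ x) := by
      intro x
      rw [← hρNchar, Cfsg.Agent.Helper2.DetChar.detChar_eq_of_irr ρN hiN]
      rfl
    let δ : G →* ℂˣ :=
      ((LinearMap.det : ((Fin n → ℂ) →ₗ[ℂ] (Fin n → ℂ)) →* ℂ).comp ρ).toHomUnits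
    have hδ : ∀ g, ((δ g : ℂˣ) : ℂ) = LinearMap.det (ρ g) := fun g => rfl
    have h1 := Cfsg.Agent.Helper2.LinExt.isCharacter_of_hom δ
    refine ⟨fun g => ((δ g : ℂˣ) : ℂ), h1.1, h1.2, fun x => ?_⟩
    rw [hdetϑ x]
    exact hδ x
  · rintro ⟨μ, hμ, hμ1, hμN⟩
    obtain ⟨d₀, Y, hi, rfl⟩ := hϑ
    have hsyl : ∀ p : ℕ, p.Prime → ∃ (P : Subgroup G) (hNP : N ≤ P) (d' : ℕ)
        (Z : Representation ℂ P (Fin d' → ℂ)), Nat.Coprime P.index p ∧
          ∀ n : N, Z.character ⟨(n : G), hNP n.2⟩ = Y.character n := by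
      intro p hp
      obtain ⟨P, hNP, hcopP, -, hsolv⟩ :=
        Cfsg.Agent.Helper2.DetExt.exists_sylow_preimage N p hp
      obtain ⟨ψ, hψ, hψN⟩ :=
        Cfsg.Agent.Helper2.DetExt.exists_extension_of_det_subgroup N Y.character
          ⟨d₀, Y, hi, rfl⟩ hinv d hd hcop μ hμ hμ1 hμN P hNP hsolv
      obtain ⟨d', Z, -, rfl⟩ := hψ
      exact ⟨P, hNP, d', Z, hcopP, hψN⟩
    obtain ⟨X', hX'⟩ := Cfsg.Agent.Helper2.Proj.extends_of_sylow N Y hi hinv hsyl
    have hX'i : X'.IsIrreducible := by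
      rw [Cfsg.Agent.Lead.isIrreducible_iff] at hi ⊢
      refine ⟨hi.1, fun W hW => hi.2 W (fun m v hv => ?_)⟩
      rw [← hX' m]
      exact hW (m : G) v hv
    refine ⟨X'.character, ⟨d₀, X', hX'i, rfl⟩, fun n => ?_⟩
    show LinearMap.trace ℂ _ (X' (n : G)) = LinearMap.trace ℂ _ (Y n)
    rw [hX' n]


end Cfsg.Agent.S0866
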