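import Mathlib
import Cfsg.Agent.Helper2.DetExt3
import Cfsg.Agent.S0865
import Cfsg.Agent.S0866
import Cfsg.Agent.S0862
import Cfsg.Statements.S0867

set_option autoImplicit false
open Cfsg

namespace Cfsg.Agent.S0867

/-- Let N be a normal subgroup of the finite group G and ϑ an irreducible character of N of degree d, invariant under conjugation by G, such that the index of N is coprime to the product of d and the determinantal order of ϑ. Then there is an irreducible character χ of G restricting to ϑ whose determinantal order equals that of ϑ, and χ is the only irreducible character of G restricting to ϑ whose determinantal order is coprime to the index of N. -/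
theorem result {G : Type*} [Group G] [Finite G] (N : Subgroup G) [hN : N.Normal] (ϑ : N → ℂ) (hϑ : Cfsg.IsIrrCharacter N ϑ) (hinv : ∀ (g : G) (n : N), ϑ ⟨g * n * g⁻¹, hN.conj_mem (n : G) n.2 g⟩ = ϑ n) (d : ℕ) (hd : ϑ 1 = d) (hcop : Nat.Coprime N.index (Cfsg.detOrder ϑ * d)) : ∃ χ : G → ℂ, (Cfsg.IsIrrCharacter G χ ∧ (∀ n : N, χ n = ϑ n) ∧ Cfsg.detOrder χ = Cfsg.detOrder ϑ) ∧ ∀ χ' : G → ℂ, Cfsg.IsIrrCharacter G χ' → (∀ n : N, χ' n = ϑ n) → Nat.Coprime N.index (Cfsg.detOrder χ') → χ' = χ := by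
  classical
  have hcop1 : Nat.Coprime N.index (orderOf (detChar ϑ)) := Nat.Coprime.coprime_mul_right_right hcop
  have hcop2 : Nat.Coprime N.index d := Nat.Coprime.coprime_mul_left_right hcop
  have hlam := Cfsg.Agent.Helper2.DetExt.detChar_linear ϑ hϑ
  have hlaminv := Cfsg.Agent.Helper2.DetExt.detChar_invariant N ϑ hϑ hinv
  obtain ⟨μ, ⟨hμ, hμ1, hμN, hμord⟩, hμuniq⟩ :=
    Cfsg.Agent.S0865.result N (detChar ϑ) hlam hlaminv hcop1
  have hext : ∃ η : G → ℂ, Cfsg.IsIrrCharacter G η ∧ (∀ n : N, η n = ϑ n) :=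
    (Cfsg.Agent.S0866.result N ϑ hϑ hinv d hd hcop2).mpr ⟨μ, hμ, hμ1, hμN⟩
  obtain ⟨χ, ⟨hχ, hχN, hχdet⟩, hχuniq⟩ :=
    Cfsg.Agent.S0862.result N ϑ hϑ d hd hcop2 hext μ ⟨hμ, hμ1⟩ hμN
  refine ⟨χ, ⟨hχ, hχN, ?_⟩, fun χ' hχ' hχ'N hcop' => ?_⟩
  · show orderOf (detChar χ) = orderOf (detChar ϑ)
    rw [hχdet, hμord]
  · apply hχuniq
    refine ⟨hχ', hχ'N, ?_⟩
    apply hμuniq
    · exact Cfsg.Agent.Helper2.DetExt.detChar_linear χ' hχ'
    · exact fun n => Cfsg.Agent.Helper2.DetExt.detChar_res N χ' hχ' ϑ hϑ hχ'N n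
    · exact hcop'


end Cfsg.Agent.S0867
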