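import Mathlib
import Cfsg.Agent.Helper2.Isolated
import Cfsg.Statements.S1182

set_option autoImplicit false
open Cfsg

namespace Cfsg.Agent.S1182

/-- Let z be an isolated involution of the finite group G and H a subgroup normalized by z. If x, y ∈ H both commute with z and y = h x h⁻¹ for some h ∈ H, then y = c x c⁻¹ for some c ∈ H commuting with z. -/
theorem result {G : Type*} [Group G] [Finite G] (z : G) (hz : Cfsg.IsIsolatedInvolution z) (H : Subgroup G) (hzH : z ∈ Subgroup.normalizer (H : Set G)) (x y : G) (hx : x ∈ H) (hy : y ∈ H) (hxz : Commute x z) (hyz : Commute y z) (h : G) (hh : h ∈ H) (hconj : h * x * h⁻¹ = y) : ∃ c ∈ H, Commute c z ∧ c * x * c⁻¹ = y := by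
  have hzz := Cfsg.Agent.Helper2.isolated_mul_self hz
  have hzinv : z⁻¹ = z := Cfsg.Agent.Helper2.inv_eq_self_of_mul_self hzz
  have hz'z' : (h⁻¹ * z * h⁻¹⁻¹) * (h⁻¹ * z * h⁻¹⁻¹) = 1 := Cfsg.Agent.Helper2.conj_mul_self hzz h⁻¹
  obtain ⟨k, hk⟩ := Cfsg.Agent.Helper2.invol_conj_of_odd hzz hz'z'
    (Cfsg.Agent.Helper2.isolated_mul_conj_odd hz h⁻¹)
  rw [inv_inv] at hk hz'z'
  set u := z * (h⁻¹ * z * h) with hu
  have huH : u ∈ H := by
    have h1 : z * h⁻¹ * z⁻¹ ∈ H := (Subgroup.mem_normalizer_iff.mp hzH h⁻¹).mp (H.inv_mem hh)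
    have h2 : u = (z * h⁻¹ * z⁻¹) * h := by rw [hu, hzinv]; group
    rw [h2]; exact H.mul_mem h1 hh
  have hux : Commute u x := by
    have h1 : Commute z x := hxz.symm
    have h2 : Commute (h⁻¹ * z * h) x := by
      have h3 : Commute z (h * x * h⁻¹) := by rw [hconj]; exact hyz.symm
      unfold Commute SemiconjBy at h3 ⊢
      calc h⁻¹ * z * h * x = h⁻¹ * (z * (h * x * h⁻¹)) * h := by group
        _ = h⁻¹ * ((h * x * h⁻¹) * z) * h := by rw [h3]
        _ = x * (h⁻¹ * z * h) := by group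
    exact h1.mul_left h2
  have hdx : Commute (u ^ k) x := hux.pow_left k
  refine ⟨h * u ^ k, H.mul_mem hh (H.pow_mem huH k), ?_, ?_⟩
  · unfold Commute SemiconjBy
    have h1 : u ^ k * z = (h⁻¹ * z * h) * u ^ k := by
      rw [← hk]; group
    calc h * u ^ k * z = h * (u ^ k * z) := by rw [mul_assoc]
      _ = h * ((h⁻¹ * z * h) * u ^ k) := by rw [h1]
      _ = z * (h * u ^ k) := by group
  · calc h * u ^ k * x * (h * u ^ k)⁻¹ = h * (u ^ k * x) * (u ^ k)⁻¹ * h⁻¹ := by group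
      _ = h * (x * u ^ k) * (u ^ k)⁻¹ * h⁻¹ := by rw [hdx.eq]
      _ = h * x * h⁻¹ := by group
      _ = y := hconj


end Cfsg.Agent.S1182
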