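import Cfsg.Statements.S0669
import Mathlib

set_option autoImplicit false
open Cfsg

namespace Cfsg.Agent.S0669

/-- The rank of a transitive action: orbits on ordered pairs correspond to orbits of a point stabiliser. -/
theorem result {G : Type*} [Group G] {Ω : Type*} [Finite Ω] [MulAction G Ω] [MulAction.IsPretransitive G Ω] (a : Ω) : Nat.card (MulAction.orbitRel.Quotient G (Ω × Ω)) = Nat.card (MulAction.orbitRel.Quotient (MulAction.stabilizer G a) Ω) := by
  symm
  let f : MulAction.orbitRel.Quotient (MulAction.stabilizer G a) Ω →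
      MulAction.orbitRel.Quotient G (Ω × Ω) :=
    Quotient.map' (fun b => (a, b)) (by
      intro b b' h
      rw [MulAction.orbitRel_apply] at h ⊢
      obtain ⟨g, rfl⟩ := h
      refine ⟨(g : G), ?_⟩
      show ((g : G) • a, (g : G) • b') = (a, g • b')
      rw [g.2]
      rfl)
  apply Nat.card_congr (Equiv.ofBijective f ⟨?_, ?_⟩)
  · intro x y hxy
    induction x using Quotient.inductionOn' with | _ b
    induction y using Quotient.inductionOn' with | _ b'
    simp only [f, Quotient.map'_mk''] at hxy
    rw [Quotient.eq''] at hxy ⊢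
    rw [MulAction.orbitRel_apply] at hxy ⊢
    obtain ⟨g, hg⟩ := hxy
    have h1 : g • a = a := congrArg Prod.fst hg
    have h2 : g • b' = b := congrArg Prod.snd hg
    exact ⟨⟨g, h1⟩, h2⟩
  · intro y
    induction y using Quotient.inductionOn' with | _ p
    obtain ⟨x, y⟩ := p
    obtain ⟨g, hg⟩ := MulAction.exists_smul_eq G a x
    refine ⟨Quotient.mk'' (g⁻¹ • y), ?_⟩
    simp only [f, Quotient.map'_mk'']
    rw [Quotient.eq'', MulAction.orbitRel_apply]
    refine ⟨g⁻¹, ?_⟩
    show (g⁻¹ • x, g⁻¹ • y) = (a, g⁻¹ • y)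
    rw [← hg, inv_smul_smul]


end Cfsg.Agent.S0669
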