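import Mathlib
import Cfsg.Agent.Helper2.SubDeg
import Cfsg.Agent.Lead.CharCore4
import Cfsg.Agent.Lead.CharCore2
import Cfsg.Statements.S0715

set_option autoImplicit false
open Cfsg

namespace Cfsg.Agent.S0715

/-- If a natural number `f` divides the degree of every non-principal irreducible constituent of the permutation character of a transitive group, then `f` divides every non-trivial subdegree. -/
theorem result {G : Type*} [Group G] [Fintype G] {Ω : Type*} [Fintype Ω] [MulAction G Ω] [MulAction.IsPretransitive G Ω] (f : ℕ) (hf : ∀ χ : G → ℂ, Cfsg.IsIrrCharacter G χ → χ ≠ (fun _ => 1) → Cfsg.classInner (fun g : G => (Nat.card (MulAction.fixedBy Ω g) : ℂ)) χ ≠ 0 → ∃ m : ℕ, χ 1 = (f : ℂ) * m) (a b : Ω) (hab : b ≠ a) : f ∣ Nat.card (MulAction.orbit (MulAction.stabilizer G a) b) := by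
  classical
  have hex : ∀ δ : Ω, ∃ g : G, g • a = δ := fun δ => MulAction.exists_smul_eq G a δ
  choose rep hrep using hex
  set Δ : Finset Ω :=
    Finset.univ.filter (fun δ => δ ∈ MulAction.orbit (MulAction.stabilizer G a) b) with hΔdef
  have hΔ : ∀ h : G, h • a = a → ∀ δ ∈ Δ, h • δ ∈ Δ := by
    intro h hh δ hδ
    rw [hΔdef, Finset.mem_filter] at hδ ⊢
    refine ⟨Finset.mem_univ _, ?_⟩
    obtain ⟨s, hs⟩ := hδ.2
    refine ⟨⟨h, hh⟩ * s, ?_⟩
    change (⟨h, hh⟩ * s : MulAction.stabilizer G a) • b = h • δ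
    rw [mul_smul]
    change h • (s • b) = h • δ
    rw [← hs]
  have hcard : Nat.card (MulAction.orbit (MulAction.stabilizer G a) b) = Δ.card := by
    have h1 : Nat.card (MulAction.orbit (MulAction.stabilizer G a) b) = Nat.card {x // x ∈ Δ} := by
      apply Nat.card_congr
      exact Equiv.subtypeEquivRight (fun δ => by rw [hΔdef, Finset.mem_filter]; simp)
    rw [h1, Nat.card_eq_fintype_card, Fintype.card_coe]
  rw [hcard]
  set k : ℕ := (Finset.univ.filter (fun x : G => x • a = a)).card with hk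
  have hkpos : 0 < k := Finset.card_pos.mpr ⟨1, by simp⟩
  have hk0 : (k : ℂ) ≠ 0 := by exact_mod_cast hkpos.ne'
  have hG : (Nat.card G : ℂ) ≠ 0 := by exact_mod_cast Nat.card_pos.ne'
  have hΩ : (Fintype.card Ω : ℂ) ≠ 0 := by
    exact_mod_cast (Fintype.card_pos_iff.mpr ⟨a⟩).ne'
  let s : (G → ℂ) → ℂ := fun χ => ∑ g : G, if g • a ∈ Δ then χ g else 0
  have key : ∀ χ : G → ℂ, Cfsg.IsIrrCharacter G χ → IsIntegral ℤ ((k : ℂ)⁻¹ * s χ) ∧
      (Cfsg.classInner (fun g : G => (Nat.card (MulAction.fixedBy Ω g) : ℂ)) χ = 0 → s χ = 0) := by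
    intro χ hχ
    obtain ⟨n, ρ, hi, rfl⟩ := hχ
    obtain ⟨h1, h2⟩ := Cfsg.Agent.Helper2.SubDeg.main_rep ρ a Δ rep hrep hΔ
    refine ⟨h1, fun h0 => h2 ?_⟩
    have h3 := Cfsg.Agent.Helper2.SubDeg.perm_inner (Ω := Ω) ρ a rep hrep
    unfold Cfsg.classInner at h0
    rw [h3] at h0
    have h4 : (starRingEnd ℂ) (∑ x : G, if x • a = a then ρ.character x else 0) = 0 := by
      rcases mul_eq_zero.mp h0 with h | h
      · exact absurd (inv_eq_zero.mp h) hG
      · exact (mul_eq_zero.mp h).resolve_left hΩ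
    exact (map_eq_zero (starRingEnd ℂ)).mp h4
  haveI : Finite (Cfsg.IrrCharacter G) := Cfsg.Agent.Lead.finite_irrCharacter G
  haveI : Fintype (Cfsg.IrrCharacter G) := Fintype.ofFinite _
  have hcol : ∑ χ : Cfsg.IrrCharacter G, s χ.1 * (starRingEnd ℂ) (χ.1 1) = 0 := by
    have h1 : ∀ g : G, g • a ∈ Δ →
        ∑ χ : Cfsg.IrrCharacter G, χ.1 g * (starRingEnd ℂ) (χ.1 1) = 0 := by
      intro g hg
      have h2 := Cfsg.Agent.Lead.column_orth_aux (1 : G) g
      rw [finsum_eq_sum_of_fintype] at h2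
      rw [h2, if_neg]
      intro hc
      have hg1 : g = 1 := isConj_one_right.mp hc
      rw [hg1, one_smul, hΔdef, Finset.mem_filter] at hg
      obtain ⟨t, ht⟩ := hg.2
      apply hab
      have h6 : ((t : G)⁻¹) • a = a := by
        exact MulAction.mem_stabilizer_iff.mp (t⁻¹).2
      have h7 : (t : G) • b = a := ht
      calc b = (t : G)⁻¹ • ((t : G) • b) := (inv_smul_smul _ _).symm
        _ = (t : G)⁻¹ • a := by rw [h7]
        _ = a := h6
    simp only [s, Finset.sum_mul]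
    rw [Finset.sum_comm]
    apply Finset.sum_eq_zero
    intro g _
    by_cases hg : g • a ∈ Δ
    · simp only [if_pos hg]; exact h1 g hg
    · simp only [if_neg hg, zero_mul, Finset.sum_const_zero]
  let χ₀ : Cfsg.IrrCharacter G := ⟨fun _ => 1, Cfsg.Agent.Lead.isIrrCharacter_one⟩
  have hs0 : s χ₀.1 = (k : ℂ) * (Δ.card : ℂ) := by
    change (∑ g : G, if g • a ∈ Δ then (1 : ℂ) else 0) = _
    rw [Cfsg.Agent.Helper2.SubDeg.sum_decomp a Δ rep hrep (fun _ => (1 : ℂ))]
    have h1 : (∑ x : G, if x • a = a then (1 : ℂ) else 0) = (k : ℂ) := by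
      rw [← Finset.sum_filter, Finset.sum_const, nsmul_eq_mul, mul_one]
    rw [Finset.sum_congr rfl (fun δ _ => h1), Finset.sum_const, nsmul_eq_mul, mul_comm]
  have hterm : ∀ χ : Cfsg.IrrCharacter G, ∃ γ : ℂ, IsIntegral ℤ γ ∧
      (χ ≠ χ₀ → s χ.1 * (starRingEnd ℂ) (χ.1 1) = (k : ℂ) * (f : ℂ) * γ) := by
    intro χ
    obtain ⟨hint, hzero⟩ := key χ.1 χ.2
    by_cases h0 : Cfsg.classInner (fun g : G => (Nat.card (MulAction.fixedBy Ω g) : ℂ)) χ.1 = 0
    · refine ⟨0, isIntegral_zero, fun _ => ?_⟩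
      rw [hzero h0, zero_mul, mul_zero]
    · by_cases hχ0 : χ = χ₀
      · exact ⟨0, isIntegral_zero, fun h => absurd hχ0 h⟩
      · have hne : χ.1 ≠ (fun _ => 1) := by
          intro h
          apply hχ0
          exact Subtype.ext h
        obtain ⟨m, hm⟩ := hf χ.1 χ.2 hne h0
        refine ⟨((k : ℂ)⁻¹ * s χ.1) * (m : ℂ), hint.mul (isIntegral_algebraMap (R := ℤ) (A := ℂ) (x := (m : ℤ)) |> fun h => by simpa using h), fun _ => ?_⟩
        rw [hm, map_mul, Complex.conj_natCast, Complex.conj_natCast]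
        field_simp
  choose γ hγint hγ using hterm
  have hsplit : s χ₀.1 * (starRingEnd ℂ) (χ₀.1 1)
      + ∑ χ ∈ Finset.univ.erase χ₀, s χ.1 * (starRingEnd ℂ) (χ.1 1) = 0 := by
    rw [← hcol]
    exact Finset.add_sum_erase Finset.univ
      (fun χ : Cfsg.IrrCharacter G => s χ.1 * (starRingEnd ℂ) (χ.1 1)) (Finset.mem_univ χ₀)
  have hχ01 : (starRingEnd ℂ) (χ₀.1 1) = 1 := by
    change (starRingEnd ℂ) (1 : ℂ) = 1
    rw [map_one]
  have hrest : ∑ χ ∈ Finset.univ.erase χ₀, s χ.1 * (starRingEnd ℂ) (χ.1 1)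
      = (k : ℂ) * (f : ℂ) * ∑ χ ∈ Finset.univ.erase χ₀, γ χ := by
    rw [Finset.mul_sum]
    refine Finset.sum_congr rfl (fun χ hχ => ?_)
    exact hγ χ (Finset.ne_of_mem_erase hχ)
  rw [hrest, hs0, hχ01, mul_one] at hsplit
  set β : ℂ := - ∑ χ ∈ Finset.univ.erase χ₀, γ χ with hβ
  have hβint : IsIntegral ℤ β := by
    rw [hβ]
    exact (IsIntegral.sum _ (fun χ _ => hγint χ)).neg
  have hmain : (Δ.card : ℂ) = (f : ℂ) * β := by
    have h1 : (k : ℂ) * ((Δ.card : ℂ) - (f : ℂ) * β) = 0 := by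
      rw [hβ]; linear_combination hsplit
    have h2 := (mul_eq_zero.mp h1).resolve_left hk0
    linear_combination h2
  by_cases hf0 : f = 0
  · rw [hf0] at hmain ⊢
    have : (Δ.card : ℂ) = 0 := by rw [hmain]; simp
    have h2 : Δ.card = 0 := by exact_mod_cast this
    rw [h2]
  · apply Cfsg.Agent.Lead.nat_dvd_of_isIntegral_div hf0
    have hfc : (f : ℂ) ≠ 0 := by exact_mod_cast hf0
    have : (Δ.card : ℂ) / (f : ℂ) = β := by
      rw [hmain]; field_simp
    rw [this]; exact hβint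


end Cfsg.Agent.S0715
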