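import Cfsg.Statements.S0263
import Mathlib

set_option autoImplicit false
open Cfsg

namespace Cfsg.Agent.S0263

/-- A Sylow p-subgroup of GL_n(q), p the characteristic, has order q^(n(n-1)/2). -/
theorem result {F : Type*} [Field F] [Fintype F] {q : ℕ} (hF : Fintype.card F = q) (p : ℕ) [Fact p.Prime] [CharP F p] (n : ℕ) (P : Sylow p (Matrix.GeneralLinearGroup (Fin n) F)) : Nat.card P = q ^ (n * (n - 1) / 2) := by
  subst hF
  classical
  obtain ⟨f, -, hf⟩ := FiniteField.card F p
  have hp := (Fact.out : p.Prime)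
  have key : ∃ M : ℕ, Nat.card (Matrix.GeneralLinearGroup (Fin n) F) =
      (Fintype.card F) ^ (n * (n - 1) / 2) * M ∧ ¬ p ∣ M := by
    refine ⟨∏ i : Fin n, ((Fintype.card F) ^ (n - (i : ℕ)) - 1), ?_, ?_⟩
    · rw [Matrix.card_GL_field]
      have h1 : ∀ i : Fin n, (Fintype.card F) ^ n - (Fintype.card F) ^ (i : ℕ) =
          (Fintype.card F) ^ (i : ℕ) * ((Fintype.card F) ^ (n - (i : ℕ)) - 1) := by
        intro i
        have hi : (i : ℕ) + (n - (i : ℕ)) = n := by
          have := i.2
          omega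
        rw [Nat.mul_sub, mul_one, ← pow_add, hi]
      rw [Finset.prod_congr rfl (fun i _ => h1 i), Finset.prod_mul_distrib,
        Finset.prod_pow_eq_pow_sum]
      congr 2
      rw [Fin.sum_univ_eq_sum_range (fun i => i) n, Finset.sum_range_id]
    · rw [Prime.dvd_finset_prod_iff hp.prime]
      rintro ⟨i, -, hi⟩
      have h2 : p ∣ (Fintype.card F) ^ (n - (i : ℕ)) := by
        rw [hf]
        refine dvd_pow (dvd_pow_self p f.ne_zero) ?_
        have := i.2
        omega
      have h3 : 1 ≤ (Fintype.card F) ^ (n - (i : ℕ)) := Nat.one_le_pow _ _ Fintype.card_pos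
      have h4 : p ∣ 1 := by
        have := Nat.dvd_sub h2 hi
        rwa [Nat.sub_sub_self h3] at this
      exact hp.one_lt.ne' (Nat.dvd_one.1 h4)
  obtain ⟨M, hcard, hcop⟩ := key
  have hM0 : M ≠ 0 := fun h0 => hcop (h0 ▸ dvd_zero p)
  rw [Sylow.card_eq_multiplicity, hcard, hf, ← pow_mul,
    Nat.factorization_mul (pow_ne_zero _ hp.ne_zero) hM0, Finsupp.add_apply,
    Nat.Prime.factorization_pow hp, Nat.factorization_eq_zero_of_not_dvd hcop]
  simp

end Cfsg.Agent.S0263
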