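import Cfsg.Statements.S0007
import Mathlib

set_option autoImplicit false
open Cfsg

namespace Cfsg.Agent.S0007

/-- Subgroups of coprime index: the intersection has index equal to the product of the indices, and every element is a product of an element of the first subgroup and an element of the second. -/
theorem result {G : Type*} [Group G] [Finite G] (H K : Subgroup G)
    (h : H.index.Coprime K.index) :
    (H ⊓ K).index = H.index * K.index ∧ ∀ g : G, ∃ x ∈ H, ∃ y ∈ K, g = x * y := by
  have hdvd : H.index * K.index ∣ (H ⊓ K).index :=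
    Nat.Coprime.mul_dvd_of_dvd_of_dvd h (Subgroup.index_dvd_of_le inf_le_left) (Subgroup.index_dvd_of_le inf_le_right)
  have hle : (H ⊓ K).index ≤ H.index * K.index := Subgroup.index_inf_le
  have hpos : 0 < (H ⊓ K).index := Nat.pos_of_ne_zero (Subgroup.index_ne_zero_of_finite)
  have heq : (H ⊓ K).index = H.index * K.index := le_antisymm hle (Nat.le_of_dvd hpos hdvd)
  refine ⟨heq, ?_⟩
  have hrel : K.relIndex H = K.index := by
    have h1 : (H ⊓ K).relIndex H * H.index = (H ⊓ K).index := Subgroup.relIndex_mul_index inf_le_left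
    rw [Subgroup.inf_relIndex_left, heq, mul_comm] at h1
    exact Nat.eq_of_mul_eq_mul_left (Nat.pos_of_ne_zero (Subgroup.index_ne_zero_of_finite (H := H))) h1
  let f : H ⧸ K.subgroupOf H → G ⧸ K := Quotient.map' (fun h : H => (h : G)) (by
    intro a b hab
    rw [QuotientGroup.leftRel_apply] at hab ⊢
    simpa [Subgroup.mem_subgroupOf] using hab)
  have hf : Function.Injective f := by
    intro a b
    refine Quotient.inductionOn₂' a b ?_
    intro a b hab
    have h2 : ((a : G) : G ⧸ K) = ((b : G) : G ⧸ K) := hab
    rw [QuotientGroup.eq] at h2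
    apply Quotient.sound'
    rw [QuotientGroup.leftRel_apply]
    simpa [Subgroup.mem_subgroupOf] using h2
  have hcard : Nat.card (H ⧸ K.subgroupOf H) = Nat.card (G ⧸ K) := hrel
  have hbij : Function.Bijective f := (Nat.bijective_iff_injective_and_card f).mpr ⟨hf, hcard⟩
  intro g
  obtain ⟨q, hq⟩ := hbij.2 (g : G ⧸ K)
  induction q using Quotient.inductionOn' with
  | h a =>
    have h2 : ((a : G) : G ⧸ K) = (g : G ⧸ K) := hq
    rw [QuotientGroup.eq] at h2
    exact ⟨a, a.2, (a : G)⁻¹ * g, h2, by group⟩


end Cfsg.Agent.S0007
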