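import Cfsg.Statements.S0046
import Mathlib
import Cfsg.Agent.Lead.Frobenius

set_option autoImplicit false
open Cfsg

namespace Cfsg.Agent.S0046

open scoped Pointwise

universe u

theorem conj_coatom {G : Type*} [Group G] {M : Subgroup G} (hM : IsCoatom M) (g : G) :
    IsCoatom (MulAut.conj g • M) := by
  constructor
  · intro h
    apply hM.1
    rw [eq_top_iff]
    intro x _
    have : g * x * g⁻¹ ∈ MulAut.conj g • M := by rw [h]; trivial
    rw [Cfsg.Agent.Lead.mem_conj_smul_iff'] at this
    have e : g⁻¹ * (g * x * g⁻¹) * g = x := by group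
    rwa [e] at this
  · intro X hX
    have h1 : M < MulAut.conj g⁻¹ • X := by
      constructor
      · intro x hx
        rw [Cfsg.Agent.Lead.mem_conj_smul_iff']
        apply hX.le
        rw [Cfsg.Agent.Lead.mem_conj_smul_iff']
        have e : g⁻¹ * (g⁻¹⁻¹ * x * g⁻¹) * g = x := by group
        rwa [e]
      · intro hle
        apply hX.not_ge
        intro x hx
        rw [Cfsg.Agent.Lead.mem_conj_smul_iff']
        have : g⁻¹ * x * g ∈ MulAut.conj g⁻¹ • X := by
          rw [Cfsg.Agent.Lead.mem_conj_smul_iff']
          have e : g⁻¹⁻¹ * (g⁻¹ * x * g) * g⁻¹ = x := by group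
          rwa [e]
        exact hle this
    have h2 := hM.2 _ h1
    rw [eq_top_iff]
    intro x _
    have : g⁻¹ * x * g ∈ MulAut.conj g⁻¹ • X := by rw [h2]; trivial
    rw [Cfsg.Agent.Lead.mem_conj_smul_iff'] at this
    have e : g⁻¹⁻¹ * (g⁻¹ * x * g) * g⁻¹ = x := by group
    rwa [e] at this

theorem schmidt_simple {G : Type*} [Group G] [Finite G]
    (h : ∀ M : Subgroup G, IsCoatom M → Group.IsNilpotent M)
    (hs : ∀ N : Subgroup G, N.Normal → N = ⊥ ∨ N = ⊤)
    (hnc : ∃ a b : G, a * b ≠ b * a) : False := by
  classical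
  obtain ⟨a, b, hab⟩ := hnc
  have hz : ∀ x : G, Subgroup.zpowers x ≠ ⊤ := by
    intro x hx
    have ha : a ∈ Subgroup.zpowers x := by rw [hx]; trivial
    have hb : b ∈ Subgroup.zpowers x := by rw [hx]; trivial
    obtain ⟨i, rfl⟩ := ha
    obtain ⟨j, rfl⟩ := hb
    apply hab
    show x ^ i * x ^ j = x ^ j * x ^ i
    rw [← zpow_add, ← zpow_add, add_comm]
  have hMbot : ∀ M : Subgroup G, IsCoatom M → M ≠ ⊥ := by
    intro M hM hbot
    have ha1 : a ≠ 1 := by rintro rfl; simp at hab
    have : Subgroup.zpowers a = ⊤ := by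
      apply hM.2
      rw [hbot]
      exact bot_lt_iff_ne_bot.mpr (fun h0 => ha1 (Subgroup.zpowers_eq_bot.mp h0))
    exact hz a this
  have hMnorm : ∀ M : Subgroup G, IsCoatom M → ∀ g : G, MulAut.conj g • M = M → g ∈ M := by
    intro M hM g hg
    by_contra hgM
    have hN : Subgroup.normalizer (M : Set G) = ⊤ := by
      apply hM.2
      refine lt_of_le_of_ne Subgroup.le_normalizer ?_
      intro heq
      apply hgM
      rw [heq]
      rw [Subgroup.mem_normalizer_iff]
      intro x
      constructor
      · intro hx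
        have : g * x * g⁻¹ ∈ MulAut.conj g • M := by
          rw [Cfsg.Agent.Lead.mem_conj_smul_iff']
          have e : g⁻¹ * (g * x * g⁻¹) * g = x := by group
          rwa [e]
        rwa [hg] at this
      · intro hx
        rw [← hg, Cfsg.Agent.Lead.mem_conj_smul_iff'] at hx
        have e : g⁻¹ * (g * x * g⁻¹) * g = x := by group
        rwa [e] at hx
    have hMn : M.Normal := Subgroup.normalizer_eq_top_iff.mp hN
    rcases hs M hMn with h0 | h0
    · exact hMbot M hM h0
    · exact hM.1 h0
  have key : ∀ k : ℕ, ∀ M₁ M₂ : Subgroup G, IsCoatom M₁ → IsCoatom M₂ → M₁ ≠ M₂ →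
      Nat.card G ≤ Nat.card ↥(M₁ ⊓ M₂) + k → M₁ ⊓ M₂ = ⊥ := by
    intro k
    induction k with
    | zero =>
      intro M₁ M₂ h1 h2 hne hc
      exfalso
      have : M₁ ⊓ M₂ = ⊤ :=
        (Subgroup.card_eq_iff_eq_top _).mp (le_antisymm (Subgroup.card_le_card_group _) (by simpa using hc))
      exact h1.1 (eq_top_iff.mpr (this ▸ inf_le_left))
    | succ k ih =>
      intro M₁ M₂ h1 h2 hne hc
      by_contra hD
      obtain ⟨D, hDdef⟩ : ∃ D : Subgroup G, D = M₁ ⊓ M₂ := ⟨_, rfl⟩
      rw [← hDdef] at hc hD
      have hD1 : D ≤ M₁ := hDdef ▸ inf_le_left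
      have hD2 : D ≤ M₂ := hDdef ▸ inf_le_right
      have hDn : Subgroup.normalizer (D : Set G) ≠ ⊤ := by
        intro hN
        have hDnorm : D.Normal := Subgroup.normalizer_eq_top_iff.mp hN
        rcases hs D hDnorm with h0 | h0
        · exact hD h0
        · exact h1.1 (eq_top_iff.mpr (h0 ▸ hD1))
      obtain ⟨M, hM, hNM⟩ := (eq_top_or_exists_le_coatom _).resolve_left hDn
      have step : ∀ M' : Subgroup G, IsCoatom M' → D ≤ M' → D ≠ M' → M = M' := by
        intro M' hM' hDM' hDne
        by_contra hne'
        have : Group.IsNilpotent M' := h M' hM'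
        have hlt : D.subgroupOf M' < ⊤ := by
          rw [lt_top_iff_ne_top]
          intro htop
          rw [Subgroup.subgroupOf_eq_top] at htop
          exact hDne (le_antisymm hDM' htop)
        have hncond := Group.normalizerCondition_of_isNilpotent (G := M') _ hlt
        obtain ⟨x, hxN, hxD⟩ := SetLike.exists_of_lt hncond
        have hxN' : (x : G) ∈ Subgroup.normalizer (D : Set G) := by
          rw [Subgroup.mem_normalizer_iff] at hxN ⊢
          intro y
          constructor
          · intro hy
            have := (hxN ⟨y, hDM' hy⟩).mp (by rw [Subgroup.mem_subgroupOf]; exact hy)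
            rw [Subgroup.mem_subgroupOf] at this
            simpa using this
          · intro hy
            have hyM : y ∈ M' := by
              have := M'.mul_mem (M'.mul_mem (M'.inv_mem x.2) (hDM' hy)) x.2
              have e : (x:G)⁻¹ * ((x:G) * y * (x:G)⁻¹) * (x:G) = y := by group
              rwa [e] at this
            have := (hxN ⟨y, hyM⟩).mpr (by rw [Subgroup.mem_subgroupOf]; simpa using hy)
            rwa [Subgroup.mem_subgroupOf] at this
        have hxD' : (x : G) ∉ D := by
          intro hx; exact hxD (by rw [Subgroup.mem_subgroupOf]; exact hx)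
        have hlt2 : D < M ⊓ M' := by
          refine lt_of_le_of_ne (le_inf (Subgroup.le_normalizer.trans hNM) hDM') ?_
          intro heq
          apply hxD'
          rw [heq]
          exact ⟨hNM hxN', x.2⟩
        have hcard : Nat.card D < Nat.card ↥(M ⊓ M') :=
          lt_of_le_of_ne (Subgroup.card_le_of_le hlt2.le)
            (fun he => hlt2.ne (Subgroup.eq_of_le_of_card_ge hlt2.le he.ge))
        have h0 := ih M M' hM hM' hne' (by omega)
        apply hD
        rw [eq_bot_iff]
        exact h0 ▸ hlt2.le
      have e1 : M = M₁ := step M₁ h1 hD1 (by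
        intro heq
        have hle : M₁ ≤ M₂ := heq ▸ hD2
        rcases eq_or_lt_of_le hle with h0 | h0
        · exact hne h0
        · exact h2.1 (h1.2 _ h0))
      have e2 : M = M₂ := step M₂ h2 hD2 (by
        intro heq
        have hle : M₂ ≤ M₁ := heq ▸ hD1
        rcases eq_or_lt_of_le hle with h0 | h0
        · exact hne h0.symm
        · exact h1.1 (h2.2 _ h0))
      exact hne (e1.symm.trans e2)
  have hfrob : ∀ M : Subgroup G, IsCoatom M → Cfsg.IsFrobeniusComplement M := by
    intro M hM
    refine ⟨hMbot M hM, hM.1, ?_⟩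
    intro g hg
    exact key _ M (MulAut.conj g • M) hM (conj_coatom hM g)
      (fun he => hg (hMnorm M hM g he.symm)) (Nat.le_add_left _ _)
  have hGnt : (⊥ : Subgroup G) ≠ ⊤ := by
    intro h0
    apply hab
    have ha : a ∈ (⊥ : Subgroup G) := by rw [h0]; trivial
    have hb : b ∈ (⊥ : Subgroup G) := by rw [h0]; trivial
    rw [Subgroup.mem_bot] at ha hb
    rw [ha, hb]
  obtain ⟨M, hM, -⟩ := (eq_top_or_exists_le_coatom (⊥ : Subgroup G)).resolve_left hGnt
  have hMF := hfrob M hM
  have hcK := Cfsg.Agent.Lead.card_frobeniusKernel M hMF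
  have hidx2 : ∀ L : Subgroup G, IsCoatom L → 2 * L.index ≤ Nat.card G := by
    intro L hL
    have h1 := L.card_mul_index
    have h2 : 2 ≤ Nat.card L := by
      have := (Subgroup.one_lt_card_iff_ne_bot L).mpr (hMbot L hL)
      omega
    calc 2 * L.index ≤ Nat.card L * L.index := Nat.mul_le_mul_right _ h2
      _ = Nat.card G := h1
  have hidx1 : 1 < M.index := by
    have h1 : M.index ≠ 1 := fun h1 => hM.1 (Subgroup.index_eq_one.mp h1)
    have h0 : M.index ≠ 0 := Subgroup.index_ne_zero_of_finite
    omega
  obtain ⟨x, hxK, hx1⟩ : ∃ x ∈ Cfsg.frobeniusKernel M, x ≠ 1 := by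
    by_contra hcon
    push Not at hcon
    have hsub : Cfsg.frobeniusKernel M ⊆ {1} := fun y hy => hcon y hy
    have : Nat.card (Cfsg.frobeniusKernel M) ≤ 1 := by
      rw [Nat.card_coe_set_eq]
      calc (Cfsg.frobeniusKernel M).ncard ≤ ({1} : Set G).ncard := Set.ncard_le_ncard hsub
        _ = 1 := Set.ncard_singleton 1
    omega
  have hxM : ∀ g : G, x ∉ MulAut.conj g • M := hxK.resolve_left hx1
  obtain ⟨L, hL, hxL⟩ := (eq_top_or_exists_le_coatom (Subgroup.zpowers x)).resolve_left (hz x)
  have hxL' : x ∈ L := hxL (Subgroup.mem_zpowers x)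
  have hLF := hfrob L hL
  have hsub : (Cfsg.frobeniusKernel L)ᶜ ⊆ Cfsg.frobeniusKernel M \ {1} := by
    intro y hy
    have hy' : ¬ (y = 1 ∨ ∀ g : G, y ∉ MulAut.conj g • L) := hy
    push Not at hy'
    obtain ⟨hy1, g, hyg⟩ := hy'
    refine ⟨Or.inr ?_, hy1⟩
    intro g' hyg'
    have heq : MulAut.conj g • L = MulAut.conj g' • M := by
      by_contra hne
      have h0 := key _ _ _ (conj_coatom hL g) (conj_coatom hM g') hne (Nat.le_add_left (Nat.card G) _)
      have hy0 : y ∈ (⊥ : Subgroup G) := h0 ▸ (⟨hyg, hyg'⟩ : y ∈ MulAut.conj g • L ⊓ MulAut.conj g' • M)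
      exact hy1 (Subgroup.mem_bot.mp hy0)
    have h1 : g * x * g⁻¹ ∈ MulAut.conj g' • M := by
      rw [← heq, Cfsg.Agent.Lead.mem_conj_smul_iff']
      have e : g⁻¹ * (g * x * g⁻¹) * g = x := by group
      rwa [e]
    rw [Cfsg.Agent.Lead.mem_conj_smul_iff'] at h1
    apply hxM (g⁻¹ * g')
    rw [Cfsg.Agent.Lead.mem_conj_smul_iff']
    have e : (g⁻¹ * g')⁻¹ * x * (g⁻¹ * g') = g'⁻¹ * (g * x * g⁻¹) * g' := by group
    rwa [e]
  have hc1 := Cfsg.Agent.Lead.card_frobeniusKernel_compl L hLF
  have hc2 : ((Cfsg.frobeniusKernel L)ᶜ).ncard ≤ (Cfsg.frobeniusKernel M \ {1}).ncard :=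
    Set.ncard_le_ncard hsub
  have hc3 : (Cfsg.frobeniusKernel M \ {1}).ncard = M.index - 1 := by
    rw [Set.ncard_sdiff_singleton_of_mem (show (1:G) ∈ Cfsg.frobeniusKernel M from Or.inl rfl), ← Nat.card_coe_set_eq, hcK]
  have hL1 := L.card_mul_index
  have hLi := hidx2 L hL
  have hMi := hidx2 M hM
  have hc4 : L.index * (Nat.card L - 1) = Nat.card G - L.index := by
    rw [Nat.mul_sub, mul_one, mul_comm, hL1]
  rw [hc1, hc4, hc3] at hc2
  omega

theorem schmidt_aux : ∀ n : ℕ, ∀ (G : Type u) [Group G] [Finite G], Nat.card G = n →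
    (∀ M : Subgroup G, IsCoatom M → Group.IsNilpotent M) → Group.IsSolvable G := by
  intro n
  induction n using Nat.strong_induction_on with
  | _ n ih =>
    intro G _ _ hn h
    by_cases hs : ∀ N : Subgroup G, N.Normal → N = ⊥ ∨ N = ⊤
    · by_cases hc : ∀ a b : G, a * b = b * a
      · exact Group.isSolvable_of_comm hc
      · push Not at hc
        exact (schmidt_simple h hs hc).elim
    · push Not at hs
      obtain ⟨N, hN, hNbot, hNtop⟩ := hs
      have := hN
      have hlt : Nat.card (G ⧸ N) < n := by
        have h1 := N.card_mul_index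
        have h2 := (Subgroup.one_lt_card_iff_ne_bot N).mpr hNbot
        have h3 : N.index ≠ 0 := Subgroup.index_ne_zero_of_finite
        have h4 : Nat.card (G ⧸ N) = N.index := rfl
        rw [h4, ← hn, ← h1]
        have h5 : 0 < N.index := Nat.pos_of_ne_zero h3
        calc N.index = 1 * N.index := (one_mul _).symm
          _ < Nat.card ↥N * N.index := Nat.mul_lt_mul_of_pos_right h2 h5
      have hq : Group.IsSolvable (G ⧸ N) := by
        refine ih (Nat.card (G ⧸ N)) hlt (G ⧸ N) rfl ?_
        intro Mb hMb
        have hco : IsCoatom (Mb.comap (QuotientGroup.mk' N)) := by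
          constructor
          · intro htop
            apply hMb.1
            rw [← Subgroup.map_comap_eq_self_of_surjective (QuotientGroup.mk'_surjective N) Mb, htop,
              ← MonoidHom.range_eq_map, MonoidHom.range_eq_top.mpr (QuotientGroup.mk'_surjective N)]
          · intro X hX
            have hNX : N ≤ X := by
              refine le_trans ?_ hX.le
              intro y hy
              rw [Subgroup.mem_comap]
              have : (QuotientGroup.mk' N) y = 1 := (QuotientGroup.eq_one_iff y).mpr hy
              rw [this]; exact Mb.one_mem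
            have hcm : (X.map (QuotientGroup.mk' N)).comap (QuotientGroup.mk' N) = X := by
              rw [Subgroup.comap_map_eq, QuotientGroup.ker_mk']
              exact sup_eq_left.mpr hNX
            have hlt : Mb < X.map (QuotientGroup.mk' N) := by
              refine lt_of_le_of_ne ?_ ?_
              · rw [← Subgroup.map_comap_eq_self_of_surjective (QuotientGroup.mk'_surjective N) Mb]
                exact Subgroup.map_mono hX.le
              · intro heq
                rw [heq, hcm] at hX
                exact lt_irrefl _ hX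
            have := hMb.2 _ hlt
            rw [← hcm, this, Subgroup.comap_top]
        have := h _ hco
        exact Group.nilpotent_of_surjective ((QuotientGroup.mk' N).subgroupComap Mb)
          (MonoidHom.subgroupComap_surjective_of_surjective _ _ (QuotientGroup.mk'_surjective N))
      have hNs : Group.IsSolvable N := by
        obtain ⟨M, hM, hNM⟩ := (eq_top_or_exists_le_coatom N).resolve_left hNtop
        have := h M hM
        exact Group.isSolvable_of_isSolvable_injective (Subgroup.inclusion_injective hNM)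
      exact Group.isSolvable_of_ker_le_range N.subtype (QuotientGroup.mk' N) (by simp)

/-- Schmidt's Theorem on minimal non-nilpotent groups: a finite group in which every maximal subgroup is nilpotent is solvable. -/
theorem result {G : Type*} [Group G] [Finite G]
    (h : ∀ M : Subgroup G, IsCoatom M → Group.IsNilpotent M) : Group.IsSolvable G := by
  exact schmidt_aux _ G rfl h


end Cfsg.Agent.S0046
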