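import Cfsg.Statements.S0045
import Mathlib
import Cfsg.Agent.Lead.SubTools
import Cfsg.Agent.Lead.Fpf3
import Cfsg.Agent.S0583

set_option autoImplicit false
open Pointwise
open Cfsg

namespace Cfsg.Agent.S0045

open scoped Pointwise commutatorElement
open Cfsg.Agent.Lead

universe u

/-- Carter subgroup -/
def IsCarter {G : Type u} [Group G] (C : Subgroup G) : Prop :=
  Group.IsNilpotent C ∧ Subgroup.normalizer (C : Set G) = C

theorem eq_of_le_nilpotent {G : Type u} [Group G] [Finite G] (A B : Subgroup G) (hAB : A ≤ B)
    (hB : Group.IsNilpotent B) (hA : B ⊓ Subgroup.normalizer (A : Set G) ≤ A) : A = B := by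
  haveI := hB
  have hnc := (normalizerCondition_iff_only_full_group_self_normalizing (G := B)).mp
    normalizerCondition_of_isNilpotent
  have h1 : A.subgroupOf B = ⊤ := by
    apply hnc
    apply le_antisymm
    · intro b hb
      rw [Subgroup.mem_subgroupOf]
      apply hA
      refine Subgroup.mem_inf.mpr ⟨b.2, ?_⟩
      apply mem_normalizer_of_conj_mem A (b : G)
      intro s hs
      have h2 : b * ⟨s, hAB hs⟩ * b⁻¹ ∈ A.subgroupOf B :=
        (Subgroup.mem_normalizer_iff.mp hb ⟨s, hAB hs⟩).mp (Subgroup.mem_subgroupOf.mpr hs)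
      exact Subgroup.mem_subgroupOf.mp h2
    · exact Subgroup.le_normalizer
  apply le_antisymm hAB
  intro b hb
  have h2 : (⟨b, hb⟩ : B) ∈ A.subgroupOf B := by rw [h1]; exact Subgroup.mem_top _
  exact Subgroup.mem_subgroupOf.mp h2

theorem carter_subgroupOf {G : Type u} [Group G] [Finite G] (C H : Subgroup G) (hCH : C ≤ H)
    (hCn : Group.IsNilpotent C) (hC : H ⊓ Subgroup.normalizer (C : Set G) ≤ C) :
    IsCarter (C.subgroupOf H) := by
  constructor
  · haveI := hCn
    exact nilpotent_of_mulEquiv (Subgroup.subgroupOfEquivOfLe hCH).symm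
  · apply le_antisymm
    · intro h hh
      rw [Subgroup.mem_subgroupOf]
      apply hC
      refine Subgroup.mem_inf.mpr ⟨h.2, ?_⟩
      apply mem_normalizer_of_conj_mem C (h : G)
      intro s hs
      have h2 : h * ⟨s, hCH hs⟩ * h⁻¹ ∈ C.subgroupOf H :=
        (Subgroup.mem_normalizer_iff.mp hh ⟨s, hCH hs⟩).mp (Subgroup.mem_subgroupOf.mpr hs)
      exact Subgroup.mem_subgroupOf.mp h2
    · exact Subgroup.le_normalizer

theorem carter_conj {G : Type u} [Group G] [Finite G] (C : Subgroup G) (hC : IsCarter C) (g : G) :
    IsCarter (MulAut.conj g • C) := by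
  constructor
  · haveI := hC.1
    exact nilpotent_of_mulEquiv (Subgroup.equivSMul (MulAut.conj g) C)
  · apply le_antisymm
    · intro x hx
      rw [mem_conj_smul]
      rw [← hC.2]
      apply mem_normalizer_of_conj_mem C
      intro s hs
      have h1 : g * s * g⁻¹ ∈ MulAut.conj g • C := by
        rw [mem_conj_smul]
        have e : g⁻¹ * (g * s * g⁻¹) * g = s := by group
        rw [e]; exact hs
      have h2 : x * (g * s * g⁻¹) * x⁻¹ ∈ MulAut.conj g • C :=
        (Subgroup.mem_normalizer_iff.mp hx _).mp h1
      rw [mem_conj_smul] at h2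
      have e : g⁻¹ * x * g * s * (g⁻¹ * x * g)⁻¹ = g⁻¹ * (x * (g * s * g⁻¹) * x⁻¹) * g := by group
      rw [e]; exact h2
    · exact Subgroup.le_normalizer

theorem carter_map {G : Type u} [Group G] [Finite G]
    (IHU : ∀ (H : Subgroup G), H ≠ ⊤ → ∀ C D : Subgroup H, IsCarter C → IsCarter D →
      ∃ h : H, MulAut.conj h • C = D)
    (K N C : Subgroup G) [hNn : N.Normal] (hNK : N ≤ K) (hCK : C ≤ K) (hCn : Group.IsNilpotent C)
    (hC : K ⊓ Subgroup.normalizer (C : Set G) ≤ C) :
    K.map (QuotientGroup.mk' N) ⊓
      Subgroup.normalizer ((C.map (QuotientGroup.mk' N) : Subgroup (G ⧸ N)) : Set (G ⧸ N))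
      ≤ C.map (QuotientGroup.mk' N) := by
  have hfin : ∀ k ∈ C ⊔ N, QuotientGroup.mk' N k ∈ C.map (QuotientGroup.mk' N) := by
    intro k hk
    rw [← SetLike.mem_coe, Subgroup.mul_normal] at hk
    obtain ⟨c, hc, n', hn', rfl⟩ := Set.mem_mul.mp hk
    have h1 : QuotientGroup.mk' N n' = 1 := (QuotientGroup.eq_one_iff n').mpr hn'
    rw [map_mul, h1, mul_one]
    exact Subgroup.mem_map_of_mem _ hc
  intro q hq
  obtain ⟨hqK, hqN⟩ := Subgroup.mem_inf.mp hq
  obtain ⟨k, hkK, rfl⟩ := Subgroup.mem_map.mp hqK
  apply hfin
  have hHK : C ⊔ N ≤ K := sup_le hCK hNK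
  by_cases hHeq : C ⊔ N = K
  · rw [hHeq]; exact hkK
  · have hHtop : C ⊔ N ≠ ⊤ := by
      intro h
      apply hHeq
      apply le_antisymm hHK
      rw [h]; exact le_top
    have hconjle : MulAut.conj k • C ≤ C ⊔ N := by
      intro x hx
      rw [mem_conj_smul] at hx
      have h1 : QuotientGroup.mk' N x ∈ C.map (QuotientGroup.mk' N) := by
        have h2 := (Subgroup.mem_normalizer_iff.mp hqN _).mp
          (Subgroup.mem_map_of_mem (QuotientGroup.mk' N) hx)
        rw [← map_inv, ← map_mul, ← map_mul] at h2
        have e : k * (k⁻¹ * x * k) * k⁻¹ = x := by group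
        rw [e] at h2
        exact h2
      have h3 : x ∈ (C.map (QuotientGroup.mk' N)).comap (QuotientGroup.mk' N) := h1
      rw [Subgroup.comap_map_eq, QuotientGroup.ker_mk'] at h3
      exact h3
    have hC1 := carter_subgroupOf C (C ⊔ N) le_sup_left hCn
      (le_trans (inf_le_inf_right _ hHK) hC)
    have hC2n : Group.IsNilpotent (MulAut.conj k • C : Subgroup G) := by
      haveI := hCn
      exact nilpotent_of_mulEquiv (Subgroup.equivSMul (MulAut.conj k) C)
    have hC2 := carter_subgroupOf (MulAut.conj k • C) (C ⊔ N) hconjle hC2n (by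
      intro x hx
      obtain ⟨hxH, hxN⟩ := Subgroup.mem_inf.mp hx
      rw [mem_conj_smul]
      apply hC
      refine Subgroup.mem_inf.mpr ⟨K.mul_mem (K.mul_mem (K.inv_mem hkK) (hHK hxH)) hkK, ?_⟩
      apply mem_normalizer_of_conj_mem C
      intro s hs
      have h1 : k * s * k⁻¹ ∈ MulAut.conj k • C := by
        rw [mem_conj_smul]
        have e : k⁻¹ * (k * s * k⁻¹) * k = s := by group
        rw [e]; exact hs
      have h2 : x * (k * s * k⁻¹) * x⁻¹ ∈ MulAut.conj k • C :=
        (Subgroup.mem_normalizer_iff.mp hxN _).mp h1
      rw [mem_conj_smul] at h2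
      have e : k⁻¹ * x * k * s * (k⁻¹ * x * k)⁻¹ = k⁻¹ * (x * (k * s * k⁻¹) * x⁻¹) * k := by group
      rw [e]; exact h2)
    obtain ⟨h, hh⟩ := IHU (C ⊔ N) hHtop _ _ hC1 hC2
    obtain ⟨g, hgH, hg⟩ := conj_of_subgroupOf (C ⊔ N) C (MulAut.conj k • C) le_sup_left hconjle
      ⟨h, hh⟩
    have hgk : g⁻¹ * k ∈ C := by
      apply hC
      refine Subgroup.mem_inf.mpr ⟨K.mul_mem (K.inv_mem (hHK hgH)) hkK, ?_⟩
      apply mem_normalizer_of_conj_mem C
      intro s hs
      have h1 : k * s * k⁻¹ ∈ MulAut.conj k • C := by
        rw [mem_conj_smul]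
        have e : k⁻¹ * (k * s * k⁻¹) * k = s := by group
        rw [e]; exact hs
      rw [← hg, mem_conj_smul] at h1
      have e : g⁻¹ * k * s * (g⁻¹ * k)⁻¹ = g⁻¹ * (k * s * k⁻¹) * g := by group
      rw [e]; exact h1
    have e : k = g * (g⁻¹ * k) := by group
    rw [e]
    exact Subgroup.mul_mem _ hgH (Subgroup.mem_sup_left hgk)

theorem main : ∀ (n : ℕ) (G : Type u) [Group G] [Finite G] [Group.IsSolvable G], Nat.card G ≤ n →
    (∃ C : Subgroup G, IsCarter C) ∧
    ∀ C D : Subgroup G, IsCarter C → IsCarter D → ∃ g : G, MulAut.conj g • C = D := by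
  intro n
  induction n with
  | zero =>
    intro G _ _ _ h
    have h1 := Nat.card_pos (α := G)
    omega
  | succ n ih =>
    intro G _ _ _ hcard
    classical
    by_cases htriv : Subsingleton G
    · have hall : ∀ A B : Subgroup G, A = B := fun A B => by
        ext x
        rw [Subsingleton.elim x 1]
        exact ⟨fun _ => B.one_mem, fun _ => A.one_mem⟩
      refine ⟨⟨⊤, ?_, hall _ _⟩, fun C D _ _ => ⟨1, hall _ _⟩⟩
      exact nilpotent_of_mulEquiv Subgroup.topEquiv.symm
    · rw [not_subsingleton_iff_nontrivial] at htriv
      haveI := htriv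
      have htb : (⊤ : Subgroup G) ≠ ⊥ := by
        intro h
        obtain ⟨a, ha⟩ := exists_ne (1 : G)
        have h1 : a ∈ (⊤ : Subgroup G) := Subgroup.mem_top a
        rw [h, Subgroup.mem_bot] at h1
        exact ha h1
      have IHsub : ∀ (H : Subgroup G), H ≠ ⊤ → (∃ C : Subgroup H, IsCarter C) ∧
          ∀ C D : Subgroup H, IsCarter C → IsCarter D → ∃ h : H, MulAut.conj h • C = D := by
        intro H hH
        apply ih H
        have hlt : Nat.card H < Nat.card G := by
          by_contra hcon
          exact hH (Subgroup.eq_top_of_le_card H (by omega))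
        omega
      have IHquot : ∀ (N : Subgroup G) [N.Normal], N ≠ ⊥ →
          (∃ C : Subgroup (G ⧸ N), IsCarter C) ∧
          ∀ C D : Subgroup (G ⧸ N), IsCarter C → IsCarter D →
            ∃ h : G ⧸ N, MulAut.conj h • C = D := by
        intro N _ hN
        apply ih (G ⧸ N)
        have h1 := Subgroup.card_eq_card_quotient_mul_card_subgroup N
        have h2 : 1 < Nat.card N := by
          by_contra hcon
          have h3 : Nat.card N = 1 := by
            have h4 := Nat.card_pos (α := N)
            omega
          exact hN (Subgroup.eq_bot_of_card_eq _ h3)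
        have h3 : 0 < Nat.card (G ⧸ N) := Nat.card_pos
        nlinarith
      have IHU := fun H hH => (IHsub H hH).2
      have Limg : ∀ (N : Subgroup G) [N.Normal] (C : Subgroup G), IsCarter C →
          IsCarter (C.map (QuotientGroup.mk' N)) := by
        intro N _ C hC
        constructor
        · haveI := hC.1
          exact nilpotent_of_surjective ((QuotientGroup.mk' N).subgroupMap C)
            (MonoidHom.subgroupMap_surjective _ _)
        · apply le_antisymm
          · have h := carter_map IHU ⊤ N C le_top le_top hC.1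
              (by rw [hC.2]; exact inf_le_right)
            intro q hq
            apply h
            refine Subgroup.mem_inf.mpr ⟨?_, hq⟩
            rw [Subgroup.map_top_of_surjective _ (QuotientGroup.mk'_surjective N)]
            exact Subgroup.mem_top _
          · exact Subgroup.le_normalizer
      obtain ⟨N, ⟨hNn, hNne⟩, hNle⟩ := exists_minimal_of_wellFoundedLT
        (fun N : Subgroup G => N.Normal ∧ N ≠ ⊥) ⟨⊤, inferInstance, htb⟩
      haveI := hNn
      have hNmin' : ∀ K : Subgroup G, K.Normal → K ≤ N → K = ⊥ ∨ K = N := by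
        intro K hKn hKN
        by_cases hK : K = ⊥
        · exact Or.inl hK
        · exact Or.inr (le_antisymm hKN (hNle ⟨hKn, hK⟩ hKN))
      have hNab : ∀ a ∈ N, ∀ b ∈ N, a * b = b * a := by
        have h1 : ⁅N, N⁆ < N := IsSolvable.commutator_lt_of_ne_bot hNne
        have h2 : ⁅N, N⁆ = ⊥ := by
          rcases hNmin' ⁅N, N⁆ inferInstance h1.le with h | h
          · exact h
          · exact absurd h h1.ne
        intro a ha b hb
        have h3 : ⁅a, b⁆ ∈ ⁅N, N⁆ := Subgroup.commutator_mem_commutator ha hb
        rw [h2, Subgroup.mem_bot, commutatorElement_eq_one_iff_mul_comm] at h3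
        exact h3
      have hnormal_of : ∀ (X K : Subgroup G), X ⊔ N = ⊤ → K ≤ N →
          (∀ x ∈ X, ∀ k ∈ K, x * k * x⁻¹ ∈ K) → K.Normal := by
        intro X K hXN hKN hX
        rw [← Subgroup.normalizer_eq_top_iff, eq_top_iff, ← hXN]
        apply sup_le
        · intro x hx
          exact mem_normalizer_of_conj_mem K x (hX x hx)
        · intro m hm
          apply mem_normalizer_of_conj_mem K m
          intro k hk
          have e : m * k * m⁻¹ = k := by rw [hNab m hm k (hKN hk)]; group
          rw [e]; exact hk
      have star : ∀ (C D : Subgroup G), IsCarter C → IsCarter D → ∀ (M : Subgroup G) [M.Normal],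
          M ≠ ⊥ → M ≤ C → ∃ g : G, MulAut.conj g • C = D := by
        intro C D hC hD M _ hM hMC
        obtain ⟨q, hq⟩ := (IHquot M hM).2 _ _ (Limg M C hC) (Limg M D hD)
        obtain ⟨x, rfl⟩ := QuotientGroup.mk'_surjective M q
        have hDle : D ≤ MulAut.conj x • C := by
          intro d hd
          have h1 : QuotientGroup.mk' M d ∈ D.map (QuotientGroup.mk' M) :=
            Subgroup.mem_map_of_mem _ hd
          rw [← hq, mem_conj_smul] at h1
          have h2 : x⁻¹ * d * x ∈ (C.map (QuotientGroup.mk' M)).comap (QuotientGroup.mk' M) := by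
            rw [Subgroup.mem_comap, map_mul, map_mul, map_inv]; exact h1
          rw [Subgroup.comap_map_eq, QuotientGroup.ker_mk', sup_eq_left.mpr hMC] at h2
          rw [mem_conj_smul]; exact h2
        have hCx := carter_conj C hC x
        exact ⟨x, (eq_of_le_nilpotent D _ hDle hCx.1 (by rw [hD.2]; exact inf_le_right)).symm⟩
      have hE : ∃ C : Subgroup G, IsCarter C := by
        obtain ⟨Kb, hKb⟩ := (IHquot N hNne).1
        obtain ⟨K, hKdef⟩ : ∃ K : Subgroup G, K = Kb.comap (QuotientGroup.mk' N) := ⟨_, rfl⟩
        have hNK : N ≤ K := by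
          rw [hKdef]; intro x hx
          rw [Subgroup.mem_comap]
          have h1 : QuotientGroup.mk' N x = 1 := (QuotientGroup.eq_one_iff x).mpr hx
          rw [h1]; exact Subgroup.one_mem _
        have hKmap : K.map (QuotientGroup.mk' N) = Kb := by
          rw [hKdef]
          exact Subgroup.map_comap_eq_self_of_surjective (QuotientGroup.mk'_surjective N) Kb
        by_cases hKtop : K = ⊤
        · have hKbtop : Kb = ⊤ := by
            rw [← hKmap, hKtop]
            exact Subgroup.map_top_of_surjective _ (QuotientGroup.mk'_surjective N)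
          have hQnil : Group.IsNilpotent (G ⧸ N) := by
            have h1 := hKb.1
            rw [hKbtop] at h1
            haveI := h1
            exact nilpotent_of_mulEquiv Subgroup.topEquiv
          haveI := hQnil
          by_cases hGnil : Group.IsNilpotent G
          · haveI := hGnil
            exact ⟨⊤, nilpotent_of_mulEquiv Subgroup.topEquiv.symm,
              Subgroup.normalizer_eq_top_iff.mpr inferInstance⟩
          · have h1 : ¬ (∀ H : Subgroup G, IsCoatom H → H.Normal) := fun h =>
              hGnil (((Group.isNilpotent_of_finite_tfae (G := G)).out 0 2).mpr h)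
            push_neg at h1
            obtain ⟨M, hMco, hMnn⟩ := h1
            have hMnorm : Subgroup.normalizer (M : Set G) = M := by
              rcases hMco.le_iff.mp (Subgroup.le_normalizer (H := M)) with h | h
              · exact absurd (Subgroup.normalizer_eq_top_iff.mp h) hMnn
              · exact h
            have hNM : ¬ N ≤ M := by
              intro hNM
              have hnc := (normalizerCondition_iff_only_full_group_self_normalizing
                (G := G ⧸ N)).mp normalizerCondition_of_isNilpotent
              have h2 : Subgroup.normalizer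
                  ((M.map (QuotientGroup.mk' N) : Subgroup (G ⧸ N)) : Set (G ⧸ N))
                  = M.map (QuotientGroup.mk' N) := by
                apply le_antisymm
                · intro q hq
                  obtain ⟨x, rfl⟩ := QuotientGroup.mk'_surjective N q
                  have hx : x ∈ Subgroup.normalizer (M : Set G) := by
                    apply mem_normalizer_of_conj_mem M x
                    intro s hs
                    have h3 : QuotientGroup.mk' N (x * s * x⁻¹) ∈ M.map (QuotientGroup.mk' N) := by
                      rw [map_mul, map_mul, map_inv]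
                      exact (Subgroup.mem_normalizer_iff.mp hq _).mp (Subgroup.mem_map_of_mem _ hs)
                    have h4 : x * s * x⁻¹ ∈
                        (M.map (QuotientGroup.mk' N)).comap (QuotientGroup.mk' N) := h3
                    rw [Subgroup.comap_map_eq, QuotientGroup.ker_mk', sup_eq_left.mpr hNM] at h4
                    exact h4
                  rw [hMnorm] at hx
                  exact Subgroup.mem_map_of_mem _ hx
                · exact Subgroup.le_normalizer
              have h5 := hnc _ h2
              have h6 : M = ⊤ := by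
                have h7 : (M.map (QuotientGroup.mk' N)).comap (QuotientGroup.mk' N) = ⊤ := by
                  rw [h5]; exact Subgroup.comap_top _
                rw [Subgroup.comap_map_eq, QuotientGroup.ker_mk', sup_eq_left.mpr hNM] at h7
                exact h7
              exact hMco.1 h6
            have hMN : M ⊔ N = ⊤ := by
              rcases hMco.le_iff.mp (le_sup_left : M ≤ M ⊔ N) with h | h
              · exact h
              · exact absurd (h ▸ le_sup_right : N ≤ M) hNM
            have hMNinf : M ⊓ N = ⊥ := by
              have hn : (M ⊓ N).Normal := hnormal_of M (M ⊓ N) hMN inf_le_right (by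
                intro x hx k hk
                obtain ⟨hk1, hk2⟩ := Subgroup.mem_inf.mp hk
                exact Subgroup.mem_inf.mpr
                  ⟨M.mul_mem (M.mul_mem hx hk1) (M.inv_mem hx), hNn.conj_mem k hk2 x⟩)
              rcases hNmin' (M ⊓ N) hn inf_le_right with h | h
              · exact h
              · exact absurd (h ▸ inf_le_left : N ≤ M) hNM
            refine ⟨M, ?_, hMnorm⟩
            apply isNilpotent_of_ker_le_center ((QuotientGroup.mk' N).comp M.subtype)
            intro m hm
            have h7 : QuotientGroup.mk' N (m : G) = 1 := hm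
            have h8 : (m : G) ∈ N := (QuotientGroup.eq_one_iff _).mp h7
            have h9 : (m : G) ∈ M ⊓ N := Subgroup.mem_inf.mpr ⟨m.2, h8⟩
            rw [hMNinf, Subgroup.mem_bot] at h9
            have h10 : m = 1 := Subtype.ext h9
            rw [h10]; exact Subgroup.one_mem _
        · obtain ⟨C₀, hC₀⟩ := (IHsub K hKtop).1
          obtain ⟨C, hCdef⟩ : ∃ C : Subgroup G, C = C₀.map K.subtype := ⟨_, rfl⟩
          have hCK : C ≤ K := by
            rw [hCdef]
            rintro _ ⟨c, -, rfl⟩
            exact c.2
          have hCnil : Group.IsNilpotent C := by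
            haveI := hC₀.1
            rw [hCdef]
            exact nilpotent_of_mulEquiv
              (C₀.equivMapOfInjective K.subtype (Subgroup.subtype_injective K))
          have hCrel : K ⊓ Subgroup.normalizer (C : Set G) ≤ C := by
            intro x hx
            obtain ⟨hxK, hxN⟩ := Subgroup.mem_inf.mp hx
            have h1 : (⟨x, hxK⟩ : K) ∈ Subgroup.normalizer (C₀ : Set K) := by
              apply mem_normalizer_of_conj_mem C₀
              intro s hs
              have h2 : (s : G) ∈ C := by
                rw [hCdef]; exact Subgroup.mem_map_of_mem K.subtype hs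
              have h3 : x * (s : G) * x⁻¹ ∈ C := (Subgroup.mem_normalizer_iff.mp hxN _).mp h2
              rw [hCdef] at h3
              obtain ⟨t, ht, hts⟩ := Subgroup.mem_map.mp h3
              have h4 : t = ⟨x, hxK⟩ * s * ⟨x, hxK⟩⁻¹ := Subtype.ext hts
              rw [← h4]; exact ht
            rw [hC₀.2] at h1
            rw [hCdef]
            exact ⟨⟨x, hxK⟩, h1, rfl⟩
          have hmapC : C.map (QuotientGroup.mk' N) = Kb := by
            have h1 := carter_map IHU K N C hNK hCK hCnil hCrel
            rw [hKmap] at h1
            exact eq_of_le_nilpotent _ _ (by rw [← hKmap]; exact Subgroup.map_mono hCK) hKb.1 h1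
          refine ⟨C, hCnil, ?_⟩
          apply le_antisymm
          · intro g hg
            apply hCrel
            refine Subgroup.mem_inf.mpr ⟨?_, hg⟩
            rw [hKdef, Subgroup.mem_comap, ← hKb.2]
            apply mem_normalizer_of_conj_mem Kb
            intro s hs
            rw [← hmapC] at hs ⊢
            obtain ⟨c, hc, rfl⟩ := Subgroup.mem_map.mp hs
            rw [← map_inv, ← map_mul, ← map_mul]
            exact Subgroup.mem_map_of_mem _ ((Subgroup.mem_normalizer_iff.mp hg c).mp hc)
          · exact Subgroup.le_normalizer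
      refine ⟨hE, ?_⟩
      intro C D hC hD
      obtain ⟨q, hq⟩ := (IHquot N hNne).2 _ _ (Limg N C hC) (Limg N D hD)
      obtain ⟨g, rfl⟩ := QuotientGroup.mk'_surjective N q
      obtain ⟨C₁, hC₁def⟩ : ∃ C₁ : Subgroup G, C₁ = MulAut.conj g • C := ⟨_, rfl⟩
      have hC₁ : IsCarter C₁ := hC₁def ▸ carter_conj C hC g
      suffices hsuff : ∃ x : G, MulAut.conj x • C₁ = D by
        obtain ⟨x, hx⟩ := hsuff
        refine ⟨x * g, ?_⟩
        rw [← hx, hC₁def, map_mul, mul_smul]
      have hsup : C₁ ⊔ N = D ⊔ N := by
        have h1 : C₁.map (QuotientGroup.mk' N) = D.map (QuotientGroup.mk' N) := by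
          rw [← hq, hC₁def]
          ext y
          constructor
          · rintro ⟨c', hc', rfl⟩
            rw [SetLike.mem_coe, mem_conj_smul] at hc'
            rw [mem_conj_smul]
            rw [← map_inv, ← map_mul, ← map_mul]
            exact Subgroup.mem_map_of_mem _ hc'
          · intro hy
            rw [mem_conj_smul] at hy
            obtain ⟨c, hc, hcy⟩ := Subgroup.mem_map.mp hy
            refine ⟨g * c * g⁻¹, ?_, ?_⟩
            · rw [SetLike.mem_coe, mem_conj_smul]
              have e : g⁻¹ * (g * c * g⁻¹) * g = c := by group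
              rw [e]; exact hc
            · rw [map_mul, map_mul, map_inv, hcy]; group
        have h2 := congrArg (Subgroup.comap (QuotientGroup.mk' N)) h1
        rwa [Subgroup.comap_map_eq, Subgroup.comap_map_eq, QuotientGroup.ker_mk'] at h2
      by_cases hH : C₁ ⊔ N = ⊤
      · have hD' : D ⊔ N = ⊤ := hsup ▸ hH
        have hC₁ne : C₁ ≠ ⊥ := by
          intro h
          have h1 := hC₁.2
          rw [h] at h1
          have h2 : Subgroup.normalizer (((⊥ : Subgroup G)) : Set G) = ⊤ :=
            Subgroup.normalizer_eq_top_iff.mpr inferInstance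
          rw [h2] at h1
          exact htb h1
        haveI := hC₁.1
        have hcen : Subgroup.center C₁ ≠ ⊥ := by
          intro h
          have h1 : (⊤ : Subgroup C₁) = ⊥ :=
            Cfsg.Agent.S0583.eq_bot_of_inf_center_eq_bot ⊤ (by rw [top_inf_eq]; exact h)
          apply hC₁ne
          rw [eq_bot_iff]
          intro c hc
          have h2 : (⟨c, hc⟩ : C₁) ∈ (⊤ : Subgroup C₁) := Subgroup.mem_top _
          rw [h1, Subgroup.mem_bot] at h2
          exact Subgroup.mem_bot.mpr (congrArg Subtype.val h2)
        obtain ⟨⟨z, hzC⟩, hzcen, hz1⟩ : ∃ z' ∈ Subgroup.center C₁, z' ≠ 1 := by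
          by_contra hcon; push_neg at hcon
          exact hcen ((Subgroup.eq_bot_iff_forall _).mpr hcon)
        have hz1' : z ≠ 1 := fun h => hz1 (Subtype.ext h)
        have hzc : ∀ c ∈ C₁, c * z = z * c := by
          intro c hc
          have h1 := Subgroup.mem_center_iff.mp hzcen ⟨c, hc⟩
          exact congrArg Subtype.val h1
        have hKn : (N ⊓ Subgroup.centralizer {z}).Normal := hnormal_of C₁ _ hH inf_le_left (by
          intro c hc k hk
          obtain ⟨hk1, hk2⟩ := Subgroup.mem_inf.mp hk
          refine Subgroup.mem_inf.mpr ⟨hNn.conj_mem k hk1 c, ?_⟩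
          rw [Subgroup.mem_centralizer_iff] at hk2 ⊢
          intro h hh
          rw [Set.mem_singleton_iff] at hh
          rw [hh]
          have h1 := hk2 z rfl
          have h2 := hzc c hc
          have h3 := hzc c⁻¹ (C₁.inv_mem hc)
          calc z * (c * k * c⁻¹) = (z * c) * k * c⁻¹ := by group
            _ = (c * z) * k * c⁻¹ := by rw [h2]
            _ = c * (z * k) * c⁻¹ := by group
            _ = c * (k * z) * c⁻¹ := by rw [h1]
            _ = c * k * (z * c⁻¹) := by group
            _ = c * k * (c⁻¹ * z) := by rw [h3]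
            _ = c * k * c⁻¹ * z := by group)
        rcases hNmin' _ hKn inf_le_left with hK | hK
        · have hzDN : z ∈ D ⊔ N := by rw [hD']; exact Subgroup.mem_top z
          rw [← SetLike.mem_coe, Subgroup.mul_normal] at hzDN
          obtain ⟨d, hd, n₁, hn₁, hdn⟩ := Set.mem_mul.mp hzDN
          have hψ : ∀ n₀ ∈ N, ∃ m ∈ N, m * z * m⁻¹ * z⁻¹ = n₀ := by
            have hψmem : ∀ m : N, (m : G) * z * (m : G)⁻¹ * z⁻¹ ∈ N := by
              intro m
              have h1 : z * (m : G)⁻¹ * z⁻¹ ∈ N := hNn.conj_mem _ (N.inv_mem m.2) z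
              have e : (m : G) * z * (m : G)⁻¹ * z⁻¹ = m * (z * (m : G)⁻¹ * z⁻¹) := by group
              rw [e]; exact N.mul_mem m.2 h1
            have hinj : Function.Injective
                (fun m : N => (⟨(m : G) * z * (m : G)⁻¹ * z⁻¹, hψmem m⟩ : N)) := by
              intro m m' hmm
              have h1 : (m : G) * z * (m : G)⁻¹ * z⁻¹ = (m' : G) * z * (m' : G)⁻¹ * z⁻¹ :=
                congrArg Subtype.val hmm
              have h2 : (m' : G)⁻¹ * m ∈ N ⊓ Subgroup.centralizer {z} := by
                refine Subgroup.mem_inf.mpr ⟨N.mul_mem (N.inv_mem m'.2) m.2, ?_⟩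
                rw [Subgroup.mem_centralizer_iff]
                intro h hh
                rw [Set.mem_singleton_iff] at hh
                rw [hh]
                have h3 : (m : G) * z * (m : G)⁻¹ = (m' : G) * z * (m' : G)⁻¹ := by
                  have h4 := congrArg (· * z) h1
                  simpa using h4
                calc z * ((m' : G)⁻¹ * m)
                    = (m' : G)⁻¹ * ((m' : G) * z * (m' : G)⁻¹) * m := by group
                  _ = (m' : G)⁻¹ * ((m : G) * z * (m : G)⁻¹) * m := by rw [h3]
                  _ = (m' : G)⁻¹ * m * z := by group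
              rw [hK, Subgroup.mem_bot] at h2
              apply Subtype.ext
              calc (m : G) = m' * ((m' : G)⁻¹ * m) := by group
                _ = m' := by rw [h2, mul_one]
            have hsurj := Finite.surjective_of_injective hinj
            intro n₀ hn₀
            obtain ⟨m, hm⟩ := hsurj ⟨n₀, hn₀⟩
            exact ⟨m, m.2, congrArg Subtype.val hm⟩
          obtain ⟨m, hmN, hm⟩ := hψ (z * n₁⁻¹ * z⁻¹) (hNn.conj_mem _ (N.inv_mem hn₁) z)
          have hmz : m * z * m⁻¹ = d := by
            have h1 : m * z * m⁻¹ = (m * z * m⁻¹ * z⁻¹) * z := by group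
            rw [h1, hm, ← hdn]; group
          obtain ⟨D₁, hD₁def⟩ : ∃ D₁ : Subgroup G, D₁ = MulAut.conj m⁻¹ • D := ⟨_, rfl⟩
          have hD₁ : IsCarter D₁ := hD₁def ▸ carter_conj D hD m⁻¹
          have hzD₁ : z ∈ D₁ := by
            rw [hD₁def, mem_conj_smul, inv_inv, hmz]; exact hd
          suffices hsuff : C₁ = D₁ by
            refine ⟨m, ?_⟩
            rw [hsuff, hD₁def, ← mul_smul, ← map_mul, mul_inv_cancel, map_one, one_smul]
          have hD₁N : D₁ ⊔ N = ⊤ := by
            rw [eq_top_iff]
            intro x _
            have hx : m * x * m⁻¹ ∈ D ⊔ N := by rw [hD']; exact Subgroup.mem_top _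
            rw [← SetLike.mem_coe, Subgroup.mul_normal] at hx
            obtain ⟨d', hd', n', hn', hdn'⟩ := Set.mem_mul.mp hx
            have e : x = (m⁻¹ * d' * m) * (m⁻¹ * n' * m) := by
              have e1 : x = m⁻¹ * (m * x * m⁻¹) * m := by group
              rw [e1, ← hdn']; group
            rw [e]
            refine Subgroup.mul_mem _ (Subgroup.mem_sup_left ?_) (Subgroup.mem_sup_right ?_)
            · rw [hD₁def, mem_conj_smul, inv_inv]
              have e2 : m * (m⁻¹ * d' * m) * m⁻¹ = d' := by group
              rw [e2]; exact hd'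
            · have h5 := hNn.conj_mem n' hn' m⁻¹
              simpa using h5
          have hDNn : (D₁ ⊓ N).Normal := hnormal_of D₁ _ hD₁N inf_le_right (by
            intro x hx k hk
            obtain ⟨hk1, hk2⟩ := Subgroup.mem_inf.mp hk
            exact Subgroup.mem_inf.mpr
              ⟨D₁.mul_mem (D₁.mul_mem hx hk1) (D₁.inv_mem hx), hNn.conj_mem k hk2 x⟩)
          rcases hNmin' _ hDNn inf_le_right with hDN | hDN
          · have hD₁C : D₁ ≤ C₁ := by
              intro d' hd'
              have hd'' : d' ∈ C₁ ⊔ N := by rw [hH]; exact Subgroup.mem_top _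
              rw [← SetLike.mem_coe, Subgroup.mul_normal] at hd''
              obtain ⟨c, hc, n', hn', hcn⟩ := Set.mem_mul.mp hd''
              have h2 := hzc c hc
              have hcomm : z * d' * z⁻¹ * d'⁻¹ ∈ D₁ ⊓ N := by
                refine Subgroup.mem_inf.mpr
                  ⟨D₁.mul_mem (D₁.mul_mem (D₁.mul_mem hzD₁ hd') (D₁.inv_mem hzD₁))
                    (D₁.inv_mem hd'), ?_⟩
                have e : z * d' * z⁻¹ * d'⁻¹ = c * (z * n' * z⁻¹ * n'⁻¹) * c⁻¹ := by
                  rw [← hcn]
                  calc z * (c * n') * z⁻¹ * (c * n')⁻¹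
                      = (z * c) * n' * z⁻¹ * n'⁻¹ * c⁻¹ := by group
                    _ = (c * z) * n' * z⁻¹ * n'⁻¹ * c⁻¹ := by rw [h2]
                    _ = c * (z * n' * z⁻¹ * n'⁻¹) * c⁻¹ := by group
                rw [e]
                apply hNn.conj_mem
                exact N.mul_mem (hNn.conj_mem n' hn' z) (N.inv_mem hn')
              rw [hDN, Subgroup.mem_bot] at hcomm
              have hzd : z * d' = d' * z := by
                calc z * d' = (z * d' * z⁻¹ * d'⁻¹) * (d' * z) := by group
                  _ = d' * z := by rw [hcomm, one_mul]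
              have hn'z : n' ∈ N ⊓ Subgroup.centralizer {z} := by
                refine Subgroup.mem_inf.mpr ⟨hn', ?_⟩
                rw [Subgroup.mem_centralizer_iff]
                intro h hh
                rw [Set.mem_singleton_iff] at hh
                rw [hh]
                rw [← hcn] at hzd
                calc z * n' = c⁻¹ * ((c * z) * n') := by group
                  _ = c⁻¹ * ((z * c) * n') := by rw [h2]
                  _ = c⁻¹ * (z * (c * n')) := by group
                  _ = c⁻¹ * (c * n' * z) := by rw [hzd]
                  _ = n' * z := by group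
              rw [hK, Subgroup.mem_bot] at hn'z
              rw [← hcn, hn'z, mul_one]; exact hc
            exact (eq_of_le_nilpotent D₁ C₁ hD₁C hC₁.1 (by rw [hD₁.2]; exact inf_le_right)).symm
          · have hND₁ : N ≤ D₁ := hDN ▸ inf_le_left
            have hD₁top : D₁ = ⊤ := by rw [← hD₁N]; exact (sup_eq_left.mpr hND₁).symm
            exact eq_of_le_nilpotent C₁ D₁ (by rw [hD₁top]; exact le_top) hD₁.1
              (by rw [hC₁.2]; exact inf_le_right)
        · have hzN : ∀ n' ∈ N, n' * z = z * n' := by
            intro n' hn'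
            have h1 : n' ∈ N ⊓ Subgroup.centralizer {z} := by rw [hK]; exact hn'
            have h2 := Subgroup.mem_centralizer_iff.mp (Subgroup.mem_inf.mp h1).2 z rfl
            exact h2.symm
          have hzZ : z ∈ Subgroup.center G := by
            rw [Subgroup.mem_center_iff]
            intro x
            have hx : x ∈ C₁ ⊔ N := by rw [hH]; exact Subgroup.mem_top _
            rw [← SetLike.mem_coe, Subgroup.mul_normal] at hx
            obtain ⟨c, hc, n', hn', rfl⟩ := Set.mem_mul.mp hx
            have h2 := hzc c hc
            have h3 := hzN n' hn'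
            calc c * n' * z = c * (n' * z) := by group
              _ = c * (z * n') := by rw [h3]
              _ = (c * z) * n' := by group
              _ = (z * c) * n' := by rw [h2]
              _ = z * (c * n') := by group
          haveI hMn : (Subgroup.zpowers z).Normal := by
            constructor
            intro h hh x
            obtain ⟨i, rfl⟩ := Subgroup.mem_zpowers_iff.mp hh
            have hzi : z ^ i ∈ Subgroup.center G := Subgroup.zpow_mem _ hzZ i
            have e : x * z ^ i * x⁻¹ = z ^ i := by
              rw [Subgroup.mem_center_iff.mp hzi x]; group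
            rw [e]; exact Subgroup.zpow_mem_zpowers z i
          have hMne : Subgroup.zpowers z ≠ ⊥ := by
            intro h
            have h1 : z ∈ Subgroup.zpowers z := Subgroup.mem_zpowers z
            rw [h, Subgroup.mem_bot] at h1
            exact hz1' h1
          exact star C₁ D hC₁ hD (Subgroup.zpowers z) hMne
            (by rw [Subgroup.zpowers_le]; exact hzC)
      · have hC₁H : C₁ ≤ C₁ ⊔ N := le_sup_left
        have hDH : D ≤ C₁ ⊔ N := by rw [hsup]; exact le_sup_left
        have h1 := carter_subgroupOf C₁ (C₁ ⊔ N) hC₁H hC₁.1 (by rw [hC₁.2]; exact inf_le_right)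
        have h2 := carter_subgroupOf D (C₁ ⊔ N) hDH hD.1 (by rw [hD.2]; exact inf_le_right)
        obtain ⟨h, hh⟩ := (IHsub (C₁ ⊔ N) hH).2 _ _ h1 h2
        obtain ⟨x, -, hx⟩ := conj_of_subgroupOf (C₁ ⊔ N) C₁ D hC₁H hDH ⟨h, hh⟩
        exact ⟨x, hx⟩

/-- Carter subgroups: a finite solvable group contains a nilpotent subgroup equal to its own normaliser, and all such subgroups are conjugate. -/
theorem result {G : Type*} [Group G] [Finite G] [Group.IsSolvable G] :
    (∃ C : Subgroup G, Group.IsNilpotent C ∧ Subgroup.normalizer (C : Set G) = C) ∧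
    ∀ C D : Subgroup G, Group.IsNilpotent C → Subgroup.normalizer (C : Set G) = C →
      Group.IsNilpotent D → Subgroup.normalizer (D : Set G) = D → ∃ g : G, MulAut.conj g • C = D := by
  obtain ⟨hE, hU⟩ := main (Nat.card G) G le_rfl
  refine ⟨?_, ?_⟩
  · obtain ⟨C, hC1, hC2⟩ := hE
    exact ⟨C, hC1, hC2⟩
  · intro C D h1 h2 h3 h4
    exact hU C D ⟨h1, h2⟩ ⟨h3, h4⟩


end Cfsg.Agent.S0045
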