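import Cfsg.Statements.S0545
import Mathlib
import Cfsg.Agent.Helper6.SysNorm
-- import your own Cfsg.Agent.* helpers here

set_option autoImplicit false
open Cfsg

namespace Cfsg.Agent.S0545

/-- Let K be a Hall complement system of a finite solvable group G and N a normal subgroup. Then the images of the K p in G modulo N form a Hall complement system of the quotient, and its system normalizer is the image of the system normalizer of K. -/
theorem result {G : Type*} [Group G] [Finite G] [Group.IsSolvable G] (K : Nat.Primes → Subgroup G) (hK : Cfsg.IsComplementSystem K) (N : Subgroup G) [N.Normal] : Cfsg.IsComplementSystem (fun p => (K p).map (QuotientGroup.mk' N)) ∧ Cfsg.systemNormalizer (fun p => (K p).map (QuotientGroup.mk' N)) = (Cfsg.systemNormalizer K).map (QuotientGroup.mk' N) := by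
  classical
  have hsurj : Function.Surjective (QuotientGroup.mk' N) := QuotientGroup.mk'_surjective N
  refine ⟨?_, ?_⟩
  · intro p
    have hdvd : ((K p).map (QuotientGroup.mk' N)).index ∣
        (p : ℕ) ^ (Nat.card G).factorization p := by
      rw [← hK p]; exact Subgroup.index_map_dvd (K p) hsurj
    obtain ⟨j, -, hj⟩ := (Nat.dvd_prime_pow p.2).mp hdvd
    rw [hj]
    congr 1
    have hcard : Nat.card (G ⧸ N) =
        (p : ℕ) ^ j * Nat.card ((K p).map (QuotientGroup.mk' N)) := by
      rw [← hj, mul_comm]; exact (Subgroup.card_mul_index _).symm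
    have hcop : ¬ (p : ℕ) ∣ Nat.card ((K p).map (QuotientGroup.mk' N)) := by
      intro h
      have h1 := dvd_trans h (Subgroup.card_map_dvd (K p) (QuotientGroup.mk' N))
      have h2 := Cfsg.Agent.Helper6.compl_card_coprime K hK p
      exact p.2.one_lt.ne' (Nat.Coprime.eq_one_of_dvd h2 h1)
    rw [hcard, Nat.factorization_mul (pow_pos p.2.pos j).ne' Nat.card_pos.ne',
      Nat.Prime.factorization_pow p.2]
    rw [Finsupp.add_apply, Nat.factorization_eq_zero_of_not_dvd hcop]
    simp
  · apply le_antisymm
    · intro xb hxb
      obtain ⟨x, rfl⟩ := hsurj xb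
      have hx : ∀ p : Nat.Primes,
          x ∈ Subgroup.normalizer ((K p ⊔ N : Subgroup G) : Set G) := by
        intro p
        have h1 : QuotientGroup.mk' N x ∈ Subgroup.normalizer
            (((K p).map (QuotientGroup.mk' N) : Subgroup (G ⧸ N)) : Set (G ⧸ N)) := by
          unfold Cfsg.systemNormalizer at hxb
          exact (Subgroup.mem_iInf.mp hxb) p
        have h2 := Subgroup.le_normalizer_comap (QuotientGroup.mk' N)
          (H := (K p).map (QuotientGroup.mk' N)) (Subgroup.mem_comap.mpr h1)
        rwa [Subgroup.comap_map_eq, QuotientGroup.ker_mk'] at h2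
      obtain ⟨d, hd, n, hn, hdn⟩ :=
        Cfsg.Agent.Helper6.sysnorm_cover K hK _ N inferInstance rfl x hx
      refine ⟨d, hd, ?_⟩
      have hn1 : QuotientGroup.mk' N n = 1 := (QuotientGroup.eq_one_iff n).mpr hn
      rw [hdn, map_mul, hn1, mul_one]
    · rintro _ ⟨d, hd, rfl⟩
      have hd' : d ∈ Cfsg.systemNormalizer K := hd
      unfold Cfsg.systemNormalizer at hd' ⊢
      rw [Subgroup.mem_iInf] at hd' ⊢
      replace hd := hd'
      intro p
      exact Subgroup.le_normalizer_map (QuotientGroup.mk' N) (Subgroup.mem_map_of_mem _ (hd p))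

end Cfsg.Agent.S0545
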