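import Cfsg.Statements.S0568
import Mathlib
import Cfsg.Agent.Helper6.SysNorm2
import Cfsg.Agent.S0545
-- import your own Cfsg.Agent.* helpers here

set_option autoImplicit false
open Cfsg

namespace Cfsg.Agent.S0568

/-- Let D be the system normalizer of a Hall complement system of a finite solvable group G, and let A < B be normal subgroups with no normal subgroup of G strictly between them (a chief factor). If G centralizes B modulo A then B ≤ A ⊔ D (D covers the factor); otherwise B ∩ D ≤ A (D avoids it). -/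
theorem result {G : Type*} [Group G] [Finite G] [Group.IsSolvable G] (K : Nat.Primes → Subgroup G) (hK : Cfsg.IsComplementSystem K) (A B : Subgroup G) [A.Normal] [B.Normal] (hAB : A < B) (hchief : ∀ N : Subgroup G, N.Normal → A ≤ N → N ≤ B → N = A ∨ N = B) : (⁅B, (⊤ : Subgroup G)⁆ ≤ A → B ≤ A ⊔ Cfsg.systemNormalizer K) ∧ (¬ ⁅B, (⊤ : Subgroup G)⁆ ≤ A → B ⊓ Cfsg.systemNormalizer K ≤ A) := by
  classical
  refine ⟨?_, ?_⟩
  · intro hc x hx
    have hconj : ∀ y ∈ B, ∀ p : Nat.Primes, ∀ h ∈ K p ⊔ A, y * h * y⁻¹ ∈ K p ⊔ A := by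
      intro y hy p h hh
      have h1 : y * h * y⁻¹ * h⁻¹ ∈ ⁅B, (⊤ : Subgroup G)⁆ :=
        Subgroup.commutator_mem_commutator hy (Subgroup.mem_top h)
      have h2 : y * h * y⁻¹ * h⁻¹ ∈ K p ⊔ A := le_sup_right (a := K p) (hc h1)
      have := Subgroup.mul_mem _ h2 hh
      convert this using 1; group
    have hxn : ∀ p : Nat.Primes,
        x ∈ Subgroup.normalizer ((K p ⊔ A : Subgroup G) : Set G) := by
      intro p
      rw [Subgroup.mem_normalizer_iff]
      intro h
      refine ⟨hconj x hx p h, fun hh => ?_⟩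
      have := hconj x⁻¹ (B.inv_mem hx) p _ hh
      convert this using 1; group
    obtain ⟨d, hd, a, ha, hda⟩ :=
      Cfsg.Agent.Helper6.sysnorm_cover K hK _ A inferInstance rfl x hxn
    rw [hda]
    exact Subgroup.mul_mem _ (le_sup_right (a := A) hd)
      (le_sup_left (b := Cfsg.systemNormalizer K) ha)
  · intro hnc x hx
    obtain ⟨hxB, hxD⟩ := Subgroup.mem_inf.mp hx
    have h545 := Cfsg.Agent.S0545.result K hK A
    have hsurj := QuotientGroup.mk'_surjective A
    haveI hBn : (B.map (QuotientGroup.mk' A)).Normal :=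
      Subgroup.Normal.map inferInstance _ hsurj
    have hcomap : (B.map (QuotientGroup.mk' A)).comap (QuotientGroup.mk' A) = B := by
      rw [Subgroup.comap_map_eq, QuotientGroup.ker_mk', sup_eq_left.mpr hAB.le]
    have hBne : B.map (QuotientGroup.mk' A) ≠ ⊥ := by
      intro h
      have : B ≤ A := by
        intro b hb
        have h1 : QuotientGroup.mk' A b ∈ B.map (QuotientGroup.mk' A) :=
          Subgroup.mem_map_of_mem _ hb
        rw [h, Subgroup.mem_bot] at h1
        exact (QuotientGroup.eq_one_iff b).mp h1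
      exact hAB.ne (le_antisymm hAB.le this)
    have hmin : ∀ N : Subgroup (G ⧸ A), N.Normal → N ≤ B.map (QuotientGroup.mk' A) →
        N = ⊥ ∨ N = B.map (QuotientGroup.mk' A) := by
      intro Nb hNbn hNb
      haveI := hNbn
      have h1 : A ≤ Nb.comap (QuotientGroup.mk' A) := by
        intro a ha
        rw [Subgroup.mem_comap]
        have : QuotientGroup.mk' A a = 1 := (QuotientGroup.eq_one_iff a).mpr ha
        rw [this]; exact Nb.one_mem
      have h2 : Nb.comap (QuotientGroup.mk' A) ≤ B := by
        rw [← hcomap]; exact Subgroup.comap_mono hNb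
      have h3 : Nb = (Nb.comap (QuotientGroup.mk' A)).map (QuotientGroup.mk' A) :=
        (Subgroup.map_comap_eq_self_of_surjective hsurj Nb).symm
      rcases hchief _ inferInstance h1 h2 with h | h
      · left
        rw [h3, h, eq_bot_iff]
        rintro _ ⟨a, ha, rfl⟩
        exact Subgroup.mem_bot.mpr ((QuotientGroup.eq_one_iff a).mpr ha)
      · right
        rw [h3, h]
    have hncb : ¬ B.map (QuotientGroup.mk' A) ≤ Subgroup.center (G ⧸ A) := by
      intro h
      apply hnc
      rw [Subgroup.commutator_le]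
      intro b hb g _
      have hb' := h (Subgroup.mem_map_of_mem (QuotientGroup.mk' A) hb)
      have := Subgroup.mem_center_iff.mp hb' (QuotientGroup.mk' A g)
      have e : (QuotientGroup.mk' A) (b * g * b⁻¹ * g⁻¹) = 1 := by
        rw [map_mul, map_mul, map_mul, map_inv, map_inv, ← this]; group
      exact (QuotientGroup.eq_one_iff _).mp e
    have hE := Cfsg.Agent.Helper6.sysnorm_avoid_min (fun p => (K p).map (QuotientGroup.mk' A))
      h545.1 (B.map (QuotientGroup.mk' A)) hBne hmin hncb
    have hx1 : QuotientGroup.mk' A x ∈ B.map (QuotientGroup.mk' A) ⊓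
        Cfsg.systemNormalizer (fun p => (K p).map (QuotientGroup.mk' A)) := by
      refine Subgroup.mem_inf.mpr ⟨Subgroup.mem_map_of_mem _ hxB, ?_⟩
      rw [h545.2]; exact Subgroup.mem_map_of_mem _ hxD
    rw [hE, Subgroup.mem_bot] at hx1
    exact (QuotientGroup.eq_one_iff x).mp hx1

end Cfsg.Agent.S0568
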