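import Cfsg.Statements.S5600
import Mathlib
import Cfsg.Agent.Helper9.M24Six
open Cfsg.Agent.Helper9 Cfsg.Agent.Helper1.Golay

set_option autoImplicit false
open scoped Pointwise
open Cfsg

namespace Cfsg.Agent.S5600

/-- Although the group of the length-24 code is only 5-transitive on the 24 points, it induces the full symmetric group on every 6-element subset: every permutation of a 6-set E is the restriction of an element of the group mapping E to itself. The pointwise stabiliser of E has order 16 when E lies in an octad and order 3 otherwise; in the latter case the setwise stabiliser of E has order 2160. -/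
theorem result (E : Finset Cfsg.GolayPt) (hE : E.card = 6) : (∀ σ : Equiv.Perm ↥E, ∃ g ∈ Cfsg.M24, ∀ p : ↥E, g p = σ p) ∧ ((∃ o ∈ Cfsg.octads, E ⊆ o) → Nat.card {g : Equiv.Perm Cfsg.GolayPt // g ∈ Cfsg.M24 ∧ ∀ p ∈ E, g p = p} = 16) ∧ ((¬ ∃ o ∈ Cfsg.octads, E ⊆ o) → Nat.card {g : Equiv.Perm Cfsg.GolayPt // g ∈ Cfsg.M24 ∧ ∀ p ∈ E, g p = p} = 3 ∧ Nat.card ↥(MulAction.stabilizer Cfsg.M24 E) = 2160) := by
  classical
  obtain ⟨q, hqE⟩ : E.Nonempty := Finset.card_pos.mp (by omega)
  have hF : (E.erase q).card = 5 := by rw [Finset.card_erase_of_mem hqE, hE]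
  have hqF : q ∉ E.erase q := Finset.notMem_erase q E
  have hEF : insert q (E.erase q) = E := Finset.insert_erase hqE
  have hFE : E.erase q ⊆ E := Finset.erase_subset _ _
  obtain ⟨O, ⟨hO, hFO⟩, hOuniq⟩ := octads_steiner.2 (E.erase q) hF
  have hcardEq : ∀ s : Finset Cfsg.GolayPt,
      Nat.card {g : Equiv.Perm Cfsg.GolayPt // g ∈ Cfsg.M24 ∧ ∀ p ∈ s, g p = p}
        = Nat.card (fixGrp s) :=
    fun s => Nat.card_congr (Equiv.subtypeEquivRight (fun g => (mem_fixGrp s g).symm))
  have key : (∃ o ∈ Cfsg.octads, E ⊆ o) ↔ q ∈ O := by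
    constructor
    · rintro ⟨o, ho, hEo⟩
      have h1 := hOuniq o ⟨ho, hFE.trans hEo⟩
      rw [← h1]
      exact hEo hqE
    · intro hq
      exact ⟨O, hO, by rw [← hEF]; exact Finset.insert_subset hq hFO⟩
  have hsym : ∀ σ : Equiv.Perm ↥E, ∃ g ∈ Cfsg.M24, ∀ p : ↥E, g p = σ p := by
    intro σ
    let f : Cfsg.GolayPt → Cfsg.GolayPt :=
      fun p => if hp : p ∈ E then (σ ⟨p, hp⟩ : Cfsg.GolayPt) else p
    have hfE : ∀ p (hp : p ∈ E), f p = σ ⟨p, hp⟩ := fun p hp => dif_pos hp
    have hfinj : Set.InjOn f E := by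
      intro a ha b hb hab
      rw [hfE a ha, hfE b hb] at hab
      have h1 := σ.injective (Subtype.ext hab)
      exact congrArg Subtype.val h1
    have hfmem : ∀ p ∈ E, f p ∈ E := fun p hp => by
      rw [hfE p hp]
      exact (σ ⟨p, hp⟩).2
    have hfinjF : Set.InjOn f (E.erase q) := hfinj.mono (by exact_mod_cast hFE)
    obtain ⟨t, ht, htF⟩ := m24_exists_map_on (E.erase q) hF f hfinjF
    have hF' : ((E.erase q).image f).card = 5 := by
      rw [Finset.card_image_of_injOn hfinjF, hF]
    have hF'E : (E.erase q).image f ⊆ E := by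
      intro p hp
      obtain ⟨a, ha, rfl⟩ := Finset.mem_image.mp hp
      exact hfmem a (hFE ha)
    have hfq : f q ∉ (E.erase q).image f := by
      intro h
      obtain ⟨a, ha, hfa⟩ := Finset.mem_image.mp h
      have h1 := hfinj (hFE ha) hqE hfa
      rw [h1] at ha
      exact hqF ha
    have htq : t q ∉ (E.erase q).image f := by
      intro h
      obtain ⟨a, ha, hfa⟩ := Finset.mem_image.mp h
      rw [← htF a ha] at hfa
      have h1 := t.injective hfa
      rw [h1] at ha
      exact hqF ha
    have hE' : insert (f q) ((E.erase q).image f) = E := by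
      apply Finset.eq_of_subset_of_card_le
      · exact Finset.insert_subset (hfmem q hqE) hF'E
      · rw [Finset.card_insert_of_notMem hfq, hF', hE]
    have hs : ∃ s ∈ fixGrp ((E.erase q).image f), s (t q) = f q := by
      by_cases hq : q ∈ O
      · have hEO : E ⊆ O := by
          rw [← hEF]
          exact Finset.insert_subset hq hFO
        have htO : t • O = O := by
          apply octads_unique (smul_octad_mem ht hO) hO
          rw [← hF']
          apply Finset.card_le_card
          intro p hp
          rw [Finset.mem_inter]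
          refine ⟨?_, hEO (hF'E hp)⟩
          obtain ⟨a, ha, rfl⟩ := Finset.mem_image.mp hp
          rw [← htF a ha]
          exact Finset.smul_mem_smul_finset (hFO ha)
        have htqO : t q ∈ O := by
          rw [← htO]
          exact Finset.smul_mem_smul_finset hq
        exact fixGrp_five_trans_in hO (hF'E.trans hEO) hF' htqO htq (hEO (hfmem q hqE)) hfq
      · obtain ⟨O', ⟨hO', hF'O'⟩, hO'uniq⟩ := octads_steiner.2 ((E.erase q).image f) hF'
        have h1 : f q ∉ O' := by
          intro h
          apply hq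
          apply key.mp
          exact ⟨O', hO', by rw [← hE']; exact Finset.insert_subset h hF'O'⟩
        have h2 : t q ∉ O' := by
          intro h
          apply hq
          have h3 : t⁻¹ • O' ∈ Cfsg.octads := smul_octad_mem (inv_mem ht) hO'
          have h4 : E.erase q ⊆ t⁻¹ • O' := by
            intro a ha
            have h5 : t a ∈ O' := by
              rw [htF a ha]
              exact hF'O' (Finset.mem_image_of_mem f ha)
            have h6 := Finset.smul_mem_smul_finset (a := t⁻¹) h5
            simpa using h6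
          have h5 := hOuniq _ ⟨h3, h4⟩
          rw [← h5]
          have h6 := Finset.smul_mem_smul_finset (a := t⁻¹) h
          simpa using h6
        obtain ⟨s, hs, hsq⟩ := fixGrp_octad_trans hO' h2 h1
        exact ⟨s, fixGrp_mono hF'O' hs, hsq⟩
    obtain ⟨s, hs, hsq⟩ := hs
    have hs' := (mem_fixGrp _ _).mp hs
    refine ⟨s * t, mul_mem hs'.1 ht, ?_⟩
    rintro ⟨p, hp⟩
    rw [Equiv.Perm.mul_apply]
    show s (t p) = (σ ⟨p, hp⟩ : Cfsg.GolayPt)
    rw [← hfE p hp]
    by_cases hpq : p = q
    · rw [hpq]
      exact hsq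
    · have hpF : p ∈ E.erase q := Finset.mem_erase.mpr ⟨hpq, hp⟩
      rw [htF p hpF]
      exact hs'.2 _ (Finset.mem_image_of_mem f hpF)
  refine ⟨hsym, ?_, ?_⟩
  · intro h
    rw [hcardEq, ← hEF]
    exact card_fixGrp_six_in hO hFO hF (key.mp h) hqF
  · intro h
    have hq : q ∉ O := fun hq => h (key.mpr hq)
    have h3 : Nat.card (fixGrp E) = 3 := by
      rw [← hEF]
      exact card_fixGrp_six_out hO hFO hF hq
    refine ⟨by rw [hcardEq]; exact h3, ?_⟩
    have hos := card_eq_orbit_mul' (G := ↥Cfsg.M24) (MulAction.stabilizer ↥Cfsg.M24 E)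
      (Subtype.val : ↥E → Cfsg.GolayPt)
    have horb : {x : ↥E → Cfsg.GolayPt | ∃ h ∈ MulAction.stabilizer ↥Cfsg.M24 E,
        h • (Subtype.val : ↥E → Cfsg.GolayPt) = x}
        = Set.range (fun σ : Equiv.Perm ↥E => fun p : ↥E => (σ p : Cfsg.GolayPt)) := by
      ext x
      constructor
      · rintro ⟨h, hh, rfl⟩
        have hh' : (h : Equiv.Perm Cfsg.GolayPt) • E = E := MulAction.mem_stabilizer_iff.mp hh
        obtain ⟨σ, hσ⟩ := exists_perm_of_smul_eq hh'
        refine ⟨σ, ?_⟩
        funext p
        exact hσ p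
      · rintro ⟨σ, rfl⟩
        obtain ⟨g, hg, hgσ⟩ := hsym σ
        have hgE : g • E = E := by
          apply Finset.eq_of_subset_of_card_le
          · intro p hp
            obtain ⟨a, ha, rfl⟩ := Finset.mem_smul_finset.mp hp
            have h5 := hgσ ⟨a, ha⟩
            rw [Equiv.Perm.smul_def]
            show g a ∈ E
            rw [h5]
            exact (σ ⟨a, ha⟩).2
          · rw [Finset.card_smul_finset]
        refine ⟨⟨g, hg⟩, MulAction.mem_stabilizer_iff.mpr hgE, ?_⟩
        funext p
        exact hgσ p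
    have hinj : Function.Injective
        (fun σ : Equiv.Perm ↥E => fun p : ↥E => (σ p : Cfsg.GolayPt)) := by
      intro σ τ hστ
      apply Equiv.ext
      intro p
      exact Subtype.ext (congrFun hστ p)
    have hn : {x : ↥E → Cfsg.GolayPt | ∃ h ∈ MulAction.stabilizer ↥Cfsg.M24 E,
        h • (Subtype.val : ↥E → Cfsg.GolayPt) = x}.ncard = 720 := by
      rw [horb, ← Nat.card_coe_set_eq, Nat.card_range_of_injective hinj, Nat.card_perm,
        Nat.card_eq_fintype_card, Fintype.card_coe, hE]
      rfl
    have hst : Nat.card ↥(MulAction.stabilizer ↥Cfsg.M24 E ⊓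
        MulAction.stabilizer ↥Cfsg.M24 (Subtype.val : ↥E → Cfsg.GolayPt)) = Nat.card (fixGrp E) := by
      apply Nat.card_congr
      exact
        { toFun := fun x => ⟨x.1.1, (mem_fixGrp _ _).mpr ⟨x.1.2, fun p hp =>
            congrFun (MulAction.mem_stabilizer_iff.mp (Subgroup.mem_inf.mp x.2).2) ⟨p, hp⟩⟩⟩
          invFun := fun g => ⟨⟨g.1, ((mem_fixGrp _ _).mp g.2).1⟩, Subgroup.mem_inf.mpr
            ⟨MulAction.mem_stabilizer_iff.mpr (by
              show (g.1 : Equiv.Perm Cfsg.GolayPt) • E = E
              ext p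
              rw [Finset.mem_smul_finset]
              constructor
              · rintro ⟨a, ha, rfl⟩
                rw [Equiv.Perm.smul_def, ((mem_fixGrp _ _).mp g.2).2 a ha]
                exact ha
              · intro hp
                exact ⟨p, hp, ((mem_fixGrp _ _).mp g.2).2 p hp⟩),
            MulAction.mem_stabilizer_iff.mpr (funext fun p =>
              ((mem_fixGrp _ _).mp g.2).2 p.1 p.2)⟩⟩
          left_inv := fun x => rfl
          right_inv := fun g => rfl }
    rw [hn, hst, h3] at hos
    exact hos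


end Cfsg.Agent.S5600
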