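import Cfsg.Statements.S0354
import Cfsg.Agent.Helper1.Steiner

set_option autoImplicit false
open Cfsg

namespace Cfsg.Agent.S0354

/-- In an S(5, 8, 24), each block is disjoint from exactly 30 blocks. -/
theorem result {α : Type*} [Fintype α] [DecidableEq α] (hα : Fintype.card α = 24) {B : Set (Finset α)} (hB : Cfsg.IsSteinerSystem 5 8 B) {b : Finset α} (hb : b ∈ B) : {c : Finset α | c ∈ B ∧ Disjoint b c}.ncard = 30 := by
  have hm := fun j hj => Cfsg.Agent.Helper1.steiner_moment hB hb j hj
  have h8 := Cfsg.Agent.Helper1.interNum_self hB hb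
  have h5 := Cfsg.Agent.Helper1.interNum_eq_zero hB hb (i := 5) (by norm_num) (by norm_num)
  have h6 := Cfsg.Agent.Helper1.interNum_eq_zero hB hb (i := 6) (by norm_num) (by norm_num)
  have h7 := Cfsg.Agent.Helper1.interNum_eq_zero hB hb (i := 7) (by norm_num) (by norm_num)
  have m4 := hm 4 (by norm_num)
  have m3 := hm 3 (by norm_num)
  have m2 := hm 2 (by norm_num)
  have m1 := hm 1 (by norm_num)
  have m0 := hm 0 (by norm_num)
  simp only [Finset.sum_range_succ, Finset.sum_range_zero, h5, h6, h7, h8, hα] at m4 m3 m2 m1 m0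
  norm_num [Nat.choose] at m4 m3 m2 m1 m0
  have n0 : Cfsg.Agent.Helper1.interNum B b 0 = 30 := by omega
  have hset : {c : Finset α | c ∈ B ∧ Disjoint b c}
      = ↑((Cfsg.Agent.Helper1.blocks B).filter (fun c => (b ∩ c).card = 0)) := by
    ext c
    rw [Finset.coe_filter, Set.mem_setOf_eq, Set.mem_setOf_eq, Cfsg.Agent.Helper1.mem_blocks,
      Finset.card_eq_zero, Finset.disjoint_iff_inter_eq_empty]
  rw [hset, Set.ncard_coe_finset]
  exact n0


end Cfsg.Agent.S0354
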