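import Cfsg.Statements.S0001
import Mathlib
import Cfsg.Agent.Helper3.SchurZ

set_option autoImplicit false
open Pointwise
open Cfsg

namespace Cfsg.Agent.S0001

open scoped Pointwise

/-- Conjugacy half of the Schur–Zassenhaus Theorem, under a solvability assumption on the normal Hall subgroup or on its quotient. -/
theorem result {G : Type*} [Group G] [Finite G] (N : Subgroup G) [N.Normal]
    (hN : (Nat.card N).Coprime N.index) (hsolv : Group.IsSolvable N ∨ Group.IsSolvable (G ⧸ N))
    (H K : Subgroup G) (hH : Subgroup.IsComplement' N H) (hK : Subgroup.IsComplement' N K) :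
    ∃ g : G, MulAut.conj g • H = K := by
  have hNH : N ⊓ H = ⊥ := disjoint_iff.mp hH.disjoint
  have hNHt := hH.sup_eq_top
  have hNK : N ⊓ K = ⊥ := disjoint_iff.mp hK.disjoint
  have hNKt := hK.sup_eq_top
  have hcop : (Nat.card N).Coprime (Nat.card H) := by
    rw [← hH.symm.index_eq_card]
    exact hN
  have hsol : Group.IsSolvable N ∨ Group.IsSolvable H := by
    rcases hsolv with h | h
    · exact Or.inl h
    · right
      haveI := h
      apply Group.isSolvable_of_isSolvable_injective (f := (QuotientGroup.mk' N).comp H.subtype)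
      intro a b hab
      have h1 : (a : G)⁻¹ * (b : G) ∈ N := QuotientGroup.eq.mp hab
      have h2 : (a : G)⁻¹ * (b : G) ∈ N ⊓ H :=
        Subgroup.mem_inf.mpr ⟨h1, H.mul_mem (H.inv_mem a.2) b.2⟩
      rw [hNH, Subgroup.mem_bot] at h2
      exact Subtype.ext (inv_mul_eq_one.mp h2)
  obtain ⟨x, -, hx⟩ := Cfsg.Agent.Helper3.sz_conj N H K hNH hNHt hNK hNKt hcop hsol
  exact ⟨x, by rw [Cfsg.Agent.Helper3.smul_conj_eq_map]; exact hx⟩

end Cfsg.Agent.S0001
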