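import Cfsg.Statements.S0011
import Mathlib

set_option autoImplicit false
open Cfsg

namespace Cfsg.Agent.S0011

/-- If the Frattini quotient of a finite group is nilpotent then the group is nilpotent. -/
theorem result {G : Type*} [Group G] [Finite G]
    (h : Group.IsNilpotent (G ⧸ frattini G)) : Group.IsNilpotent G := by
  have hcoat : ∀ H : Subgroup (G ⧸ frattini G), IsCoatom H → H.Normal :=
    ((Group.isNilpotent_of_finite_tfae (G := G ⧸ frattini G)).out 0 2).mp h
  refine ((Group.isNilpotent_of_finite_tfae (G := G)).out 0 2).mpr ?_
  intro M hM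
  have hΦM : frattini G ≤ M := frattini_le_coatom hM
  have hπs : Function.Surjective (QuotientGroup.mk' (frattini G)) := QuotientGroup.mk'_surjective _
  have hcomap : (M.map (QuotientGroup.mk' (frattini G))).comap (QuotientGroup.mk' (frattini G)) = M := by
    rw [Subgroup.comap_map_eq, QuotientGroup.ker_mk']
    exact sup_eq_left.mpr hΦM
  have hco : IsCoatom (M.map (QuotientGroup.mk' (frattini G))) := by
    refine ⟨fun htop => hM.1 ?_, fun K hK => ?_⟩
    · rw [← hcomap, htop, Subgroup.comap_top]
    · have h1 : M < K.comap (QuotientGroup.mk' (frattini G)) := by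
        have h0 := (Subgroup.comap_lt_comap_of_surjective hπs).mpr hK
        rwa [hcomap] at h0
      have h2 := hM.2 _ h1
      rw [← Subgroup.map_comap_eq_self_of_surjective hπs K, h2, Subgroup.map_top_of_surjective _ hπs]
  have hn := hcoat _ hco
  rw [← hcomap]
  exact hn.comap _


end Cfsg.Agent.S0011
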