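import Cfsg.Statements.S0013
import Mathlib
import Cfsg.Agent.Lead.PGroupFrattini

set_option autoImplicit false
open Cfsg

namespace Cfsg.Agent.S0013

/-- In a finite p-group the Frattini subgroup is the smallest normal subgroup with elementary abelian quotient: it lies below any normal subgroup containing all commutators and all p-th powers. -/
theorem result {G : Type*} [Group G] [Finite G] (p : ℕ) [Fact p.Prime]
    (hG : IsPGroup p G) (N : Subgroup G) [N.Normal] (hcomm : commutator G ≤ N) (hpow : ∀ x : G, x ^ p ∈ N) :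
    frattini G ≤ N := by
  classical
  have hp : p.Prime := Fact.out
  intro x hx
  by_contra hxN
  obtain ⟨M, hNM, ⟨⟨hNM', hxM⟩, hmax⟩⟩ := Finite.exists_le_maximal (p := fun K : Subgroup G => N ≤ K ∧ x ∉ K) (a := N) ⟨le_rfl, hxN⟩
  have hMn : M.Normal := by
    constructor
    intro m hm g
    have : g * m * g⁻¹ = (g * m * g⁻¹ * m⁻¹) * m := by group
    rw [this]
    refine M.mul_mem (hNM (hcomm ?_)) hm
    exact Subgroup.commutator_mem_commutator (Subgroup.mem_top g) (Subgroup.mem_top m)
  have hkey : ∀ y : G, y ∈ M ⊔ Subgroup.zpowers x := by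
    intro y
    by_cases hy : y ∈ M
    · exact (le_sup_left : M ≤ M ⊔ Subgroup.zpowers x) hy
    · have hx' : x ∈ M ⊔ Subgroup.zpowers y := by
        by_contra hcon
        have := hmax (y := M ⊔ Subgroup.zpowers y) ⟨hNM.trans le_sup_left, hcon⟩ le_sup_left
        exact hy (this ((le_sup_right : Subgroup.zpowers y ≤ _) (Subgroup.mem_zpowers y)))
      rw [Subgroup.mem_sup_of_normal_left] at hx'
      obtain ⟨m, hm, z, hz, hmz⟩ := hx'
      obtain ⟨i, rfl⟩ := Subgroup.mem_zpowers_iff.mp hz
      have hpi : ¬ (p : ℤ) ∣ i := by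
        rintro ⟨j, rfl⟩
        apply hxM
        rw [← hmz]
        refine M.mul_mem hm ?_
        rw [zpow_mul, zpow_natCast]
        exact M.zpow_mem (hNM (hpow y)) j
      have hcop : IsCoprime (p : ℤ) i := (Nat.prime_iff_prime_int.mp hp).irreducible.coprime_iff_not_dvd.mpr hpi
      obtain ⟨a, b, hab⟩ := hcop
      have hy1 : y = (y ^ (p : ℤ)) ^ a * (y ^ i) ^ b := by
        rw [← zpow_mul, ← zpow_mul, ← zpow_add, mul_comm (p : ℤ) a, mul_comm i b, hab, zpow_one]
      rw [hy1]
      refine Subgroup.mul_mem _ (Subgroup.zpow_mem _ ?_ a) (Subgroup.zpow_mem _ ?_ b)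
      · rw [zpow_natCast]; exact (le_sup_left : M ≤ _) (hNM (hpow y))
      · have h2 : y ^ i = m⁻¹ * x := by rw [← hmz]; group
        rw [h2]
        exact Subgroup.mul_mem _ ((le_sup_left : M ≤ _) (M.inv_mem hm)) ((le_sup_right : Subgroup.zpowers x ≤ _) (Subgroup.mem_zpowers x))
  have hcoatom : IsCoatom M := by
    refine ⟨fun h => hxM (h ▸ Subgroup.mem_top x), fun K hK => ?_⟩
    have hxK : x ∈ K := by
      by_contra hcon
      have := hmax (y := K) ⟨hNM.trans hK.le, hcon⟩ hK.le
      exact (not_le_of_gt hK) this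
    rw [eq_top_iff]
    intro y _
    have := hkey y
    exact (sup_le hK.le (by rwa [Subgroup.zpowers_le])) this
  exact hxM ((Cfsg.Agent.Lead.mem_frattini_iff x).mp hx M hcoatom)


end Cfsg.Agent.S0013
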