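import Cfsg.Statements.S0014
import Cfsg.Agent.Helper7.FrattiniQuot

set_option autoImplicit false
open Cfsg

namespace Cfsg.Agent.S0014

/-- Burnside's basis Theorem: in a finite p-group whose Frattini quotient has order p ^ n, every generating set contains n elements that already generate, and no set with fewer than n elements generates. -/
theorem result {G : Type*} [Group G] [Finite G] (p n : ℕ) [Fact p.Prime]
    (hG : IsPGroup p G) (hn : (frattini G).index = p ^ n) :
    (∀ S : Finset G, Subgroup.closure (S : Set G) = ⊤ → ∃ T : Finset G, T ⊆ S ∧ T.card = n ∧ Subgroup.closure (T : Set G) = ⊤) ∧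
    (∀ T : Finset G, Subgroup.closure (T : Set G) = ⊤ → n ≤ T.card) := by
  classical
  obtain ⟨V, i1, i2, i3, f, hf, hker⟩ := Cfsg.Agent.Helper7.exists_frattini_module p hG
  have hfr : Module.finrank (ZMod p) V = n :=
    Cfsg.Agent.Helper7.finrank_of_frattini_index p f hf (by rw [hker]; exact hn)
  refine ⟨?_, ?_⟩
  · intro S hS
    have hspan := Cfsg.Agent.Helper7.span_eq_top_of_closure_eq_top p f hf (S : Set G) hS
    obtain ⟨b, hbS, hbspan, hbli⟩ := exists_linearIndependent (ZMod p)
      ((fun x => Multiplicative.toAdd (f x)) '' (S : Set G))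
    rw [hspan] at hbspan
    have hch : ∀ y : b, ∃ x ∈ S, Multiplicative.toAdd (f x) = (y : V) := fun y => by
      obtain ⟨x, hx, hxy⟩ := hbS y.2
      exact ⟨x, hx, hxy⟩
    choose c hcS hcφ using hch
    haveI : Fintype b := Fintype.ofFinite b
    have hcinj : Function.Injective c := by
      intro y₁ y₂ h12
      apply Subtype.ext
      rw [← hcφ y₁, ← hcφ y₂, h12]
    refine ⟨Finset.univ.image c, ?_, ?_, ?_⟩
    · intro x hx
      obtain ⟨y, -, rfl⟩ := Finset.mem_image.mp hx
      exact hcS y
    · rw [Finset.card_image_of_injective _ hcinj, Finset.card_univ]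
      have h1 := finrank_span_eq_card hbli
      rw [Subtype.range_coe, hbspan, finrank_top, hfr] at h1
      exact h1.symm
    · apply Cfsg.Agent.Helper7.closure_eq_top_of_span_eq_top p f (le_of_eq hker)
      have himg : (fun x => Multiplicative.toAdd (f x)) '' ((Finset.univ.image c : Finset G) : Set G) = b := by
        ext v
        simp only [Set.mem_image, Finset.coe_image, Finset.coe_univ, Set.image_univ, Set.mem_range]
        constructor
        · rintro ⟨x, ⟨y, rfl⟩, rfl⟩
          rw [hcφ y]; exact y.2
        · intro hv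
          exact ⟨c ⟨v, hv⟩, ⟨⟨v, hv⟩, rfl⟩, hcφ ⟨v, hv⟩⟩
      rw [himg, hbspan]
  · intro T hT
    have hspan := Cfsg.Agent.Helper7.span_eq_top_of_closure_eq_top p f hf (T : Set G) hT
    have h1 := finrank_span_finset_le_card (R := ZMod p) (T.image (fun x => Multiplicative.toAdd (f x)))
    rw [Finset.coe_image, Set.finrank, hspan, finrank_top, hfr] at h1
    exact h1.trans Finset.card_image_le

end Cfsg.Agent.S0014
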