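import Cfsg.Statements.S0044
import Mathlib

set_option autoImplicit false
open Cfsg

namespace Cfsg.Agent.S0044

open scoped commutatorElement

/-- In a finite solvable group, the centraliser of the Fitting subgroup is contained in the Fitting subgroup. -/
theorem result {G : Type*} [Group G] [Finite G] [Group.IsSolvable G] :
    Subgroup.centralizer (Cfsg.fittingSubgroup G : Set G) ≤ Cfsg.fittingSubgroup G := by
  classical
  set F := Cfsg.fittingSubgroup G with hF
  have hFn : F.Normal := Subgroup.sSup_normal _ fun _ hN => hN.1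
  set C : Subgroup G := Subgroup.centralizer (F : Set G) with hC
  have hCn : C.Normal := Subgroup.normal_centralizer
  by_contra hCF
  obtain ⟨D, hD0, hDs⟩ : ∃ D : ℕ → Subgroup G, D 0 = C ∧ ∀ n, D (n + 1) = ⁅D n, D n⁆ :=
    ⟨fun n => (fun X : Subgroup G => ⁅X, X⁆)^[n] C, rfl,
      fun n => Function.iterate_succ_apply' _ n C⟩
  have hDn : ∀ n, (D n).Normal := by
    intro n
    induction n with
    | zero => rw [hD0]; exact hCn
    | succ n ih => rw [hDs]; exact Subgroup.commutator_normal (h₁ := ih) (h₂ := ih)
  have hself : ∀ X : Subgroup G, ⁅X, X⁆ ≤ X := by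
    intro X
    rw [Subgroup.commutator_le]
    intro a ha b hb
    rw [commutatorElement_def]
    exact X.mul_mem (X.mul_mem (X.mul_mem ha hb) (inv_mem ha)) (inv_mem hb)
  have hDC : ∀ n, D n ≤ C := by
    intro n
    induction n with
    | zero => rw [hD0]
    | succ n ih => rw [hDs]; exact (hself _).trans ih
  have hDmap : ∀ n, D n = (derivedSeries C n).map C.subtype := by
    intro n
    induction n with
    | zero =>
      rw [hD0, derivedSeries_zero, ← MonoidHom.range_eq_map, Subgroup.range_subtype]
    | succ n ih =>
      rw [hDs, derivedSeries_succ, Subgroup.map_commutator, ← ih]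
  have hex : ∃ n, D n ≤ F := by
    obtain ⟨n, hn⟩ := (Group.isSolvable_def C).mp inferInstance
    exact ⟨n, by rw [hDmap, hn, Subgroup.map_bot]; exact bot_le⟩
  have hFC : ⁅F, C⁆ = ⊥ := by
    rw [Subgroup.commutator_eq_bot_iff_le_centralizer]
    intro f hf
    rw [Subgroup.mem_centralizer_iff]
    intro c hc
    exact ((Subgroup.mem_centralizer_iff.mp hc) f hf).symm
  have key : ∀ n, D n ≤ F → C ≤ F := by
    intro n
    induction n with
    | zero => rw [hD0]; exact fun h => h
    | succ m ih =>
      intro hM'F
      rw [hDs] at hM'F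
      apply ih
      have hnil : Group.IsNilpotent ↥(D m) := by
        apply Subgroup.isNilpotent_of_lowerCentralSeries_eq_bot (n := 2)
        rw [Subgroup.lowerCentralSeries_succ, Subgroup.lowerCentralSeries_succ,
          Subgroup.lowerCentralSeries_zero, eq_bot_iff, ← hFC]
        exact Subgroup.commutator_mono hM'F (hDC m)
      exact le_sSup ⟨hDn m, hnil⟩
  obtain ⟨n, hn⟩ := hex
  exact hCF (key n hn)


end Cfsg.Agent.S0044
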