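import Cfsg.Statements.S0017
import Mathlib
import Cfsg.Agent.S0044
import Cfsg.Agent.Lead.Fitting

set_option autoImplicit false
open Cfsg

namespace Cfsg.Agent.S0017

/-- In a finite solvable group whose largest normal subgroup of order prime to p is trivial, the centralizer of the p-core is contained in the p-core. -/
theorem result {G : Type*} [Group G] [Finite G] [Group.IsSolvable G] (p : ℕ) [Fact p.Prime]
    (h : Cfsg.pPrimeCore p G = ⊥) :
    Subgroup.centralizer (Cfsg.pCore p G : Set G) ≤ Cfsg.pCore p G := by
  have hF : Cfsg.fittingSubgroup G = Cfsg.pCore p G := by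
    rw [Lead.fitting_eq_iSup_pCore]
    apply le_antisymm
    · apply iSup_le
      intro q
      by_cases hq : (q : ℕ) = p
      · rw [hq]
      · haveI : Fact (q : ℕ).Prime := ⟨q.2⟩
        obtain ⟨hn, hpg⟩ := Lead.pCore_normal_isPGroup (G := G) (q : ℕ)
        have hcop : (Nat.card (Cfsg.pCore (q : ℕ) G)).Coprime p := by
          obtain ⟨k, hk⟩ := IsPGroup.iff_card.mp hpg
          rw [hk]
          exact Nat.Coprime.pow_left k ((Nat.coprime_primes q.2 (Fact.out)).mpr hq)
        have : Cfsg.pCore (q : ℕ) G ≤ Cfsg.pPrimeCore p G := le_sSup ⟨hn, hcop⟩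
        rw [h] at this
        exact this.trans bot_le
    · exact le_iSup (fun q : Nat.Primes => Cfsg.pCore (q : ℕ) G) ⟨p, Fact.out⟩
  have := Cfsg.Agent.S0044.result (G := G)
  rw [hF] at this
  exact this


end Cfsg.Agent.S0017
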