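import Cfsg.Statements.S0018
import Mathlib
import Cfsg.Agent.S0017
import Cfsg.Agent.Lead.Fitting
import Cfsg.Agent.Lead.Coprime3
import Cfsg.Agent.Lead.Hall

set_option autoImplicit false
open Cfsg

namespace Cfsg.Agent.S0018

theorem pPrimeCore_normal_coprime {G : Type*} [Group G] [Finite G] (p : ℕ) :
    (Cfsg.pPrimeCore p G).Normal ∧ (Nat.card (Cfsg.pPrimeCore p G)).Coprime p :=
  Lead.sSup_induction_normal (C := fun A : Subgroup G => (Nat.card A).Coprime p) (by simp)
    (fun A B hA hB cA cB => by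
      haveI := hA
      exact Nat.Coprime.coprime_dvd_left (Lead.card_sup_dvd_of_normal A B)
        (Nat.Coprime.mul_left cA cB)) _
    (fun N hN => hN)

/-- A finite solvable group whose Sylow p-subgroups are abelian has p-length one: a Sylow p-subgroup together with the largest normal subgroup of order prime to p generates a normal subgroup. -/
theorem result {G : Type*} [Group G] [Finite G] [Group.IsSolvable G]
    (p : ℕ) [Fact p.Prime] (P : Sylow p G) (hP : IsMulCommutative P) :
    ((P : Subgroup G) ⊔ Cfsg.pPrimeCore p G).Normal := by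
  obtain ⟨hNn, hNc⟩ := pPrimeCore_normal_coprime (G := G) p
  set N := Cfsg.pPrimeCore p G with hN
  let π := QuotientGroup.mk' N
  have hπs : Function.Surjective π := QuotientGroup.mk'_surjective N
  have hker : π.ker = N := QuotientGroup.ker_mk' N
  have h1 : Cfsg.pPrimeCore p (G ⧸ N) = ⊥ := by
    apply le_antisymm _ bot_le
    apply sSup_le
    rintro M' ⟨hM'n, hM'c⟩
    have hMn : (M'.comap π).Normal := hM'n.comap π
    have hMc : (Nat.card (M'.comap π)).Coprime p := by
      rw [Lead.card_comap_mk' N M']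
      exact Nat.Coprime.mul_left hM'c hNc
    have hle : M'.comap π ≤ N := le_sSup ⟨hMn, hMc⟩
    rw [← Subgroup.map_comap_eq_self_of_surjective hπs M']
    have hbot : (M'.comap π).map π = ⊥ := (Subgroup.map_eq_bot_iff _).mpr (by rw [hker]; exact hle)
    rw [hbot]
  have h2 := Cfsg.Agent.S0017.result (G := G ⧸ N) p h1
  set P' : Subgroup (G ⧸ N) := (P : Subgroup G).map π with hP'
  have hPN : (P : Subgroup G) ⊓ N = ⊥ := by
    apply (Subgroup.disjoint_of_coprime_natCard _).eq_bot
    obtain ⟨k, hk⟩ := IsPGroup.iff_card.mp P.isPGroup'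
    rw [hk]; exact Nat.Coprime.pow_left k hNc.symm
  have hP'card : Nat.card P' = Nat.card P :=
    Lead.card_map_of_inf_ker π P (by rw [hker]; exact hPN)
  have hfac : (Nat.card (G ⧸ N)).factorization p = (Nat.card G).factorization p := by
    have h3 : Nat.card G = Nat.card (G ⧸ N) * Nat.card N := by
      rw [← Subgroup.index_eq_card, mul_comm, Subgroup.card_mul_index]
    rw [h3, Nat.factorization_mul (Nat.card_pos.ne') (Nat.card_pos.ne')]
    have : (Nat.card N).factorization p = 0 :=
      Nat.factorization_eq_zero_of_not_dvd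
        ((Nat.Prime.coprime_iff_not_dvd Fact.out).mp hNc.symm)
    simp [this]
  let Ps : Sylow p (G ⧸ N) := Sylow.ofCard P' (by rw [hP'card, P.card_eq_multiplicity, hfac])
  have h4 : Cfsg.pCore p (G ⧸ N) ≤ P' := by
    obtain ⟨hOn, hOp⟩ := Lead.pCore_normal_isPGroup (G := G ⧸ N) p
    haveI := hOn
    exact Lead.normal_pgroup_le_sylow p _ hOp Ps
  have h5 : P' ≤ Subgroup.centralizer (Cfsg.pCore p (G ⧸ N) : Set (G ⧸ N)) := by
    intro x hx
    rw [Subgroup.mem_centralizer_iff]
    intro y hy
    obtain ⟨a, ha, rfl⟩ := Subgroup.mem_map.mp hx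
    obtain ⟨b, hb, rfl⟩ := Subgroup.mem_map.mp (h4 hy)
    rw [← map_mul, ← map_mul]
    congr 1
    have := hP.is_comm.comm ⟨b, hb⟩ ⟨a, ha⟩
    exact congrArg Subtype.val this
  have h6 : P' = Cfsg.pCore p (G ⧸ N) := le_antisymm (h5.trans h2) h4
  have h7 : (P : Subgroup G) ⊔ N = P'.comap π := by
    rw [hP', Subgroup.comap_map_eq, hker]
  rw [h7, h6]
  exact (Lead.pCore_normal_isPGroup (G := G ⧸ N) p).1.comap π


end Cfsg.Agent.S0018
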