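import Cfsg.Statements.S0027
import Mathlib
import Cfsg.Agent.Lead.Coprime2

set_option autoImplicit false
open Cfsg

namespace Cfsg.Agent.S0027

open scoped commutatorElement

/-- Under coprime action the commutator subgroup with A is stable: taking the commutator with A twice gives the same subgroup as once. -/
theorem result {G : Type*} [Group G] [Finite G] (A K : Subgroup G) (hAK : A ≤ Subgroup.normalizer (K : Set G))
    (hcop : (Nat.card A).Coprime (Nat.card K)) (hsolv : Group.IsSolvable A ∨ Group.IsSolvable K) :
    ⁅⁅K, A⁆, A⁆ = ⁅K, A⁆ := by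
  apply le_antisymm
  · exact Subgroup.commutator_mono (Lead.commutator_le_left_of_normalizer K A hAK) le_rfl
  · rw [Subgroup.commutator_le]
    intro k hk a ha
    obtain ⟨n, hn, c, hc, rfl⟩ := Lead.coprime_decomp A K hAK hcop hsolv k hk
    rw [commutatorElement_mul_left_eq_conj_mul]
    have hca : ⁅c, a⁆ = 1 := by
      rw [commutatorElement_eq_one_iff_mul_comm]
      exact ((Subgroup.mem_centralizer_iff.mp (Subgroup.mem_inf.mp hc).2) a ha).symm
    rw [hca, mul_one, mul_inv_cancel, one_mul]
    exact Subgroup.commutator_mem_commutator hn ha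


end Cfsg.Agent.S0027
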