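import Cfsg.Statements.S0028
import Mathlib
import Cfsg.Agent.S0027

set_option autoImplicit false
open Cfsg

namespace Cfsg.Agent.S0028

open scoped commutatorElement

/-- a `p`-group acting on a nontrivial `p`-group cannot have full commutator -/
theorem eq_bot_of_commutator_eq {G : Type*} [Group G] [Finite G] (p : ℕ) [Fact p.Prime]
    (P U : Subgroup G) (hP : IsPGroup p P) (hU : IsPGroup p U)
    (hPU : P ≤ Subgroup.normalizer (U : Set G)) (h : ⁅U, P⁆ = U) : U = ⊥ := by
  have hR : IsPGroup p (U ⊔ P : Subgroup G) := IsPGroup.to_sup_of_normal_left' hU hP hPU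
  have hnil : Group.IsNilpotent (U ⊔ P : Subgroup G) := hR.isNilpotent
  obtain ⟨n, hn⟩ := (Subgroup.isNilpotent_iff_lowerCentralSeries (U ⊔ P)).mp hnil
  have key : ∀ m, U ≤ (U ⊔ P).lowerCentralSeries m := by
    intro m
    induction m with
    | zero => exact le_sup_left
    | succ m ih =>
      rw [Subgroup.lowerCentralSeries_succ]
      calc U = ⁅U, P⁆ := h.symm
        _ ≤ ⁅(U ⊔ P).lowerCentralSeries m, U ⊔ P⁆ := Subgroup.commutator_mono ih le_sup_right
  rw [eq_bot_iff, ← hn]
  exact key n

theorem aux (G : Type*) [Group G] [Finite G] (p : ℕ) [Fact p.Prime]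
    (P Q : Subgroup G) (hP : IsPGroup p P) (hQ : (Nat.card Q).Coprime p)
    (hPQ : P ≤ Subgroup.centralizer (Q : Set G)) :
    ∀ n : ℕ, ∀ U : Subgroup G, Nat.card U = n → IsPGroup p U →
      P ≤ Subgroup.normalizer (U : Set G) → Q ≤ Subgroup.normalizer (U : Set G) →
      U ⊓ Subgroup.centralizer (P : Set G) ≤ Subgroup.centralizer (Q : Set G) →
      ⁅U, Q⁆ = ⊥ := by
  intro n
  induction n using Nat.strong_induction_on with
  | _ n ih =>
    intro U hn hU hPU hQU hC
    have hcomm : ∀ x ∈ P, ∀ y ∈ Q, y * x = x * y := fun x hx y hy =>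
      Subgroup.mem_centralizer_iff.mp (hPQ hx) y hy
    have hcop : (Nat.card Q).Coprime (Nat.card U) := by
      obtain ⟨k, hk⟩ := IsPGroup.iff_card.mp hU
      rw [hk]; exact Nat.Coprime.pow_right k hQ
    have hUnil : Group.IsNilpotent U := hU.isNilpotent
    have hUsolv : Group.IsSolvable U := inferInstance
    set V : Subgroup G := ⁅U, Q⁆ with hV
    have hVU : V ≤ U := Lead.commutator_le_left_of_normalizer U Q hQU
    have hVV : ⁅V, Q⁆ = V := Cfsg.Agent.S0027.result Q U hQU hcop (Or.inr hUsolv)
    have hQV : Q ≤ Subgroup.normalizer (V : Set G) := Lead.le_normalizer_commutator_right U Q hQU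
    -- P normalises V
    have hPVc : ∀ x ∈ P, ∀ h ∈ V, x * h * x⁻¹ ∈ V := by
      intro x hx h hh
      have : V ≤ V.comap (MulAut.conj x).toMonoidHom := by
        rw [hV, Subgroup.commutator_le]
        intro u hu q hq
        rw [Subgroup.mem_comap]
        show x * ⁅u, q⁆ * x⁻¹ ∈ ⁅U, Q⁆
        rw [conjugate_commutatorElement]
        have e : x * q * x⁻¹ = q := by
          have := hcomm x hx q hq
          calc x * q * x⁻¹ = q * x * x⁻¹ := by rw [this]
            _ = q := by group
        rw [e]
        exact Subgroup.commutator_mem_commutator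
          ((Subgroup.mem_normalizer_iff.mp (hPU hx) u).mp hu) hq
      exact this hh
    have hPV : P ≤ Subgroup.normalizer (V : Set G) := by
      intro x hx
      rw [Subgroup.mem_normalizer_iff]
      intro h
      constructor
      · exact hPVc x hx h
      · intro hh
        have := hPVc x⁻¹ (inv_mem hx) _ hh
        have e : x⁻¹ * (x * h * x⁻¹) * x⁻¹⁻¹ = h := by group
        rwa [e] at this
    by_cases hVeq : V = U
    · -- V = U : look at W = ⁅U, P⁆
      set W : Subgroup G := ⁅U, P⁆ with hW
      have hWU : W ≤ U := Lead.commutator_le_left_of_normalizer U P hPU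
      have hPW : P ≤ Subgroup.normalizer (W : Set G) :=
        Lead.le_normalizer_commutator_right U P hPU
      have hQWc : ∀ y ∈ Q, ∀ h ∈ W, y * h * y⁻¹ ∈ W := by
        intro y hy h hh
        have : W ≤ W.comap (MulAut.conj y).toMonoidHom := by
          rw [hW, Subgroup.commutator_le]
          intro u hu x hx
          rw [Subgroup.mem_comap]
          show y * ⁅u, x⁆ * y⁻¹ ∈ ⁅U, P⁆
          rw [conjugate_commutatorElement]
          have e : y * x * y⁻¹ = x := by
            have := hcomm x hx y hy
            calc y * x * y⁻¹ = x * y * y⁻¹ := by rw [this]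
              _ = x := by group
          rw [e]
          exact Subgroup.commutator_mem_commutator
            ((Subgroup.mem_normalizer_iff.mp (hQU hy) u).mp hu) hx
        exact this hh
      have hQW : Q ≤ Subgroup.normalizer (W : Set G) := by
        intro y hy
        rw [Subgroup.mem_normalizer_iff]
        intro h
        constructor
        · exact hQWc y hy h
        · intro hh
          have := hQWc y⁻¹ (inv_mem hy) _ hh
          have e : y⁻¹ * (y * h * y⁻¹) * y⁻¹⁻¹ = h := by group
          rwa [e] at this
      by_cases hWeq : W = U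
      · have hUbot : U = ⊥ := eq_bot_of_commutator_eq p P U hP hU hPU hWeq
        rw [← hVeq] at hUbot
        exact hUbot
      · have hlt : Nat.card W < n := by
          rw [← hn]
          by_contra hcon
          push Not at hcon
          exact hWeq (Subgroup.eq_of_le_of_card_ge hWU hcon)
        have h1 : ⁅W, Q⁆ = ⊥ := ih _ hlt W rfl (hU.to_le hWU) hPW hQW
          ((inf_le_inf_right _ hWU).trans hC)
        have h2 : ⁅⁅P, Q⁆, U⁆ = ⊥ := by
          have : ⁅P, Q⁆ = ⊥ := Subgroup.commutator_eq_bot_iff_le_centralizer.mpr hPQ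
          rw [this, Subgroup.commutator_bot_left]
        have h3 : ⁅⁅Q, U⁆, P⁆ = ⊥ := Subgroup.commutator_commutator_eq_bot_of_rotate h1 h2
        rw [Subgroup.commutator_comm Q U, ← hV, hVeq] at h3
        have h4 : U ≤ Subgroup.centralizer (P : Set G) :=
          Subgroup.commutator_eq_bot_iff_le_centralizer.mp h3
        have h5 : U ≤ Subgroup.centralizer (Q : Set G) := (le_inf (le_refl U) h4).trans hC
        exact Subgroup.commutator_eq_bot_iff_le_centralizer.mpr h5
    · have hlt : Nat.card V < n := by
        rw [← hn]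
        by_contra hcon
        push Not at hcon
        exact hVeq (Subgroup.eq_of_le_of_card_ge hVU hcon)
      have h1 : ⁅V, Q⁆ = ⊥ := ih _ hlt V rfl (hU.to_le hVU) hPV hQV
        ((inf_le_inf_right _ hVU).trans hC)
      rw [hVV] at h1
      exact h1

/-- Thompson's P × Q Lemma: let a p-subgroup P and a subgroup Q of order prime to p centralise each other and normalise a p-subgroup U; if every element of U fixed by P is fixed by Q, then Q centralises U. -/
theorem result {G : Type*} [Group G] [Finite G] (p : ℕ) [Fact p.Prime]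
    (P Q U : Subgroup G) (hP : IsPGroup p P) (hQ : (Nat.card Q).Coprime p) (hU : IsPGroup p U)
    (hPQ : P ≤ Subgroup.centralizer (Q : Set G))
    (hPU : P ≤ Subgroup.normalizer (U : Set G)) (hQU : Q ≤ Subgroup.normalizer (U : Set G))
    (hC : U ⊓ Subgroup.centralizer (P : Set G) ≤ Subgroup.centralizer (Q : Set G)) :
    Q ≤ Subgroup.centralizer (U : Set G) := by
  have h := aux G p P Q hP hQ hPQ _ U rfl hU hPU hQU hC
  have h1 : U ≤ Subgroup.centralizer (Q : Set G) :=
    Subgroup.commutator_eq_bot_iff_le_centralizer.mp h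
  intro q hq
  rw [Subgroup.mem_centralizer_iff]
  intro u hu
  exact ((Subgroup.mem_centralizer_iff.mp (h1 hu)) q hq).symm


end Cfsg.Agent.S0028
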