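import Cfsg.Statements.S0030
import Mathlib
import Cfsg.Agent.Lead.Coprime

set_option autoImplicit false
open Cfsg

namespace Cfsg.Agent.S0030

/-- Under coprime action fixed points of a product of two invariant subgroups factor: if K = X Y with X and Y normalised by A then every A-fixed element of K is a product of an A-fixed element of X and an A-fixed element of Y. -/
theorem result {G : Type*} [Group G] [Finite G] (A K : Subgroup G) (hAK : A ≤ Subgroup.normalizer (K : Set G))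
    (hcop : (Nat.card A).Coprime (Nat.card K)) (hsolv : Group.IsSolvable A ∨ Group.IsSolvable K)
    (X Y : Subgroup G) (hX : X ≤ K) (hY : Y ≤ K) (hXA : A ≤ Subgroup.normalizer (X : Set G)) (hYA : A ≤ Subgroup.normalizer (Y : Set G))
    (hXY : ∀ k ∈ K, ∃ x ∈ X, ∃ y ∈ Y, k = x * y) (k : G) (hk : k ∈ K ⊓ Subgroup.centralizer (A : Set G)) :
    ∃ x ∈ X ⊓ Subgroup.centralizer (A : Set G), ∃ y ∈ Y ⊓ Subgroup.centralizer (A : Set G), k = x * y := by
  obtain ⟨hkK, hkC⟩ := Subgroup.mem_inf.mp hk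
  have hkc : ∀ a ∈ A, a * k = k * a := fun a ha => Subgroup.mem_centralizer_iff.mp hkC a ha
  set D : Subgroup G := X ⊓ Y with hD
  have hDK : D ≤ K := inf_le_left.trans hX
  have hAD : A ≤ Subgroup.normalizer (D : Set G) :=
    (le_inf hXA hYA).trans Subgroup.inf_normalizer_le_normalizer_inf
  have hcopD : (Nat.card A).Coprime (Nat.card D) :=
    Nat.Coprime.coprime_dvd_right (Subgroup.card_dvd_of_le hDK) hcop
  let S : Set (G ⧸ A) := {q | ∃ z ∈ X, z * k ∈ Y ∧ q = (z : G ⧸ A)}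
  have hS : S.Nonempty := by
    obtain ⟨x, hx, y, hy, hxy⟩ := hXY k hkK
    refine ⟨((x⁻¹ : G) : G ⧸ A), x⁻¹, inv_mem hx, ?_, rfl⟩
    rw [hxy]; simpa using hy
  have hinvA : ∀ a ∈ A, ∀ q ∈ S, a • q ∈ S := by
    rintro a ha q ⟨z, hz, hzk, rfl⟩
    refine ⟨a * z * a⁻¹, (Subgroup.mem_normalizer_iff.mp (hXA ha) z).mp hz, ?_, ?_⟩
    · have e : a * z * a⁻¹ * k = a * (z * k) * a⁻¹ := by
        have := hkc a⁻¹ (inv_mem ha)
        calc a * z * a⁻¹ * k = a * z * (a⁻¹ * k) := by group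
          _ = a * z * (k * a⁻¹) := by rw [this]
          _ = a * (z * k) * a⁻¹ := by group
      rw [e]
      exact (Subgroup.mem_normalizer_iff.mp (hYA ha) _).mp hzk
    · rw [MulAction.Quotient.smul_coe, QuotientGroup.eq]
      have e : (a • z)⁻¹ * (a * z * a⁻¹) = a⁻¹ := by
        rw [smul_eq_mul]; group
      rw [e]; exact inv_mem ha
  have hinvD : ∀ d ∈ D, ∀ q ∈ S, d • q ∈ S := by
    rintro d hd q ⟨z, hz, hzk, rfl⟩
    obtain ⟨hdX, hdY⟩ := Subgroup.mem_inf.mp hd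
    refine ⟨d * z, mul_mem hdX hz, ?_, rfl⟩
    rw [mul_assoc]; exact mul_mem hdY hzk
  have htrans : ∀ q ∈ S, ∀ q' ∈ S, ∃ d ∈ D, d • q = q' := by
    rintro q ⟨z, hz, hzk, rfl⟩ q' ⟨z', hz', hzk', rfl⟩
    refine ⟨z' * z⁻¹, Subgroup.mem_inf.mpr ⟨mul_mem hz' (inv_mem hz), ?_⟩, ?_⟩
    · have e : z' * z⁻¹ = (z' * k) * (z * k)⁻¹ := by group
      rw [e]; exact mul_mem hzk' (inv_mem hzk)
    · rw [MulAction.Quotient.smul_coe]
      congr 1
      rw [smul_eq_mul]; group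
  obtain ⟨⟨q, ⟨z, hz, hzk, rfl⟩, hfix⟩, _⟩ := Lead.glauberman A D hAD hcopD
    (Lead.solv_or_of_le hsolv hDK) S hS hinvA hinvD htrans
  have hzc : z ∈ Subgroup.centralizer (A : Set G) := by
    apply Lead.mem_centralizer_of_conj_mem A K hAK
      ((Subgroup.disjoint_of_coprime_natCard hcop).eq_bot) z (hX hz)
    intro a ha
    have h1 := hfix a⁻¹ (inv_mem ha)
    rw [MulAction.Quotient.smul_coe, QuotientGroup.eq] at h1
    have e : (a⁻¹ • z)⁻¹ * z = z⁻¹ * a * z := by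
      rw [smul_eq_mul]; group
    rwa [e] at h1
  refine ⟨z⁻¹, Subgroup.mem_inf.mpr ⟨inv_mem hz, inv_mem hzc⟩, z * k,
    Subgroup.mem_inf.mpr ⟨hzk, mul_mem hzc hkC⟩, by group⟩


end Cfsg.Agent.S0030
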