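import Cfsg.Statements.S0039
import Mathlib
import Cfsg.Agent.Lead.SylowBasic

set_option autoImplicit false
open Cfsg

namespace Cfsg.Agent.S0039

open scoped Pointwise

/-- In a finite group that is a semidirect product of a normal subgroup K by a nontrivial subgroup H, H is a Frobenius complement exactly when each nonidentity element of H acts without nonidentity fixed points on K by conjugation. -/
theorem result {G : Type*} [Group G] [Finite G] (K H : Subgroup G) [K.Normal]
    (hc : Subgroup.IsComplement' K H) (hK : K ≠ ⊥) (hH : H ≠ ⊥) :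
    Cfsg.IsFrobeniusComplement H ↔ ∀ h ∈ H, h ≠ 1 → K ⊓ Subgroup.centralizer {h} = ⊥ := by
  classical
  have hdisj : K ⊓ H = ⊥ := hc.disjoint.eq_bot
  have hprod : ∀ g : G, ∃ k ∈ K, ∃ h ∈ H, g = k * h := by
    intro g
    have hg : g ∈ K ⊔ H := hc.sup_eq_top ▸ Subgroup.mem_top g
    rw [Subgroup.mem_sup_of_normal_left] at hg
    obtain ⟨x, hx, y, hy, rfl⟩ := hg
    exact ⟨x, hx, y, hy, rfl⟩
  constructor
  · rintro ⟨-, -, hfrob⟩ h hh hh1
    rw [eq_bot_iff]
    rintro k ⟨hkK, hkC⟩
    rw [Subgroup.mem_bot]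
    by_contra hk1
    have hkH : k ∉ H := by
      intro hkH
      have : k ∈ K ⊓ H := ⟨hkK, hkH⟩
      rw [hdisj, Subgroup.mem_bot] at this
      exact hk1 this
    have h2 := hfrob k hkH
    have h3 : h ∈ H ⊓ MulAut.conj k • H := by
      refine Subgroup.mem_inf.mpr ⟨hh, ?_⟩
      rw [Cfsg.Agent.Lead.mem_conj_smul_iff]
      have h4 : k * h = h * k := Subgroup.mem_centralizer_singleton_iff.mp hkC
      have h5 : k⁻¹ * h * k = h := by
        rw [mul_assoc, ← h4]; group
      rw [h5]; exact hh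
    rw [h2, Subgroup.mem_bot] at h3
    exact hh1 h3
  · intro hfpf
    refine ⟨hH, ?_, ?_⟩
    · intro htop
      apply hK
      rw [← hdisj, htop, inf_top_eq]
    · intro g hg
      rw [eq_bot_iff]
      rintro x ⟨hxH', hxg'⟩
      have hxH : x ∈ H := hxH'
      have hxg : x ∈ MulAut.conj g • H := hxg'
      rw [Subgroup.mem_bot]
      rw [Cfsg.Agent.Lead.mem_conj_smul_iff] at hxg
      obtain ⟨k, hk, h, hh, rfl⟩ := hprod g
      have hk1 : k ≠ 1 := by
        rintro rfl
        apply hg
        rw [one_mul]; exact hh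
      -- y := k⁻¹ x k ∈ H
      have hy : k⁻¹ * x * k ∈ H := by
        have h1 : k⁻¹ * x * k = h * ((k * h)⁻¹ * x * (k * h)) * h⁻¹ := by group
        rw [h1]
        exact H.mul_mem (H.mul_mem hh hxg) (H.inv_mem hh)
      -- x * y⁻¹ ∈ K ⊓ H
      have hxy : x * (k⁻¹ * x * k)⁻¹ ∈ K ⊓ H := by
        refine ⟨?_, H.mul_mem hxH (H.inv_mem hy)⟩
        have h1 : x * (k⁻¹ * x * k)⁻¹ = (x * k⁻¹ * x⁻¹) * k := by group
        rw [h1]
        exact K.mul_mem (‹K.Normal›.conj_mem _ (K.inv_mem hk) x) hk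
      rw [hdisj, Subgroup.mem_bot] at hxy
      have hcomm : k * x = x * k := by
        have h1 : x = k⁻¹ * x * k := by
          have h6 := congrArg (· * (k⁻¹ * x * k)) hxy
          simp only [one_mul, inv_mul_cancel_right] at h6
          exact h6
        calc k * x = k * (k⁻¹ * x * k) := by rw [← h1]
          _ = x * k := by group
      by_contra hx1
      have h2 := hfpf x hxH hx1
      have h3 : k ∈ K ⊓ Subgroup.centralizer {x} :=
        ⟨hk, Subgroup.mem_centralizer_singleton_iff.mpr hcomm⟩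
      rw [h2, Subgroup.mem_bot] at h3
      exact hk1 h3


end Cfsg.Agent.S0039
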