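import Cfsg.Statements.S0040
import Mathlib
import Cfsg.Agent.Lead.Fpf2
import Cfsg.Agent.S0016

set_option autoImplicit false
open Cfsg

namespace Cfsg.Agent.S0040

/-- Sylow subgroups of Frobenius complements: if H complements a nontrivial normal subgroup K and every nonidentity element of H has trivial centraliser in K, then each Sylow subgroup of H is cyclic or isomorphic to a generalized quaternion group. -/
theorem result {G : Type*} [Group G] [Finite G] (K H : Subgroup G) [K.Normal]
    (hc : Subgroup.IsComplement' K H) (hK : K ≠ ⊥) (hfpf : ∀ h ∈ H, h ≠ 1 → K ⊓ Subgroup.centralizer {h} = ⊥)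
    (p : ℕ) [Fact p.Prime] (P : Sylow p H) :
    IsCyclic P ∨ ∃ n : ℕ, Nonempty (P ≃* QuaternionGroup (2 ^ n)) := by
  classical
  have hnorm : Subgroup.normalizer (K : Set G) = ⊤ := Subgroup.normalizer_eq_top_iff.mpr inferInstance
  have huniq : ∀ X Y : Subgroup (P : Subgroup H), Nat.card X = p → Nat.card Y = p → X = Y := by
    intro X Y hX hY
    by_contra hXY
    obtain ⟨x, z, hxp, hzp, hz1, hxz, hcomm⟩ :=
      Cfsg.Agent.Lead.exists_rank_two_of_two_subgroups P.2 X Y hX hY hXY
    have hinj : ∀ u v : (P : Subgroup H), ((u : H) : G) = ((v : H) : G) → u = v := by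
      intro u v h
      exact Subtype.ext (Subtype.ext h)
    refine Cfsg.Agent.Lead.fpf_rank_two_false K hK p ((x : H) : G) ((z : H) : G) ?_ ?_ ?_ ?_ ?_ ?_ ?_ ?_
    · have := congrArg (fun u : (P : Subgroup H) => ((u : H) : G)) hxp
      simpa using this
    · have := congrArg (fun u : (P : Subgroup H) => ((u : H) : G)) hzp
      simpa using this
    · intro h
      exact hz1 (hinj z 1 (by simpa using h))
    · intro h
      obtain ⟨k, hk⟩ := Subgroup.mem_zpowers_iff.mp h
      apply hxz
      rw [Subgroup.mem_zpowers_iff]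
      exact ⟨k, hinj _ _ (by simpa using hk)⟩
    · have := congrArg (fun u : (P : Subgroup H) => ((u : H) : G)) hcomm
      simpa using this
    · rw [hnorm]; trivial
    · rw [hnorm]; trivial
    · intro h hh hh1
      apply hfpf h _ hh1
      have hle : Subgroup.zpowers ((z : H) : G) ⊔ Subgroup.zpowers ((x : H) : G) ≤ H :=
        sup_le (Subgroup.zpowers_le.mpr (z : H).2) (Subgroup.zpowers_le.mpr (x : H).2)
      exact hle hh
  rcases Cfsg.Agent.S0016.result p P.2 huniq with h | ⟨-, h⟩
  · exact Or.inl h
  · exact Or.inr h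


end Cfsg.Agent.S0040
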