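import Cfsg.Statements.S0043
import Mathlib

set_option autoImplicit false
open Cfsg

namespace Cfsg.Agent.S0043

open scoped commutatorElement

/-- A minimal normal subgroup of a finite solvable group is abelian, and for some prime p all of its elements have order dividing p. -/
theorem result {G : Type*} [Group G] [Finite G] [Group.IsSolvable G]
    (N : Subgroup G) [N.Normal] (hN : N ≠ ⊥) (hmin : ∀ M : Subgroup G, M.Normal → M ≤ N → M = ⊥ ∨ M = N) :
    IsMulCommutative N ∧ ∃ p : ℕ, p.Prime ∧ ∀ x ∈ N, x ^ p = 1 := by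
  classical
  have hcomm_le : ⁅N, N⁆ ≤ N := Subgroup.commutator_le_left N N
  have hcn : (⁅N, N⁆ : Subgroup G).Normal := inferInstance
  have hbot : ⁅N, N⁆ = ⊥ := by
    rcases hmin _ hcn hcomm_le with h | h
    · exact h
    · exfalso
      obtain ⟨n, hn⟩ := (Group.isSolvable_def G).mp inferInstance
      have hle : ∀ k, N ≤ derivedSeries G k := by
        intro k
        induction k with
        | zero => exact le_top
        | succ k ih =>
          rw [derivedSeries_succ]
          calc N = ⁅N, N⁆ := h.symm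
            _ ≤ ⁅derivedSeries G k, derivedSeries G k⁆ := Subgroup.commutator_mono ih ih
      have := hle n
      rw [hn] at this
      exact hN (le_bot_iff.mp this)
  have hab : ∀ a ∈ N, ∀ b ∈ N, a * b = b * a := by
    intro a ha b hb
    have h1 : ⁅a, b⁆ ∈ ⁅N, N⁆ := Subgroup.commutator_mem_commutator ha hb
    rw [hbot, Subgroup.mem_bot, commutatorElement_def] at h1
    have := congrArg (· * (b * a)) h1
    simpa [mul_assoc] using this
  have hNc : IsMulCommutative N := ⟨⟨fun a b => Subtype.ext (hab a a.2 b b.2)⟩⟩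
  refine ⟨hNc, ?_⟩
  have hcard : Nat.card N ≠ 1 := by
    intro h1
    exact hN (Subgroup.card_eq_one.mp h1)
  obtain ⟨p, hp, hpd⟩ := Nat.exists_prime_and_dvd hcard
  haveI : Fact p.Prime := ⟨hp⟩
  obtain ⟨x, hx⟩ := exists_prime_orderOf_dvd_card' (G := N) p hpd
  refine ⟨p, hp, ?_⟩
  let M : Subgroup G :=
    { carrier := {y | y ∈ N ∧ y ^ p = 1}
      mul_mem' := by
        rintro a b ⟨ha, ha'⟩ ⟨hb, hb'⟩
        refine ⟨N.mul_mem ha hb, ?_⟩
        rw [Commute.mul_pow (hab a ha b hb), ha', hb', one_mul]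
      one_mem' := ⟨N.one_mem, one_pow p⟩
      inv_mem' := by
        rintro a ⟨ha, ha'⟩
        exact ⟨N.inv_mem ha, by rw [inv_pow, ha', inv_one]⟩ }
  have hMn : M.Normal := by
    constructor
    rintro y ⟨hy, hy'⟩ g
    refine ⟨‹N.Normal›.conj_mem y hy g, ?_⟩
    rw [conj_pow, hy', mul_one, mul_inv_cancel]
  have hMN : M ≤ N := fun y hy => hy.1
  have hxM : (x : G) ∈ M := by
    refine ⟨x.2, ?_⟩
    have h1 : x ^ p = 1 := by rw [← hx]; exact pow_orderOf_eq_one x
    have h2 := congrArg Subtype.val h1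
    simpa using h2
  have hx1 : (x : G) ≠ 1 := by
    intro h1
    have h2 : x = 1 := Subtype.ext h1
    rw [h2, orderOf_one] at hx
    exact hp.one_lt.ne hx
  rcases hmin M hMn hMN with h | h
  · exfalso
    rw [h, Subgroup.mem_bot] at hxM
    exact hx1 hxM
  · intro y hy
    have : y ∈ M := h ▸ hy
    exact this.2


end Cfsg.Agent.S0043
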