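import Cfsg.Statements.S0047
import Mathlib
import Cfsg.Agent.Lead.Coprime2

set_option autoImplicit false
open Cfsg

namespace Cfsg.Agent.S0047

open scoped commutatorElement

/-- A finite group which is the product AB of two abelian subgroups A and B is solvable. -/
theorem result {G : Type*} [Group G] [Finite G] (A B : Subgroup G)
    [IsMulCommutative A] [IsMulCommutative B] (hAB : ∀ g : G, ∃ a ∈ A, ∃ b ∈ B, g = a * b) :
    Group.IsSolvable G := by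
  have hA := (inferInstance : IsMulCommutative A).is_comm.comm
  have hB := (inferInstance : IsMulCommutative B).is_comm.comm
  have hAc : ∀ x ∈ A, ∀ y ∈ A, x * y = y * x := fun x hx y hy =>
    congrArg Subtype.val (hA ⟨x, hx⟩ ⟨y, hy⟩)
  have hBc : ∀ x ∈ B, ∀ y ∈ B, x * y = y * x := fun x hx y hy =>
    congrArg Subtype.val (hB ⟨x, hx⟩ ⟨y, hy⟩)
  have hBA : ∀ g : G, ∃ b ∈ B, ∃ a ∈ A, g = b * a := by
    intro g
    obtain ⟨a, ha, b, hb, h⟩ := hAB g⁻¹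
    refine ⟨b⁻¹, inv_mem hb, a⁻¹, inv_mem ha, ?_⟩
    rw [← mul_inv_rev, ← h, inv_inv]
  -- key: conjugating a commutator by a₁ b₁ or b₁ a₁ gives the same result
  have key : ∀ a ∈ A, ∀ b ∈ B, ∀ a₁ ∈ A, ∀ b₁ ∈ B,
      (a₁ * b₁) * ⁅a, b⁆ * (a₁ * b₁)⁻¹ = (b₁ * a₁) * ⁅a, b⁆ * (b₁ * a₁)⁻¹ := by
    intro a ha b hb a₁ ha₁ b₁ hb₁
    obtain ⟨a₃, ha₃, b₃, hb₃, h3⟩ := hAB (b₁ * a * b₁⁻¹)
    obtain ⟨b₂, hb₂, a₂, ha₂, h2⟩ := hBA (a₁ * b * a₁⁻¹)
    have e1 : b₁ * b * b₁⁻¹ = b := by rw [hBc b₁ hb₁ b hb]; group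
    have e2 : a₁ * a * a₁⁻¹ = a := by rw [hAc a₁ ha₁ a ha]; group
    have e3 : a₁ * a₃ * a₁⁻¹ = a₃ := by rw [hAc a₁ ha₁ a₃ ha₃]; group
    have e4 : b₁ * b₂ * b₁⁻¹ = b₂ := by rw [hBc b₁ hb₁ b₂ hb₂]; group
    have c1 : ⁅b₃, b⁆ = 1 := commutatorElement_eq_one_iff_mul_comm.mpr (hBc b₃ hb₃ b hb)
    have c2 : ⁅a₃, a₂⁆ = 1 := commutatorElement_eq_one_iff_mul_comm.mpr (hAc a₃ ha₃ a₂ ha₂)
    have c3 : ⁅a, a₂⁆ = 1 := commutatorElement_eq_one_iff_mul_comm.mpr (hAc a ha a₂ ha₂)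
    have c4 : ⁅b₃, b₂⁆ = 1 := commutatorElement_eq_one_iff_mul_comm.mpr (hBc b₃ hb₃ b₂ hb₂)
    have L : (a₁ * b₁) * ⁅a, b⁆ * (a₁ * b₁)⁻¹ = ⁅a₃, b₂⁆ := by
      have s1 : (a₁ * b₁) * ⁅a, b⁆ * (a₁ * b₁)⁻¹ = a₁ * (b₁ * ⁅a, b⁆ * b₁⁻¹) * a₁⁻¹ := by group
      rw [s1, conjugate_commutatorElement, e1, h3, commutatorElement_mul_left_eq_conj_mul, c1,
        mul_one, mul_inv_cancel, one_mul, conjugate_commutatorElement, e3, h2,
        commutatorElement_mul_right_eq_mul_conj, c2, mul_one, mul_inv_cancel_right]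
    have R : (b₁ * a₁) * ⁅a, b⁆ * (b₁ * a₁)⁻¹ = ⁅a₃, b₂⁆ := by
      have s1 : (b₁ * a₁) * ⁅a, b⁆ * (b₁ * a₁)⁻¹ = b₁ * (a₁ * ⁅a, b⁆ * a₁⁻¹) * b₁⁻¹ := by group
      rw [s1, conjugate_commutatorElement, e2, h2, commutatorElement_mul_right_eq_mul_conj, c3,
        mul_one, mul_inv_cancel_right, conjugate_commutatorElement, e4, h3,
        commutatorElement_mul_left_eq_conj_mul, c4, mul_one, mul_inv_cancel, one_mul]
    rw [L, R]
  -- commutators commute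
  have hcomm : ∀ a ∈ A, ∀ b ∈ B, ∀ a₁ ∈ A, ∀ b₁ ∈ B,
      ⁅a, b⁆ * ⁅a₁, b₁⁆ = ⁅a₁, b₁⁆ * ⁅a, b⁆ := by
    intro a ha b hb a₁ ha₁ b₁ hb₁
    have h := key a ha b hb a₁⁻¹ (inv_mem ha₁) b₁⁻¹ (inv_mem hb₁)
    have e : ⁅a₁, b₁⁆ = (b₁⁻¹ * a₁⁻¹)⁻¹ * (a₁⁻¹ * b₁⁻¹) := by
      rw [commutatorElement_def]; group
    rw [e]
    have h' := congrArg (fun t => (b₁⁻¹ * a₁⁻¹)⁻¹ * t * (a₁⁻¹ * b₁⁻¹)) h
    beta_reduce at h'
    have e1 : (b₁⁻¹ * a₁⁻¹)⁻¹ * (a₁⁻¹ * b₁⁻¹ * ⁅a, b⁆ * (a₁⁻¹ * b₁⁻¹)⁻¹) * (a₁⁻¹ * b₁⁻¹)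
        = (b₁⁻¹ * a₁⁻¹)⁻¹ * (a₁⁻¹ * b₁⁻¹) * ⁅a, b⁆ := by group
    have e2 : (b₁⁻¹ * a₁⁻¹)⁻¹ * (b₁⁻¹ * a₁⁻¹ * ⁅a, b⁆ * (b₁⁻¹ * a₁⁻¹)⁻¹) * (a₁⁻¹ * b₁⁻¹)
        = ⁅a, b⁆ * ((b₁⁻¹ * a₁⁻¹)⁻¹ * (a₁⁻¹ * b₁⁻¹)) := by group
    rw [e1, e2] at h'
    exact h'.symm
  set N : Subgroup G := ⁅A, B⁆ with hN
  -- N is commutative
  have hNcomm : ∀ x ∈ N, ∀ y ∈ N, x * y = y * x := by
    have h1 : N ≤ Subgroup.centralizer {g | ∃ g₁ ∈ A, ∃ g₂ ∈ B, ⁅g₁, g₂⁆ = g} := by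
      rw [hN, Subgroup.commutator_def, Subgroup.closure_le]
      rintro x ⟨a, ha, b, hb, rfl⟩
      rw [SetLike.mem_coe, Subgroup.mem_centralizer_iff]
      rintro y ⟨a₁, ha₁, b₁, hb₁, rfl⟩
      exact (hcomm a ha b hb a₁ ha₁ b₁ hb₁).symm
    have h2 : N ≤ Subgroup.centralizer (N : Set G) := by
      have h3 : N ≤ Subgroup.centralizer
          ((Subgroup.centralizer {g | ∃ g₁ ∈ A, ∃ g₂ ∈ B, ⁅g₁, g₂⁆ = g} : Subgroup G) : Set G) := by
        rw [hN, Subgroup.commutator_def, Subgroup.closure_le]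
        intro x hx
        rw [SetLike.mem_coe, Subgroup.mem_centralizer_iff]
        intro y hy
        exact ((Subgroup.mem_centralizer_iff.mp hy) x hx).symm
      exact h3.trans (Subgroup.centralizer_le h1)
    intro x hx y hy
    exact ((Subgroup.mem_centralizer_iff.mp (h2 hy)) x hx)
  -- N is normal
  have htop : A ⊔ B = ⊤ := by
    rw [eq_top_iff]
    intro g _
    obtain ⟨a, ha, b, hb, rfl⟩ := hAB g
    exact mul_mem (Subgroup.mem_sup_left ha) (Subgroup.mem_sup_right hb)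
  have hNn : N.Normal := by
    rw [← Subgroup.normalizer_eq_top_iff, eq_top_iff, ← htop]
    apply sup_le
    · exact Lead.le_normalizer_commutator_left A B
    · have := Lead.le_normalizer_commutator_left B A
      rw [Subgroup.commutator_comm B A] at this
      exact this
  -- G / N is commutative
  have hquot : ∀ x y : G ⧸ N, x * y = y * x := by
    have hab : ∀ a ∈ A, ∀ b ∈ B, (a : G ⧸ N) * (b : G ⧸ N) = (b : G ⧸ N) * (a : G ⧸ N) := by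
      intro a ha b hb
      rw [← QuotientGroup.mk_mul, ← QuotientGroup.mk_mul, QuotientGroup.eq]
      have e : (a * b)⁻¹ * (b * a) = ⁅b⁻¹, a⁻¹⁆ := by rw [commutatorElement_def]; group
      rw [e, hN, Subgroup.commutator_comm A B]
      exact Subgroup.commutator_mem_commutator (inv_mem hb) (inv_mem ha)
    intro x y
    induction x using QuotientGroup.induction_on with
    | H g =>
      induction y using QuotientGroup.induction_on with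
      | H g' =>
        obtain ⟨a, ha, b, hb, rfl⟩ := hAB g
        obtain ⟨a', ha', b', hb', rfl⟩ := hAB g'
        have haa : (a : G ⧸ N) * (a' : G ⧸ N) = (a' : G ⧸ N) * (a : G ⧸ N) := by
          rw [← QuotientGroup.mk_mul, ← QuotientGroup.mk_mul, hAc a ha a' ha']
        have hbb : (b : G ⧸ N) * (b' : G ⧸ N) = (b' : G ⧸ N) * (b : G ⧸ N) := by
          rw [← QuotientGroup.mk_mul, ← QuotientGroup.mk_mul, hBc b hb b' hb']
        rw [QuotientGroup.mk_mul, QuotientGroup.mk_mul]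
        calc (a : G ⧸ N) * b * (a' * b') = a * (b * a') * b' := by group
          _ = a * (a' * b) * b' := by rw [hab a' ha' b hb]
          _ = (a * a') * (b * b') := by group
          _ = (a' * a) * (b' * b) := by rw [haa, hbb]
          _ = a' * (a * b') * b := by group
          _ = a' * (b' * a) * b := by rw [hab a ha b' hb']
          _ = a' * b' * (a * b) := by group
  have hNs : Group.IsSolvable N :=
    Group.isSolvable_of_comm (fun x y => Subtype.ext (hNcomm x x.2 y y.2))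
  have hQs : Group.IsSolvable (G ⧸ N) := Group.isSolvable_of_comm hquot
  exact Group.isSolvable_of_ker_le_range N.subtype (QuotientGroup.mk' N)
    (by rw [QuotientGroup.ker_mk', Subgroup.range_subtype])


end Cfsg.Agent.S0047
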