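import Cfsg.Statements.S0048
import Mathlib
import Cfsg.Agent.S0043
import Cfsg.Agent.Lead.Index

set_option autoImplicit false
open Cfsg

namespace Cfsg.Agent.S0048

/-- In a finite solvable group every maximal subgroup has index a prime power. -/
theorem result {G : Type*} [Group G] [Finite G] [Group.IsSolvable G]
    (M : Subgroup G) (hM : IsCoatom M) : IsPrimePow M.index := by
  classical
  have hNn : (M.normalCore).Normal := Subgroup.normalCore_normal M
  have hNM : M.normalCore ≤ M := Subgroup.normalCore_le M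
  have hNtop : M.normalCore ≠ ⊤ := fun h => hM.1 (top_le_iff.mp (h ▸ hNM))
  have hπs : Function.Surjective (QuotientGroup.mk' M.normalCore) := QuotientGroup.mk'_surjective _
  have htopne : (⊤ : Subgroup (G ⧸ M.normalCore)) ≠ ⊥ := by
    intro h
    apply hNtop
    rw [eq_top_iff]
    intro g _
    have h1 : (QuotientGroup.mk' M.normalCore) g ∈ (⊤ : Subgroup (G ⧸ M.normalCore)) := Subgroup.mem_top _
    rw [h, Subgroup.mem_bot] at h1
    exact (QuotientGroup.eq_one_iff g).mp h1
  obtain ⟨A', -, ⟨hA'n, hA'ne⟩, hA'min⟩ := Finite.exists_le_minimal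
    (p := fun B : Subgroup (G ⧸ M.normalCore) => B.Normal ∧ B ≠ ⊥) (a := ⊤) ⟨inferInstance, htopne⟩
  have h43 := Cfsg.Agent.S0043.result A' hA'ne (fun B hB hBle => by
    by_cases hB0 : B = ⊥
    · exact Or.inl hB0
    · exact Or.inr (le_antisymm hBle (hA'min ⟨hB, hB0⟩ hBle)))
  obtain ⟨-, p, hp, hpow⟩ := h43
  haveI : Fact p.Prime := ⟨hp⟩
  have hA'p : IsPGroup p A' := by
    intro x
    refine ⟨1, ?_⟩
    rw [pow_one]
    exact Subtype.ext (by simpa using hpow x x.2)
  obtain ⟨k, hk⟩ := IsPGroup.iff_card.mp hA'p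
  have hAn : (A'.comap (QuotientGroup.mk' M.normalCore)).Normal := hA'n.comap _
  have hNA : M.normalCore ≤ A'.comap (QuotientGroup.mk' M.normalCore) := by
    intro n hn
    rw [Subgroup.mem_comap]
    have : (QuotientGroup.mk' M.normalCore) n = 1 := (QuotientGroup.eq_one_iff n).mpr hn
    rw [this]; exact Subgroup.one_mem _
  have hAM : ¬ A'.comap (QuotientGroup.mk' M.normalCore) ≤ M := by
    intro hle
    have h1 : A'.comap (QuotientGroup.mk' M.normalCore) ≤ M.normalCore :=
      (Subgroup.normal_le_normalCore (hN := hAn)).mpr hle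
    apply hA'ne
    rw [eq_bot_iff]
    intro x hx
    obtain ⟨g, rfl⟩ := hπs x
    have h2 : g ∈ A'.comap (QuotientGroup.mk' M.normalCore) := hx
    exact (QuotientGroup.eq_one_iff g).mpr (h1 h2)
  have hsup : A'.comap (QuotientGroup.mk' M.normalCore) ⊔ M = ⊤ := by
    apply hM.2
    refine lt_of_le_of_ne le_sup_right ?_
    intro h
    exact hAM (le_sup_left.trans h.symm.le)
  have hprod : ∀ g : G, ∃ x ∈ A'.comap (QuotientGroup.mk' M.normalCore), ∃ y ∈ M, g = x * y := by
    intro g
    have hg : g ∈ A'.comap (QuotientGroup.mk' M.normalCore) ⊔ M := hsup ▸ Subgroup.mem_top g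
    rw [Subgroup.mem_sup_of_normal_left] at hg
    obtain ⟨x, hx, y, hy, rfl⟩ := hg
    exact ⟨x, hx, y, hy, rfl⟩
  have hidx : M.relIndex (A'.comap (QuotientGroup.mk' M.normalCore)) = M.index :=
    Cfsg.Agent.Lead.relIndex_eq_index_of_forall_mul _ _ hprod
  have hdvd1 : M.relIndex (A'.comap (QuotientGroup.mk' M.normalCore)) ∣
      M.normalCore.relIndex (A'.comap (QuotientGroup.mk' M.normalCore)) := by
    rw [← Subgroup.inf_relIndex_right]
    exact Subgroup.relIndex_dvd_of_le_left _ (le_inf hNM hNA)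
  have hrel : M.normalCore.relIndex (A'.comap (QuotientGroup.mk' M.normalCore)) = Nat.card A' := by
    have h1 := Subgroup.relIndex_ker (K := A'.comap (QuotientGroup.mk' M.normalCore)) (QuotientGroup.mk' M.normalCore)
    rw [QuotientGroup.ker_mk', Subgroup.map_comap_eq_self_of_surjective hπs] at h1
    exact h1
  rw [hidx, hrel, hk] at hdvd1
  obtain ⟨j, -, hj⟩ := (Nat.dvd_prime_pow hp).mp hdvd1
  have hj0 : j ≠ 0 := by
    rintro rfl
    rw [pow_zero] at hj
    exact hM.1 (Subgroup.index_eq_one.mp hj)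
  rw [hj]
  exact ⟨p, j, hp.prime, Nat.pos_of_ne_zero hj0, rfl⟩


end Cfsg.Agent.S0048
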