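import Cfsg.Statements.S0049
import Mathlib

set_option autoImplicit false
open Cfsg

namespace Cfsg.Agent.S0049

/-- A prime divisor of the order of a finite group also divides the index of the Frattini subgroup. -/
theorem result {G : Type*} [Group G] [Finite G] (p : ℕ) (hp : p.Prime) (hdvd : p ∣ Nat.card G) :
    p ∣ (frattini G).index := by
  haveI : Fact p.Prime := ⟨hp⟩
  by_contra hnd
  obtain ⟨Q⟩ : Nonempty (Sylow p (frattini G)) := inferInstance
  set Q' : Subgroup G := (Q : Subgroup (frattini G)).map (frattini G).subtype with hQ'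
  have hnorm : Subgroup.normalizer (Q' : Set G) = ⊤ := by
    apply frattini_nongenerating
    exact Sylow.normalizer_sup_eq_top Q
  have hQn : Q'.Normal := Subgroup.normalizer_eq_top_iff.mp hnorm
  have hidx : Q'.index = (Q : Subgroup (frattini G)).index * (frattini G).index := Subgroup.index_map_subtype _
  have hndQ : ¬ p ∣ Q'.index := by
    rw [hidx, hp.dvd_mul]; push Not; exact ⟨Q.not_dvd_index, hnd⟩
  have hQp : IsPGroup p Q' := Q.2.map _
  obtain ⟨n, hn⟩ := IsPGroup.iff_card.mp hQp
  have hcop : (Nat.card Q').Coprime Q'.index := by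
    rw [hn]; exact Nat.Coprime.pow_left n ((Nat.Prime.coprime_iff_not_dvd hp).mpr hndQ)
  obtain ⟨H, hH⟩ := Subgroup.exists_right_complement'_of_coprime hcop
  have hcard : Nat.card Q' * Nat.card H = Nat.card G := hH.card_mul_card
  have hQne : Nat.card Q' ≠ 1 := by
    intro h1
    have : Q'.index = Nat.card G := by rw [← Q'.card_mul_index, h1, one_mul]
    exact hndQ (this ▸ hdvd)
  have hHne : H ≠ ⊤ := by
    rintro rfl
    rw [Subgroup.card_top] at hcard
    have : 0 < Nat.card G := Nat.card_pos
    exact hQne (by nlinarith)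
  obtain ⟨M, hM, hHM⟩ := (eq_top_or_exists_le_coatom H).resolve_left hHne
  have hQM : Q' ≤ M := by
    refine le_trans ?_ (frattini_le_coatom hM)
    rw [hQ']; exact Subgroup.map_subtype_le _
  have hsup : Q' ⊔ H = ⊤ := hH.sup_eq_top
  exact hM.1 (eq_top_iff.mpr (hsup ▸ sup_le hQM hHM))


end Cfsg.Agent.S0049
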