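import Cfsg.Statements.S0050
import Mathlib
import Cfsg.Agent.Lead.Hall

set_option autoImplicit false
open Cfsg

namespace Cfsg.Agent.S0050

open scoped Pointwise

/-- Frattini argument for Hall subgroups: if L is a solvable normal subgroup and H a subgroup of L of order coprime to its index in L, then L together with the normaliser of H generates the whole group. -/
theorem result {G : Type*} [Group G] [Finite G] (L : Subgroup G) [L.Normal] (hL : Group.IsSolvable L)
    (H : Subgroup G) (hHL : H ≤ L) (hHall : (Nat.card H).Coprime (H.relIndex L)) :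
    L ⊔ Subgroup.normalizer (H : Set G) = ⊤ := by
  rw [eq_top_iff]
  intro g _
  have hLsol : Group.IsSolvable L := hL
  set H₁ : Subgroup G := MulAut.conj g • H with hH₁
  have hLn : L.Normal := inferInstance
  have hH₁L : H₁ ≤ L := by
    intro x hx
    rw [hH₁, Lead.mem_conj_smul] at hx
    have h1 := hHL hx
    have h2 := hLn.conj_mem _ h1 g
    have e : g * (g⁻¹ * x * g) * g⁻¹ = x := by group
    rwa [e] at h2
  have hcardL : Nat.card L = Nat.card H * H.relIndex L := by
    have h1 := Subgroup.card_mul_index (H.subgroupOf L)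
    rw [Nat.card_congr (Subgroup.subgroupOfEquivOfLe hHL).toEquiv] at h1
    exact h1.symm
  obtain ⟨l, hl⟩ := Lead.hall_conj_aux (Nat.card L) L rfl (Nat.card H) (H.relIndex L) hcardL
    hHall (H₁.subgroupOf L) (H.subgroupOf L)
    (by rw [Nat.card_congr (Subgroup.subgroupOfEquivOfLe hH₁L).toEquiv, hH₁,
      Lead.card_conj_smul])
    (by rw [Nat.card_congr (Subgroup.subgroupOfEquivOfLe hHL).toEquiv])
  obtain ⟨g₂, hg₂L, hg₂⟩ := Lead.conj_of_subgroupOf L H₁ H hH₁L hHL ⟨l, hl⟩
  have heq : MulAut.conj (g₂ * g) • H = H := by rw [map_mul, mul_smul]; exact hg₂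
  have hn : g₂ * g ∈ Subgroup.normalizer (H : Set G) := by
    rw [Subgroup.mem_normalizer_iff]
    intro h
    have e : (g₂ * g)⁻¹ * ((g₂ * g) * h * (g₂ * g)⁻¹) * (g₂ * g) = h := by group
    constructor
    · intro hh
      have h3 : (g₂ * g) * h * (g₂ * g)⁻¹ ∈ MulAut.conj (g₂ * g) • H := by
        rw [Lead.mem_conj_smul, e]; exact hh
      rwa [heq] at h3
    · intro hh
      have hh' : (g₂ * g) * h * (g₂ * g)⁻¹ ∈ H := hh
      rw [← heq, Lead.mem_conj_smul, e] at hh'
      exact hh'
  have hg : g = g₂⁻¹ * (g₂ * g) := by group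
  rw [hg]
  exact mul_mem (Subgroup.mem_sup_left (inv_mem hg₂L)) (Subgroup.mem_sup_right hn)


end Cfsg.Agent.S0050
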