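import Cfsg.Statements.S0051
import Mathlib
import Cfsg.Agent.Helper6.Gaschutz
-- import your own Cfsg.Agent.* helpers here

set_option autoImplicit false
open Cfsg

namespace Cfsg.Agent.S0051

/-- Gaschütz's Theorem, existence: an abelian normal subgroup K that is complemented inside a subgroup U ≥ K whose index is coprime to the order of K is complemented in the whole group. -/
theorem result {G : Type*} [Group G] [Finite G] (K U : Subgroup G) [K.Normal] [IsMulCommutative K]
    (hKU : K ≤ U) (hcop : (Nat.card K).Coprime U.index)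
    (A : Subgroup G) (hAU : A ≤ U) (hAK : A ⊓ K = ⊥) (hKA : K ⊔ A = U) :
    ∃ H : Subgroup G, Subgroup.IsComplement' K H := by
  have hKc : ∀ a ∈ K, ∀ b ∈ K, a * b = b * a := by
    intro a ha b hb
    have := (inferInstance : IsMulCommutative K).is_comm.comm ⟨a, ha⟩ ⟨b, hb⟩
    exact congrArg Subtype.val this
  obtain ⟨f, hf⟩ := Cfsg.Agent.Helper6.gaschutz_section K U hKc hKU hcop A hAK hKA
  exact ⟨f.range, Cfsg.Agent.Helper6.isComplement'_range_of_section K f hf⟩

end Cfsg.Agent.S0051
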