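import Cfsg.Statements.S0053
import Mathlib
import Cfsg.Agent.Lead.PGroupFrattini

set_option autoImplicit false
open Cfsg

namespace Cfsg.Agent.S0053

/-- An abelian minimal normal subgroup N of a finite group is complemented exactly when N is not inside the Frattini subgroup. -/
theorem result {G : Type*} [Group G] [Finite G]
    (N : Subgroup G) [N.Normal] [IsMulCommutative N] (hN : N ≠ ⊥)
    (hmin : ∀ M : Subgroup G, M.Normal → M ≤ N → M = ⊥ ∨ M = N) :
    (∃ H : Subgroup G, Subgroup.IsComplement' N H) ↔ ¬ N ≤ frattini G := by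
  classical
  constructor
  · rintro ⟨H, hH⟩ hle
    have hcard : Nat.card N * Nat.card H = Nat.card G := hH.card_mul_card
    have hHne : H ≠ ⊤ := by
      rintro rfl
      rw [Subgroup.card_top] at hcard
      have hpos : 0 < Nat.card G := Nat.card_pos
      have h1 : Nat.card N = 1 := by nlinarith
      exact hN (Subgroup.card_eq_one.mp h1)
    obtain ⟨M, hM, hHM⟩ := (eq_top_or_exists_le_coatom H).resolve_left hHne
    have hNM : N ≤ M := hle.trans (frattini_le_coatom hM)
    have hsup : N ⊔ H = ⊤ := hH.sup_eq_top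
    exact hM.1 (eq_top_iff.mpr (hsup ▸ sup_le hNM hHM))
  · intro hle
    obtain ⟨M, hM, hNM⟩ : ∃ M : Subgroup G, IsCoatom M ∧ ¬ N ≤ M := by
      by_contra hcon
      push Not at hcon
      apply hle
      intro x hx
      rw [Cfsg.Agent.Lead.mem_frattini_iff]
      intro M hM
      exact hcon M hM hx
    have hsup : N ⊔ M = ⊤ := by
      apply hM.2
      refine lt_of_le_of_ne le_sup_right ?_
      intro h
      exact hNM (le_sup_left.trans h.symm.le)
    have hprod : ∀ g : G, ∃ n ∈ N, ∃ m ∈ M, g = n * m := by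
      intro g
      have hg : g ∈ N ⊔ M := hsup ▸ Subgroup.mem_top g
      rw [Subgroup.mem_sup_of_normal_left] at hg
      obtain ⟨x, hx, y, hy, rfl⟩ := hg
      exact ⟨x, hx, y, hy, rfl⟩
    have hinf_n : (N ⊓ M).Normal := by
      constructor
      intro x hx g
      obtain ⟨n, hn, m, hm, rfl⟩ := hprod g
      have hy : m * x * m⁻¹ ∈ N ⊓ M :=
        ⟨‹N.Normal›.conj_mem x hx.1 m, M.mul_mem (M.mul_mem hm hx.2) (M.inv_mem hm)⟩
      have hcomm : n * (m * x * m⁻¹) = (m * x * m⁻¹) * n :=
        congrArg Subtype.val (mul_comm' (⟨n, hn⟩ : N) ⟨m * x * m⁻¹, hy.1⟩)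
      have h3 : n * m * x * (n * m)⁻¹ = m * x * m⁻¹ := by
        calc n * m * x * (n * m)⁻¹ = n * (m * x * m⁻¹) * n⁻¹ := by group
          _ = (m * x * m⁻¹) * n * n⁻¹ := by rw [hcomm]
          _ = m * x * m⁻¹ := by group
      rw [h3]; exact hy
    have hinf : N ⊓ M = ⊥ := by
      rcases hmin _ hinf_n inf_le_left with h | h
      · exact h
      · exact absurd (h ▸ inf_le_right : N ≤ M) hNM
    refine ⟨M, Subgroup.isComplement'_of_disjoint_and_mul_eq_univ (disjoint_iff.mpr hinf) ?_⟩
    rw [Set.eq_univ_iff_forall]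
    intro g
    obtain ⟨n, hn, m, hm, rfl⟩ := hprod g
    exact Set.mul_mem_mul hn hm


end Cfsg.Agent.S0053
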