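import Cfsg.Statements.S0054
import Mathlib

set_option autoImplicit false
open Cfsg

namespace Cfsg.Agent.S0054

/-- A regular normal subgroup of a finite 2-transitive group is elementary abelian: it is commutative and all its elements have order dividing one prime. -/
theorem result {G : Type*} [Group G] [Finite G]
    {X : Type*} [Nonempty X] [MulAction G X] (h2 : MulAction.IsMultiplyPretransitive G X 2)
    (N : Subgroup G) [N.Normal] (htrans : MulAction.IsPretransitive N X) (hreg : ∀ x : X, MulAction.stabilizer N x = ⊥) :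
    IsMulCommutative N ∧ ∃ p : ℕ, p.Prime ∧ ∀ n ∈ N, n ^ p = 1 := by
  classical
  obtain ⟨x₀⟩ := ‹Nonempty X›
  have hmove : ∀ n ∈ N, n ≠ 1 → x₀ ≠ n • x₀ := by
    intro n hn hn1 hx
    have h1 : (⟨n, hn⟩ : N) ∈ MulAction.stabilizer N x₀ := by
      rw [MulAction.mem_stabilizer_iff]
      exact hx.symm
    rw [hreg x₀, Subgroup.mem_bot] at h1
    exact hn1 (congrArg Subtype.val h1)
  have hconj : ∀ n ∈ N, ∀ m ∈ N, n ≠ 1 → m ≠ 1 → ∃ g : G, g * n * g⁻¹ = m := by
    intro n hn m hm hn1 hm1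
    obtain ⟨g, hg1, hg2⟩ := (MulAction.is_two_pretransitive_iff.mp h2) (hmove n hn hn1) (hmove m hm hm1)
    refine ⟨g, ?_⟩
    have hmem : m⁻¹ * (g * n * g⁻¹) ∈ N := N.mul_mem (N.inv_mem hm) (‹N.Normal›.conj_mem n hn g)
    have h1 : (⟨m⁻¹ * (g * n * g⁻¹), hmem⟩ : N) ∈ MulAction.stabilizer N x₀ := by
      rw [MulAction.mem_stabilizer_iff]
      show (m⁻¹ * (g * n * g⁻¹)) • x₀ = x₀
      have hg3 : g⁻¹ • x₀ = x₀ := by
        rw [inv_smul_eq_iff]; exact hg1.symm
      rw [mul_smul, mul_smul, mul_smul, hg3, hg2, inv_smul_smul]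
    rw [hreg x₀, Subgroup.mem_bot] at h1
    have h2' : m⁻¹ * (g * n * g⁻¹) = 1 := congrArg Subtype.val h1
    have h3 := congrArg (m * ·) h2'
    simpa using h3
  by_cases hN : N = ⊥
  · have hall : ∀ n ∈ N, n = 1 := fun n hn => by rw [hN] at hn; exact Subgroup.mem_bot.mp hn
    refine ⟨⟨⟨fun a b => ?_⟩⟩, 2, Nat.prime_two, ?_⟩
    · have ha : (a : G) = 1 := hall a a.2
      have hb : (b : G) = 1 := hall b b.2
      apply Subtype.ext
      rw [Subgroup.coe_mul, Subgroup.coe_mul, ha, hb]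
    · intro n hn
      rw [hN, Subgroup.mem_bot] at hn
      rw [hn, one_pow]
  · have hcard : Nat.card N ≠ 1 := fun h1 => hN (Subgroup.card_eq_one.mp h1)
    obtain ⟨p, hp, hpd⟩ := Nat.exists_prime_and_dvd hcard
    haveI : Fact p.Prime := ⟨hp⟩
    obtain ⟨n₀, hn₀⟩ := exists_prime_orderOf_dvd_card' (G := N) p hpd
    have hn₀1 : (n₀ : G) ≠ 1 := by
      intro h1
      have h2' : n₀ = 1 := Subtype.ext h1
      rw [h2', orderOf_one] at hn₀
      exact hp.one_lt.ne hn₀
    have hn₀p : (n₀ : G) ^ p = 1 := by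
      have h1 : n₀ ^ p = 1 := by rw [← hn₀]; exact pow_orderOf_eq_one n₀
      have h2' := congrArg Subtype.val h1
      simpa using h2'
    have hpow : ∀ n ∈ N, n ^ p = 1 := by
      intro n hn
      by_cases hn1 : n = 1
      · rw [hn1, one_pow]
      · obtain ⟨g, hg⟩ := hconj n₀ n₀.2 n hn hn₀1 hn1
        rw [← hg, conj_pow, hn₀p, mul_one, mul_inv_cancel]
    have hPG : IsPGroup p N := by
      intro x
      refine ⟨1, ?_⟩
      rw [pow_one]
      exact Subtype.ext (by simpa using hpow x x.2)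
    haveI : Nontrivial N := by
      rw [← Finite.one_lt_card_iff_nontrivial]
      have : 0 < Nat.card N := Nat.card_pos
      omega
    haveI hcn : Nontrivial (Subgroup.center N) := hPG.center_nontrivial
    obtain ⟨⟨z, hz⟩, hz1⟩ := exists_ne (1 : Subgroup.center N)
    have hz1' : (z : G) ≠ 1 := by
      intro h1
      apply hz1
      apply Subtype.ext
      exact Subtype.ext h1
    refine ⟨⟨⟨fun a b => ?_⟩⟩, p, hp, hpow⟩
    by_cases ha1 : (a : G) = 1
    · have : a = 1 := Subtype.ext ha1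
      rw [this, one_mul, mul_one]
    · obtain ⟨g, hg⟩ := hconj z z.2 a a.2 hz1' ha1
      have hb' : g⁻¹ * (b : G) * g ∈ N := ‹N.Normal›.conj_mem' b b.2 g
      have hzc : z * (⟨g⁻¹ * (b : G) * g, hb'⟩ : N) = ⟨g⁻¹ * (b : G) * g, hb'⟩ * z :=
        ((Subgroup.mem_center_iff.mp hz) ⟨g⁻¹ * (b : G) * g, hb'⟩).symm
      have hzc' : (z : G) * (g⁻¹ * (b : G) * g) = (g⁻¹ * (b : G) * g) * z := congrArg Subtype.val hzc
      apply Subtype.ext
      rw [Subgroup.coe_mul, Subgroup.coe_mul, ← hg]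
      calc g * (z : G) * g⁻¹ * (b : G) = g * ((z : G) * (g⁻¹ * (b : G) * g)) * g⁻¹ := by group
        _ = g * ((g⁻¹ * (b : G) * g) * z) * g⁻¹ := by rw [hzc']
        _ = (b : G) * (g * (z : G) * g⁻¹) := by group


end Cfsg.Agent.S0054
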