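import Cfsg.Statements.S0056
import Mathlib
import Cfsg.Agent.Lead.CoprimeAbelian

set_option autoImplicit false
open Cfsg

namespace Cfsg.Agent.S0056

/-- A coprime action on an abelian group that fixes all elements of prime order is trivial. -/
theorem result {G : Type*} [Group G] [Finite G] (A V : Subgroup G) [IsMulCommutative V]
    (hAV : A ≤ Subgroup.normalizer (V : Set G)) (hcop : (Nat.card A).Coprime (Nat.card V))
    (hΩ : ∀ v ∈ V, (orderOf v).Prime → ∀ a ∈ A, a * v = v * a) : A ≤ Subgroup.centralizer (V : Set G) := by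
  classical
  have hinf := Cfsg.Agent.Lead.fixed_inf_commutator_eq_bot A V hAV hcop
  have hKV : ⁅V, A⁆ ≤ V := Cfsg.Agent.Lead.commutator_le_of_le_normalizer A V hAV
  have hbot : ⁅V, A⁆ = ⊥ := by
    by_contra hne
    have hcard : Nat.card (⁅V, A⁆ : Subgroup G) ≠ 1 := fun h1 => hne (Subgroup.card_eq_one.mp h1)
    obtain ⟨p, hp, hpd⟩ := Nat.exists_prime_and_dvd hcard
    haveI : Fact p.Prime := ⟨hp⟩
    obtain ⟨x, hx⟩ := exists_prime_orderOf_dvd_card' (G := (⁅V, A⁆ : Subgroup G)) p hpd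
    have hxo : orderOf (x : G) = p := by rw [Subgroup.orderOf_coe]; exact hx
    have hxV : (x : G) ∈ V := hKV x.2
    have hxC : (x : G) ∈ Subgroup.centralizer (A : Set G) := by
      rw [Subgroup.mem_centralizer_iff]
      intro a ha
      exact hΩ x hxV (hxo ▸ hp) a ha
    have hx1 : (x : G) ∈ (V ⊓ Subgroup.centralizer (A : Set G)) ⊓ ⁅V, A⁆ := ⟨⟨hxV, hxC⟩, x.2⟩
    rw [hinf, Subgroup.mem_bot] at hx1
    rw [hx1, orderOf_one] at hxo
    exact hp.one_lt.ne hxo
  rw [Subgroup.commutator_comm, Subgroup.commutator_eq_bot_iff_le_centralizer] at hbot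
  exact hbot


end Cfsg.Agent.S0056
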