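import Cfsg.Statements.S0057
import Mathlib
import Cfsg.Agent.S0027
import Cfsg.Agent.Lead.Coprime3
import Cfsg.Agent.Lead.CoprimeAbelian

set_option autoImplicit false
open Cfsg

namespace Cfsg.Agent.S0057

open scoped commutatorElement

/-- Under coprime action, if the centraliser of A in K has prime index p in K then the commutator subgroup [K, A] has order exactly p. -/
theorem result {G : Type*} [Group G] [Finite G] (A K : Subgroup G) (hAK : A ≤ Subgroup.normalizer (K : Set G))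
    (hcop : (Nat.card A).Coprime (Nat.card K)) (hsolv : Group.IsSolvable A ∨ Group.IsSolvable K)
    (p : ℕ) (hp : p.Prime) (hidx : (K ⊓ Subgroup.centralizer (A : Set G)).relIndex K = p) :
    Nat.card (⁅K, A⁆ : Subgroup G) = p := by
  have : Fact p.Prime := ⟨hp⟩
  set C : Subgroup G := K ⊓ Subgroup.centralizer (A : Set G) with hCdef
  have hCK : C ≤ K := inf_le_left
  have hcardK : Nat.card C * p = Nat.card K := by
    have h1 := Subgroup.card_mul_index (C.subgroupOf K)
    rw [Nat.card_congr (Subgroup.subgroupOfEquivOfLe hCK).toEquiv] at h1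
    have h2 : (C.subgroupOf K).index = p := hidx
    rw [h2] at h1; exact h1
  obtain ⟨P, hPA⟩ := Lead.coprime_sylow_exists A K hAK hcop hsolv p
  set P₀ : Subgroup G := (P : Subgroup K).map K.subtype with hP₀
  have hP₀K : P₀ ≤ K := Subgroup.map_subtype_le _
  have hP₀card : Nat.card P₀ = p ^ (Nat.card K).factorization p := by
    rw [hP₀, Subgroup.card_map_of_injective K.subtype_injective]; exact P.card_eq_multiplicity
  have hP₀p : IsPGroup p P₀ := IsPGroup.of_card hP₀card
  have hP₀C : ¬ P₀ ≤ C := by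
    intro hle
    have h1 : p ^ (Nat.card K).factorization p ∣ Nat.card C := by
      rw [← hP₀card]; exact Subgroup.card_dvd_of_le hle
    have h2 : p ^ ((Nat.card K).factorization p + 1) ∣ Nat.card K := by
      have := Nat.mul_dvd_mul_right h1 p
      rw [hcardK] at this
      rw [pow_succ]; exact this
    exact Nat.pow_succ_factorization_not_dvd Nat.card_pos.ne' hp h2
  set D : Subgroup G := P₀ ⊓ Subgroup.centralizer (A : Set G) with hDdef
  have hDP : D ≤ P₀ := inf_le_left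
  have hDC : D ≤ Subgroup.centralizer (A : Set G) := inf_le_right
  have hDeq : D = P₀ ⊓ C := by
    rw [hDdef, hCdef, ← inf_assoc, inf_eq_left.mpr hP₀K]
  have hDrel : D.relIndex P₀ = p := by
    rw [hDeq, Subgroup.inf_relIndex_left]
    have h1 : C.relIndex P₀ ≤ p := by
      have := Subgroup.relIndex_le_of_le_right (H := C) hP₀K (by rw [hidx]; exact hp.ne_zero)
      rwa [hidx] at this
    have h2 : C.relIndex P₀ ∣ Nat.card P₀ := Subgroup.relIndex_dvd_card C P₀
    rw [hP₀card] at h2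
    obtain ⟨j, _, hj⟩ := (Nat.dvd_prime_pow hp).mp h2
    have h3 : C.relIndex P₀ ≠ 1 := fun h => hP₀C (Subgroup.relIndex_eq_one.mp h)
    rw [hj] at h1 h3 ⊢
    have hj0 : j ≠ 0 := by
      intro h0; rw [h0, pow_zero] at h3; exact h3 rfl
    have hj1 : j ≤ 1 := by
      have : p ^ j ≤ p ^ 1 := by rw [pow_one]; exact h1
      exact (Nat.pow_le_pow_iff_right hp.one_lt).mp this
    have : j = 1 := by omega
    rw [this, pow_one]
  have hcardP₀ : Nat.card D * p = Nat.card P₀ := by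
    have h1 := Subgroup.card_mul_index (D.subgroupOf P₀)
    rw [Nat.card_congr (Subgroup.subgroupOfEquivOfLe hDP).toEquiv] at h1
    have h2 : (D.subgroupOf P₀).index = p := hDrel
    rw [h2] at h1; exact h1
  have hDn : (D.subgroupOf P₀).Normal := by
    apply Subgroup.normal_of_index_eq_minFac_card
    show D.relIndex P₀ = (Nat.card P₀).minFac
    have hm : (Nat.card K).factorization p ≠ 0 := by
      intro h0
      rw [h0, pow_zero] at hP₀card
      have : p ∣ 1 := by rw [← hP₀card, ← hcardP₀]; exact dvd_mul_left p _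
      exact hp.one_lt.ne' (Nat.dvd_one.mp this)
    rw [hDrel, hP₀card, Nat.Prime.pow_minFac hp hm]
  have hP₀D : P₀ ≤ Subgroup.normalizer (D : Set G) :=
    (Subgroup.normal_subgroupOf_iff_le_normalizer hDP).mp hDn
  have hAP₀ : A ≤ Subgroup.normalizer (P₀ : Set G) := hPA
  have hcopP₀ : (Nat.card A).Coprime (Nat.card P₀) :=
    Nat.Coprime.coprime_dvd_right (Subgroup.card_dvd_of_le hP₀K) hcop
  have hsolvP₀ := Lead.solv_or_of_le hsolv hP₀K
  set P₁ : Subgroup G := ⁅P₀, A⁆ with hP₁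
  have hP₁P₀ : P₁ ≤ P₀ := Lead.commutator_le_left_of_normalizer P₀ A hAP₀
  have hAP₁ : A ≤ Subgroup.normalizer (P₁ : Set G) :=
    Lead.le_normalizer_commutator_right P₀ A hAP₀
  have hP₁P₁ : ⁅P₁, A⁆ = P₁ := Cfsg.Agent.S0027.result A P₀ hAP₀ hcopP₀ hsolvP₀
  have hDA : ⁅D, A⁆ = ⊥ := Subgroup.commutator_eq_bot_iff_le_centralizer.mpr hDC
  have h1 : ⁅⁅P₀, D⁆, A⁆ = ⊥ := by
    have hle : ⁅P₀, D⁆ ≤ D := by
      rw [Subgroup.commutator_le]
      intro x hx d hd
      rw [commutatorElement_def]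
      exact mul_mem ((Subgroup.mem_normalizer_iff.mp (hP₀D hx) d).mp hd) (inv_mem hd)
    rw [eq_bot_iff, ← hDA]
    exact Subgroup.commutator_mono hle le_rfl
  have h2 : ⁅⁅D, A⁆, P₀⁆ = ⊥ := by rw [hDA, Subgroup.commutator_bot_left]
  have h3 : ⁅⁅A, P₀⁆, D⁆ = ⊥ := Subgroup.commutator_commutator_eq_bot_of_rotate h1 h2
  rw [Subgroup.commutator_comm A P₀, ← hP₁] at h3
  have hP₁D : P₁ ≤ Subgroup.centralizer (D : Set G) :=
    Subgroup.commutator_eq_bot_iff_le_centralizer.mp h3
  have hquot : Nat.card (P₀ ⧸ D.subgroupOf P₀) = p := hDrel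
  have : IsCyclic (P₀ ⧸ D.subgroupOf P₀) := isCyclic_of_prime_card hquot
  let f : P₁ →* P₀ ⧸ D.subgroupOf P₀ :=
    (QuotientGroup.mk' (D.subgroupOf P₀)).comp (Subgroup.inclusion hP₁P₀)
  have hfker : f.ker ≤ Subgroup.center P₁ := by
    intro x hx
    rw [MonoidHom.mem_ker] at hx
    have hxD : (x : G) ∈ D := by
      have : (Subgroup.inclusion hP₁P₀ x) ∈ D.subgroupOf P₀ := (QuotientGroup.eq_one_iff _).mp hx
      exact Subgroup.mem_subgroupOf.mp this
    rw [Subgroup.mem_center_iff]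
    intro y
    apply Subtype.ext
    have := Subgroup.mem_centralizer_iff.mp (hP₁D y.2) x hxD
    exact this.symm
  have hcommP₁ : IsMulCommutative P₁ :=
    MonoidHom.isMulCommutative_of_isCyclic_of_ker_le_center f hfker
  have hcopP₁ : (Nat.card A).Coprime (Nat.card P₁) :=
    Nat.Coprime.coprime_dvd_right (Subgroup.card_dvd_of_le hP₁P₀) hcopP₀
  have hbot := Lead.fixed_inf_commutator_eq_bot A P₁ hAP₁ hcopP₁
  rw [hP₁P₁] at hbot
  have hP₁C : P₁ ⊓ Subgroup.centralizer (A : Set G) = ⊥ := by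
    rw [eq_bot_iff, ← hbot]; exact le_inf le_rfl inf_le_left
  have hdec : ∀ x ∈ P₀, ∃ n ∈ P₁, ∃ c ∈ D, x = n * c := fun x hx =>
    Lead.coprime_decomp A P₀ hAP₀ hcopP₀ hsolvP₀ x hx
  have hsup : P₁ ⊔ D = P₀ := by
    apply le_antisymm (sup_le hP₁P₀ hDP)
    intro x hx
    obtain ⟨n, hn, c, hc, rfl⟩ := hdec x hx
    exact mul_mem (Subgroup.mem_sup_left hn) (Subgroup.mem_sup_right hc)
  have hP₁Dinf : P₁ ⊓ D = ⊥ := by
    rw [eq_bot_iff, ← hP₁C]; exact inf_le_inf_left _ hDC
  have hDnP₁ : D ≤ Subgroup.normalizer (P₁ : Set G) := by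
    intro d hd
    rw [Subgroup.mem_normalizer_iff]
    intro x
    have hcomm : ∀ y ∈ P₁, d * y * d⁻¹ = y := by
      intro y hy
      have := Subgroup.mem_centralizer_iff.mp (hP₁D hy) d hd
      rw [this]; group
    constructor
    · intro hx; rw [hcomm x hx]; exact hx
    · intro hx
      have h := hcomm _ hx
      have hxe : x = d * x * d⁻¹ := by
        have h' := congrArg (fun t => d⁻¹ * t * d) h
        have e1 : d⁻¹ * (d * (d * x * d⁻¹) * d⁻¹) * d = d * x * d⁻¹ := by group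
        have e2 : d⁻¹ * (d * x * d⁻¹) * d = x := by group
        simp only [e1, e2] at h'
        exact h'.symm
      rw [hxe]; exact hx
  have hcardsup := Lead.card_sup_of_le_normalizer P₁ D hDnP₁ hP₁Dinf
  rw [hsup] at hcardsup
  have hP₁card : Nat.card P₁ = p := by
    have : Nat.card P₁ * Nat.card D = Nat.card D * p := by rw [← hcardsup, hcardP₀]
    rw [mul_comm] at this
    exact Nat.eq_of_mul_eq_mul_left Nat.card_pos this
  have hP₁K : P₁ ≤ K := hP₁P₀.trans hP₀K
  have hP₁Cinf : P₁ ⊓ C = ⊥ := by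
    rw [eq_bot_iff, ← hP₁C]; exact inf_le_inf_left _ inf_le_right
  have hcover : ∀ k ∈ K, ∃ x ∈ P₁, ∃ c ∈ C, k = x * c := by
    let φ : P₁ → K ⧸ C.subgroupOf K := fun x => QuotientGroup.mk (⟨(x : G), hP₁K x.2⟩ : K)
    have hφinj : Function.Injective φ := by
      intro x y hxy
      have h1 : (⟨(x : G), hP₁K x.2⟩ : K)⁻¹ * ⟨(y : G), hP₁K y.2⟩ ∈ C.subgroupOf K :=
        QuotientGroup.eq.mp hxy
      have h2 : (x : G)⁻¹ * (y : G) ∈ P₁ ⊓ C :=
        Subgroup.mem_inf.mpr ⟨mul_mem (inv_mem x.2) y.2, Subgroup.mem_subgroupOf.mp h1⟩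
      rw [hP₁Cinf, Subgroup.mem_bot] at h2
      exact Subtype.ext (inv_mul_eq_one.mp h2)
    have hφbij : Function.Bijective φ :=
      (Nat.bijective_iff_injective_and_card φ).mpr ⟨hφinj, by rw [hP₁card]; exact hidx.symm⟩
    intro k hk
    obtain ⟨x, hx⟩ := hφbij.2 (QuotientGroup.mk (⟨k, hk⟩ : K))
    have h1 : (⟨(x : G), hP₁K x.2⟩ : K)⁻¹ * ⟨k, hk⟩ ∈ C.subgroupOf K := QuotientGroup.eq.mp hx
    exact ⟨x, x.2, (x : G)⁻¹ * k, Subgroup.mem_subgroupOf.mp h1, by group⟩
  have hKA : ⁅K, A⁆ = P₁ := by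
    apply le_antisymm
    · rw [Subgroup.commutator_le]
      intro k hk a ha
      obtain ⟨x, hx, c, hc, rfl⟩ := hcover k hk
      rw [commutatorElement_mul_left_eq_conj_mul]
      have hca : ⁅c, a⁆ = 1 := by
        rw [commutatorElement_eq_one_iff_mul_comm]
        exact ((Subgroup.mem_centralizer_iff.mp (Subgroup.mem_inf.mp hc).2) a ha).symm
      rw [hca, mul_one, mul_inv_cancel, one_mul, ← hP₁P₁]
      exact Subgroup.commutator_mem_commutator hx ha
    · exact Subgroup.commutator_mono hP₀K le_rfl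
  rw [hKA, hP₁card]


end Cfsg.Agent.S0057
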