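import Cfsg.Statements.S0060
import Mathlib
import Cfsg.Agent.Lead.Frobenius
import Cfsg.Agent.Lead.Fitting

set_option autoImplicit false
open Pointwise
open Cfsg

namespace Cfsg.Agent.S0060

open scoped Pointwise

/-- Brodkey's Theorem: in a finite group with abelian Sylow p-subgroups and no nontrivial normal p-subgroup, some conjugate of a Sylow p-subgroup meets it trivially. -/
theorem result {G : Type*} [Group G] [Finite G] (p : ℕ) [Fact p.Prime]
    (S : Sylow p G) (hS : IsMulCommutative S) (hOp : Cfsg.pCore p G = ⊥) :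
    ∃ g : G, (S : Subgroup G) ⊓ MulAut.conj g • (S : Subgroup G) = ⊥ := by
  classical
  obtain ⟨⟨x₀, y₀⟩, hmin⟩ := Finite.exists_min (fun q : G × G =>
    Nat.card ↥((MulAut.conj q.1 • (S : Subgroup G)) ⊓ (MulAut.conj q.2 • (S : Subgroup G))))
  have hcommS : ∀ a ∈ (S : Subgroup G), ∀ b ∈ (S : Subgroup G), a * b = b * a := by
    intro a ha b hb
    have := hS.is_comm.comm (⟨a, ha⟩ : S) ⟨b, hb⟩
    exact congrArg Subtype.val this
  have hcommC : ∀ x : G, ∀ a ∈ MulAut.conj x • (S : Subgroup G),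
      ∀ b ∈ MulAut.conj x • (S : Subgroup G), a * b = b * a := by
    intro x a ha b hb
    rw [Cfsg.Agent.Lead.mem_conj_smul_iff'] at ha hb
    have := hcommS _ ha _ hb
    have e1 : a * b = x * (x⁻¹ * a * x * (x⁻¹ * b * x)) * x⁻¹ := by group
    have e2 : b * a = x * (x⁻¹ * b * x * (x⁻¹ * a * x)) * x⁻¹ := by group
    rw [e1, e2, this]
  obtain ⟨S₁, hS₁⟩ : ∃ S₁ : Subgroup G, S₁ = MulAut.conj x₀ • (S : Subgroup G) := ⟨_, rfl⟩
  obtain ⟨T, hT⟩ : ∃ T : Subgroup G, T = MulAut.conj y₀ • (S : Subgroup G) := ⟨_, rfl⟩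
  obtain ⟨D, hD⟩ : ∃ D : Subgroup G, D = S₁ ⊓ T := ⟨_, rfl⟩
  have hmin' : ∀ x y : G, Nat.card D ≤
      Nat.card ↥((MulAut.conj x • (S : Subgroup G)) ⊓ (MulAut.conj y • (S : Subgroup G))) := by
    intro x y
    have := hmin (x, y)
    rw [hD, hS₁, hT]
    exact this
  have hnorm : ∀ Q : Subgroup G, (∀ a ∈ Q, ∀ b ∈ Q, a * b = b * a) → D ≤ Q →
      Q ≤ Subgroup.normalizer (D : Set G) := by
    intro Q hQ hDQ s hs
    rw [Subgroup.mem_normalizer_iff]
    intro y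
    constructor
    · intro hy
      have : s * y * s⁻¹ = y := by rw [hQ s hs y (hDQ hy)]; group
      rwa [this]
    · intro hy
      have h1 : s⁻¹ * (s * y * s⁻¹) * s = s * y * s⁻¹ := by
        have := hQ s⁻¹ (Q.inv_mem hs) (s * y * s⁻¹) (hDQ hy)
        rw [this]; group
      have h2 : s⁻¹ * (s * y * s⁻¹) * s = y := by group
      rw [← h2, h1]; exact hy
  have hS₁N : S₁ ≤ Subgroup.normalizer (D : Set G) :=
    hnorm S₁ (hS₁ ▸ hcommC x₀) (hD ▸ inf_le_left)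
  have hTN : T ≤ Subgroup.normalizer (D : Set G) :=
    hnorm T (hT ▸ hcommC y₀) (hD ▸ inf_le_right)
  have hall : ∀ x : G, D ≤ MulAut.conj x • (S : Subgroup G) := by
    intro x
    obtain ⟨N, hN⟩ : ∃ N : Subgroup G, N = Subgroup.normalizer (D : Set G) := ⟨_, rfl⟩
    rw [← hN] at hS₁N hTN
    have hS1coe : ((x₀ • S : Sylow p G) : Subgroup G) = S₁ := by
      rw [hS₁, Sylow.coe_subgroup_smul]
    let S' : Sylow p N := (x₀ • S).subtype (by rw [hS1coe]; exact hS₁N)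
    have hX' : IsPGroup p ((MulAut.conj x • (S : Subgroup G) ⊓ N).subgroupOf N) := by
      have h1 : IsPGroup p ↥(MulAut.conj x • (S : Subgroup G)) := by
        have := (x • S).2
        rwa [Sylow.coe_subgroup_smul] at this
      exact (h1.to_le inf_le_left).comap_subtype
    obtain ⟨Q', hQ'⟩ := hX'.exists_le_sylow
    obtain ⟨n, hn⟩ := MulAction.exists_smul_eq N Q' S'
    have hconj : ∀ y ∈ MulAut.conj x • (S : Subgroup G), y ∈ N →
        (n : G) * y * (n : G)⁻¹ ∈ S₁ := by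
      intro y hyP hyN
      have h1 : (⟨y, hyN⟩ : N) ∈ Q' := hQ' (by rw [Subgroup.mem_subgroupOf]; exact ⟨hyP, hyN⟩)
      have h2 : MulAut.conj n • (⟨y, hyN⟩ : N) ∈ MulAut.conj n • (Q' : Subgroup N) :=
        Subgroup.smul_mem_pointwise_smul _ _ _ h1
      rw [← Sylow.coe_subgroup_smul, hn] at h2
      have h3 : MulAut.conj n • (⟨y, hyN⟩ : N) ∈ ((x₀ • S : Sylow p G) : Subgroup G).subgroupOf N := h2
      rw [Subgroup.mem_subgroupOf, hS1coe] at h3
      simpa [MulAut.smul_def] using h3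
    have hle : MulAut.conj ((n : G) * x) • (S : Subgroup G) ⊓ MulAut.conj y₀ • (S : Subgroup G) ≤ D := by
      intro w hw
      have hw1 : w ∈ MulAut.conj ((n : G) * x) • (S : Subgroup G) := hw.1
      have hw2 : w ∈ MulAut.conj y₀ • (S : Subgroup G) := hw.2
      rw [← hT] at hw2
      rw [hD]
      refine ⟨?_, hw2⟩
      rw [Cfsg.Agent.Lead.mem_conj_smul_iff'] at hw1
      have hy : (n:G)⁻¹ * w * (n:G) ∈ MulAut.conj x • (S : Subgroup G) := by
        rw [Cfsg.Agent.Lead.mem_conj_smul_iff']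
        have e : x⁻¹ * ((n:G)⁻¹ * w * (n:G)) * x = ((n:G) * x)⁻¹ * w * ((n:G) * x) := by group
        rw [e]; exact hw1
      have hyN : (n:G)⁻¹ * w * (n:G) ∈ N := N.mul_mem (N.mul_mem (N.inv_mem n.2) (hTN hw2)) n.2
      have := hconj _ hy hyN
      have e : (n:G) * ((n:G)⁻¹ * w * (n:G)) * (n:G)⁻¹ = w := by group
      rwa [e] at this
    have heq : MulAut.conj ((n : G) * x) • (S : Subgroup G) ⊓ MulAut.conj y₀ • (S : Subgroup G) = D :=
      Subgroup.eq_of_le_of_card_ge hle (hmin' _ _)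
    intro d hd
    have hn2 : (n : G) ∈ Subgroup.normalizer (D : Set G) := hN ▸ n.2
    have h1 : (n:G) * d * (n:G)⁻¹ ∈ D := (Subgroup.mem_normalizer_iff.mp hn2 d).mp hd
    have h2 : (n:G) * d * (n:G)⁻¹ ∈ MulAut.conj ((n : G) * x) • (S : Subgroup G) := by
      rw [← heq] at h1; exact h1.1
    rw [Cfsg.Agent.Lead.mem_conj_smul_iff'] at h2 ⊢
    have e : ((n:G) * x)⁻¹ * ((n:G) * d * (n:G)⁻¹) * ((n:G) * x) = x⁻¹ * d * x := by group
    rwa [e] at h2
  have hDbot : D = ⊥ := by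
    rw [eq_bot_iff, ← hOp]
    have hle : D ≤ (S : Subgroup G).normalCore := by
      intro d hd
      show ∀ b : G, b * d * b⁻¹ ∈ (S : Subgroup G)
      intro b
      have := hall b⁻¹ hd
      rw [Cfsg.Agent.Lead.mem_conj_smul_iff'] at this
      simpa using this
    refine hle.trans (Cfsg.Agent.Lead.le_pCore p (Subgroup.normalCore_normal _) ?_)
    exact S.2.to_le (Subgroup.normalCore_le _)
  refine ⟨x₀⁻¹ * y₀, ?_⟩
  rw [eq_bot_iff]
  intro y hy
  have hy1 : y ∈ (S : Subgroup G) := hy.1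
  have hy2 : y ∈ MulAut.conj (x₀⁻¹ * y₀) • (S : Subgroup G) := hy.2
  rw [Subgroup.mem_bot]
  rw [Cfsg.Agent.Lead.mem_conj_smul_iff'] at hy2
  have h1 : x₀ * y * x₀⁻¹ ∈ D := by
    rw [hD, hS₁, hT]
    have ha : x₀ * y * x₀⁻¹ ∈ MulAut.conj x₀ • (S : Subgroup G) := by
      rw [Cfsg.Agent.Lead.mem_conj_smul_iff']
      have e : x₀⁻¹ * (x₀ * y * x₀⁻¹) * x₀ = y := by group
      rw [e]; exact hy1
    have hb : x₀ * y * x₀⁻¹ ∈ MulAut.conj y₀ • (S : Subgroup G) := by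
      rw [Cfsg.Agent.Lead.mem_conj_smul_iff']
      have e : y₀⁻¹ * (x₀ * y * x₀⁻¹) * y₀ = (x₀⁻¹ * y₀)⁻¹ * y * (x₀⁻¹ * y₀) := by group
      rw [e]; exact hy2
    exact ⟨ha, hb⟩
  rw [hDbot, Subgroup.mem_bot] at h1
  have e : y = x₀⁻¹ * (x₀ * y * x₀⁻¹) * x₀ := by group
  rw [e, h1]; group


end Cfsg.Agent.S0060
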