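import Cfsg.Statements.S0063
import Mathlib

set_option autoImplicit false
open Cfsg

namespace Cfsg.Agent.S0063

theorem aux.{u} (p : ℕ) [hp : Fact p.Prime] : ∀ (m : ℕ) (G : Type u) [Group G] [Finite G],
    Nat.card G = p ^ m → Group.nilpotencyClass G ≤ max 1 (m - 1) := by
  intro m
  induction m using Nat.strong_induction_on with
  | _ m ih =>
    intro G _ _ hG
    have hPG : IsPGroup p G := IsPGroup.of_card hG
    haveI : Group.IsNilpotent G := hPG.isNilpotent
    have hcomm_case : (∀ a b : G, a * b = b * a) → Group.nilpotencyClass G ≤ max 1 (m - 1) := by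
      intro hc
      refine le_trans ?_ (le_max_left _ _)
      rw [← Subgroup.upperCentralSeries_eq_top_iff_nilpotencyClass_le, Subgroup.upperCentralSeries_one, eq_top_iff]
      intro x _
      rw [Subgroup.mem_center_iff]
      intro g
      exact hc g x
    rcases Nat.lt_or_ge m 3 with hm | hm
    · apply hcomm_case
      interval_cases m
      · have : Subsingleton G := by
          rw [pow_zero] at hG
          exact (Nat.card_eq_one_iff_unique.mp hG).1
        intro a b; rw [Subsingleton.elim a b]
      · rw [pow_one] at hG
        haveI := isCyclic_of_prime_card hG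
        intro a b; exact IsCyclic.commGroup.mul_comm a b
      · haveI := IsPGroup.isMulCommutative_of_card_eq_prime_sq hG
        intro a b; exact mul_comm' a b
    · obtain ⟨k, hk0, hk⟩ := IsPGroup.card_center_eq_prime_pow hG (by omega)
      have hkm : k ≤ m := by
        have h1 := (Subgroup.center G).card_mul_index
        rw [hk, hG] at h1
        have : p ^ k ∣ p ^ m := Dvd.intro _ h1
        exact (Nat.pow_dvd_pow_iff_le_right hp.out.one_lt).mp this
      have hidx : Nat.card (G ⧸ Subgroup.center G) = p ^ (m - k) := by
        have h1 := (Subgroup.center G).card_mul_index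
        rw [hk, hG] at h1
        have : p ^ k * (Subgroup.center G).index = p ^ k * p ^ (m - k) := by
          rw [h1, ← pow_add]; congr 1; omega
        exact Nat.eq_of_mul_eq_mul_left (pow_pos hp.out.pos k) this
      have hih := ih (m - k) (by omega) (G ⧸ Subgroup.center G) hidx
      haveI : Nontrivial G := by
        rw [← Finite.one_lt_card_iff_nontrivial, hG]
        exact Nat.one_lt_pow (by omega) hp.out.one_lt
      rw [Group.nilpotencyClass_eq_quotient_center_plus_one]
      have : max 1 (m - k - 1) ≤ m - 2 := by omega
      omega

/-- A finite group of prime-power order p ^ m with m > 1 is nilpotent of class at most m - 1. -/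
theorem result {G : Type*} [Group G] [Finite G] (p m : ℕ) [Fact p.Prime]
    (hG : Nat.card G = p ^ m) (hm : 1 < m) : Group.nilpotencyClass G ≤ m - 1 := by
  have h := aux p m G hG
  rw [max_eq_right (by omega)] at h
  exact h


end Cfsg.Agent.S0063
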