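import Cfsg.Statements.S0064
import Mathlib

set_option autoImplicit false
open Cfsg

namespace Cfsg.Agent.S0064

/-- A finite group is nilpotent exactly when each of its subgroups is subnormal. -/
theorem result {G : Type*} [Group G] [Finite G] :
    Group.IsNilpotent G ↔ ∀ H : Subgroup G, H.IsSubnormal := by
  constructor
  · intro hnil
    have hnc : NormalizerCondition G := ((Group.isNilpotent_of_finite_tfae (G := G)).out 0 1).mp hnil
    intro H
    induction H using WellFoundedGT.induction with
    | ind H ih =>
      by_cases hH : H = ⊤
      · rw [hH]; exact Subgroup.IsSubnormal.top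
      · have hlt : H < Subgroup.normalizer (H : Set G) := hnc H (lt_top_iff_ne_top.mpr hH)
        exact Subgroup.IsSubnormal.step H _ hlt.le (ih _ hlt) Subgroup.normal_in_normalizer
  · intro hsub
    refine ((Group.isNilpotent_of_finite_tfae (G := G)).out 0 1).mpr ?_
    intro H hH
    have h1 := (Subgroup.IsSubnormal.iff_eq_top_or_exists (H := H)).mp (hsub H)
    rcases h1 with h1 | ⟨K, hHK, -, hN⟩
    · exact absurd h1 hH.ne
    · have hle : K ≤ Subgroup.normalizer (H : Set G) :=
        (Subgroup.normal_subgroupOf_iff_le_normalizer hHK.le).mp hN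
      exact lt_of_lt_of_le hHK hle


end Cfsg.Agent.S0064
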