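import Cfsg.Statements.S3743
import Cfsg.Agent.Helper4.PiCore
import Cfsg.Agent.Helper3.Layer2

set_option autoImplicit false
open Cfsg

namespace Cfsg.Agent.S3743

/-- In a finite group G, every subnormal nilpotent subgroup lies in the Fitting subgroup F(G), and, for a set of primes π, every subnormal subgroup all of whose prime divisors lie in π lies in O_π(G). -/
theorem result {G : Type*} [Group G] [Finite G] (A : Subgroup G) (hA : A.IsSubnormal) : (Group.IsNilpotent A → A ≤ Cfsg.fittingSubgroup G) ∧ ∀ π : Set ℕ, (∀ p : ℕ, p.Prime → p ∣ Nat.card A → p ∈ π) → A ≤ Cfsg.piCore π G := by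
  classical
  constructor
  · intro hnil
    have h1 := Helper3.fitting_map_subtype_eq A hA
    have h2 : Cfsg.fittingSubgroup ↥A = ⊤ := by
      apply top_le_iff.mp
      exact le_sSup ⟨inferInstance, inferInstance⟩
    rw [h2, ← MonoidHom.range_eq_map, Subgroup.range_subtype] at h1
    rw [h1]
    exact inf_le_left
  · intro π hπ
    exact Helper4.subnormal_pi_le_piCore π A hA hπ

end Cfsg.Agent.S3743
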