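import Cfsg.Statements.S0068
import Mathlib
import Cfsg.Agent.Lead.Dihedral

set_option autoImplicit false
open Cfsg

namespace Cfsg.Agent.S0068

/-- Frobenius complements of even order: if H complements a nontrivial normal subgroup K, each nonidentity element of H has trivial centraliser in K, and H has even order, then H contains a unique involution s, K is abelian, and s inverts every element of K. -/
theorem result {G : Type*} [Group G] [Finite G] (K H : Subgroup G) [K.Normal]
    (hc : Subgroup.IsComplement' K H) (hK : K ≠ ⊥) (hfpf : ∀ h ∈ H, h ≠ 1 → K ⊓ Subgroup.centralizer {h} = ⊥)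
    (heven : 2 ∣ Nat.card H) :
    (∃ s ∈ H, orderOf s = 2 ∧ (∀ t ∈ H, orderOf t = 2 → t = s) ∧ ∀ k ∈ K, s * k * s⁻¹ = k⁻¹) ∧ IsMulCommutative K := by
  classical
  have key : ∀ s ∈ H, orderOf s = 2 → (∀ k ∈ K, s * k * s⁻¹ = k⁻¹) ∧ IsMulCommutative K := by
    intro s hs hs2
    have hs1 : s ≠ 1 := Cfsg.Agent.Lead.ne_one_of_orderOf_two hs2
    have hss : s * s = 1 := Cfsg.Agent.Lead.mul_self_of_orderOf_two hs2
    let φ : K →* K := (MulAut.conjNormal s : MulAut K).toMonoidHom
    have hφval : ∀ k : K, ((φ k : K) : G) = s * k * s⁻¹ := fun k => rfl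
    have hφ : MonoidHom.FixedPointFree φ := by
      intro k hk
      have h1 : s * (k : G) * s⁻¹ = k := by rw [← hφval, hk]
      have h2 : (k : G) ∈ K ⊓ Subgroup.centralizer {s} := by
        refine ⟨k.2, Subgroup.mem_centralizer_singleton_iff.mpr ?_⟩
        calc (k : G) * s = (s * k * s⁻¹) * s := by rw [h1]
          _ = s * k := by group
      rw [hfpf s hs hs1, Subgroup.mem_bot] at h2
      exact Subtype.ext h2
    have hinv : Function.Involutive φ := by
      intro k
      apply Subtype.ext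
      rw [hφval, hφval]
      calc s * (s * (k : G) * s⁻¹) * s⁻¹ = (s * s) * k * (s * s)⁻¹ := by group
        _ = k := by rw [hss]; simp
    have h3 := hφ.coe_eq_inv_of_involutive hinv
    refine ⟨fun k hk => ?_, ⟨⟨fun a b => hφ.commute_all_of_involutive hinv a b⟩⟩⟩
    have h4 := congrFun h3 ⟨k, hk⟩
    have h5 := congrArg Subtype.val h4
    rw [hφval] at h5
    simpa using h5
  obtain ⟨s', hs'⟩ := exists_prime_orderOf_dvd_card' (G := H) 2 heven
  have hs2 : orderOf (s' : G) = 2 := by rw [Subgroup.orderOf_coe]; exact hs'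
  obtain ⟨hsinv, hKc⟩ := key s' s'.2 hs2
  refine ⟨⟨s', s'.2, hs2, ?_, hsinv⟩, hKc⟩
  intro t ht ht2
  obtain ⟨htinv, -⟩ := key t ht ht2
  by_contra hne
  have hst : (s' : G) * t ≠ 1 := by
    intro h1
    apply hne
    have h11 : t = (s' : G)⁻¹ := eq_inv_of_mul_eq_one_right h1
    rw [h11, Cfsg.Agent.Lead.inv_eq_self_of_orderOf_two hs2]
  have h6 := hfpf _ (H.mul_mem s'.2 ht) hst
  apply hK
  rw [eq_bot_iff]
  intro k hk
  have h7 : k ∈ K ⊓ Subgroup.centralizer {(s' : G) * t} := by
    refine ⟨hk, Subgroup.mem_centralizer_singleton_iff.mpr ?_⟩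
    have h8 : t * k * t⁻¹ = k⁻¹ := htinv k hk
    have h9 : (s' : G) * k⁻¹ * (s' : G)⁻¹ = k⁻¹⁻¹ := hsinv k⁻¹ (K.inv_mem hk)
    have h10 : (s' : G) * t * k * ((s' : G) * t)⁻¹ = k := by
      calc (s' : G) * t * k * ((s' : G) * t)⁻¹ = s' * (t * k * t⁻¹) * (s' : G)⁻¹ := by group
        _ = k := by rw [h8, h9, inv_inv]
    calc k * ((s' : G) * t) = ((s' : G) * t * k * ((s' : G) * t)⁻¹) * ((s' : G) * t) := by rw [h10]
      _ = (s' : G) * t * k := by group
  rw [h6] at h7
  exact h7


end Cfsg.Agent.S0068
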