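import Cfsg.Statements.S0069
import Mathlib
import Cfsg.Agent.Lead.Fpf3
import Cfsg.Agent.S0040
import Cfsg.Agent.S0068

set_option autoImplicit false
open Cfsg

namespace Cfsg.Agent.S0069

/-- A Frobenius complement has nontrivial centre: if H ≠ 1 complements a nontrivial normal subgroup K and every nonidentity element of H has trivial centraliser in K, then the centre of H is nontrivial. -/
theorem result {G : Type*} [Group G] [Finite G] (K H : Subgroup G) [K.Normal]
    (hc : Subgroup.IsComplement' K H) (hK : K ≠ ⊥) (hH : H ≠ ⊥) (hfpf : ∀ h ∈ H, h ≠ 1 → K ⊓ Subgroup.centralizer {h} = ⊥) :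
    Subgroup.center H ≠ ⊥ := by
  classical
  suffices hz : ∃ z ∈ H, z ≠ 1 ∧ ∀ h ∈ H, h * z = z * h by
    obtain ⟨z, hzH, hz1, hzc⟩ := hz
    intro hbot
    have hmem : (⟨z, hzH⟩ : H) ∈ Subgroup.center H := by
      rw [Subgroup.mem_center_iff]
      intro h
      exact Subtype.ext (hzc h h.2)
    rw [hbot, Subgroup.mem_bot] at hmem
    exact hz1 (congrArg Subtype.val hmem)
  by_cases heven : 2 ∣ Nat.card H
  · obtain ⟨⟨s, hsH, hs2, huniq, -⟩, -⟩ := Cfsg.Agent.S0068.result K H hc hK hfpf heven
    refine ⟨s, hsH, ?_, ?_⟩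
    · intro h; rw [h, orderOf_one] at hs2; omega
    · intro h hh
      have h1 : orderOf (h * s * h⁻¹) = 2 := by
        rw [← hs2]; exact (MulAut.conj h).orderOf_eq s
      have := huniq (h * s * h⁻¹) (H.mul_mem (H.mul_mem hh hsH) (H.inv_mem hh)) h1
      calc h * s = h * s * h⁻¹ * h := by group
        _ = s * h := by rw [this]
  · have hHnt : Nat.card H ≠ 1 := fun h => hH (Subgroup.card_eq_one.mp h)
    obtain ⟨p, hpdef⟩ : ∃ p, p = (Nat.card H).minFac := ⟨_, rfl⟩
    have hp : p.Prime := hpdef ▸ Nat.minFac_prime hHnt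
    haveI : Fact p.Prime := ⟨hp⟩
    have hpH : p ∣ Nat.card H := hpdef ▸ Nat.minFac_dvd _
    have hsyl : ∀ (r : ℕ) [Fact r.Prime] (S : Sylow r H), IsCyclic S := by
      intro r _ S
      rcases Cfsg.Agent.S0040.result K H hc hK hfpf r S with h | ⟨n, ⟨e⟩⟩
      · exact h
      · exfalso
        apply heven
        haveI : NeZero (2 ^ n) := ⟨by positivity⟩
        have h1 : Nat.card S = 4 * 2 ^ n := by
          rw [Nat.card_congr e.toEquiv, Nat.card_eq_fintype_card]
          exact QuaternionGroup.card
        have h2 : Nat.card S ∣ Nat.card H := Subgroup.card_subgroup_dvd_card _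
        rw [h1] at h2
        exact Dvd.dvd.trans ⟨2 * 2 ^ n, by ring⟩ h2
    have hrcyc : ∀ (r : ℕ) [Fact r.Prime] (R : Subgroup H), IsPGroup r R → IsCyclic R := by
      intro r _ R hR
      obtain ⟨S, hS⟩ := hR.exists_le_sylow
      haveI := hsyl r S
      have h1 : IsCyclic (R.subgroupOf S) := inferInstance
      exact (Subgroup.subgroupOfEquivOfLe hS).isCyclic.mp h1
    obtain ⟨x, hx⟩ := exists_prime_orderOf_dvd_card' p hpH
    have hxp : IsPGroup p (Subgroup.zpowers x) :=
      IsPGroup.of_card (n := 1) (by rw [Nat.card_zpowers, hx, pow_one])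
    obtain ⟨P, hP⟩ := hxp.exists_le_sylow
    have hPcyc : IsCyclic P := hsyl p P
    have hNC := IsCyclic.normalizer_le_centralizer hpdef.symm hPcyc
    obtain ⟨N, hN⟩ : ∃ N : Subgroup H, N = (MonoidHom.transferSylow P hNC).ker := ⟨_, rfl⟩
    have hNn : N.Normal := by rw [hN]; infer_instance
    have hcompl : N.IsComplement' P := hN ▸ IsCyclic.isComplement' hpdef.symm hPcyc
    have hxP : x ∈ (P : Subgroup H) := hP (Subgroup.mem_zpowers x)
    have hPle : (P : Subgroup H) ≤ Subgroup.centralizer {x} := by
      intro c hc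
      rw [Subgroup.mem_centralizer_singleton_iff]
      letI := IsCyclic.commGroup (α := (P : Subgroup H))
      have := mul_comm (⟨c, hc⟩ : (P : Subgroup H)) ⟨x, hxP⟩
      exact congrArg Subtype.val this
    have hNle : N ≤ Subgroup.centralizer {x} := by
      obtain ⟨A, hA⟩ : ∃ A : Subgroup H, A = Subgroup.zpowers x := ⟨_, rfl⟩
      have hAcard : Nat.card A = p := by rw [hA, Nat.card_zpowers, hx]
      have hxA : x ∈ A := hA ▸ Subgroup.mem_zpowers x
      have hAN : A ≤ Subgroup.normalizer (N : Set H) := by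
        rw [Subgroup.normalizer_eq_top_iff.mpr hNn]; exact le_top
      have hpN : ¬ p ∣ Nat.card N := by
        have h1 := hcompl.card_mul_card
        have h2 := (P : Subgroup H).card_mul_index
        have h3 : Nat.card N = (P : Subgroup H).index := by
          have hPpos : 0 < Nat.card (P : Subgroup H) := Nat.card_pos
          apply Nat.eq_of_mul_eq_mul_left hPpos
          rw [h2, mul_comm, h1]
        rw [h3]; exact P.not_dvd_index
      have hcopN : (Nat.card A).Coprime (Nat.card N) := by
        rw [hAcard, Nat.Prime.coprime_iff_not_dvd hp]; exact hpN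
      have hAsolv : Group.IsSolvable A := by
        rw [hA]; exact Group.isSolvable_of_comm (fun a b => mul_comm' a b)
      obtain ⟨C, hC⟩ : ∃ C : Subgroup H, C = N ⊓ Subgroup.centralizer {x} := ⟨_, rfl⟩
      suffices hcard : Nat.card N ∣ Nat.card C by
        have hCN : C ≤ N := hC ▸ inf_le_left
        have heq : C = N := Subgroup.eq_of_le_of_card_ge hCN (Nat.le_of_dvd Nat.card_pos hcard)
        rw [← heq, hC]; exact inf_le_right
      rw [← Nat.factorization_prime_le_iff_dvd Nat.card_pos.ne' Nat.card_pos.ne']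
      intro r hr
      haveI : Fact r.Prime := ⟨hr⟩
      rw [← hr.pow_dvd_iff_le_factorization Nat.card_pos.ne']
      obtain ⟨R, hR⟩ := Cfsg.Agent.Lead.coprime_sylow_exists A N hAN hcopN (Or.inl hAsolv) r
      obtain ⟨R₀, hR₀⟩ : ∃ R₀ : Subgroup H, R₀ = (R : Subgroup N).map N.subtype := ⟨_, rfl⟩
      rw [← hR₀] at hR
      have hR₀N : R₀ ≤ N := hR₀ ▸ Subgroup.map_subtype_le _
      have hR₀card : Nat.card R₀ = r ^ (Nat.card N).factorization r := by
        rw [hR₀, Subgroup.card_map_of_injective N.subtype_injective]; exact R.card_eq_multiplicity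
      have hR₀r : IsPGroup r R₀ := IsPGroup.of_card hR₀card
      rw [← hR₀card]
      suffices hle : R₀ ≤ C from Subgroup.card_dvd_of_le hle
      rw [hC]
      refine le_inf hR₀N ?_
      by_cases hrp : r = p
      · have h1 : Nat.card R₀ = 1 := by
          rw [hR₀card]
          have h0 : (Nat.card N).factorization r = 0 := by
            apply Nat.factorization_eq_zero_of_not_dvd
            rw [hrp]; exact hpN
          rw [h0, pow_zero]
        rw [Subgroup.card_eq_one.mp h1]; exact bot_le
      have hR₀cyc : IsCyclic R₀ := hrcyc r R₀ hR₀r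
      have hR₀c : ∀ u ∈ R₀, ∀ v ∈ R₀, u * v = v * u := by
        intro u hu v hv
        letI := IsCyclic.commGroup (α := R₀)
        exact congrArg Subtype.val (mul_comm (⟨u, hu⟩ : R₀) ⟨v, hv⟩)
      haveI : IsMulCommutative R₀ := ⟨⟨fun u v => Subtype.ext (hR₀c u u.2 v v.2)⟩⟩
      have hxR : x ∈ Subgroup.normalizer (R₀ : Set H) := hR hxA
      have hxpow : x ^ p = 1 := by rw [← hx]; exact pow_orderOf_eq_one x
      have hΩ : ∀ y ∈ R₀, y ^ r = 1 → x * y = y * x := by
        intro y hy hyr
        by_cases hy1 : y = 1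
        · rw [hy1]; simp
        have hconj : x * y * x⁻¹ ∈ R₀ := (Subgroup.mem_normalizer_iff.mp hxR y).mp hy
        have hmem : x * y * x⁻¹ ∈ Subgroup.zpowers y := by
          have h1 := Cfsg.Agent.Lead.cyclic_mem_zpowers_of_pow_eq_one (p := r) R₀ (⟨y, hy⟩ : R₀)
            ⟨x * y * x⁻¹, hconj⟩ (Subtype.ext (by simpa using hyr))
            (Subtype.ext (by simp [conj_pow, hyr])) (fun h => hy1 (congrArg Subtype.val h))
          obtain ⟨k, hk⟩ := Subgroup.mem_zpowers_iff.mp h1
          rw [Subgroup.mem_zpowers_iff]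
          exact ⟨k, by have := congrArg Subtype.val hk; simpa using this⟩
        have hG := Cfsg.Agent.Lead.fpf_pq_commute K H hK hfpf p r hp hr (Ne.symm hrp) (x : G) (y : G)
          x.2 y.2 (by have := congrArg Subtype.val hxpow; simpa using this)
          (by have := congrArg Subtype.val hyr; simpa using this)
          (by
            obtain ⟨k, hk⟩ := Subgroup.mem_zpowers_iff.mp hmem
            rw [Subgroup.mem_zpowers_iff]
            exact ⟨k, by have := congrArg Subtype.val hk; simpa using this⟩)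
        exact Subtype.ext hG
      have hcopR : (Nat.card A).Coprime (Nat.card R₀) :=
        Nat.Coprime.coprime_dvd_right (Subgroup.card_dvd_of_le hR₀N) hcopN
      have h1 := Cfsg.Agent.Lead.fixed_inf_commutator_eq_bot A R₀ hR hcopR
      have h2 := Cfsg.Agent.Lead.fixed_sup_commutator_eq A R₀ hR hcopR
      have hcomm_bot : ⁅R₀, A⁆ = ⊥ := by
        by_contra hne
        have hle : ⁅R₀, A⁆ ≤ R₀ := Cfsg.Agent.Lead.commutator_le_of_le_normalizer A R₀ hR
        have hr' : IsPGroup r ↥⁅R₀, A⁆ := hR₀r.to_le hle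
        have hdvd : r ∣ Nat.card ↥⁅R₀, A⁆ := by
          obtain ⟨k, hk⟩ := IsPGroup.iff_card.mp hr'
          have hk0 : k ≠ 0 := by
            rintro rfl
            rw [pow_zero] at hk
            exact hne (Subgroup.card_eq_one.mp hk)
          rw [hk]; exact dvd_pow_self r hk0
        obtain ⟨y, hy⟩ := exists_prime_orderOf_dvd_card' r hdvd
        have hyr : (y : H) ^ r = 1 := by
          have h3 := pow_orderOf_eq_one y
          rw [hy] at h3
          exact_mod_cast congrArg Subtype.val h3
        have hyR : (y : H) ∈ R₀ := hle y.2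
        have hxy := hΩ y hyR hyr
        have hyC : (y : H) ∈ R₀ ⊓ Subgroup.centralizer (A : Set H) := by
          refine Subgroup.mem_inf.mpr ⟨hyR, ?_⟩
          rw [Subgroup.mem_centralizer_iff]
          intro a ha
          rw [hA] at ha
          obtain ⟨k, rfl⟩ := Subgroup.mem_zpowers_iff.mp ha
          exact ((Commute.zpow_left (show Commute x (y : H) from hxy) k)).eq
        have h4 : (y : H) ∈ (R₀ ⊓ Subgroup.centralizer (A : Set H)) ⊓ ⁅R₀, A⁆ :=
          Subgroup.mem_inf.mpr ⟨hyC, y.2⟩
        rw [h1, Subgroup.mem_bot] at h4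
        have hy1 : y = 1 := Subtype.ext h4
        rw [hy1, orderOf_one] at hy
        exact hr.one_lt.ne hy
      rw [hcomm_bot, sup_bot_eq] at h2
      intro u hu
      rw [← h2] at hu
      have h5 := (Subgroup.mem_centralizer_iff.mp (Subgroup.mem_inf.mp hu).2) x hxA
      rw [Subgroup.mem_centralizer_singleton_iff]
      exact h5.symm
    have htop : Subgroup.centralizer {x} = (⊤ : Subgroup H) := by
      rw [eq_top_iff, ← hcompl.sup_eq_top]; exact sup_le hNle hPle
    refine ⟨(x : G), x.2, ?_, ?_⟩
    · intro h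
      have h1 : x = 1 := Subtype.ext h
      rw [h1, orderOf_one] at hx
      exact hp.one_lt.ne hx
    · intro h hh
      have h1 : (⟨h, hh⟩ : H) ∈ Subgroup.centralizer {x} := by rw [htop]; trivial
      rw [Subgroup.mem_centralizer_singleton_iff] at h1
      exact congrArg Subtype.val h1


end Cfsg.Agent.S0069
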