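import Cfsg.Statements.S0070
import Mathlib
import Cfsg.Agent.Lead.Fitting

set_option autoImplicit false
open Cfsg

namespace Cfsg.Agent.S0070

/-- The Fitting subgroup commutes with passing to the Frattini quotient: the Fitting subgroup of G modulo its Frattini subgroup is the image of the Fitting subgroup of G. -/
theorem result {G : Type*} [Group G] [Finite G] :
    Cfsg.fittingSubgroup (G ⧸ frattini G) = (Cfsg.fittingSubgroup G).map (QuotientGroup.mk' (frattini G)) := by
  set Φ := frattini G with hΦ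
  let π := QuotientGroup.mk' Φ
  have hπs : Function.Surjective π := QuotientGroup.mk'_surjective Φ
  have hker : π.ker = Φ := QuotientGroup.ker_mk' Φ
  set F := Cfsg.fittingSubgroup G with hF
  have hFn : F.Normal := Subgroup.sSup_normal _ fun _ hN => hN.1
  have hFnil : Group.IsNilpotent F := Lead.fitting_isNilpotent
  have hΦF : Φ ≤ F := le_sSup ⟨inferInstance, frattini_nilpotent⟩
  apply le_antisymm
  · rw [Lead.fitting_eq_iSup_pCore]
    apply iSup_le
    intro q
    have : Fact (q : ℕ).Prime := ⟨q.2⟩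
    obtain ⟨hRn, hRp⟩ := Lead.pCore_normal_isPGroup (G := G ⧸ Φ) (q : ℕ)
    set R := Cfsg.pCore (q : ℕ) (G ⧸ Φ) with hR
    set Q : Subgroup G := R.comap π with hQ
    have hQn : Q.Normal := hRn.comap π
    have hQmap : Q.map π = R := Subgroup.map_comap_eq_self_of_surjective hπs R
    obtain ⟨P⟩ : Nonempty (Sylow (q : ℕ) Q) := inferInstance
    set P₀ : Subgroup G := (P : Subgroup Q).map Q.subtype with hP₀
    have hfrat : Subgroup.normalizer (P₀ : Set G) ⊔ Q = ⊤ := Sylow.normalizer_sup_eq_top P
    have hQle : Q ≤ P₀ ⊔ Φ := by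
      have hsurj := MonoidHom.subgroupMap_surjective π Q
      have hpg : IsPGroup (q : ℕ) (Q.map π) := hRp.to_le (le_of_eq hQmap)
      have htop : ((P.mapSurjective hsurj : Sylow (q : ℕ) (Q.map π)) : Subgroup (Q.map π)) = ⊤ :=
        ((P.mapSurjective hsurj).is_maximal' (hpg.to_subgroup ⊤) le_top).symm
      rw [Sylow.coe_mapSurjective] at htop
      intro x hx
      have h1 : π.subgroupMap Q ⟨x, hx⟩ ∈ (P : Subgroup Q).map (π.subgroupMap Q) := by
        rw [htop]; trivial
      obtain ⟨y, hy, hye⟩ := Subgroup.mem_map.mp h1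
      have h2 : π (y : G) = π x := congrArg Subtype.val hye
      have h3 : (y : G)⁻¹ * x ∈ Φ := by
        rw [← hker, MonoidHom.mem_ker, map_mul, map_inv, h2, inv_mul_cancel]
      have h4 : x = (y : G) * ((y : G)⁻¹ * x) := by group
      rw [h4]
      exact mul_mem (Subgroup.mem_sup_left (Subgroup.mem_map.mpr ⟨y, hy, rfl⟩))
        (Subgroup.mem_sup_right h3)
    have hnorm : Subgroup.normalizer (P₀ : Set G) ⊔ Φ = ⊤ := by
      rw [eq_top_iff, ← hfrat]
      apply sup_le le_sup_left
      exact hQle.trans (sup_le (Subgroup.le_normalizer.trans le_sup_left) le_sup_right)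
    have hP₀n : P₀.Normal := Subgroup.normalizer_eq_top_iff.mp (frattini_nongenerating hnorm)
    have hP₀p : IsPGroup (q : ℕ) P₀ := P.isPGroup'.map Q.subtype
    have hP₀F : P₀ ≤ F := by
      rw [hF, Lead.fitting_eq_iSup_pCore]
      exact (Lead.le_pCore (q : ℕ) hP₀n hP₀p).trans
        (le_iSup (fun q : Nat.Primes => Cfsg.pCore (q : ℕ) G) q)
    rw [← hQmap]
    exact Subgroup.map_mono (hQle.trans (sup_le hP₀F hΦF))
  · apply le_sSup
    refine ⟨hFn.map π hπs, ?_⟩
    exact Group.nilpotent_of_surjective (π.subgroupMap F) (MonoidHom.subgroupMap_surjective π F)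


end Cfsg.Agent.S0070
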