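import Cfsg.Statements.S0072
import Mathlib
import Cfsg.Agent.Helper6.FrobNPC
-- import your own Cfsg.Agent.* helpers here

set_option autoImplicit false
open Cfsg

namespace Cfsg.Agent.S0072

/-- A finite group has a normal p-complement if and only if every p-local subgroup (normalizer of a nontrivial p-subgroup) has one. -/
theorem result {G : Type*} [Group G] [Finite G] (p : ℕ) [Fact p.Prime] : Cfsg.HasNormalPComplement p G ↔ ∀ Q : Subgroup G, IsPGroup p Q → Q ≠ ⊥ → Cfsg.HasNormalPComplement p (Subgroup.normalizer (Q : Set G)) := by
  constructor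
  · intro h Q _ _
    exact Cfsg.Agent.Helper6.hasNormalPComplement_subgroup h _
  · intro h
    apply Cfsg.Agent.Helper6.hasNormalPComplement_of_frobCond
    intro X hX g hg hcop
    by_cases hX1 : X = ⊥
    · rw [hX1, Subgroup.mem_centralizer_iff]
      intro x hx
      have : x = 1 := by simpa using hx
      rw [this, one_mul, mul_one]
    · have hF := Cfsg.Agent.Helper6.frobCond_of_hasNormalPComplement (h X hX hX1)
      exact Cfsg.Agent.Helper6.mem_centralizer_of_frobCond_subgroup _ hF X hX
        Subgroup.le_normalizer g hg hg hcop

end Cfsg.Agent.S0072
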