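import Cfsg.Statements.S0073
import Mathlib

set_option autoImplicit false
open Cfsg

namespace Cfsg.Agent.S0073

/-- For a finite non-abelian simple group, either the cube of the least prime divisor of the order divides the order, or 12 does. -/
theorem result {G : Type*} [Group G] [Finite G] [IsSimpleGroup G] (hG : ∃ x y : G, x * y ≠ y * x) : (Nat.card G).minFac ^ 3 ∣ Nat.card G ∨ 12 ∣ Nat.card G := by
  classical
  obtain ⟨x₀, y₀, hxy⟩ := hG
  have hcard1 : Nat.card G ≠ 1 := by
    intro h
    haveI := (Nat.card_eq_one_iff_unique.mp h).1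
    exact hxy (Subsingleton.elim _ _)
  have hp : (Nat.card G).minFac.Prime := Nat.minFac_prime hcard1
  obtain ⟨p, hpdef⟩ : ∃ p, p = (Nat.card G).minFac := ⟨_, rfl⟩
  rw [← hpdef] at hp ⊢
  haveI : Fact p.Prime := ⟨hp⟩
  have hpdvd : p ∣ Nat.card G := hpdef ▸ Nat.minFac_dvd _
  have hmin : ∀ q : ℕ, q.Prime → q ∣ Nat.card G → p ≤ q := by
    intro q hq hqd
    rw [hpdef]; exact Nat.minFac_le_of_dvd hq.two_le hqd
  obtain ⟨P⟩ : Nonempty (Sylow p G) := inferInstance
  have hPdvd : Nat.card (P : Subgroup G) ∣ Nat.card G := Subgroup.card_subgroup_dvd_card _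
  obtain ⟨k, hkdef⟩ : ∃ k, k = (Nat.card G).factorization p := ⟨_, rfl⟩
  have hPc : Nat.card (P : Subgroup G) = p ^ k := by rw [hkdef]; exact P.card_eq_multiplicity
  have hk1 : 1 ≤ k := by
    rw [hkdef]; exact Nat.Prime.factorization_pos_of_dvd hp Nat.card_pos.ne' hpdvd
  by_cases hk3 : 3 ≤ k
  · left; exact (pow_dvd_pow p hk3).trans (hPc ▸ hPdvd)
  · have hPcomm : ∀ a ∈ (P : Subgroup G), ∀ b ∈ (P : Subgroup G), a * b = b * a := by
      rcases (by omega : k = 1 ∨ k = 2) with h | h
      · rw [h, pow_one] at hPc
        haveI : IsCyclic (P : Subgroup G) := isCyclic_of_prime_card hPc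
        intro a ha b hb
        obtain ⟨g, hg⟩ := IsCyclic.exists_generator (α := (P : Subgroup G))
        obtain ⟨i, hi⟩ := Subgroup.mem_zpowers_iff.mp (hg ⟨a, ha⟩)
        obtain ⟨j, hj⟩ := Subgroup.mem_zpowers_iff.mp (hg ⟨b, hb⟩)
        have h1 : (⟨a, ha⟩ : (P : Subgroup G)) * ⟨b, hb⟩ = ⟨b, hb⟩ * ⟨a, ha⟩ := by
          rw [← hi, ← hj]; exact zpow_mul_comm g i j
        exact congrArg Subtype.val h1
      · rw [h] at hPc
        have hc := IsPGroup.commutative_of_card_eq_prime_sq hPc
        intro a ha b hb
        exact congrArg Subtype.val (hc ⟨a, ha⟩ ⟨b, hb⟩)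
    by_cases hNC : Subgroup.normalizer ((P : Subgroup G) : Set G)
        ≤ Subgroup.centralizer ((P : Subgroup G) : Set G)
    · exfalso
      have hcompl := MonoidHom.ker_transferSylow_isComplement' P hNC
      have hnorm : (MonoidHom.transferSylow P hNC).ker.Normal := inferInstance
      rcases hnorm.eq_bot_or_eq_top with h | h
      · rw [h] at hcompl
        have hPtop : (P : Subgroup G) = ⊤ := by
          have h1 := hcompl.card_mul_card
          rw [Subgroup.card_bot, one_mul] at h1
          exact Subgroup.eq_top_of_card_eq _ h1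
        apply hxy
        exact hPcomm x₀ (by rw [hPtop]; trivial) y₀ (by rw [hPtop]; trivial)
      · rw [h] at hcompl
        have h1 := hcompl.card_mul_card
        rw [Subgroup.card_top] at h1
        have hpos : 0 < Nat.card G := Nat.card_pos
        have hP1 : Nat.card (P : Subgroup G) = 1 :=
          Nat.eq_of_mul_eq_mul_left hpos (h1.trans (mul_one _).symm)
        rw [hPc] at hP1
        have h2 : 1 < p ^ k := Nat.one_lt_pow (by omega) hp.one_lt
        omega
    · right
      have hex : ∃ g, g ∈ Subgroup.normalizer ((P : Subgroup G) : Set G) ∧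
          g ∉ Subgroup.centralizer ((P : Subgroup G) : Set G) := by
        by_contra hcon; push_neg at hcon
        exact hNC (fun g hg => hcon g hg)
      obtain ⟨g, ⟨hgN, hgC⟩, hgmin⟩ := Set.exists_min_image
        {g : G | g ∈ Subgroup.normalizer ((P : Subgroup G) : Set G) ∧
          g ∉ Subgroup.centralizer ((P : Subgroup G) : Set G)} orderOf (Set.toFinite _) hex
      have hn0 : orderOf g ≠ 0 := (orderOf_pos g).ne'
      have hexq : ∃ q : ℕ, q.Prime ∧ q ∣ orderOf g ∧ q ≠ p := by
        by_contra hcon; push_neg at hcon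
        have hpow := Nat.eq_prime_pow_of_unique_prime_dvd hn0 (fun {d} hd hdd => hcon d hd hdd)
        have hgp : IsPGroup p (Subgroup.zpowers g) := by
          rw [IsPGroup.iff_card]
          exact ⟨_, by rw [Nat.card_zpowers]; exact hpow⟩
        have hle : Subgroup.zpowers g ≤ Subgroup.normalizer ((P : Subgroup G) : Set G) := by
          rw [Subgroup.zpowers_le]; exact hgN
        have hsup : IsPGroup p (Subgroup.zpowers g ⊔ (P : Subgroup G) : Subgroup G) :=
          hgp.to_sup_of_normal_right' P.isPGroup' hle
        have heq := P.is_maximal' hsup le_sup_right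
        apply hgC
        have hgP : g ∈ (P : Subgroup G) := by
          rw [← heq]; exact Subgroup.mem_sup_left (Subgroup.mem_zpowers g)
        rw [Subgroup.mem_centralizer_iff]
        intro y hy
        exact hPcomm y hy g hgP
      obtain ⟨q, hq, hqg, hqp⟩ := hexq
      haveI : Fact q.Prime := ⟨hq⟩
      have hqG : q ∣ Nat.card G := hqg.trans (orderOf_dvd_natCard g)
      have hpq : p < q := lt_of_le_of_ne (hmin q hq hqG) (Ne.symm hqp)
      have hgqC : g ^ q ∈ Subgroup.centralizer ((P : Subgroup G) : Set G) := by
        by_contra hcon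
        have h1 := hgmin (g ^ q) ⟨Subgroup.pow_mem _ hgN q, hcon⟩
        have h2 : orderOf (g ^ q) = orderOf g / q := orderOf_pow_of_dvd hq.ne_zero hqg
        have h3 : orderOf g / q < orderOf g := Nat.div_lt_self (orderOf_pos g) hq.one_lt
        omega
      have hconjP : ∀ x : (P : Subgroup G), g * (x : G) * g⁻¹ ∈ (P : Subgroup G) :=
        fun x => (Subgroup.mem_normalizer_iff.mp hgN x).mp x.2
      let f : Function.End (P : Subgroup G) := fun x => ⟨g * (x : G) * g⁻¹, hconjP x⟩
      have hfpow : ∀ (n : ℕ) (x : (P : Subgroup G)),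
          (((f ^ n) x : (P : Subgroup G)) : G) = g ^ n * (x : G) * (g ^ n)⁻¹ := by
        intro n
        induction n with
        | zero =>
          intro x
          rw [pow_zero, pow_zero, one_mul, inv_one, mul_one]; rfl
        | succ n ih =>
          intro x
          rw [pow_succ]
          show (((f ^ n) (f x) : (P : Subgroup G)) : G) = _
          rw [ih (f x)]
          show g ^ n * (g * (x : G) * g⁻¹) * (g ^ n)⁻¹ = g ^ (n + 1) * (x : G) * (g ^ (n + 1))⁻¹
          rw [pow_succ]; group
      have hfq : f ^ q ^ 1 = 1 := by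
        rw [pow_one]
        apply funext
        intro x
        apply Subtype.ext
        rw [hfpow]
        show g ^ q * (x : G) * (g ^ q)⁻¹ = x
        have h1 := Subgroup.mem_centralizer_iff.mp hgqC x x.2
        rw [← h1]; group
      haveI : Fintype (P : Subgroup G) := Fintype.ofFinite _
      have hmod := Equiv.Perm.card_fixedPoints_modEq (f := f) (p := q) (n := 1) hfq
      obtain ⟨F, hF⟩ : ∃ F : Subgroup G, F = (P : Subgroup G) ⊓ Subgroup.centralizer {g} :=
        ⟨_, rfl⟩
      have hFmem : ∀ y : G, y ∈ F ↔ y ∈ (P : Subgroup G) ∧ g * y = y * g := by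
        intro y
        rw [hF, Subgroup.mem_inf, Subgroup.mem_centralizer_iff]
        constructor
        · rintro ⟨h1, h2⟩; exact ⟨h1, h2 g rfl⟩
        · rintro ⟨h1, h2⟩
          refine ⟨h1, ?_⟩
          intro h hh
          rw [Set.mem_singleton_iff] at hh
          rw [hh]; exact h2
      have hfix : Nat.card (Function.fixedPoints f) = Nat.card F := by
        apply Nat.card_congr
        refine ⟨fun x => ⟨(x.1 : G), ?_⟩, fun y => ⟨⟨y.1, ?_⟩, ?_⟩, ?_, ?_⟩
        · rw [hFmem]
          refine ⟨x.1.2, ?_⟩
          have h1 : f x.1 = x.1 := x.2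
          have h2 : g * (x.1 : G) * g⁻¹ = x.1 := congrArg Subtype.val h1
          calc g * (x.1 : G) = (g * (x.1 : G) * g⁻¹) * g := by group
            _ = x.1 * g := by rw [h2]
        · exact ((hFmem y.1).mp y.2).1
        · show f ⟨y.1, _⟩ = ⟨y.1, _⟩
          apply Subtype.ext
          show g * (y.1 : G) * g⁻¹ = y.1
          have h1 := ((hFmem y.1).mp y.2).2
          rw [h1]; group
        · intro x; rfl
        · intro y; rfl
      have hFP : F ≤ (P : Subgroup G) := fun y hy => ((hFmem y).mp hy).1
      have hFne : F ≠ (P : Subgroup G) := by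
        intro h
        apply hgC
        rw [Subgroup.mem_centralizer_iff]
        intro y hy
        have hyF : y ∈ F := by rw [h]; exact hy
        exact ((hFmem y).mp hyF).2.symm
      obtain ⟨j, hj, hjc⟩ := (Nat.dvd_prime_pow hp).mp (hPc ▸ Subgroup.card_dvd_of_le hFP)
      have hjk : j < k := by
        rcases lt_or_eq_of_le hj with h | h
        · exact h
        · exfalso; apply hFne
          exact Subgroup.eq_of_le_of_card_ge hFP (by rw [hjc, hPc, h])
      rw [← Nat.card_eq_fintype_card, ← Nat.card_eq_fintype_card, hfix, hjc, hPc] at hmod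
      have hdvd : q ∣ p ^ k - p ^ j :=
        (Nat.modEq_iff_dvd' (Nat.pow_le_pow_right hp.pos hjk.le)).mp hmod.symm
      have hq_not_pm1 : ¬ q ∣ p - 1 := by
        intro h
        have h1 := Nat.le_of_dvd (by have := hp.two_le; omega) h
        omega
      have hq_not_p : ¬ q ∣ p := by
        intro h
        exact hqp ((Nat.prime_dvd_prime_iff_eq hq hp).mp h)
      rcases (by omega : (k = 1 ∧ j = 0) ∨ (k = 2 ∧ j = 0) ∨ (k = 2 ∧ j = 1)) with
        ⟨h1, h2⟩ | ⟨h1, h2⟩ | ⟨h1, h2⟩
      · rw [h1, h2, pow_one, pow_zero] at hdvd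
        exact absurd hdvd hq_not_pm1
      · rw [h1, h2, pow_zero] at hdvd
        have e : p ^ 2 - 1 = (p - 1) * (p + 1) := by
          have h3 := hp.two_le
          zify [show 1 ≤ p ^ 2 from Nat.one_le_pow _ _ hp.pos, show 1 ≤ p from hp.pos]
          ring
        rw [e] at hdvd
        rcases (Nat.Prime.dvd_mul hq).mp hdvd with h | h
        · exact absurd h hq_not_pm1
        · have hle := Nat.le_of_dvd (by omega) h
          have hq' : q = p + 1 := by omega
          have hp2 : p = 2 := by
            rcases hp.eq_two_or_odd' with h2' | hodd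
            · exact h2'
            · exfalso
              have heven : Even (p + 1) := hodd.add_one
              rw [← hq'] at heven
              have h5 := (Nat.Prime.even_iff hq).mp heven
              have h7 := hp.two_le
              omega
          have h4 : 4 ∣ Nat.card G := by
            have h6 : Nat.card (P : Subgroup G) = 4 := by rw [hPc, h1, hp2]; norm_num
            rw [← h6]; exact hPdvd
          have h3 : 3 ∣ Nat.card G := by
            have h6 : q = 3 := by omega
            rw [← h6]; exact hqG
          show 3 * 4 ∣ Nat.card G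
          exact Nat.Coprime.mul_dvd_of_dvd_of_dvd (by norm_num) h3 h4
      · rw [h1, h2, pow_one] at hdvd
        have e : p ^ 2 - p = p * (p - 1) := by
          have h3 := hp.two_le
          zify [show p ≤ p ^ 2 from by nlinarith, show 1 ≤ p from hp.pos]
          ring
        rw [e] at hdvd
        rcases (Nat.Prime.dvd_mul hq).mp hdvd with h | h
        · exact absurd h hq_not_p
        · exact absurd h hq_not_pm1


end Cfsg.Agent.S0073
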