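import Cfsg.Statements.S0075
import Mathlib
import Cfsg.Agent.Lead.AbelianSylow
import Cfsg.Agent.Lead.SylowBasic

set_option autoImplicit false
open Cfsg

namespace Cfsg.Agent.S0075

open scoped commutatorElement

/-- For an abelian Sylow p-subgroup T, its intersection with the subgroup generated by the elements of order prime to p is the commutator of T with its normalizer. -/
theorem result {G : Type*} [Group G] [Finite G] {p : ℕ} [Fact p.Prime] (T : Sylow p G) (hT : IsMulCommutative T) : (T : Subgroup G) ⊓ Cfsg.pResidual p G = ⁅(T : Subgroup G), Subgroup.normalizer (T : Set G)⁆ := by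
  classical
  haveI := hT
  have hp : p.Prime := Fact.out
  have hfoc := Cfsg.Agent.Lead.focal_eq_commutator_normalizer T
  apply le_antisymm
  · rw [← hfoc, ← Subgroup.ker_transferFocal_inf_eq_focalSubgroup T]
    intro x hx
    obtain ⟨hxT, hxR⟩ := Subgroup.mem_inf.mp hx
    refine Subgroup.mem_inf.mpr ⟨?_, hxT⟩
    have hle : Cfsg.pResidual p G ≤ (Subgroup.transferFocal (T : Subgroup G)).ker := by
      unfold Cfsg.pResidual
      rw [Subgroup.closure_le]
      intro g hg
      rw [SetLike.mem_coe, MonoidHom.mem_ker]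
      have h1 : orderOf (Subgroup.transferFocal (T : Subgroup G) g) ∣ orderOf g :=
        orderOf_map_dvd _ g
      have hQ : IsPGroup p ((T : Subgroup G) ⧸ (T : Subgroup G).focalSubgroupOf) :=
        T.2.to_quotient _
      obtain ⟨k, hk⟩ := hQ (Subgroup.transferFocal (T : Subgroup G) g)
      have h2 : orderOf (Subgroup.transferFocal (T : Subgroup G) g) ∣ p ^ k :=
        orderOf_dvd_of_pow_eq_one hk
      have h3 : orderOf (Subgroup.transferFocal (T : Subgroup G) g) = 1 :=
        Nat.eq_one_of_dvd_coprimes (Nat.Coprime.pow_right k hg) h1 h2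
      exact orderOf_eq_one_iff.mp h3
    exact hle hxR
  · obtain ⟨K, hKN, -, -, hprod, hcop⟩ := Cfsg.Agent.Lead.exists_complement_in_normalizer T
    rw [Cfsg.Agent.Lead.commutator_eq_of_prod (T : Subgroup G) _ K hKN le_rfl hprod]
    apply le_inf (Cfsg.Agent.Lead.commutator_le_of_le_normalizer K (T : Subgroup G) hKN)
    rw [Subgroup.commutator_le]
    intro x hx k hk
    have hk1 : (orderOf k).Coprime p := by
      have h1 : orderOf k ∣ Nat.card K := by
        have h0 := orderOf_dvd_natCard (⟨k, hk⟩ : K)
        rwa [Subgroup.orderOf_mk] at h0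
      exact Nat.Coprime.coprime_dvd_left h1 hcop
    have e : ⁅x, k⁆ = (x * k * x⁻¹) * k⁻¹ := by rw [commutatorElement_def]
    rw [e]
    unfold Cfsg.pResidual
    apply Subgroup.mul_mem
    · apply Subgroup.subset_closure
      show (orderOf (x * k * x⁻¹)).Coprime p
      rw [Cfsg.Agent.Lead.orderOf_conj_eq]; exact hk1
    · apply Subgroup.subset_closure
      show (orderOf k⁻¹).Coprime p
      rw [orderOf_inv]; exact hk1


end Cfsg.Agent.S0075
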