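import Cfsg.Statements.S0076
import Mathlib
import Cfsg.Agent.Lead.SylowBasic

set_option autoImplicit false
open Cfsg

namespace Cfsg.Agent.S0076

/-- Two P-invariant subsets of a Sylow p-subgroup P that are conjugate in G are conjugate under the normalizer of P. -/
theorem result {G : Type*} [Group G] [Finite G] {p : ℕ} [Fact p.Prime] (P : Sylow p G) (X Y : Set G) (hXP : X ⊆ P) (hYP : Y ⊆ P) (hX : ∀ x ∈ P, (fun y => x * y * x⁻¹) '' X = X) (hY : ∀ x ∈ P, (fun y => x * y * x⁻¹) '' Y = Y) (g : G) (hg : (fun y => g * y * g⁻¹) '' X = Y) : ∃ n ∈ Subgroup.normalizer (P : Set G), (fun y => n * y * n⁻¹) '' X = Y := by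
  have hYmem : ∀ y : G, y ∈ Y ↔ ∃ a ∈ X, g * a * g⁻¹ = y := by
    intro y; rw [← hg]; exact Iff.rfl
  have h1 : (P : Subgroup G) ≤ Subgroup.normalizer Y := by
    intro x hx
    rw [Subgroup.mem_set_normalizer_iff]
    intro y
    constructor
    · intro hy
      have h0 : x * y * x⁻¹ ∈ (fun y => x * y * x⁻¹) '' Y := ⟨y, hy, rfl⟩
      rw [hY x hx] at h0
      exact h0
    · intro hy
      rw [← hY x hx] at hy
      obtain ⟨y', hy', e⟩ := hy
      have e' : x * y' * x⁻¹ = x * y * x⁻¹ := e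
      have e2 : y' = y := by
        have e3 : x⁻¹ * (x * y' * x⁻¹) * x = x⁻¹ * (x * y * x⁻¹) * x := by rw [e']
        have e4 : x⁻¹ * (x * y' * x⁻¹) * x = y' := by group
        have e5 : x⁻¹ * (x * y * x⁻¹) * x = y := by group
        rw [e4, e5] at e3
        exact e3
      rw [← e2]; exact hy'
  have hXinv : ∀ x ∈ (P : Subgroup G), ∀ a : G, a ∈ X ↔ x * a * x⁻¹ ∈ X := by
    intro x hx a
    constructor
    · intro ha
      have h0 : x * a * x⁻¹ ∈ (fun y => x * y * x⁻¹) '' X := ⟨a, ha, rfl⟩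
      rw [hX x hx] at h0
      exact h0
    · intro ha
      rw [← hX x hx] at ha
      obtain ⟨a', ha', e⟩ := ha
      have e' : x * a' * x⁻¹ = x * a * x⁻¹ := e
      have e2 : a' = a := by
        have e3 : x⁻¹ * (x * a' * x⁻¹) * x = x⁻¹ * (x * a * x⁻¹) * x := by rw [e']
        have e4 : x⁻¹ * (x * a' * x⁻¹) * x = a' := by group
        have e5 : x⁻¹ * (x * a * x⁻¹) * x = a := by group
        rw [e4, e5] at e3
        exact e3
      rw [← e2]; exact ha'
  have h2 : ((g • P : Sylow p G) : Subgroup G) ≤ Subgroup.normalizer Y := by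
    intro m hm
    rw [Sylow.coe_subgroup_smul, Lead.mem_conj_smul_iff] at hm
    rw [Subgroup.mem_set_normalizer_iff]
    intro y
    rw [hYmem, hYmem]
    constructor
    · rintro ⟨a, ha, rfl⟩
      refine ⟨(g⁻¹ * m * g) * a * (g⁻¹ * m * g)⁻¹, (hXinv _ hm a).mp ha, ?_⟩
      group
    · rintro ⟨a, ha, e⟩
      refine ⟨(g⁻¹ * m * g)⁻¹ * a * (g⁻¹ * m * g), ?_, ?_⟩
      · rw [hXinv _ hm]
        have e6 : g⁻¹ * m * g * ((g⁻¹ * m * g)⁻¹ * a * (g⁻¹ * m * g)) * (g⁻¹ * m * g)⁻¹ = a := by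
          group
        rw [e6]; exact ha
      · have e7 : g * ((g⁻¹ * m * g)⁻¹ * a * (g⁻¹ * m * g)) * g⁻¹ = m⁻¹ * (g * a * g⁻¹) * m := by
          group
        rw [e7, e]; group
  obtain ⟨m, hm⟩ := MulAction.exists_smul_eq (Subgroup.normalizer Y) ((g • P).subtype h2)
    (P.subtype h1)
  simp_rw [Sylow.smul_subtype, Subgroup.smul_def, smul_smul] at hm
  have hn : (m : G) * g ∈ Subgroup.normalizer (P : Set G) :=
    Sylow.smul_eq_iff_mem_normalizer.mp (Sylow.subtype_injective hm)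
  refine ⟨m * g, hn, ?_⟩
  have hmY := Subgroup.mem_set_normalizer_iff.mp m.2
  ext y
  constructor
  · rintro ⟨a, ha, rfl⟩
    have h0 : g * a * g⁻¹ ∈ Y := (hYmem _).mpr ⟨a, ha, rfl⟩
    have h3 := (hmY _).mp h0
    have e : (m : G) * g * a * ((m : G) * g)⁻¹ = (m : G) * (g * a * g⁻¹) * (m : G)⁻¹ := by group
    show (m : G) * g * a * ((m : G) * g)⁻¹ ∈ Y
    rw [e]; exact h3
  · intro hy
    have h3 : (m : G)⁻¹ * y * (m : G) ∈ Y := by
      have h4 := (hmY ((m : G)⁻¹ * y * (m : G))).mpr (by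
        have e : (m : G) * ((m : G)⁻¹ * y * (m : G)) * (m : G)⁻¹ = y := by group
        rw [e]; exact hy)
      exact h4
    obtain ⟨a, ha, e⟩ := (hYmem _).mp h3
    refine ⟨a, ha, ?_⟩
    show (m : G) * g * a * ((m : G) * g)⁻¹ = y
    have e2 : (m : G) * g * a * ((m : G) * g)⁻¹ = (m : G) * (g * a * g⁻¹) * (m : G)⁻¹ := by group
    rw [e2, e]; group


end Cfsg.Agent.S0076
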