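import Cfsg.Statements.S0077
import Mathlib
import Cfsg.Agent.Lead.SylowBasic
import Cfsg.Agent.Lead.StronglyEmb

set_option autoImplicit false
open Cfsg

namespace Cfsg.Agent.S0077

open scoped commutatorElement

/-- If a subgroup Z of the centre of a Sylow p-subgroup P is weakly closed in P, then P meets the derived subgroup of G exactly where it meets the derived subgroup of the normalizer of Z. -/
theorem result {G : Type*} [Group G] [Finite G] {p : ℕ} [Fact p.Prime] (P : Sylow p G) (Z : Subgroup G) (hZ : Z ≤ Subgroup.centralizer (P : Set G)) (hW : Cfsg.IsWeaklyClosed Z P) : commutator G ⊓ (P : Subgroup G) = ⁅Subgroup.normalizer (Z : Set G), Subgroup.normalizer (Z : Set G)⁆ ⊓ (P : Subgroup G) := by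
  classical
  have hp : p.Prime := Fact.out
  obtain ⟨hZP, hWC⟩ := hW
  -- normaliser membership from weak closure
  have hnorm : ∀ a : G, Z.map (MulAut.conj a).toMonoidHom = Z → a ∈ Subgroup.normalizer (Z : Set G) := by
    intro a ha
    rw [Subgroup.mem_normalizer_iff]
    intro h
    constructor
    · intro hh
      have h1 : a * h * a⁻¹ ∈ Z.map (MulAut.conj a).toMonoidHom := by
        rw [Cfsg.Agent.Lead.mem_map_conj_iff]
        have e : a⁻¹ * (a * h * a⁻¹) * a = h := by group
        rw [e]; exact hh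
      rw [ha] at h1; exact h1
    · intro hh
      have h1 : a * h * a⁻¹ ∈ Z.map (MulAut.conj a).toMonoidHom := by rw [ha]; exact hh
      rw [Cfsg.Agent.Lead.mem_map_conj_iff] at h1
      have e : a⁻¹ * (a * h * a⁻¹) * a = h := by group
      rw [e] at h1; exact h1
  have hPN : (P : Subgroup G) ≤ Subgroup.normalizer (Z : Set G) := by
    intro x hx
    rw [Subgroup.mem_normalizer_iff]
    intro h
    constructor
    · intro hh
      have h1 : x * h = h * x := (Subgroup.mem_centralizer_iff.mp (hZ hh)) x hx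
      have e : x * h * x⁻¹ = h := by rw [h1]; group
      rw [e]; exact hh
    · intro hh
      have h1 : x⁻¹ * (x * h * x⁻¹) = (x * h * x⁻¹) * x⁻¹ :=
        (Subgroup.mem_centralizer_iff.mp (hZ hh)) x⁻¹ (Subgroup.inv_mem _ hx)
      have e : h = x * h * x⁻¹ := by
        calc h = x⁻¹ * (x * h * x⁻¹) * x := by group
          _ = (x * h * x⁻¹) * x⁻¹ * x := by rw [h1]
          _ = x * h * x⁻¹ := by group
      rw [e]; exact hh
  apply le_antisymm
  · rw [Subgroup.commutator_inf_eq_focalSubgroup P]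
    apply le_inf _ (Subgroup.focalSubgroup_le _)
    rw [Subgroup.focalSubgroup_def, Subgroup.closure_le]
    rintro g ⟨hgP, x, hxP, u, rfl⟩
    -- y := u x u⁻¹ ∈ P
    have hyP : u * x * u⁻¹ ∈ (P : Subgroup G) := by
      have e : u * x * u⁻¹ = (x⁻¹ * ⁅x, u⁆)⁻¹ := by rw [commutatorElement_def]; group
      rw [e]; exact Subgroup.inv_mem _ (Subgroup.mul_mem _ (Subgroup.inv_mem _ hxP) hgP)
    -- Z and its u-conjugate lie in C := C_G(y)
    have hZC : Z ≤ Subgroup.centralizer ({u * x * u⁻¹} : Set G) := by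
      intro z hz
      rw [Subgroup.mem_centralizer_singleton_iff]
      exact ((Subgroup.mem_centralizer_iff.mp (hZ hz)) _ hyP).symm
    have hWC' : ∀ z ∈ Z, u * z * u⁻¹ ∈ Subgroup.centralizer ({u * x * u⁻¹} : Set G) := by
      intro z hz
      rw [Subgroup.mem_centralizer_singleton_iff]
      have h1 : x * z = z * x := (Subgroup.mem_centralizer_iff.mp (hZ hz)) x hxP
      calc u * z * u⁻¹ * (u * x * u⁻¹) = u * (z * x) * u⁻¹ := by group
        _ = u * (x * z) * u⁻¹ := by rw [h1]
        _ = u * x * u⁻¹ * (u * z * u⁻¹) := by group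
    have hZp : IsPGroup p Z := P.2.to_le hZP
    have hZ'p : IsPGroup p (Z.subgroupOf (Subgroup.centralizer ({u * x * u⁻¹} : Set G))) :=
      hZp.comap_subtype
    have hW'p : IsPGroup p ((Z.map (MulAut.conj u).toMonoidHom).subgroupOf
        (Subgroup.centralizer ({u * x * u⁻¹} : Set G))) := (hZp.map _).comap_subtype
    obtain ⟨Q₁, hQ₁⟩ := hZ'p.exists_le_sylow
    obtain ⟨Q₂, hQ₂⟩ := hW'p.exists_le_sylow
    obtain ⟨c, hc⟩ := MulAction.exists_smul_eq (Subgroup.centralizer ({u * x * u⁻¹} : Set G)) Q₂ Q₁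
    have hS : IsPGroup p ((Q₁ : Subgroup (Subgroup.centralizer ({u * x * u⁻¹} : Set G))).map
        (Subgroup.centralizer ({u * x * u⁻¹} : Set G)).subtype) := Q₁.2.map _
    obtain ⟨a, ha⟩ := Cfsg.Agent.Lead.exists_conj_mem_sylow P hS
    have hZS : ∀ z ∈ Z, z ∈ (Q₁ : Subgroup (Subgroup.centralizer ({u * x * u⁻¹} : Set G))).map
        (Subgroup.centralizer ({u * x * u⁻¹} : Set G)).subtype := by
      intro z hz
      exact ⟨⟨z, hZC hz⟩, hQ₁ (Subgroup.mem_subgroupOf.mpr hz), rfl⟩
    have hWS : ∀ z ∈ Z, (c : G) * (u * z * u⁻¹) * (c : G)⁻¹ ∈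
        (Q₁ : Subgroup (Subgroup.centralizer ({u * x * u⁻¹} : Set G))).map
        (Subgroup.centralizer ({u * x * u⁻¹} : Set G)).subtype := by
      intro z hz
      have h1 : (⟨u * z * u⁻¹, hWC' z hz⟩ : Subgroup.centralizer ({u * x * u⁻¹} : Set G)) ∈
          (Q₂ : Subgroup (Subgroup.centralizer ({u * x * u⁻¹} : Set G))) := by
        apply hQ₂
        rw [Subgroup.mem_subgroupOf, Cfsg.Agent.Lead.mem_map_conj_iff]
        have e : u⁻¹ * (u * z * u⁻¹) * u = z := by group
        show u⁻¹ * (u * z * u⁻¹) * u ∈ Z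
        rw [e]; exact hz
      have h2 : c * (⟨u * z * u⁻¹, hWC' z hz⟩ : Subgroup.centralizer ({u * x * u⁻¹} : Set G)) * c⁻¹ ∈
          (Q₁ : Subgroup (Subgroup.centralizer ({u * x * u⁻¹} : Set G))) := by
        rw [← hc, Sylow.coe_subgroup_smul]
        exact Cfsg.Agent.Lead.conj_mem_conj_smul h1
      exact ⟨_, h2, rfl⟩
    have ha1 : a ∈ Subgroup.normalizer (Z : Set G) := by
      apply hnorm
      apply hWC
      intro w hw
      rw [Cfsg.Agent.Lead.mem_map_conj_iff] at hw
      have h1 := ha _ (hZS _ hw)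
      have e : a * (a⁻¹ * w * a) * a⁻¹ = w := by group
      rw [e] at h1; exact h1
    have ha2 : a * c * u ∈ Subgroup.normalizer (Z : Set G) := by
      apply hnorm
      apply hWC
      intro w hw
      rw [Cfsg.Agent.Lead.mem_map_conj_iff] at hw
      have h1 := ha _ (hWS _ hw)
      have e : a * ((c : G) * (u * ((a * c * u)⁻¹ * w * (a * c * u)) * u⁻¹) * (c : G)⁻¹) * a⁻¹ = w := by
        group
      rw [e] at h1; exact h1
    have hn : (c : G) * u ∈ Subgroup.normalizer (Z : Set G) := by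
      have e : (c : G) * u = a⁻¹ * (a * c * u) := by group
      rw [e]; exact Subgroup.mul_mem _ (Subgroup.inv_mem _ ha1) ha2
    have hcy : (c : G) * (u * x * u⁻¹) = (u * x * u⁻¹) * c :=
      Subgroup.mem_centralizer_singleton_iff.mp c.2
    have e2 : ⁅x, u⁆ = ⁅x, (c : G) * u⁆ := by
      rw [commutatorElement_def, commutatorElement_def]
      have e3 : x * ((c : G) * u) * x⁻¹ * ((c : G) * u)⁻¹ = x * ((c : G) * (u * x * u⁻¹) * (c : G)⁻¹)⁻¹ := by
        group
      rw [e3, hcy]; group
    rw [SetLike.mem_coe, e2]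
    exact Subgroup.commutator_mem_commutator (hPN hxP) hn
  · apply inf_le_inf_right
    rw [commutator_def]
    exact Subgroup.commutator_mono le_top le_top


end Cfsg.Agent.S0077
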