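import Cfsg.Statements.S0079
import Mathlib
import Cfsg.Agent.Helper6.HallNilp
import Cfsg.Agent.Helper6.Coprime
-- import your own Cfsg.Agent.* helpers here

set_option autoImplicit false
open Cfsg

namespace Cfsg.Agent.S0079

/-- A nilpotent Hall subgroup has a normal complement exactly when elements of it that are conjugate in the whole group are already conjugate inside it. -/
theorem result {G : Type*} [Group G] [Finite G] (H : Subgroup G) (hH : Group.IsNilpotent H) (hHall : Nat.Coprime (Nat.card H) H.index) : (∃ N : Subgroup G, N.Normal ∧ N.IsComplement' H) ↔ ∀ x ∈ H, ∀ y ∈ H, (∃ g : G, g * x * g⁻¹ = y) → ∃ h ∈ H, h * x * h⁻¹ = y := by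
  constructor
  · rintro ⟨N, hN, hc⟩ x hx y hy ⟨g, hg⟩
    obtain ⟨⟨⟨n, hn⟩, ⟨h, hh⟩⟩, hnh, -⟩ := hc.existsUnique g
    simp only at hnh
    subst hnh
    refine ⟨h, hh, ?_⟩
    have hw : h * x * h⁻¹ ∈ H := H.mul_mem (H.mul_mem hh hx) (H.inv_mem hh)
    have e : n * (h * x * h⁻¹) * n⁻¹ = y := by rw [← hg]; group
    have h1 : y * (h * x * h⁻¹)⁻¹ ∈ N := by
      rw [← e]
      have h0 := hN.conj_mem n⁻¹ (N.inv_mem hn) (h * x * h⁻¹)
      have e2 : n * (h * x * h⁻¹) * n⁻¹ * (h * x * h⁻¹)⁻¹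
          = n * ((h * x * h⁻¹) * n⁻¹ * (h * x * h⁻¹)⁻¹) := by group
      rw [e2]; exact N.mul_mem hn h0
    have h2 : y * (h * x * h⁻¹)⁻¹ ∈ H := H.mul_mem hy (H.inv_mem hw)
    have h3 := Subgroup.disjoint_def.mp hc.disjoint h1 h2
    exact (mul_inv_eq_one.mp h3).symm
  · intro hyp
    haveI := hH
    apply Cfsg.Agent.Helper6.exists_normal_complement_of_forall_npc H hHall
    intro p hp hpd
    haveI : Fact p.Prime := ⟨hp⟩
    obtain ⟨Q⟩ : Nonempty (Sylow p H) := inferInstance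
    obtain ⟨P, hP⟩ := Cfsg.Agent.Helper6.exists_sylow_of_hall H hHall hpd Q
    apply Cfsg.Agent.Helper6.hasNormalPComplement_of_frobCond
    apply Cfsg.Agent.Helper6.frobCond_of_fusion_omega P
    intro a haP _ g hgaP
    rw [hP] at haP hgaP
    obtain ⟨a', ha', rfl⟩ := haP
    have hgaH : g * (a' : G) * g⁻¹ ∈ H := Subgroup.map_subtype_le _ hgaP
    obtain ⟨h, hh, hha⟩ := hyp (a' : G) a'.2 _ hgaH ⟨g, rfl⟩
    have hQn : (Q : Subgroup H).Normal := inferInstance
    have hQp : IsPGroup p (H ⧸ Subgroup.centralizer ((Q : Subgroup H) : Set H)) :=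
      Cfsg.Agent.Helper6.quot_isPGroup p _ (fun x hx =>
        Cfsg.Agent.Helper6.mem_centralizer_sylow_of_coprime_of_isNilpotent Q x hx)
    obtain ⟨c, hc, s, hs, hcs⟩ :=
      Cfsg.Agent.Helper6.exists_mul_of_quot_isPGroup p _ hQp Q ⟨h, hh⟩
    refine ⟨(s : G), ?_, ?_⟩
    · rw [hP]; exact ⟨s, hs, rfl⟩
    · show g * (a' : G) * g⁻¹ = (s : G) * (a' : G) * (s : G)⁻¹
      rw [← hha]
      have h1 : s * a' * s⁻¹ ∈ (Q : Subgroup H) :=
        Subgroup.mul_mem _ (Subgroup.mul_mem _ hs ha') (Subgroup.inv_mem _ hs)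
      have h2 := Subgroup.mem_centralizer_iff.mp hc _ h1
      have h3 : (⟨h, hh⟩ : H) * a' * (⟨h, hh⟩ : H)⁻¹ = s * a' * s⁻¹ := by
        rw [hcs]
        calc c * s * a' * (c * s)⁻¹ = c * (s * a' * s⁻¹) * c⁻¹ := by group
          _ = (s * a' * s⁻¹) * c * c⁻¹ := by rw [h2]
          _ = s * a' * s⁻¹ := by group
      have h4 := congrArg Subtype.val h3
      simpa using h4

end Cfsg.Agent.S0079
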