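import Cfsg.Statements.S0080
import Mathlib

set_option autoImplicit false
open Cfsg

namespace Cfsg.Agent.S0080

open scoped commutatorElement IsMulCommutative

/-- When the index of H is prime to the order of H/H', the focal subgroup of H is G' ∩ H, and H/(G' ∩ H) has a normal complement. -/
theorem result {G : Type*} [Group G] [Finite G] (H : Subgroup G) (h : Nat.Coprime H.index (⁅H, H⁆.relIndex H)) : Subgroup.focalSubgroup H = commutator G ⊓ H ∧ ∃ N : Subgroup G, N.Normal ∧ N ⊓ H = commutator G ⊓ H ∧ N ⊔ H = ⊤ := by
  classical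
  have hQcard : (Nat.card (H ⧸ H.focalSubgroupOf)).Coprime H.index := by
    have h1 : Nat.card (H ⧸ H.focalSubgroupOf) ∣ (commutator H).index :=
      Subgroup.index_dvd_of_le H.commutator_le_focalSubgroupOf
    have h2 : (commutator H).index = ⁅H, H⁆.relIndex H := by
      unfold Subgroup.relIndex
      congr 1
      rw [← Subgroup.map_subtype_commutator, Subgroup.subgroupOf,
        Subgroup.comap_map_eq_self_of_injective (Subgroup.subtype_injective H)]
    rw [h2] at h1
    exact (Nat.Coprime.coprime_dvd_right h1 h).symm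
  have hV : ∀ x : H, H.transferFocal x = (x : H ⧸ H.focalSubgroupOf) ^ H.index :=
    H.transferFocal_eq_pow
  have hker : H.transferFocal.ker ⊓ H = H.focalSubgroup := by
    ext x
    constructor
    · intro hx
      obtain ⟨hxk, hxH⟩ := Subgroup.mem_inf.mp hx
      rw [MonoidHom.mem_ker] at hxk
      have h1 := hV ⟨x, hxH⟩
      rw [hxk] at h1
      have h2 : ((⟨x, hxH⟩ : H) : H ⧸ H.focalSubgroupOf) = 1 := by
        apply (powCoprime hQcard).injective
        simp only [powCoprime_apply]
        rw [← h1, one_pow]
      rw [QuotientGroup.eq_one_iff, Subgroup.focalSubgroupOf_def, Subgroup.mem_subgroupOf] at h2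
      exact h2
    · intro hx
      have hxH : x ∈ H := H.focalSubgroup_le hx
      refine Subgroup.mem_inf.mpr ⟨?_, hxH⟩
      rw [MonoidHom.mem_ker]
      have h1 := hV ⟨x, hxH⟩
      have h2 : ((⟨x, hxH⟩ : H) : H ⧸ H.focalSubgroupOf) = 1 := by
        rw [QuotientGroup.eq_one_iff, Subgroup.focalSubgroupOf_def, Subgroup.mem_subgroupOf]
        exact hx
      rw [h2, one_pow] at h1
      exact h1
  have hfoc : Subgroup.focalSubgroup H = commutator G ⊓ H := by
    apply le_antisymm
    · exact le_inf H.focalSubgroup_le_commutator H.focalSubgroup_le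
    · rw [← hker]
      exact inf_le_inf_right _ (Abelianization.commutator_subset_ker H.transferFocal)
  refine ⟨hfoc, H.transferFocal.ker, MonoidHom.normal_ker H.transferFocal, ?_, ?_⟩
  · rw [hker, hfoc]
  · rw [eq_top_iff]
    intro g _
    obtain ⟨y, hy⟩ := (powCoprime hQcard).surjective (H.transferFocal g)
    obtain ⟨x, rfl⟩ := QuotientGroup.mk_surjective y
    simp only [powCoprime_apply] at hy
    have h1 : H.transferFocal (g * (x : G)⁻¹) = 1 := by
      rw [map_mul, map_inv, hV x, hy, mul_inv_cancel]
    have e : g = (g * (x : G)⁻¹) * x := by group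
    rw [e]
    exact Subgroup.mul_mem_sup (MonoidHom.mem_ker.mpr h1) x.2


end Cfsg.Agent.S0080
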