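import Cfsg.Statements.S0082
import Mathlib
import Cfsg.Agent.Lead.AbelianSylow
import Cfsg.Agent.Lead.CyclicChain
import Cfsg.Agent.Lead.SylowBasic
import Cfsg.Agent.S0075

set_option autoImplicit false
open Cfsg

namespace Cfsg.Agent.S0082

open scoped commutatorElement

/-- With a cyclic Sylow p-subgroup, either there is a normal p-complement or the elements of order prime to p generate the whole group. -/
theorem result {G : Type*} [Group G] [Finite G] {p : ℕ} [Fact p.Prime] (P : Sylow p G) (hP : IsCyclic P) : Cfsg.HasNormalPComplement p G ∨ Cfsg.pResidual p G = ⊤ := by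
  classical
  have hp : p.Prime := Fact.out
  haveI := hP
  haveI hPc : IsMulCommutative (P : Subgroup G) :=
    ⟨⟨fun a b => IsCyclic.commGroup.mul_comm a b⟩⟩
  obtain ⟨hinf, hsup⟩ := Cfsg.Agent.Lead.abelianSylow_decomp P
  have hFP : ⁅(P : Subgroup G), Subgroup.normalizer (P : Set G)⁆ ≤ (P : Subgroup G) := by
    conv_rhs => rw [← hsup]
    exact le_sup_right
  rcases Cfsg.Agent.Lead.le_total_of_isCyclic_of_isPGroup P.2
    (((P : Subgroup G) ⊓ Subgroup.centralizer (Subgroup.normalizer (P : Set G) : Set G)).subgroupOf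
      (P : Subgroup G))
    ((⁅(P : Subgroup G), Subgroup.normalizer (P : Set G)⁆).subgroupOf (P : Subgroup G)) with h | h
  · right
    have hCF : (P : Subgroup G) ⊓ Subgroup.centralizer (Subgroup.normalizer (P : Set G) : Set G) ≤
        ⁅(P : Subgroup G), Subgroup.normalizer (P : Set G)⁆ := by
      intro x hx
      have hxP : x ∈ (P : Subgroup G) := (Subgroup.mem_inf.mp hx).1
      have h1 := h (Subgroup.mem_subgroupOf.mpr (show ((⟨x, hxP⟩ : (P : Subgroup G)) : G) ∈ _ from hx))
      exact Subgroup.mem_subgroupOf.mp h1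
    have hC0 : (P : Subgroup G) ⊓ Subgroup.centralizer (Subgroup.normalizer (P : Set G) : Set G) = ⊥ := by
      rw [← hinf]; exact (inf_eq_left.mpr hCF).symm
    have hFeq : ⁅(P : Subgroup G), Subgroup.normalizer (P : Set G)⁆ = (P : Subgroup G) := by
      rw [hC0, bot_sup_eq] at hsup; exact hsup
    have h75 := Cfsg.Agent.S0075.result P hPc
    have hPle : (P : Subgroup G) ≤ Cfsg.pResidual p G := by
      have h1 : (P : Subgroup G) ⊓ Cfsg.pResidual p G = (P : Subgroup G) := by rw [h75]; exact hFeq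
      exact inf_eq_left.mp h1
    have hRn : ∀ c y : G, y ∈ Cfsg.pResidual p G → c * y * c⁻¹ ∈ Cfsg.pResidual p G := by
      intro c y hy
      unfold Cfsg.pResidual at hy ⊢
      induction hy using Subgroup.closure_induction with
      | mem z hz =>
        apply Subgroup.subset_closure
        show (orderOf (c * z * c⁻¹)).Coprime p
        rw [Cfsg.Agent.Lead.orderOf_conj_eq]; exact hz
      | one => simp
      | mul a b _ _ ha hb =>
        have e : c * (a * b) * c⁻¹ = (c * a * c⁻¹) * (c * b * c⁻¹) := by group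
        rw [e]; exact Subgroup.mul_mem _ ha hb
      | inv a _ ha =>
        have e : c * a⁻¹ * c⁻¹ = (c * a * c⁻¹)⁻¹ := by group
        rw [e]; exact Subgroup.inv_mem _ ha
    rw [eq_top_iff]
    intro g _
    have hn0 : orderOf g ≠ 0 := (orderOf_pos g).ne'
    obtain ⟨e, m, hm, hnm⟩ := Nat.exists_eq_pow_mul_and_not_dvd hn0 p hp.ne_one
    have hcop : Nat.Coprime (p ^ e) m := Nat.Coprime.pow_left e ((Nat.Prime.coprime_iff_not_dvd hp).mpr hm)
    obtain ⟨a, b, hab⟩ := Nat.isCoprime_iff_coprime.mpr hcop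
    have hg : g = (g ^ (p ^ e)) ^ a * (g ^ m) ^ b := by
      rw [← zpow_natCast g (p ^ e), ← zpow_natCast g m, ← zpow_mul, ← zpow_mul, ← zpow_add]
      have e' : ((p ^ e : ℕ) : ℤ) * a + (m : ℤ) * b = 1 := by rw [← hab]; ring
      rw [e', zpow_one]
    rw [hg]
    apply Subgroup.mul_mem _ (Subgroup.zpow_mem _ ?_ a) (Subgroup.zpow_mem _ ?_ b)
    · unfold Cfsg.pResidual
      apply Subgroup.subset_closure
      show (orderOf (g ^ (p ^ e))).Coprime p
      have h1 : orderOf (g ^ (p ^ e)) ∣ m := by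
        apply orderOf_dvd_of_pow_eq_one
        rw [← pow_mul, ← hnm]; exact pow_orderOf_eq_one g
      exact Nat.Coprime.coprime_dvd_left h1 ((Nat.Prime.coprime_iff_not_dvd hp).mpr hm).symm
    · have h1 : orderOf (g ^ m) ∣ p ^ e := by
        apply orderOf_dvd_of_pow_eq_one
        rw [← pow_mul, mul_comm, ← hnm]; exact pow_orderOf_eq_one g
      obtain ⟨j, -, hj⟩ := (Nat.dvd_prime_pow hp).mp h1
      have hQ : IsPGroup p (Subgroup.zpowers (g ^ m)) :=
        IsPGroup.of_card (n := j) (by rw [Nat.card_zpowers, hj])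
      obtain ⟨c, hc⟩ := Cfsg.Agent.Lead.exists_conj_mem_sylow P hQ
      have h2 : c * (g ^ m) * c⁻¹ ∈ Cfsg.pResidual p G := hPle (hc _ (Subgroup.mem_zpowers _))
      have h3 := hRn c⁻¹ _ h2
      have e2 : c⁻¹ * (c * g ^ m * c⁻¹) * c⁻¹⁻¹ = g ^ m := by group
      rw [e2] at h3; exact h3
  · left
    have hFC : ⁅(P : Subgroup G), Subgroup.normalizer (P : Set G)⁆ ≤
        (P : Subgroup G) ⊓ Subgroup.centralizer (Subgroup.normalizer (P : Set G) : Set G) := by
      intro x hx
      have hxP : x ∈ (P : Subgroup G) := hFP hx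
      have h1 := h (Subgroup.mem_subgroupOf.mpr (show ((⟨x, hxP⟩ : (P : Subgroup G)) : G) ∈ _ from hx))
      exact Subgroup.mem_subgroupOf.mp h1
    have hF0 : ⁅(P : Subgroup G), Subgroup.normalizer (P : Set G)⁆ = ⊥ := by
      rw [← hinf, inf_comm]; exact (inf_eq_left.mpr hFC).symm
    have hNC : Subgroup.normalizer (P : Set G) ≤ Subgroup.centralizer (P : Set G) := by
      rw [Subgroup.commutator_comm, Subgroup.commutator_eq_bot_iff_le_centralizer] at hF0
      exact hF0
    exact ⟨P, (MonoidHom.transferSylow P hNC).ker, inferInstance,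
      MonoidHom.ker_transferSylow_isComplement' P hNC⟩


end Cfsg.Agent.S0082
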