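import Cfsg.Statements.S0083
import Mathlib

set_option autoImplicit false
open Cfsg

namespace Cfsg.Agent.S0083

/-- For an abelian Sylow p-subgroup P, a normal p-complement exists exactly when the normalizer of P is an internal direct product of P with some subgroup. -/
theorem result {G : Type*} [Group G] [Finite G] {p : ℕ} [Fact p.Prime] (P : Sylow p G) (hP : IsMulCommutative P) : Cfsg.HasNormalPComplement p G ↔ ∃ Q : Subgroup G, Q ≤ Subgroup.centralizer (P : Set G) ∧ Q ⊓ (P : Subgroup G) = ⊥ ∧ Q ⊔ (P : Subgroup G) = Subgroup.normalizer (P : Set G) := by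
  classical
  haveI := hP
  have hp : p.Prime := Fact.out
  constructor
  · rintro ⟨P₀, M, hMn, hM⟩
    haveI := hMn
    have hcardM : Nat.card M = (P₀ : Subgroup G).index := by
      have h1 := hM.card_mul_card
      have h2 := (P₀ : Subgroup G).card_mul_index
      have hpos : 0 < Nat.card (P₀ : Subgroup G) := Nat.card_pos
      rw [mul_comm] at h1
      exact Nat.eq_of_mul_eq_mul_left hpos (h1.trans h2.symm)
    have hMcop : (Nat.card M).Coprime p := by
      rw [hcardM]
      exact ((Nat.Prime.coprime_iff_not_dvd hp).mpr P₀.not_dvd_index).symm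
    have hMP : M ⊓ (P : Subgroup G) = ⊥ := by
      have h1 : IsPGroup p (M ⊓ (P : Subgroup G) : Subgroup G) := P.2.to_le inf_le_right
      obtain ⟨k, hk⟩ := IsPGroup.iff_card.mp h1
      have h2 : Nat.card (M ⊓ (P : Subgroup G) : Subgroup G) ∣ Nat.card M :=
        Subgroup.card_dvd_of_le inf_le_left
      have h3 : Nat.card (M ⊓ (P : Subgroup G) : Subgroup G) = 1 := by
        rw [hk] at h2 ⊢
        exact Nat.eq_one_of_dvd_coprimes (Nat.Coprime.pow_right k hMcop) h2 dvd_rfl
      exact Subgroup.card_eq_one.mp h3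
    have hcardP : Nat.card (P : Subgroup G) = Nat.card (P₀ : Subgroup G) := by
      rw [Sylow.card_eq_multiplicity P, Sylow.card_eq_multiplicity P₀]
    have hM' : Subgroup.IsComplement' M (P : Subgroup G) :=
      Subgroup.isComplement'_of_card_mul_and_disjoint (by rw [hcardP]; exact hM.card_mul_card)
        (disjoint_iff.mpr hMP)
    refine ⟨M ⊓ Subgroup.normalizer ((P : Subgroup G) : Set G), ?_, ?_, ?_⟩
    · intro q hq
      obtain ⟨hqM, hqN⟩ := Subgroup.mem_inf.mp hq
      rw [Subgroup.mem_centralizer_iff]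
      intro x hx
      have h1 : q * x * q⁻¹ * x⁻¹ ∈ M ⊓ (P : Subgroup G) := by
        refine Subgroup.mem_inf.mpr ⟨?_, ?_⟩
        · have e : q * x * q⁻¹ * x⁻¹ = q * (x * q⁻¹ * x⁻¹) := by group
          rw [e]; exact M.mul_mem hqM (hMn.conj_mem _ (M.inv_mem hqM) x)
        · exact Subgroup.mul_mem _ ((Subgroup.mem_normalizer_iff.mp hqN x).mp hx)
            (Subgroup.inv_mem _ hx)
      rw [hMP, Subgroup.mem_bot] at h1
      have h2 := congrArg (· * (x * q)) h1
      simp only [one_mul] at h2
      rw [← h2]; group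
    · rw [eq_bot_iff, ← hMP]
      exact inf_le_inf_right _ inf_le_left
    · apply le_antisymm
      · exact sup_le inf_le_right Subgroup.le_normalizer
      · intro n hn
        have hg : n ∈ M ⊔ (P : Subgroup G) := hM'.sup_eq_top ▸ Subgroup.mem_top n
        rw [Subgroup.mem_sup_of_normal_left] at hg
        obtain ⟨m, hm, x, hx, rfl⟩ := hg
        refine Subgroup.mul_mem_sup (Subgroup.mem_inf.mpr ⟨hm, ?_⟩) hx
        have e : m = (m * x) * x⁻¹ := by group
        rw [e]
        exact Subgroup.mul_mem _ hn (Subgroup.inv_mem _ (Subgroup.le_normalizer hx))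
  · rintro ⟨Q, hQC, -, hQP⟩
    have hNC : Subgroup.normalizer (P : Set G) ≤ Subgroup.centralizer (P : Set G) :=
      fun n hn => (sup_le hQC P.le_centralizer) (hQP.ge hn)
    exact ⟨P, (MonoidHom.transferSylow P hNC).ker, inferInstance,
      MonoidHom.ker_transferSylow_isComplement' P hNC⟩


end Cfsg.Agent.S0083
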