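import Cfsg.Statements.S0084
import Mathlib

set_option autoImplicit false
open Cfsg

namespace Cfsg.Agent.S0084

/-- A group whose Sylow 2-subgroups are Klein four-groups and whose order is prime to 3 has a normal 2-complement. -/
theorem result {G : Type*} [Group G] [Finite G] (T : Sylow 2 G) (hT : IsKleinFour T) (h3 : ¬ 3 ∣ Nat.card G) : Cfsg.HasNormalPComplement 2 G := by
  classical
  haveI := hT
  haveI hTc : IsMulCommutative (T : Subgroup G) := IsKleinFour.isMulCommutative
  have hcardT : Nat.card (T : Subgroup G) = 4 := IsKleinFour.card_four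
  have hNC : Subgroup.normalizer (T : Set G) ≤ Subgroup.centralizer (T : Set G) := by
    intro n hn
    have hTN : (T : Subgroup G) ≤ Subgroup.normalizer (T : Set G) := Subgroup.le_normalizer
    haveI hHn : ((T : Subgroup G).subgroupOf (Subgroup.normalizer (T : Set G))).Normal :=
      Subgroup.normal_in_normalizer
    have hcardH : Nat.card ((T : Subgroup G).subgroupOf (Subgroup.normalizer (T : Set G))) = 4 := by
      rw [← hcardT]
      exact Nat.card_congr (Subgroup.subgroupOfEquivOfLe hTN).toEquiv
    -- n^24 centralizes T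
    have h24 : n ^ 24 ∈ Subgroup.centralizer (T : Set G) := by
      have hperm : Nat.card (Equiv.Perm ((T : Subgroup G).subgroupOf
          (Subgroup.normalizer (T : Set G)))) = 24 := by
        rw [Nat.card_perm, hcardH]; rfl
      have h1 : (MulAut.toPerm _ (MulAut.conjNormal (H := (T : Subgroup G).subgroupOf
          (Subgroup.normalizer (T : Set G))) (⟨n, hn⟩ : Subgroup.normalizer (T : Set G)))) ^ 24 = 1 := by
        rw [← hperm]; exact pow_card_eq_one'
      rw [← map_pow, ← map_pow] at h1
      rw [Subgroup.mem_centralizer_iff]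
      intro t ht
      have h2 := congrArg (fun σ => σ (⟨⟨t, hTN ht⟩, Subgroup.mem_subgroupOf.mpr ht⟩ :
        (T : Subgroup G).subgroupOf (Subgroup.normalizer (T : Set G)))) h1
      have h3 := congrArg (fun z : ((T : Subgroup G).subgroupOf (Subgroup.normalizer (T : Set G))) =>
        ((z : Subgroup.normalizer (T : Set G)) : G)) h2
      have h3' : n ^ 24 * t * (n ^ 24)⁻¹ = t := h3
      calc t * n ^ 24 = (n ^ 24 * t * (n ^ 24)⁻¹) * n ^ 24 := by rw [h3']
        _ = n ^ 24 * t := by group
    -- n^j ∈ T
    have hj : n ^ ((T : Subgroup G).subgroupOf (Subgroup.normalizer (T : Set G))).index ∈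
        Subgroup.centralizer (T : Set G) := by
      have h1 : ((⟨n, hn⟩ : Subgroup.normalizer (T : Set G)) :
          Subgroup.normalizer (T : Set G) ⧸ (T : Subgroup G).subgroupOf (Subgroup.normalizer (T : Set G)))
          ^ ((T : Subgroup G).subgroupOf (Subgroup.normalizer (T : Set G))).index = 1 := by
        rw [Subgroup.index_eq_card]; exact pow_card_eq_one'
      rw [← QuotientGroup.mk_pow, QuotientGroup.eq_one_iff, Subgroup.mem_subgroupOf] at h1
      exact T.le_centralizer h1
    have hcop : Nat.Coprime 24 ((T : Subgroup G).subgroupOf (Subgroup.normalizer (T : Set G))).index := by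
      have hdvd : ((T : Subgroup G).subgroupOf (Subgroup.normalizer (T : Set G))).index ∣
          (T : Subgroup G).index := Subgroup.relIndex_dvd_index_of_le hTN
      have h2 : ¬ 2 ∣ ((T : Subgroup G).subgroupOf (Subgroup.normalizer (T : Set G))).index :=
        fun h => T.not_dvd_index (h.trans hdvd)
      have h3' : ¬ 3 ∣ ((T : Subgroup G).subgroupOf (Subgroup.normalizer (T : Set G))).index :=
        fun h => h3 (h.trans (hdvd.trans (Subgroup.index_dvd_card _)))
      have c2 : Nat.Coprime 2 ((T : Subgroup G).subgroupOf (Subgroup.normalizer (T : Set G))).index :=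
        (Nat.Prime.coprime_iff_not_dvd Nat.prime_two).mpr h2
      have c3 : Nat.Coprime 3 ((T : Subgroup G).subgroupOf (Subgroup.normalizer (T : Set G))).index :=
        (Nat.Prime.coprime_iff_not_dvd Nat.prime_three).mpr h3'
      have c8 : Nat.Coprime (2 ^ 3) ((T : Subgroup G).subgroupOf (Subgroup.normalizer (T : Set G))).index :=
        Nat.Coprime.pow_left 3 c2
      exact Nat.Coprime.mul_left c8 c3
    obtain ⟨a, b, hab⟩ := Nat.isCoprime_iff_coprime.mpr hcop
    have hn' : n = (n ^ 24) ^ a * (n ^ ((T : Subgroup G).subgroupOf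
        (Subgroup.normalizer (T : Set G))).index) ^ b := by
      rw [← zpow_natCast n 24, ← zpow_natCast n ((T : Subgroup G).subgroupOf
        (Subgroup.normalizer (T : Set G))).index, ← zpow_mul, ← zpow_mul, ← zpow_add]
      have e : ((24 : ℕ) : ℤ) * a + (((T : Subgroup G).subgroupOf
        (Subgroup.normalizer (T : Set G))).index : ℤ) * b = 1 := by
        rw [← hab]; ring
      rw [e, zpow_one]
    rw [hn']
    exact Subgroup.mul_mem _ (Subgroup.zpow_mem _ h24 a) (Subgroup.zpow_mem _ hj b)
  exact ⟨T, (MonoidHom.transferSylow T hNC).ker, inferInstance,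
    MonoidHom.ker_transferSylow_isComplement' T hNC⟩


end Cfsg.Agent.S0084
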