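import Cfsg.Statements.S0085
import Mathlib
import Cfsg.Agent.Lead.NormCent

set_option autoImplicit false
open Cfsg

namespace Cfsg.Agent.S0085

/-- A group whose Sylow 2-subgroups are elementary abelian of order 8 and whose order is prime to 3 and to 7 has a normal 2-complement. -/
theorem result {G : Type*} [Group G] [Finite G] (T : Sylow 2 G) (h8 : Nat.card T = 8) (he : ∀ x : T, x * x = 1) (h3 : ¬ 3 ∣ Nat.card G) (h7 : ¬ 7 ∣ Nat.card G) : Cfsg.HasNormalPComplement 2 G := by
  classical
  haveI hTc : IsMulCommutative (T : Subgroup G) := ⟨⟨fun a b => by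
    have h1 := he (a * b)
    have ha := he a
    have hb := he b
    have h2 : a * b = (a * b)⁻¹ := eq_inv_of_mul_eq_one_left h1
    rw [h2, mul_inv_rev, inv_eq_of_mul_eq_one_left ha, inv_eq_of_mul_eq_one_left hb]⟩⟩
  have hTN : (T : Subgroup G) ≤ Subgroup.normalizer (T : Set G) := Subgroup.le_normalizer
  haveI hHn : ((T : Subgroup G).subgroupOf (Subgroup.normalizer (T : Set G))).Normal :=
    Subgroup.normal_in_normalizer
  have hcardH : Nat.card ((T : Subgroup G).subgroupOf (Subgroup.normalizer (T : Set G))) = 8 := by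
    rw [← h8]; exact Nat.card_congr (Subgroup.subgroupOfEquivOfLe hTN).toEquiv
  have hNC : Subgroup.normalizer (T : Set G) ≤ Subgroup.centralizer (T : Set G) := by
    apply Cfsg.Agent.Lead.normalizer_le_centralizer_of_pow T 8064
    · have c2 := Cfsg.Agent.Lead.coprime_index_normalizer T 2 Nat.prime_two T.not_dvd_index
      have c3 := Cfsg.Agent.Lead.coprime_index_normalizer T 3 Nat.prime_three
        (fun h => h3 (h.trans (Subgroup.index_dvd_card _)))
      have c7 := Cfsg.Agent.Lead.coprime_index_normalizer T 7 (by norm_num)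
        (fun h => h7 (h.trans (Subgroup.index_dvd_card _)))
      have e : (8064 : ℕ) = 2 ^ 7 * (3 ^ 2 * 7) := by norm_num
      rw [e]
      exact (Nat.Coprime.pow_left 7 c2).mul_left ((Nat.Coprime.pow_left 2 c3).mul_left c7)
    · intro n hn
      apply Cfsg.Agent.Lead.pow_mem_centralizer_of_conjNormal_pow (T : Subgroup G) hn
      haveI : Fact (Nat.Prime 5) := ⟨by norm_num⟩
      have hfac := Cfsg.Agent.Lead.mulAut_pow_factorial_card
        (MulAut.conjNormal (H := (T : Subgroup G).subgroupOf (Subgroup.normalizer (T : Set G)))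
          (⟨n, hn⟩ : Subgroup.normalizer (T : Set G)))
      rw [hcardH] at hfac
      have h5 : ((MulAut.conjNormal (H := (T : Subgroup G).subgroupOf
          (Subgroup.normalizer (T : Set G))) (⟨n, hn⟩ : Subgroup.normalizer (T : Set G))) ^ 8064) ^ 5
          = 1 := by
        rw [← pow_mul]
        have e8 : 8064 * 5 = Nat.factorial 8 := by norm_num [Nat.factorial]
        rw [e8]; exact hfac
      apply Cfsg.Agent.Lead.mulAut_eq_one_of_pow_prime _ 5 h5
      intro d hd hmod
      rw [hcardH] at hd hmod ⊢
      have hle := Nat.le_of_dvd (by norm_num) hd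
      interval_cases d <;> first | rfl | (exfalso; revert hmod; decide) | (exfalso; revert hd; decide)
  exact ⟨T, (MonoidHom.transferSylow T hNC).ker, inferInstance,
    MonoidHom.ker_transferSylow_isComplement' T hNC⟩


end Cfsg.Agent.S0085
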