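import Cfsg.Statements.S0086
import Mathlib

set_option autoImplicit false
open Cfsg

namespace Cfsg.Agent.S0086

/-- A normal complement to a Sylow p-subgroup is exactly the set of elements of order prime to p. -/
theorem result {G : Type*} [Group G] [Finite G] {p : ℕ} [Fact p.Prime] (P : Sylow p G) (N : Subgroup G) [N.Normal] (hN : N.IsComplement' (P : Subgroup G)) (x : G) : x ∈ N ↔ Nat.Coprime (orderOf x) p := by
  have hcard := hN.card_mul_card
  have hidxN : N.index = Nat.card P := by
    have h3 := N.card_mul_index
    exact Nat.eq_of_mul_eq_mul_left Nat.card_pos (h3.trans hcard.symm)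
  have hidxP : (P : Subgroup G).index = Nat.card N := by
    have h3 := (P : Subgroup G).card_mul_index
    have h4 : Nat.card P * (P : Subgroup G).index = Nat.card P * Nat.card N := by
      rw [h3, ← hcard, mul_comm]
    exact Nat.eq_of_mul_eq_mul_left Nat.card_pos h4
  obtain ⟨k, hk⟩ := P.2.exists_card_eq
  constructor
  · intro hx
    have h1 : orderOf x ∣ Nat.card N := by
      have h0 := orderOf_dvd_natCard (⟨x, hx⟩ : N)
      rwa [Subgroup.orderOf_mk] at h0
    have h2 : (Nat.card N).Coprime p := by
      rw [← hidxP]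
      exact (Nat.Coprime.symm ((Nat.Prime.coprime_iff_not_dvd Fact.out).mpr P.not_dvd_index))
    exact Nat.Coprime.coprime_dvd_left h1 h2
  · intro hx
    have h1 : orderOf (QuotientGroup.mk' N x) ∣ orderOf x := orderOf_map_dvd _ x
    have h2 : orderOf (QuotientGroup.mk' N x) ∣ p ^ k := by
      rw [← hk, ← hidxN]
      exact orderOf_dvd_natCard _
    have h3 : orderOf (QuotientGroup.mk' N x) = 1 := by
      have hcop : Nat.Coprime (orderOf (QuotientGroup.mk' N x)) (p ^ k) :=
        Nat.Coprime.pow_right k (Nat.Coprime.coprime_dvd_left h1 hx)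
      exact Nat.Coprime.eq_one_of_dvd hcop h2
    have h4 : QuotientGroup.mk' N x = 1 := orderOf_eq_one_iff.mp h3
    exact (QuotientGroup.eq_one_iff x).mp h4


end Cfsg.Agent.S0086
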