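import Cfsg.Statements.S0088
import Mathlib

set_option autoImplicit false
open Cfsg

namespace Cfsg.Agent.S0088

open scoped IsMulCommutative

/-- An abelian Hall subgroup meets G' ∩ Z(G) trivially. -/
theorem result {G : Type*} [Group G] [Finite G] (H : Subgroup G) (hc : IsMulCommutative H) (hHall : Nat.Coprime (Nat.card H) H.index) : H ⊓ commutator G ⊓ Subgroup.center G = ⊥ := by
  rw [eq_bot_iff]
  intro z hz
  obtain ⟨hz1, hzZ⟩ := Subgroup.mem_inf.mp hz
  obtain ⟨hzH, hzG'⟩ := Subgroup.mem_inf.mp hz1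
  rw [Subgroup.mem_bot]
  have key : ∀ (k : ℕ) (g₀ : G), g₀⁻¹ * z ^ k * g₀ ∈ H → g₀⁻¹ * z ^ k * g₀ = z ^ k := by
    intro k g₀ _
    have hzk : z ^ k ∈ Subgroup.center G := Subgroup.pow_mem _ hzZ k
    rw [Subgroup.mem_center_iff] at hzk
    rw [mul_assoc, ← hzk g₀, inv_mul_cancel_left]
  have ht := MonoidHom.transfer_eq_pow (MonoidHom.id H) z key
  have h1 : MonoidHom.transfer (MonoidHom.id H) z = 1 :=
    Abelianization.commutator_subset_ker (MonoidHom.transfer (MonoidHom.id H)) hzG'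
  rw [h1] at ht
  have hzi : z ^ H.index = 1 := by
    have h0 := congrArg Subtype.val ht
    exact h0.symm
  have hzc : z ^ Nat.card H = 1 := by
    have h0 := pow_card_eq_one' (G := H) (x := ⟨z, hzH⟩)
    have h' := congrArg Subtype.val h0
    rw [Subgroup.coe_pow] at h'
    exact h'
  have hd1 : orderOf z ∣ H.index := orderOf_dvd_of_pow_eq_one hzi
  have hd2 : orderOf z ∣ Nat.card H := orderOf_dvd_of_pow_eq_one hzc
  have h3 : orderOf z = 1 := Nat.eq_one_of_dvd_coprimes hHall hd2 hd1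
  exact orderOf_eq_one_iff.mp h3


end Cfsg.Agent.S0088
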