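import Cfsg.Statements.S0089
import Mathlib
import Cfsg.Agent.Lead.SylowBasic
import Cfsg.Agent.S0088

set_option autoImplicit false
open Cfsg

namespace Cfsg.Agent.S0089

/-- When all Sylow subgroups are abelian, the derived subgroup meets the centre trivially. -/
theorem result {G : Type*} [Group G] [Finite G] (h : ∀ p : ℕ, p.Prime → ∀ P : Sylow p G, IsMulCommutative P) : commutator G ⊓ Subgroup.center G = ⊥ := by
  rw [eq_bot_iff]
  intro z hz
  rw [Subgroup.mem_bot]
  by_contra hz1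
  have ho : orderOf z ≠ 1 := fun h1 => hz1 (orderOf_eq_one_iff.mp h1)
  obtain ⟨q, hq, hqd⟩ := Nat.exists_prime_and_dvd ho
  haveI : Fact q.Prime := ⟨hq⟩
  have hw : orderOf (z ^ (orderOf z / q)) = q := orderOf_pow_orderOf_div (orderOf_pos z).ne' hqd
  obtain ⟨hzG', hzZ⟩ := Subgroup.mem_inf.mp hz
  have hwG' : z ^ (orderOf z / q) ∈ commutator G := Subgroup.pow_mem _ hzG' _
  have hwZ : z ^ (orderOf z / q) ∈ Subgroup.center G := Subgroup.pow_mem _ hzZ _
  obtain ⟨Q⟩ := (inferInstance : Nonempty (Sylow q G))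
  obtain ⟨g, hg⟩ := Lead.exists_conj_mem_sylow Q (Lead.isPGroup_zpowers_of_orderOf_prime hw)
  have hwQ : z ^ (orderOf z / q) ∈ (Q : Subgroup G) := by
    have h1 := hg _ (Subgroup.mem_zpowers _)
    have hwZ' := Subgroup.mem_center_iff.mp hwZ
    rwa [hwZ' g, mul_inv_cancel_right] at h1
  have hS := Cfsg.Agent.S0088.result (Q : Subgroup G) (h q hq Q) Q.card_coprime_index
  have hmem : z ^ (orderOf z / q) ∈ (Q : Subgroup G) ⊓ commutator G ⊓ Subgroup.center G :=
    Subgroup.mem_inf.mpr ⟨Subgroup.mem_inf.mpr ⟨hwQ, hwG'⟩, hwZ⟩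
  rw [hS, Subgroup.mem_bot] at hmem
  rw [hmem, orderOf_one] at hw
  exact hq.one_lt.ne hw


end Cfsg.Agent.S0089
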