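import Cfsg.Statements.S0090
import Mathlib
import Cfsg.Agent.Lead.CoprimeAbelian
import Cfsg.Agent.S0088

set_option autoImplicit false
open Cfsg

namespace Cfsg.Agent.S0090

open scoped commutatorElement

/-- An abelian normal Hall subgroup A splits as the internal direct product of G' ∩ A and Z(G) ∩ A, and [A, G] = G' ∩ A. -/
theorem result {G : Type*} [Group G] [Finite G] (A : Subgroup G) [A.Normal] (hc : IsMulCommutative A) (hHall : Nat.Coprime (Nat.card A) A.index) : ⁅A, (⊤ : Subgroup G)⁆ = commutator G ⊓ A ∧ (commutator G ⊓ A) ⊓ (Subgroup.center G ⊓ A) = ⊥ ∧ (commutator G ⊓ A) ⊔ (Subgroup.center G ⊓ A) = A := by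
  classical
  haveI := hc
  obtain ⟨K, hK⟩ := Subgroup.exists_right_complement'_of_coprime hHall
  have hcardK : Nat.card K = A.index := by
    have h1 := hK.card_mul_card
    have h2 := A.card_mul_index
    have hpos : 0 < Nat.card A := Nat.card_pos
    exact Nat.eq_of_mul_eq_mul_left hpos (h1.trans h2.symm)
  have hAV : K ≤ Subgroup.normalizer (A : Set G) := by
    rw [Subgroup.normalizer_eq_top_iff.mpr inferInstance]; exact le_top
  have hcop : (Nat.card K).Coprime (Nat.card A) := by rw [hcardK]; exact hHall.symm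
  have hinf := Cfsg.Agent.Lead.fixed_inf_commutator_eq_bot K A hAV hcop
  have hsup := Cfsg.Agent.Lead.fixed_sup_commutator_eq K A hAV hcop
  have hab : ∀ a ∈ A, ∀ b ∈ A, a * b = b * a := fun a ha b hb =>
    congrArg Subtype.val (mul_comm' (⟨a, ha⟩ : A) ⟨b, hb⟩)
  have hprod : ∀ g : G, ∃ a ∈ A, ∃ k ∈ K, g = a * k := by
    intro g
    have hg : g ∈ A ⊔ K := hK.sup_eq_top ▸ Subgroup.mem_top g
    rw [Subgroup.mem_sup_of_normal_left] at hg
    obtain ⟨x, hx, y, hy, rfl⟩ := hg
    exact ⟨x, hx, y, hy, rfl⟩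
  -- (1) [A, G] = [A, K]
  have h1 : ⁅A, (⊤ : Subgroup G)⁆ = ⁅A, K⁆ := by
    apply le_antisymm
    · rw [Subgroup.commutator_le]
      intro a ha g _
      obtain ⟨a', ha', k, hk, rfl⟩ := hprod g
      have hak : ⁅a, k⁆ ∈ A := by
        rw [commutatorElement_def]
        have e : a * k * a⁻¹ * k⁻¹ = a * (k * a⁻¹ * k⁻¹) := by group
        rw [e]; exact A.mul_mem ha (‹A.Normal›.conj_mem _ (A.inv_mem ha) k)
      have e1 : ⁅a, a' * k⁆ = ⁅a, k⁆ := by
        have e2 : ⁅a, a' * k⁆ = (a * a') * k * a⁻¹ * k⁻¹ * a'⁻¹ := by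
          rw [commutatorElement_def]; group
        have e3 : a' * ⁅a, k⁆ = ⁅a, k⁆ * a' := hab a' ha' _ hak
        rw [e2, hab a ha a' ha']
        calc a' * a * k * a⁻¹ * k⁻¹ * a'⁻¹ = a' * ⁅a, k⁆ * a'⁻¹ := by
              rw [commutatorElement_def]; group
          _ = ⁅a, k⁆ := by rw [e3]; group
      rw [e1]
      exact Subgroup.commutator_mem_commutator ha hk
    · exact Subgroup.commutator_mono le_rfl le_top
  -- (2) fixed points are central
  have h2 : A ⊓ Subgroup.centralizer (K : Set G) = Subgroup.center G ⊓ A := by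
    ext x
    constructor
    · intro hx
      obtain ⟨hxA, hxC⟩ := Subgroup.mem_inf.mp hx
      refine Subgroup.mem_inf.mpr ⟨?_, hxA⟩
      rw [Subgroup.mem_center_iff]
      intro g
      obtain ⟨a, ha, k, hk, rfl⟩ := hprod g
      have e1 : k * x = x * k := (Subgroup.mem_centralizer_iff.mp hxC) k hk
      have e2 : a * x = x * a := hab a ha x hxA
      calc a * k * x = a * (k * x) := by group
        _ = a * (x * k) := by rw [e1]
        _ = (a * x) * k := by group
        _ = x * a * k := by rw [e2]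
        _ = x * (a * k) := by group
    · intro hx
      obtain ⟨hxZ, hxA⟩ := Subgroup.mem_inf.mp hx
      refine Subgroup.mem_inf.mpr ⟨hxA, ?_⟩
      rw [Subgroup.mem_centralizer_iff]
      intro k _
      exact (Subgroup.mem_center_iff.mp hxZ) k
  rw [← h1, h2] at hinf hsup
  have h88 : A ⊓ commutator G ⊓ Subgroup.center G = ⊥ := Cfsg.Agent.S0088.result A hc hHall
  have hle1 : ⁅A, (⊤ : Subgroup G)⁆ ≤ commutator G ⊓ A := by
    refine le_inf (Subgroup.commutator_mono le_top le_rfl) ?_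
    exact Subgroup.commutator_le_left A ⊤
  have hle2 : commutator G ⊓ A ≤ ⁅A, (⊤ : Subgroup G)⁆ := by
    intro x hx0
    obtain ⟨hxG', hxA⟩ := Subgroup.mem_inf.mp hx0
    have hx : x ∈ (Subgroup.center G ⊓ A) ⊔ ⁅A, (⊤ : Subgroup G)⁆ := by rw [hsup]; exact hxA
    rw [Subgroup.mem_sup_of_normal_right] at hx
    obtain ⟨c, hc0, d, hd, rfl⟩ := hx
    have hc' := Subgroup.mem_inf.mp hc0
    have hcG' : c ∈ commutator G := by
      have e : c = (c * d) * d⁻¹ := by group
      rw [e]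
      exact Subgroup.mul_mem _ hxG' (Subgroup.inv_mem _ (Subgroup.mem_inf.mp (hle1 hd)).1)
    have hc1 : c ∈ A ⊓ commutator G ⊓ Subgroup.center G :=
      Subgroup.mem_inf.mpr ⟨Subgroup.mem_inf.mpr ⟨hc'.2, hcG'⟩, hc'.1⟩
    rw [h88, Subgroup.mem_bot] at hc1
    rw [hc1, one_mul]; exact hd
  have heq : ⁅A, (⊤ : Subgroup G)⁆ = commutator G ⊓ A := le_antisymm hle1 hle2
  refine ⟨heq, ?_, ?_⟩
  · rw [← heq, inf_comm]; exact hinf
  · rw [← heq, sup_comm]; exact hsup


end Cfsg.Agent.S0090
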