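import Cfsg.Statements.S0092
import Mathlib
import Cfsg.Agent.Helper6.OpSplit
import Cfsg.Agent.Helper4.PResidual
import Cfsg.Agent.Helper3.SchurZ
import Cfsg.Agent.Helper5.Basic
-- import your own Cfsg.Agent.* helpers here

set_option autoImplicit false
open Cfsg

namespace Cfsg.Agent.S0092

/-- If the Sylow p-subgroups of O^p(G) are abelian then G splits over O^p(G). -/
theorem result {G : Type*} [Group G] [Finite G] {p : ℕ} [Fact p.Prime] (h : ∀ Q : Sylow p (Cfsg.pResidual p G), IsMulCommutative Q) : ∃ K : Subgroup G, K.IsComplement' (Cfsg.pResidual p G) := by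
  classical
  haveI hNn : (Cfsg.pResidual p G).Normal := Cfsg.Agent.Helper4.pResidual_normal p G
  obtain ⟨Q⟩ : Nonempty (Sylow p (Cfsg.pResidual p G)) := inferInstance
  have hQc := h Q
  have hXres := Cfsg.Agent.Helper6.pResidual_pResidual_top p G
  obtain ⟨N, hNdef⟩ : ∃ N : Subgroup G, N = Cfsg.pResidual p G := ⟨_, rfl⟩
  obtain ⟨Q', hQ'⟩ : ∃ Q' : Subgroup G,
      Q' = (Q : Subgroup (Cfsg.pResidual p G)).map (Cfsg.pResidual p G).subtype := ⟨_, rfl⟩
  have hQ'N : Q' ≤ N := by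
    rw [hQ', hNdef]; rintro _ ⟨x, -, rfl⟩; exact x.2
  have hQ'p : IsPGroup p Q' := by
    rw [hQ']; exact Q.isPGroup'.map _
  have hQ'ab : ∀ a ∈ Q', ∀ b ∈ Q', a * b = b * a := by
    rw [hQ']
    rintro _ ⟨a, ha, rfl⟩ _ ⟨b, hb, rfl⟩
    have h0 := hQc.is_comm.comm ⟨a, ha⟩ ⟨b, hb⟩
    have h1 : a * b = b * a := congrArg Subtype.val h0
    rw [← map_mul, ← map_mul, h1]
  obtain ⟨P, hP⟩ := hQ'p.exists_le_sylow
  have hPN : (P : Subgroup G) ⊓ N = Q' := by
    apply le_antisymm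
    · rintro x ⟨hxP, hxN⟩
      rw [hNdef] at hxN
      have hpg : IsPGroup p (((P : Subgroup G) ⊓ Cfsg.pResidual p G).subgroupOf
          (Cfsg.pResidual p G)) :=
        (P.isPGroup'.to_le inf_le_left).comap_of_injective _ (Subgroup.subtype_injective _)
      have hle : (Q : Subgroup (Cfsg.pResidual p G)) ≤
          ((P : Subgroup G) ⊓ Cfsg.pResidual p G).subgroupOf (Cfsg.pResidual p G) := by
        intro y hy
        rw [Subgroup.mem_subgroupOf]
        exact ⟨hP (by rw [hQ']; exact ⟨y, hy, rfl⟩), y.2⟩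
      have heq := Q.is_maximal' hpg hle
      have hmem : (⟨x, hxN⟩ : Cfsg.pResidual p G) ∈ (Q : Subgroup (Cfsg.pResidual p G)) := by
        rw [← heq]; exact Subgroup.mem_subgroupOf.mpr ⟨hxP, hxN⟩
      rw [hQ']
      exact ⟨⟨x, hxN⟩, hmem, rfl⟩
    · exact le_inf hP hQ'N
  have hPNtop : (P : Subgroup G) ⊔ N = ⊤ := by
    rw [hNdef]
    exact Cfsg.Agent.Helper4.sup_pResidual_eq_top (P : Subgroup G) P.not_dvd_index
  haveI hNn' : N.Normal := by rw [hNdef]; exact hNn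
  obtain ⟨M, hM⟩ : ∃ M : Subgroup G, M = Subgroup.normalizer (Q' : Set G) := ⟨_, rfl⟩
  have hconjM : ∀ m ∈ M, ∀ q : G, q ∈ Q' ↔ m * q * m⁻¹ ∈ Q' := by
    intro m hm q
    rw [hM] at hm
    exact Subgroup.mem_normalizer_iff.mp hm q
  have hPM : (P : Subgroup G) ≤ M := by
    intro x hx
    rw [hM]
    apply Cfsg.Agent.Helper5.mem_normalizer_of_conj_le
    rintro _ ⟨q, hq, rfl⟩
    rw [← hPN]
    have e : (MulAut.conj x).toMonoidHom q = x * q * x⁻¹ := by simp [MulAut.conj_apply]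
    rw [e]
    exact ⟨Subgroup.mul_mem _ (Subgroup.mul_mem _ hx (hP hq)) (Subgroup.inv_mem _ hx),
      hNn'.conj_mem q (hQ'N hq) x⟩
  -- the transfer lemma
  have hA : ∀ z ∈ Q', (∀ n ∈ N ⊓ M, n * z * n⁻¹ = z) → z = 1 := by
    intro z' hz' hc
    rw [hQ'] at hz'
    obtain ⟨z, hz, rfl⟩ := hz'
    have h0 := Cfsg.Agent.Helper6.central_sylow_trivial hXres Q hQc z hz (by
      intro n hn
      have hnM : (n : G) ∈ M := by
        rw [hM]
        apply Cfsg.Agent.Helper5.mem_normalizer_of_conj_le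
        rw [hQ']
        rintro _ ⟨_, ⟨q, hq, rfl⟩, rfl⟩
        refine ⟨n * q * n⁻¹, (Subgroup.mem_normalizer_iff.mp hn q).mp hq, ?_⟩
        simp [MulAut.conj_apply]
      have h1 := hc (n : G) ⟨by rw [hNdef]; exact n.2, hnM⟩
      apply Subtype.ext
      simpa using h1)
    rw [h0, map_one]
  obtain ⟨Y, hY⟩ : ∃ Y : Subgroup G, Y = N ⊓ M := ⟨_, rfl⟩
  have hQ'Y : Q' ≤ Y := by
    rw [hY, hM]; exact le_inf hQ'N Subgroup.le_normalizer
  have hYM : Y ≤ M := by rw [hY]; exact inf_le_right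
  have hYN : Y ≤ N := by rw [hY]; exact inf_le_left
  have hidx : ¬ p ∣ Q'.relIndex Y := by
    intro hd
    have h1 := Subgroup.relIndex_mul_relIndex Q' Y N hQ'Y hYN
    have h2 : Q'.relIndex N = (Q : Subgroup (Cfsg.pResidual p G)).index := by
      rw [hNdef, hQ']
      show ((Subgroup.map (Cfsg.pResidual p G).subtype (Q : Subgroup (Cfsg.pResidual p G))).subgroupOf
        (Cfsg.pResidual p G)).index = _
      congr 1
      exact Subgroup.comap_map_eq_self_of_injective (Subgroup.subtype_injective _) _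
    apply Q.not_dvd_index
    rw [← h2, ← h1]
    exact Dvd.dvd.mul_right hd _
  obtain ⟨T, hTY, hQT, hdec, hcopT⟩ := Cfsg.Agent.Helper6.exists_rel_complement Q' Y hQ'Y
    (by rw [← hM]; exact hYM) hQ'p hidx
  -- conjugation by elements of M preserves Y
  have hconjY : ∀ m ∈ M, ∀ y ∈ Y, m * y * m⁻¹ ∈ Y := by
    intro m hm y hy
    rw [hY] at hy ⊢
    exact ⟨hNn'.conj_mem y hy.1 m, Subgroup.mul_mem _ (Subgroup.mul_mem _ hm hy.2) (Subgroup.inv_mem _ hm)⟩
  have hsolv : Group.IsSolvable Q' := by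
    haveI : Group.IsNilpotent Q' := hQ'p.isNilpotent
    infer_instance
  -- Frattini argument
  have hFr : ∀ m ∈ M, ∃ x ∈ Q', x⁻¹ * m ∈ Subgroup.normalizer (T : Set G) := by
    intro m hm
    have hmi : m⁻¹ ∈ M := Subgroup.inv_mem _ hm
    obtain ⟨x, hx, hxe⟩ := Cfsg.Agent.Helper3.sz_conj_rel Q' T (T.map (MulAut.conj m).toMonoidHom)
      (by rw [← hM]; exact hTY.trans hYM) hQT
      (by
        rw [eq_bot_iff]
        rintro y ⟨hyQ, t, ht, rfl⟩
        have e : (MulAut.conj m).toMonoidHom t = m * t * m⁻¹ := by simp [MulAut.conj_apply]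
        rw [e] at hyQ ⊢
        have htQ : t ∈ Q' := (hconjM m hm t).mpr hyQ
        have h1 : t ∈ Q' ⊓ T := ⟨htQ, ht⟩
        rw [hQT, Subgroup.mem_bot] at h1
        rw [Subgroup.mem_bot, h1]; group)
      (by
        have hle1 : Q' ⊔ T ≤ Y := sup_le hQ'Y hTY
        have hle2 : Y ≤ Q' ⊔ T := by
          intro y hy
          obtain ⟨q, hq, t, ht, rfl⟩ := hdec y hy
          exact Subgroup.mul_mem_sup hq ht
        have hle3 : Q' ⊔ T.map (MulAut.conj m).toMonoidHom ≤ Y := by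
          apply sup_le hQ'Y
          rintro _ ⟨t, ht, rfl⟩
          have e : (MulAut.conj m).toMonoidHom t = m * t * m⁻¹ := by simp [MulAut.conj_apply]
          rw [e]
          exact hconjY m hm t (hTY ht)
        have hle4 : Y ≤ Q' ⊔ T.map (MulAut.conj m).toMonoidHom := by
          intro y hy
          have hy' : m⁻¹ * y * m⁻¹⁻¹ ∈ Y := hconjY m⁻¹ hmi y hy
          obtain ⟨q, hq, t, ht, hqt⟩ := hdec _ hy'
          have e : y = (m * q * m⁻¹) * (m * t * m⁻¹) := by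
            have : y = m * (m⁻¹ * y * m⁻¹⁻¹) * m⁻¹ := by group
            rw [this, hqt]; group
          rw [e]
          exact Subgroup.mul_mem_sup ((hconjM m hm q).mp hq)
            ⟨t, ht, by simp [MulAut.conj_apply]⟩
        exact le_antisymm (hle1.trans hle4) (hle3.trans hle2))
      hcopT (Or.inl hsolv)
    refine ⟨x, hx, ?_⟩
    apply Cfsg.Agent.Helper5.mem_normalizer_of_conj_le
    rintro _ ⟨t, ht, rfl⟩
    have h1 : (MulAut.conj m).toMonoidHom t ∈ T.map (MulAut.conj x).toMonoidHom := by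
      rw [hxe]; exact ⟨t, ht, rfl⟩
    obtain ⟨t', ht', ht'e⟩ := h1
    have e1 : x * t' * x⁻¹ = m * t * m⁻¹ := by
      simpa [MulAut.conj_apply] using ht'e
    have e2 : (MulAut.conj (x⁻¹ * m)).toMonoidHom t = t' := by
      have : (MulAut.conj (x⁻¹ * m)).toMonoidHom t = x⁻¹ * (m * t * m⁻¹) * x := by
        simp [MulAut.conj_apply, mul_assoc]
      rw [this, ← e1]; group
    rw [e2]; exact ht'
  -- Q' ∩ N(T) = 1
  have hQW : ∀ z ∈ Q', z ∈ Subgroup.normalizer (T : Set G) → z = 1 := by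
    intro z hz hzT
    apply hA z hz
    intro n hn
    rw [← hY] at hn
    obtain ⟨q, hq, t, ht, rfl⟩ := hdec n hn
    have h1 : q * z = z * q := hQ'ab q hq z hz
    have h2 : t * z = z * t := by
      have h3 : z * t * z⁻¹ * t⁻¹ ∈ T :=
        Subgroup.mul_mem _ ((Subgroup.mem_normalizer_iff.mp hzT t).mp ht) (Subgroup.inv_mem _ ht)
      have h4 : z * t * z⁻¹ * t⁻¹ ∈ Q' := by
        have h5 : t * z⁻¹ * t⁻¹ ∈ Q' :=
          (hconjM t (hYM (hTY ht)) z⁻¹).mp (Subgroup.inv_mem _ hz)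
        have e : z * t * z⁻¹ * t⁻¹ = z * (t * z⁻¹ * t⁻¹) := by group
        rw [e]; exact Subgroup.mul_mem _ hz h5
      have h6 : z * t * z⁻¹ * t⁻¹ ∈ Q' ⊓ T := ⟨h4, h3⟩
      rw [hQT, Subgroup.mem_bot] at h6
      calc t * z = (z * t * z⁻¹ * t⁻¹)⁻¹ * (z * t) := by group
        _ = z * t := by rw [h6]; group
    calc q * t * z * (q * t)⁻¹ = q * (t * z) * t⁻¹ * q⁻¹ := by group
      _ = q * (z * t) * t⁻¹ * q⁻¹ := by rw [h2]
      _ = (q * z) * q⁻¹ := by group
      _ = z * q * q⁻¹ := by rw [h1]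
      _ = z := by group
  -- the complement
  refine ⟨(P : Subgroup G) ⊓ (M ⊓ Subgroup.normalizer (T : Set G)), ?_⟩
  rw [← hNdef]
  have hinf : N ⊓ ((P : Subgroup G) ⊓ (M ⊓ Subgroup.normalizer (T : Set G))) = ⊥ := by
    rw [eq_bot_iff]
    rintro x ⟨hxN, hxP, -, hxT⟩
    have hxQ : x ∈ Q' := by rw [← hPN]; exact ⟨hxP, hxN⟩
    rw [Subgroup.mem_bot]
    exact hQW x hxQ hxT
  have hsup : N ⊔ ((P : Subgroup G) ⊓ (M ⊓ Subgroup.normalizer (T : Set G))) = ⊤ := by
    rw [eq_top_iff, ← hPNtop]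
    apply sup_le _ le_sup_left
    intro x hx
    obtain ⟨q, hq, hqx⟩ := hFr x (hPM hx)
    have hqP : q ∈ (P : Subgroup G) := hP hq
    have h1 : q⁻¹ * x ∈ (P : Subgroup G) ⊓ (M ⊓ Subgroup.normalizer (T : Set G)) :=
      ⟨Subgroup.mul_mem _ (Subgroup.inv_mem _ hqP) hx,
        Subgroup.mul_mem _ (Subgroup.inv_mem _ (hPM hqP)) (hPM hx), hqx⟩
    have e : x = q * (q⁻¹ * x) := by group
    rw [e]
    exact Subgroup.mul_mem_sup (hQ'N hq) h1
  exact (Cfsg.Agent.Helper3.isComplement'_of_inf_sup N _ hinf hsup).symm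

end Cfsg.Agent.S0092
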