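import Cfsg.Statements.S0129
import Mathlib
import Cfsg.Agent.Lead.UniqSub
import Cfsg.Agent.S0583

set_option autoImplicit false
open Cfsg

namespace Cfsg.Agent.S0129

theorem exists_central_ext {R : Type*} [Group R] [Finite R] {p : ℕ} [Fact p.Prime]
    (hR : IsPGroup p R) (M N : Subgroup R) [M.Normal] [N.Normal] (hMN : M ≤ N) (hne : M ≠ N) :
    ∃ B : Subgroup R, B.Normal ∧ M ≤ B ∧ B ≤ N ∧ Nat.card B = Nat.card M * p ∧
      ∀ g : R, ∀ b ∈ B, g * b * g⁻¹ * b⁻¹ ∈ M := by
  classical
  have hpp : p.Prime := Fact.out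
  obtain ⟨π, hπ⟩ : ∃ π : R →* R ⧸ M, π = QuotientGroup.mk' M := ⟨_, rfl⟩
  have hπs : Function.Surjective π := hπ ▸ QuotientGroup.mk'_surjective M
  have hker : π.ker = M := hπ ▸ QuotientGroup.ker_mk' M
  obtain ⟨Nb, hNb⟩ : ∃ Nb : Subgroup (R ⧸ M), Nb = N.map π := ⟨_, rfl⟩
  haveI hNbn : Nb.Normal := hNb ▸ Subgroup.Normal.map inferInstance π hπs
  have hNbne : Nb ≠ ⊥ := by
    intro h
    rw [hNb, Subgroup.map_eq_bot_iff, hker] at h
    exact hne (le_antisymm hMN h)
  have hQp : IsPGroup p (R ⧸ M) := hR.to_quotient M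
  haveI : Group.IsNilpotent (R ⧸ M) := hQp.isNilpotent
  have hmeet : Nb ⊓ Subgroup.center (R ⧸ M) ≠ ⊥ :=
    fun h => hNbne (Cfsg.Agent.S0583.eq_bot_of_inf_center_eq_bot _ h)
  obtain ⟨j, hj⟩ := IsPGroup.iff_card.mp (hQp.to_subgroup (Nb ⊓ Subgroup.center (R ⧸ M)))
  have hj0 : j ≠ 0 := by
    intro h; rw [h, pow_zero] at hj
    exact hmeet (Subgroup.eq_bot_of_card_eq _ hj)
  obtain ⟨q', hq'⟩ := exists_prime_orderOf_dvd_card'
    (G := ↥(Nb ⊓ Subgroup.center (R ⧸ M))) p (by rw [hj]; exact dvd_pow_self p hj0)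
  obtain ⟨q, hqdef⟩ : ∃ q : R ⧸ M, q = (q' : R ⧸ M) := ⟨_, rfl⟩
  have hqmem : q ∈ Nb ⊓ Subgroup.center (R ⧸ M) := hqdef ▸ q'.2
  obtain ⟨hqN, hqZ⟩ := Subgroup.mem_inf.mp hqmem
  have hqord : orderOf q = p := by rw [hqdef, Subgroup.orderOf_coe]; exact hq'
  haveI hzn : (Subgroup.zpowers q).Normal := ⟨fun x hx g => by
    obtain ⟨i, rfl⟩ := Subgroup.mem_zpowers_iff.mp hx
    have hc : Commute g q := Subgroup.mem_center_iff.mp hqZ g
    have : g * q ^ i = q ^ i * g := (hc.zpow_right i).eq
    rw [this, mul_inv_cancel_right]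
    exact Subgroup.zpow_mem _ (Subgroup.mem_zpowers q) i⟩
  obtain ⟨B, hB⟩ : ∃ B : Subgroup R, B = (Subgroup.zpowers q).comap π := ⟨_, rfl⟩
  refine ⟨B, ?_, ?_, ?_, ?_, ?_⟩
  · rw [hB]; exact Subgroup.Normal.comap hzn π
  · intro x hx
    rw [hB, Subgroup.mem_comap]
    have : π x = 1 := by
      have hx' : x ∈ π.ker := by rw [hker]; exact hx
      exact MonoidHom.mem_ker.mp hx'
    rw [this]; exact Subgroup.one_mem _
  · intro x hx
    rw [hB, Subgroup.mem_comap] at hx
    have hxN : π x ∈ Nb := (Subgroup.zpowers_le.mpr hqN) hx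
    rw [hNb] at hxN
    obtain ⟨y, hy, hyx⟩ := Subgroup.mem_map.mp hxN
    have hk : y⁻¹ * x ∈ π.ker := by
      rw [MonoidHom.mem_ker, map_mul, map_inv, hyx, inv_mul_cancel]
    rw [hker] at hk
    have e : x = y * (y⁻¹ * x) := by group
    rw [e]; exact N.mul_mem hy (hMN hk)
  · have h1 : B.index = (Subgroup.zpowers q).index := by
      rw [hB]; exact Subgroup.index_comap_of_surjective (Subgroup.zpowers q) hπs
    have h2 : Nat.card B * B.index = Nat.card R := Subgroup.card_mul_index B
    have h3 : Nat.card (Subgroup.zpowers q) * (Subgroup.zpowers q).index = Nat.card (R ⧸ M) :=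
      Subgroup.card_mul_index _
    have h4 : Nat.card R = Nat.card (R ⧸ M) * Nat.card M :=
      Subgroup.card_eq_card_quotient_mul_card_subgroup M
    have h5 : Nat.card (Subgroup.zpowers q) = p := by rw [Nat.card_zpowers, hqord]
    rw [h1] at h2
    have hpos : 0 < (Subgroup.zpowers q).index :=
      Nat.pos_of_ne_zero Subgroup.index_ne_zero_of_finite
    have h6 : Nat.card B * (Subgroup.zpowers q).index =
        (Nat.card M * p) * (Subgroup.zpowers q).index := by
      rw [h2, h4, ← h3, h5]; ring
    exact Nat.eq_of_mul_eq_mul_right hpos h6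
  · intro g b hb
    rw [hB, Subgroup.mem_comap] at hb
    obtain ⟨i, hi⟩ := Subgroup.mem_zpowers_iff.mp hb
    have hc : Commute (π g) q := Subgroup.mem_center_iff.mp hqZ (π g)
    have h7 : g * b * g⁻¹ * b⁻¹ ∈ π.ker := by
      rw [MonoidHom.mem_ker, map_mul, map_mul, map_mul, map_inv, map_inv, ← hi,
        (hc.zpow_right i).eq, mul_inv_cancel_right, mul_inv_cancel]
    rwa [hker] at h7

/-- The order of a p-group is bounded by p^(a(a+1)/2) when it has a maximal normal abelian subgroup of order p^a. -/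
theorem result {G : Type*} [Group G] [Finite G] {p : ℕ} [Fact p.Prime] (hG : IsPGroup p G) (A : Subgroup G) [A.Normal] (hA : IsMulCommutative A) (hmax : ∀ B : Subgroup G, B.Normal → IsMulCommutative B → A ≤ B → B = A) (a : ℕ) (ha : Nat.card A = p ^ a) : Nat.card G ≤ p ^ (a * (a + 1) / 2) := by
  classical
  have hp : p.Prime := Fact.out
  haveI : Group.IsNilpotent G := hG.isNilpotent
  have hAc : ∀ x ∈ A, ∀ y ∈ A, x * y = y * x := by
    intro x hx y hy
    have h1 := hA.is_comm.comm (⟨x, hx⟩ : A) ⟨y, hy⟩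
    exact congrArg Subtype.val h1
  have hCA : Subgroup.centralizer (A : Set G) = A := by
    apply le_antisymm
    · apply Cfsg.Agent.Lead.centralizer_le_of_max_normal_abelian A hAc
      intro B hBn hBc hAB
      exact hmax B hBn ⟨⟨fun x y => Subtype.ext (hBc x x.2 y y.2)⟩⟩ hAB
    · intro x hx
      rw [Subgroup.mem_centralizer_iff]
      intro y hy
      exact hAc y hy x hx
  have chain : ∀ k : ℕ, k ≤ a → ∃ B : Subgroup G, B.Normal ∧ B ≤ A ∧ Nat.card B = p ^ k ∧
      (Subgroup.centralizer (B : Set G)).index ≤ p ^ (∑ i ∈ Finset.range k, i) := by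
    intro k
    induction k with
    | zero =>
      intro _
      refine ⟨⊥, inferInstance, bot_le, by simp, ?_⟩
      have h1 : Subgroup.centralizer ((⊥ : Subgroup G) : Set G) = ⊤ := by
        rw [Subgroup.centralizer_eq_top_iff_subset]
        intro x hx
        rw [SetLike.mem_coe, Subgroup.mem_bot] at hx
        rw [hx]; exact Subgroup.one_mem _
      rw [h1, Subgroup.index_top]; simp
    | succ k ih =>
      intro hk
      obtain ⟨B, hBn, hBA, hBc, hBi⟩ := ih (by omega)
      haveI := hBn
      have hBne : B ≠ A := by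
        intro h
        rw [h, ha] at hBc
        have h1 := Nat.pow_right_injective hp.two_le hBc
        omega
      obtain ⟨B', hB'n, hBB', hB'A, hB'c, hcen⟩ := exists_central_ext hG B A hBA hBne
      haveI := hB'n
      refine ⟨B', hB'n, hB'A, by rw [hB'c, hBc, pow_succ], ?_⟩
      obtain ⟨x, hxB', hxB⟩ : ∃ x, x ∈ B' ∧ x ∉ B := by
        by_contra hcon; push_neg at hcon
        have h1 : B' = B := le_antisymm hcon hBB'
        rw [h1, hBc] at hB'c
        have hpos : 0 < p ^ k := pow_pos hp.pos k
        have h2 := hp.two_le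
        nlinarith
      have hB'eq : B ⊔ Subgroup.zpowers x = B' := by
        have hle : B ⊔ Subgroup.zpowers x ≤ B' := sup_le hBB' (by rwa [Subgroup.zpowers_le])
        apply Subgroup.eq_of_le_of_card_ge hle
        have hdvd1 : Nat.card B ∣ Nat.card (B ⊔ Subgroup.zpowers x : Subgroup G) :=
          Subgroup.card_dvd_of_le le_sup_left
        obtain ⟨m, hm⟩ := hdvd1
        have hdvd2 : Nat.card (B ⊔ Subgroup.zpowers x : Subgroup G) ∣ Nat.card B' :=
          Subgroup.card_dvd_of_le hle
        rw [hm, hB'c] at hdvd2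
        have hBpos : 0 < Nat.card B := Nat.card_pos
        have hmp : m ∣ p := (Nat.mul_dvd_mul_iff_left hBpos).mp hdvd2
        rcases (Nat.dvd_prime hp).mp hmp with h1 | h1
        · exfalso
          rw [h1, mul_one] at hm
          have h2 : B = B ⊔ Subgroup.zpowers x := Subgroup.eq_of_le_of_card_ge le_sup_left hm.le
          apply hxB; rw [h2]; exact Subgroup.mem_sup_right (Subgroup.mem_zpowers x)
        · rw [hm, h1, hB'c]
      have hφmem : ∀ g : G, g * x * g⁻¹ * x⁻¹ ∈ B := fun g => hcen g x hxB'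
      let φ : Subgroup.centralizer (B : Set G) →* B :=
        MonoidHom.mk' (fun g => ⟨(g : G) * x * (g : G)⁻¹ * x⁻¹, hφmem g⟩) (by
          intro g h
          apply Subtype.ext
          show ((g * h : Subgroup.centralizer (B : Set G)) : G) * x
              * ((g * h : Subgroup.centralizer (B : Set G)) : G)⁻¹ * x⁻¹
            = ((g : G) * x * (g : G)⁻¹ * x⁻¹) * ((h : G) * x * (h : G)⁻¹ * x⁻¹)
          rw [Subgroup.coe_mul]
          have hc := Subgroup.mem_centralizer_iff.mp g.2 _ (hφmem h)
          calc (g : G) * h * x * ((g : G) * h)⁻¹ * x⁻¹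
              = ((g : G) * ((h : G) * x * (h : G)⁻¹ * x⁻¹)) * x * (g : G)⁻¹ * x⁻¹ := by group
            _ = (((h : G) * x * (h : G)⁻¹ * x⁻¹) * g) * x * (g : G)⁻¹ * x⁻¹ := by rw [← hc]
            _ = ((h : G) * x * (h : G)⁻¹ * x⁻¹) * ((g : G) * x * (g : G)⁻¹ * x⁻¹) := by group
            _ = _ := hAc _ (hBA (hφmem h)) _ (hBA (hφmem g)))
      have hker : φ.ker.map (Subgroup.centralizer (B : Set G)).subtype
          ≤ Subgroup.centralizer (B' : Set G) := by
        rintro _ ⟨g, hg, rfl⟩
        have h1 : φ g = 1 := hg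
        have h2 : (g : G) * x * (g : G)⁻¹ * x⁻¹ = 1 := congrArg Subtype.val h1
        have hgx : (g : G) * x = x * g := by
          calc (g : G) * x = ((g : G) * x * (g : G)⁻¹ * x⁻¹) * (x * g) := by group
            _ = x * g := by rw [h2, one_mul]
        show (g : G) ∈ Subgroup.centralizer (B' : Set G)
        rw [Subgroup.mem_centralizer_iff]
        intro y hy
        rw [SetLike.mem_coe, ← hB'eq] at hy
        have hle : B ⊔ Subgroup.zpowers x ≤ Subgroup.centralizer {(g : G)} := by
          apply sup_le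
          · intro b hb
            rw [Subgroup.mem_centralizer_iff]
            intro h hh
            rw [Set.mem_singleton_iff] at hh
            rw [hh]
            exact (Subgroup.mem_centralizer_iff.mp g.2 b hb).symm
          · rw [Subgroup.zpowers_le, Subgroup.mem_centralizer_iff]
            intro h hh
            rw [Set.mem_singleton_iff] at hh
            rw [hh]
            exact hgx
        have h3 := hle hy
        rw [Subgroup.mem_centralizer_iff] at h3
        exact (h3 g rfl).symm
      have hcard : Nat.card (Subgroup.centralizer (B : Set G))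
          ≤ Nat.card (Subgroup.centralizer (B' : Set G)) * p ^ k := by
        have h1 : Nat.card (Subgroup.centralizer (B : Set G))
            = Nat.card φ.ker * Nat.card φ.range := by
          rw [← Subgroup.index_ker]; exact (Subgroup.card_mul_index φ.ker).symm
        have h2 : Nat.card (φ.ker.map (Subgroup.centralizer (B : Set G)).subtype)
            = Nat.card φ.ker := Subgroup.card_map_of_injective (Subgroup.subtype_injective _)
        have h3 : Nat.card φ.ker ≤ Nat.card (Subgroup.centralizer (B' : Set G)) := by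
          rw [← h2]; exact Subgroup.card_le_of_le hker
        have h4 : Nat.card φ.range ≤ p ^ k := by
          rw [← hBc]; exact Subgroup.card_le_card_group _
        rw [h1]; exact Nat.mul_le_mul h3 h4
      have e1 := Subgroup.card_mul_index (Subgroup.centralizer (B : Set G))
      have e2 := Subgroup.card_mul_index (Subgroup.centralizer (B' : Set G))
      have hpos : 0 < Nat.card (Subgroup.centralizer (B' : Set G)) := Nat.card_pos
      have h5 : Nat.card (Subgroup.centralizer (B' : Set G))
            * (Subgroup.centralizer (B' : Set G)).index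
          ≤ Nat.card (Subgroup.centralizer (B' : Set G))
            * (p ^ k * (Subgroup.centralizer (B : Set G)).index) := by
        rw [e2, ← e1, ← mul_assoc]
        exact Nat.mul_le_mul_right _ hcard
      have h6 := Nat.le_of_mul_le_mul_left h5 hpos
      calc (Subgroup.centralizer (B' : Set G)).index
          ≤ p ^ k * (Subgroup.centralizer (B : Set G)).index := h6
        _ ≤ p ^ k * p ^ (∑ i ∈ Finset.range k, i) := Nat.mul_le_mul_left _ hBi
        _ = p ^ (∑ i ∈ Finset.range (k + 1), i) := by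
            rw [Finset.sum_range_succ, ← pow_add, add_comm]
  obtain ⟨B, hBn, hBA, hBc, hBi⟩ := chain a le_rfl
  have hBA' : B = A := Subgroup.eq_of_le_of_card_ge hBA (by rw [hBc, ha])
  rw [hBA', hCA] at hBi
  have e := Subgroup.card_mul_index A
  rw [ha] at e
  rw [← e]
  calc p ^ a * A.index ≤ p ^ a * p ^ (∑ i ∈ Finset.range a, i) := Nat.mul_le_mul_left _ hBi
    _ = p ^ (∑ i ∈ Finset.range (a + 1), i) := by
        rw [Finset.sum_range_succ, ← pow_add, add_comm]
    _ = p ^ (a * (a + 1) / 2) := by
        rw [Finset.sum_range_id, Nat.add_sub_cancel, mul_comm]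


end Cfsg.Agent.S0129
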