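import Cfsg.Statements.S0093
import Mathlib
import Cfsg.Agent.S0130
import Cfsg.Agent.S0129
import Cfsg.Agent.Helper5.Frattini

set_option autoImplicit false
open Cfsg

namespace Cfsg.Agent.S0093

open Subgroup

/-- Every finite p-group has a critical subgroup: a characteristic subgroup H whose Frattini subgroup and whose commutator with the whole group lie in the centre of H, and whose centralizer is contained in H. -/
theorem result {P : Type*} [Group P] [Finite P] {p : ℕ} [Fact p.Prime] (hP : IsPGroup p P) : ∃ H : Subgroup P, H.Characteristic ∧ (frattini H).map H.subtype ≤ Subgroup.centralizer (H : Set P) ∧ ⁅H, (⊤ : Subgroup P)⁆ ≤ H ⊓ Subgroup.centralizer (H : Set P) ∧ Subgroup.centralizer (H : Set P) ≤ H := by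
  classical
  have hpp : p.Prime := Fact.out
  obtain ⟨M, ⟨hMchar, hMc⟩, hMle⟩ := exists_maximal_of_wellFoundedGT
    (fun M : Subgroup P => M.Characteristic ∧ IsMulCommutative M)
    ⟨⊥, inferInstance, ⟨⟨fun a b => Subsingleton.elim _ _⟩⟩⟩
  haveI := hMchar
  haveI hMn : M.Normal := inferInstance
  have hMcm : ∀ a ∈ M, ∀ b ∈ M, a * b = b * a := fun a ha b hb =>
    congrArg Subtype.val (hMc.is_comm.comm ⟨a, ha⟩ ⟨b, hb⟩)
  obtain ⟨C, hCdef⟩ : ∃ C : Subgroup P, C = Subgroup.centralizer (M : Set P) := ⟨_, rfl⟩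
  have hCmem : ∀ c : P, c ∈ C ↔ ∀ m ∈ M, m * c = c * m := by
    intro c; rw [hCdef]; exact Subgroup.mem_centralizer_iff
  haveI hCchar : C.Characteristic := by rw [hCdef]; infer_instance
  have hMC : M ≤ C := fun m hm => (hCmem m).mpr (fun a ha => hMcm a ha m hm)
  obtain ⟨H, hHmem⟩ : ∃ H : Subgroup P, ∀ x : P, x ∈ H ↔
      (x ∈ C ∧ x ^ p ∈ M ∧ ∀ g : P, x * g * x⁻¹ * g⁻¹ ∈ M) :=
    ⟨{ carrier := {x | x ∈ C ∧ x ^ p ∈ M ∧ ∀ g : P, x * g * x⁻¹ * g⁻¹ ∈ M}
       mul_mem' := by
        rintro x y ⟨hxC, hxp, hxg⟩ ⟨hyC, hyp, hyg⟩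
        refine ⟨mul_mem hxC hyC, ?_, ?_⟩
        · obtain ⟨w, hw⟩ : ∃ w : P, w = y⁻¹ * x⁻¹ * y * x := ⟨_, rfl⟩
          have hwM : w ∈ M := by
            have e : w = x⁻¹ * (x * y⁻¹ * x⁻¹ * y⁻¹⁻¹) * x⁻¹⁻¹ := by rw [hw]; group
            rw [e]; exact hMn.conj_mem _ (hxg y⁻¹) x⁻¹
          have hwx : Commute w x := (hCmem x).mp hxC w hwM
          have hwy : Commute w y := (hCmem y).mp hyC w hwM
          have hyx : y * x = x * y * w := by rw [hw]; group
          have hf := Cfsg.Agent.S0130.pow_mul_class_two hwx hwy hyx p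
          rw [hf]
          exact mul_mem (mul_mem hxp hyp) (pow_mem hwM _)
        · intro g
          have e : x * y * g * (x * y)⁻¹ * g⁻¹
              = x * (y * g * y⁻¹ * g⁻¹) * x⁻¹ * (x * g * x⁻¹ * g⁻¹) := by group
          rw [e]; exact mul_mem (hMn.conj_mem _ (hyg g) x) (hxg g)
       one_mem' := ⟨one_mem C, by rw [one_pow]; exact one_mem M, fun g => by
        have e : (1 : P) * g * 1⁻¹ * g⁻¹ = 1 := by group
        rw [e]; exact one_mem M⟩
       inv_mem' := by
        rintro x ⟨hxC, hxp, hxg⟩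
        refine ⟨inv_mem hxC, by rw [inv_pow]; exact inv_mem hxp, fun g => ?_⟩
        have e : x⁻¹ * g * x⁻¹⁻¹ * g⁻¹ = x⁻¹ * (x * g * x⁻¹ * g⁻¹)⁻¹ * x⁻¹⁻¹ := by group
        rw [e]; exact hMn.conj_mem _ (inv_mem (hxg g)) x⁻¹ }, fun x => Iff.rfl⟩
  have hMH : M ≤ H := by
    intro m hm
    rw [hHmem]
    refine ⟨hMC hm, pow_mem hm p, fun g => ?_⟩
    have e : m * g * m⁻¹ * g⁻¹ = m * (g * m⁻¹ * g⁻¹) := by group
    rw [e]; exact mul_mem hm (hMn.conj_mem _ (inv_mem hm) g)
  have hHC : H ≤ C := fun x hx => ((hHmem x).mp hx).1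
  haveI hHchar : H.Characteristic := by
    rw [Subgroup.characteristic_iff_map_le]
    intro φ
    rintro _ ⟨x, hx, rfl⟩
    obtain ⟨hxC, hxp, hxg⟩ := (hHmem x).mp hx
    show φ x ∈ H
    rw [hHmem]
    refine ⟨?_, ?_, fun g => ?_⟩
    · exact (Subgroup.characteristic_iff_map_le.mp hCchar φ) (Subgroup.mem_map_of_mem _ hxC)
    · have h1 : φ (x ^ p) ∈ M :=
        (Subgroup.characteristic_iff_map_le.mp hMchar φ) (Subgroup.mem_map_of_mem _ hxp)
      rw [map_pow] at h1
      exact h1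
    · have h1 : φ (x * φ.symm g * x⁻¹ * (φ.symm g)⁻¹) ∈ M :=
        (Subgroup.characteristic_iff_map_le.mp hMchar φ)
          (Subgroup.mem_map_of_mem _ (hxg (φ.symm g)))
      rw [map_mul, map_mul, map_mul, map_inv, map_inv, MulEquiv.apply_symm_apply] at h1
      exact h1
  have hZH : H ⊓ Subgroup.centralizer (H : Set P) = M := by
    have hle : M ≤ H ⊓ Subgroup.centralizer (H : Set P) := by
      intro m hm
      refine Subgroup.mem_inf.mpr ⟨hMH hm, ?_⟩
      rw [Subgroup.mem_centralizer_iff]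
      intro h hh
      exact ((hCmem h).mp (hHC hh) m hm).symm
    refine le_antisymm (hMle ⟨inferInstance, ⟨⟨?_⟩⟩⟩ hle) hle
    rintro ⟨a, ha⟩ ⟨b, hb⟩
    apply Subtype.ext
    have h1 := Subgroup.mem_centralizer_iff.mp (Subgroup.mem_inf.mp ha).2 b (Subgroup.mem_inf.mp hb).1
    exact h1.symm
  refine ⟨H, hHchar, ?_, ?_, ?_⟩
  · have h1 : frattini H ≤ M.subgroupOf H := by
      apply Cfsg.Agent.Helper5.frattini_le_of_elementary_quotient hpp
      · intro a b
        rw [Subgroup.mem_subgroupOf]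
        have h2 := ((hHmem a).mp a.2).2.2 (b : P)
        simpa using h2
      · intro a
        rw [Subgroup.mem_subgroupOf]
        have h2 := ((hHmem a).mp a.2).2.1
        simpa using h2
    rintro _ ⟨x, hx, rfl⟩
    have h2 : (x : P) ∈ M := Subgroup.mem_subgroupOf.mp (h1 hx)
    rw [← hZH] at h2
    exact (Subgroup.mem_inf.mp h2).2
  · rw [Subgroup.commutator_le]
    intro h hh g _
    rw [hZH, commutatorElement_def]
    exact ((hHmem h).mp hh).2.2 g
  · by_contra hnot
    obtain ⟨Q, hQ⟩ : ∃ Q : Subgroup P, Q = Subgroup.centralizer (H : Set P) := ⟨_, rfl⟩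
    rw [← hQ] at hnot
    haveI hQn : Q.Normal := by rw [hQ]; infer_instance
    have hQC : Q ≤ C := by
      intro q hq
      rw [hQ, Subgroup.mem_centralizer_iff] at hq
      rw [hCmem]
      intro m hm
      exact hq m (hMH hm)
    haveI hQMn : (Q ⊔ M).Normal := inferInstance
    obtain ⟨B, hBn, hMB, hBQM, hBcard, hBcomm⟩ :=
      Cfsg.Agent.S0129.exists_central_ext hP M (Q ⊔ M) le_sup_right (by
        intro h0
        apply hnot
        intro q hq
        exact hMH (by rw [h0]; exact (le_sup_left : Q ≤ Q ⊔ M) hq))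
    obtain ⟨b, hbB, hbM⟩ : ∃ b ∈ B, b ∉ M := by
      by_contra hno
      push_neg at hno
      have h2 := Subgroup.card_le_of_le (show B ≤ M from hno)
      rw [hBcard] at h2
      have h3 : 0 < Nat.card M := Nat.card_pos
      have h4 : Nat.card M * 2 ≤ Nat.card M * p := Nat.mul_le_mul_left _ hpp.two_le
      omega
    have hbp : b ^ p ∈ M := by
      haveI : (M.subgroupOf B).Normal := inferInstance
      have hidx : (M.subgroupOf B).index = p := by
        have h1 := Subgroup.card_mul_index (M.subgroupOf B)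
        have h2 : Nat.card (M.subgroupOf B) = Nat.card M :=
          Nat.card_congr (Subgroup.subgroupOfEquivOfLe hMB).toEquiv
        rw [h2, hBcard] at h1
        exact Nat.eq_of_mul_eq_mul_left Nat.card_pos h1
      have h3 := Subgroup.pow_index_mem (M.subgroupOf B) (⟨b, hbB⟩ : B)
      rw [hidx, Subgroup.mem_subgroupOf] at h3
      simpa using h3
    have hbH : b ∈ H := by
      rw [hHmem]
      refine ⟨?_, hbp, fun g => ?_⟩
      · exact (sup_le hQC hMC) (hBQM hbB)
      · have h1 := hBcomm g b hbB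
        have e : b * g * b⁻¹ * g⁻¹ = (g * b * g⁻¹ * b⁻¹)⁻¹ := by group
        rw [e]; exact inv_mem h1
    have hb2 := hBQM hbB
    rw [← SetLike.mem_coe, Subgroup.mul_normal] at hb2
    obtain ⟨q, hq, m, hm, rfl⟩ := Set.mem_mul.mp hb2
    have hqH : q ∈ H := by
      have e : q = q * m * m⁻¹ := by group
      rw [e]; exact mul_mem hbH (inv_mem (hMH hm))
    have hqM : q ∈ M := by
      rw [← hZH]
      exact Subgroup.mem_inf.mpr ⟨hqH, by rw [← hQ]; exact hq⟩
    exact hbM (mul_mem hqM hm)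


end Cfsg.Agent.S0093
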