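import Cfsg.Statements.S0094
import Mathlib
import Cfsg.Agent.Lead.PGroupFrattini

set_option autoImplicit false
open Cfsg

namespace Cfsg.Agent.S0094

open scoped commutatorElement

/-- In a special p-group every central element has order dividing p. -/
theorem result {P : Type*} [Group P] [Finite P] {p : ℕ} [Fact p.Prime] (h : Cfsg.IsSpecial p P) (z : P) (hz : z ∈ Subgroup.center P) : z ^ p = 1 := by
  obtain ⟨hP, hfr, hcomm⟩ := h
  have hp : p.Prime := Fact.out
  have hcen : ∀ x y : P, ⁅x, y⁆ ∈ Subgroup.center P := by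
    intro x y
    rw [← hcomm]
    exact Subgroup.commutator_mem_commutator (Subgroup.mem_top x) (Subgroup.mem_top y)
  have hpowc : ∀ (x y : P) (n : ℕ), ⁅x ^ n, y⁆ = ⁅x, y⁆ ^ n := by
    intro x y n
    induction n with
    | zero => simp [commutatorElement_def]
    | succ n ih =>
      have h1 : ⁅x ^ (n + 1), y⁆ = x ^ n * ⁅x, y⁆ * (x ^ n)⁻¹ * ⁅x ^ n, y⁆ := by
        rw [commutatorElement_def, commutatorElement_def, commutatorElement_def, pow_succ]; group
      have h2 : x ^ n * ⁅x, y⁆ = ⁅x, y⁆ * x ^ n := ((Subgroup.mem_center_iff.mp (hcen x y)) (x ^ n))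
      rw [h1, h2, mul_inv_cancel_right, ih, pow_succ']
  let W : Subgroup P :=
    { carrier := {z | z ∈ Subgroup.center P ∧ z ^ p = 1}
      mul_mem' := by
        rintro a b ⟨ha, ha'⟩ ⟨hb, hb'⟩
        refine ⟨Subgroup.mul_mem _ ha hb, ?_⟩
        have hab : Commute a b := (Subgroup.mem_center_iff.mp hb a)
        rw [hab.mul_pow, ha', hb', one_mul]
      one_mem' := ⟨Subgroup.one_mem _, one_pow p⟩
      inv_mem' := by
        rintro a ⟨ha, ha'⟩
        exact ⟨Subgroup.inv_mem _ ha, by rw [inv_pow, ha', inv_one]⟩ }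
  have hle : commutator P ≤ W := by
    rw [commutator_eq_closure, Subgroup.closure_le]
    rintro c ⟨x, y, rfl⟩
    refine ⟨hcen x y, ?_⟩
    rw [← hpowc]
    have hxp : x ^ p ∈ Subgroup.center P := by
      rw [← hfr]; exact Cfsg.Agent.Lead.pow_mem_frattini_of_isPGroup p hP x
    rw [commutatorElement_def]
    have h3 := Subgroup.mem_center_iff.mp hxp y
    rw [← h3]; group
  have hz' : z ∈ W := hle (hcomm ▸ hz)
  exact hz'.2


end Cfsg.Agent.S0094
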