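import Cfsg.Statements.S0097
import Mathlib
import Cfsg.Agent.Lead.UniqSub

set_option autoImplicit false
open Cfsg

namespace Cfsg.Agent.S0097

open scoped commutatorElement

/-- For odd p and E extraspecial, the subgroup generated by the elements of order dividing p has exponent dividing p and index at most p. -/
theorem result {E : Type*} [Group E] [Finite E] {p : ℕ} [Fact p.Prime] (hp : p ≠ 2) (h : Cfsg.IsExtraspecial p E) : (Subgroup.closure {x : E | x ^ p = 1}).index ≤ p ∧ ∀ g ∈ Subgroup.closure {x : E | x ^ p = 1}, g ^ p = 1 := by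
  obtain ⟨⟨hpg, hfr, hcomm⟩, hcard⟩ := h
  have hpp : p.Prime := Fact.out
  have hcen : ∀ g x : E, g * x * g⁻¹ * x⁻¹ ∈ Subgroup.center E := by
    intro g x
    rw [← hcomm]
    have : ⁅g, x⁆ ∈ commutator E :=
      Subgroup.commutator_mem_commutator (Subgroup.mem_top g) (Subgroup.mem_top x)
    rwa [commutatorElement_def] at this
  have hcp : ∀ d ∈ Subgroup.center E, d ^ p = 1 := by
    intro d hd
    have h1 : (⟨d, hd⟩ : Subgroup.center E) ^ Nat.card (Subgroup.center E) = 1 := pow_card_eq_one'
    rw [hcard] at h1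
    have := congrArg Subtype.val h1
    simpa using this
  have hch : p ∣ p.choose 2 :=
    hpp.dvd_choose_self (by norm_num) (by have := hpp.two_le; omega)
  have hmul : ∀ x g : E, (x * g) ^ p = x ^ p * g ^ p := by
    intro x g
    have hd := hcen g x
    have hgx : g * x = (g * x * g⁻¹ * x⁻¹) * x * g := by group
    have := Cfsg.Agent.Lead.pow_mul_central hd hgx p
    rw [this]
    obtain ⟨m, hm⟩ := hch
    rw [hm, pow_mul, hcp _ hd, one_pow, mul_one]
  let φ : E →* E := { toFun := fun x => x ^ p, map_one' := one_pow p, map_mul' := hmul }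
  have hφ : ∀ x : E, φ x = x ^ p := fun x => rfl
  have hker : Subgroup.closure {x : E | x ^ p = 1} = φ.ker := by
    apply le_antisymm
    · rw [Subgroup.closure_le]
      intro x hx
      have hx' : x ^ p = 1 := hx
      show x ∈ φ.ker
      rw [MonoidHom.mem_ker, hφ]
      exact hx'
    · intro x hx
      rw [MonoidHom.mem_ker, hφ] at hx
      exact Subgroup.subset_closure hx
  have hrange : φ.range ≤ Subgroup.center E := by
    rintro _ ⟨x, rfl⟩
    rw [hφ, Subgroup.mem_center_iff]
    intro y
    have hd := hcen y x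
    have h1 : y * x * y⁻¹ = (y * x * y⁻¹ * x⁻¹) * x := by group
    have h2 : (y * x * y⁻¹) ^ p = y * x ^ p * y⁻¹ := conj_pow
    rw [h1, hmul, hcp _ hd, one_mul] at h2
    conv_rhs => rw [h2]
    group
  refine ⟨?_, ?_⟩
  · rw [hker, Subgroup.index_ker]
    calc Nat.card φ.range ≤ Nat.card (Subgroup.center E) := Subgroup.card_le_of_le hrange
      _ = p := hcard
  · intro g hg
    rw [hker, MonoidHom.mem_ker, hφ] at hg
    exact hg


end Cfsg.Agent.S0097
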