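import Cfsg.Statements.S0100
import Mathlib
import Cfsg.Agent.S0130
import Cfsg.Agent.S0129
import Cfsg.Agent.S0583

set_option autoImplicit false
open Cfsg

namespace Cfsg.Agent.S0100

open Subgroup

/-- For odd p, a p-group without normal elementary abelian subgroups of order p^3 has p-rank at most 2. -/
theorem result {P : Type*} [Group P] [Finite P] {p : ℕ} [Fact p.Prime] (hp : p ≠ 2) (hP : IsPGroup p P) (h : ∀ A : Subgroup P, A.Normal → IsMulCommutative A → (∀ a ∈ A, a ^ p = 1) → Nat.card A ≠ p ^ 3) (E : Subgroup P) (hE : IsMulCommutative E) (hEe : ∀ e ∈ E, e ^ p = 1) : Nat.card E ≤ p ^ 2 := by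
  classical
  have hpp : p.Prime := Fact.out
  haveI : Group.IsNilpotent P := hP.isNilpotent
  have hinj : ∀ a b : ℕ, p ^ a = p ^ b → a = b :=
    fun a b h0 => Nat.pow_right_injective hpp.two_le h0
  obtain ⟨A, hAmax⟩ := exists_maximal_of_wellFoundedGT
    (fun A : Subgroup P => A.Normal ∧ IsMulCommutative A ∧ ∀ a ∈ A, a ^ p = 1)
    ⟨⊥, inferInstance, ⟨⟨fun a b => Subsingleton.elim _ _⟩⟩,
      fun a ha => by rw [Subgroup.mem_bot.mp ha, one_pow]⟩
  obtain ⟨⟨hAn, hAc, hAe⟩, hAle⟩ := hAmax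
  haveI := hAn
  have key : ∀ x ∈ Subgroup.centralizer (A : Set P), x ^ p = 1 → x ∈ A := by
    intro x hx hxp
    refine Cfsg.Agent.S0130.main hP 1 (by rw [pow_one]; exact hp) A hAc
      (fun a ha => by rw [pow_one]; exact hAe a ha) ?_ x hx (by rw [pow_one]; exact hxp)
    intro B hBn hBc hBe hAB
    exact le_antisymm (hAle ⟨hBn, hBc, fun b hb => by
      have h0 := hBe b hb
      rwa [pow_one] at h0⟩ hAB) hAB
  have hAcm : ∀ a ∈ A, ∀ b ∈ A, a * b = b * a := by
    intro a ha b hb
    exact congrArg Subtype.val (hAc.is_comm.comm ⟨a, ha⟩ ⟨b, hb⟩)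
  have hEcm : ∀ a ∈ E, ∀ b ∈ E, a * b = b * a := by
    intro a ha b hb
    exact congrArg Subtype.val (hE.is_comm.comm ⟨a, ha⟩ ⟨b, hb⟩)
  obtain ⟨k, hk⟩ := (hP.to_subgroup A).exists_card_eq
  have hk2 : k ≤ 2 := by
    by_contra hk3
    push_neg at hk3
    obtain ⟨B₁, hB₁n, -, hB₁A, hB₁c, -⟩ :=
      Cfsg.Agent.S0129.exists_central_ext hP ⊥ A bot_le (by
        intro h0
        have h1 : Nat.card A = 1 := by rw [← h0]; exact Subgroup.card_bot
        rw [hk] at h1
        have h2 := hinj k 0 (by rw [h1, pow_zero])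
        omega)
    rw [Subgroup.card_bot, one_mul] at hB₁c
    haveI := hB₁n
    obtain ⟨B₂, hB₂n, -, hB₂A, hB₂c, -⟩ :=
      Cfsg.Agent.S0129.exists_central_ext hP B₁ A hB₁A (by
        intro h0
        rw [h0, hk] at hB₁c
        have h2 := hinj k 1 (by rw [hB₁c, pow_one])
        omega)
    rw [hB₁c] at hB₂c
    haveI := hB₂n
    obtain ⟨B₃, hB₃n, -, hB₃A, hB₃c, -⟩ :=
      Cfsg.Agent.S0129.exists_central_ext hP B₂ A hB₂A (by
        intro h0
        rw [h0, hk] at hB₂c
        have h2 := hinj k 2 (by rw [hB₂c]; ring)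
        omega)
    rw [hB₂c] at hB₃c
    refine h B₃ hB₃n ⟨⟨?_⟩⟩ (fun a ha => hAe a (hB₃A ha)) (by rw [hB₃c]; ring)
    rintro ⟨a, ha⟩ ⟨b, hb⟩
    exact Subtype.ext (hAcm a (hB₃A ha) b (hB₃A hb))
  obtain ⟨e, he⟩ := (hP.to_subgroup E).exists_card_eq
  by_contra hcon
  push_neg at hcon
  have he3 : 3 ≤ e := by
    by_contra h3
    push_neg at h3
    have h4 : p ^ e ≤ p ^ 2 := Nat.pow_le_pow_right hpp.pos (by omega)
    omega
  have hEA_contra : E ≤ A → False := by
    intro hEA
    have h1 := Subgroup.card_le_of_le hEA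
    have h2 : p ^ k ≤ p ^ 2 := Nat.pow_le_pow_right hpp.pos hk2
    omega
  have hEC : (∀ x ∈ E, x ∈ Subgroup.centralizer (A : Set P)) → False :=
    fun hall => hEA_contra (fun x hx => key x (hall x hx) (hEe x hx))
  have hAE : A ≤ E → False := fun hAE => hEC (fun x hx => by
    rw [Subgroup.mem_centralizer_iff]
    intro a ha
    exact hEcm a (hAE ha) x hx)
  by_cases hk1 : k ≤ 1
  · apply hEC
    intro x hx
    have hAZ : A ≤ Subgroup.center P := by
      by_cases hAbot : A = ⊥
      · rw [hAbot]; exact bot_le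
      · have h1 : A ⊓ Subgroup.center P ≠ ⊥ :=
          fun h0 => hAbot (Cfsg.Agent.S0583.eq_bot_of_inf_center_eq_bot A h0)
        obtain ⟨j, hj⟩ := (hP.to_subgroup (A ⊓ Subgroup.center P)).exists_card_eq
        have hj0 : j ≠ 0 := by
          rintro rfl
          rw [pow_zero] at hj
          exact h1 (Subgroup.eq_bot_of_card_eq _ hj)
        have h2 : A ⊓ Subgroup.center P = A := by
          apply Subgroup.eq_of_le_of_card_ge inf_le_left
          rw [hj, hk]
          exact Nat.pow_le_pow_right hpp.pos (by omega)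
        rw [← h2]; exact inf_le_right
    rw [Subgroup.mem_centralizer_iff]
    intro a ha
    exact (Subgroup.mem_center_iff.mp (hAZ ha) x).symm
  · have hk2' : k = 2 := by omega
    subst hk2'
    have h1 : A ⊓ Subgroup.center P ≠ ⊥ := by
      intro h0
      have h2 := Cfsg.Agent.S0583.eq_bot_of_inf_center_eq_bot A h0
      rw [h2, Subgroup.card_bot] at hk
      have h3 := hinj 0 2 (by rw [pow_zero, hk])
      omega
    obtain ⟨z, hz, hz1⟩ : ∃ z ∈ A ⊓ Subgroup.center P, z ≠ 1 := by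
      by_contra hno
      push_neg at hno
      exact h1 ((Subgroup.eq_bot_iff_forall _).mpr hno)
    have hzA : z ∈ A := hz.1
    have hzZ : z ∈ Subgroup.center P := hz.2
    obtain ⟨N, hN⟩ : ∃ N : Subgroup P, N = Subgroup.zpowers z := ⟨_, rfl⟩
    have hNcard : Nat.card N = p := by
      rw [hN, Nat.card_zpowers]
      exact orderOf_eq_prime (hAe z hzA) hz1
    have hNZ : N ≤ Subgroup.center P := by rw [hN, Subgroup.zpowers_le]; exact hzZ
    have hNA : N ≤ A := by rw [hN, Subgroup.zpowers_le]; exact hzA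
    haveI hNn : N.Normal := by
      constructor
      intro n hn g
      have h2 := Subgroup.mem_center_iff.mp (hNZ hn) g
      rw [h2, mul_inv_cancel_right]; exact hn
    obtain ⟨B, hBn, hNB, hBA, hBc, hBcomm⟩ :=
      Cfsg.Agent.S0129.exists_central_ext hP N A hNA (by
        intro h0
        rw [h0, hk] at hNcard
        have h2 := hinj 2 1 (by rw [hNcard, pow_one])
        omega)
    have hBeq : B = A := Subgroup.eq_of_le_of_card_ge hBA (by
      rw [hBc, hNcard, hk]; exact le_of_eq (by ring))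
    rw [hBeq] at hBcomm
    obtain ⟨a, haA, haN⟩ : ∃ a ∈ A, a ∉ N := by
      by_contra hno
      push_neg at hno
      have h2 := Subgroup.card_le_of_le (show A ≤ N from hno)
      rw [hk, hNcard] at h2
      have h3 : p < p ^ 2 := by nlinarith [hpp.two_le]
      omega
    have hgen : ∀ b ∈ A, ∃ i : ℤ, ∃ n ∈ N, b = a ^ i * n := by
      obtain ⟨K, hK⟩ : ∃ K : Subgroup P, K = Subgroup.zpowers a ⊔ N := ⟨_, rfl⟩
      have hKA : K ≤ A := by
        rw [hK]; exact sup_le (by rw [Subgroup.zpowers_le]; exact haA) hNA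
      have hNK : N ≤ K := by rw [hK]; exact le_sup_right
      have haK : a ∈ K := by
        rw [hK]; exact (le_sup_left : Subgroup.zpowers a ≤ _) (Subgroup.mem_zpowers a)
      obtain ⟨j, hj⟩ := (hP.to_subgroup K).exists_card_eq
      have hj2 : j = 2 := by
        have h3 : p ^ j ≤ p ^ 2 := by rw [← hj, ← hk]; exact Subgroup.card_le_of_le hKA
        have h4 : j ≤ 2 := (Nat.pow_le_pow_iff_right hpp.one_lt).mp h3
        have h5 : j ≠ 1 := by
          rintro rfl
          have h6 := Subgroup.eq_of_le_of_card_ge hNK (by rw [hj, hNcard, pow_one])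
          exact haN (h6 ▸ haK)
        have h6 : j ≠ 0 := by
          rintro rfl
          rw [pow_zero] at hj
          have h7 := Subgroup.eq_bot_of_card_eq _ hj
          have hNb : N = ⊥ := le_bot_iff.mp (h7 ▸ hNK)
          rw [hNb, Subgroup.card_bot] at hNcard
          exact hpp.one_lt.ne hNcard
        omega
      have hKeq : K = A := Subgroup.eq_of_le_of_card_ge hKA (by rw [hj, hk, hj2])
      intro b hb
      rw [← hKeq, hK, ← SetLike.mem_coe, Subgroup.mul_normal] at hb
      obtain ⟨u, hu, n, hn, rfl⟩ := Set.mem_mul.mp hb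
      obtain ⟨i, rfl⟩ := Subgroup.mem_zpowers_iff.mp hu
      exact ⟨i, n, hn, rfl⟩
    have hψmem : ∀ x : E, (x : P) * a * (x : P)⁻¹ * a⁻¹ ∈ N := fun x => hBcomm x a haA
    let ψ : E →* N := MonoidHom.mk' (fun x => ⟨(x : P) * a * (x : P)⁻¹ * a⁻¹, hψmem x⟩) (by
      intro x y
      apply Subtype.ext
      show ((x * y : E) : P) * a * ((x * y : E) : P)⁻¹ * a⁻¹
        = ((x : P) * a * (x : P)⁻¹ * a⁻¹) * ((y : P) * a * (y : P)⁻¹ * a⁻¹)
      have hc := Subgroup.mem_center_iff.mp (hNZ (hψmem y))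
      rw [Subgroup.coe_mul]
      calc (x : P) * y * a * ((x : P) * y)⁻¹ * a⁻¹
          = (x : P) * ((y : P) * a * (y : P)⁻¹ * a⁻¹) * a * (x : P)⁻¹ * a⁻¹ := by group
        _ = ((y : P) * a * (y : P)⁻¹ * a⁻¹) * (x : P) * a * (x : P)⁻¹ * a⁻¹ := by
          rw [hc (x : P)]
        _ = ((y : P) * a * (y : P)⁻¹ * a⁻¹) * ((x : P) * a * (x : P)⁻¹ * a⁻¹) := by
          simp only [mul_assoc]
        _ = ((x : P) * a * (x : P)⁻¹ * a⁻¹) * ((y : P) * a * (y : P)⁻¹ * a⁻¹) :=
          (hc _).symm)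
    have hker : ∀ x : E, x ∈ ψ.ker → (x : P) ∈ A := by
      intro x hx
      have h2 : (x : P) * a * (x : P)⁻¹ * a⁻¹ = 1 :=
        congrArg Subtype.val (MonoidHom.mem_ker.mp hx)
      have h3 : (x : P) * a = a * (x : P) := by
        have h4 : (x : P) * a = ((x : P) * a * (x : P)⁻¹ * a⁻¹) * a * (x : P) := by group
        rw [h4, h2, one_mul]
      apply key _ _ (hEe _ x.2)
      rw [Subgroup.mem_centralizer_iff]
      intro b hb
      obtain ⟨i, n, hn, rfl⟩ := hgen b hb
      have hn' := Subgroup.mem_center_iff.mp (hNZ hn) (x : P)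
      have h4 : Commute (x : P) (a ^ i) := (show Commute (x : P) a from h3).zpow_right i
      calc a ^ i * n * (x : P) = a ^ i * ((x : P) * n) := by rw [hn', mul_assoc]
        _ = (a ^ i * (x : P)) * n := by rw [mul_assoc]
        _ = ((x : P) * a ^ i) * n := by rw [h4.eq]
        _ = (x : P) * (a ^ i * n) := by rw [mul_assoc]
    have hc1 : Nat.card ψ.ker * ψ.ker.index = Nat.card E := Subgroup.card_mul_index ψ.ker
    have hc2 : ψ.ker.index ≤ p := by
      rw [Subgroup.index_ker, ← hNcard]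
      exact Subgroup.card_le_card_group ψ.range
    have hKA : ψ.ker.map E.subtype ≤ A := by
      rintro _ ⟨x, hx, rfl⟩
      exact hker x hx
    have hKcard : Nat.card (ψ.ker.map E.subtype) = Nat.card ψ.ker :=
      Subgroup.card_map_of_injective E.subtype_injective
    have hKE : ψ.ker.map E.subtype ≤ E := by
      rintro _ ⟨x, -, rfl⟩
      exact x.2
    have h5 : p ^ e ≤ Nat.card ψ.ker * p := by
      rw [← he, ← hc1]; exact Nat.mul_le_mul_left _ hc2
    have h6 : p ^ 2 ≤ Nat.card ψ.ker := by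
      have h7 : p ^ 3 ≤ p ^ e := Nat.pow_le_pow_right hpp.pos he3
      have h8 : p ^ 2 * p ≤ Nat.card ψ.ker * p := by
        calc p ^ 2 * p = p ^ 3 := by ring
          _ ≤ p ^ e := h7
          _ ≤ _ := h5
      exact Nat.le_of_mul_le_mul_right h8 hpp.pos
    have hKeqA : ψ.ker.map E.subtype = A :=
      Subgroup.eq_of_le_of_card_ge hKA (by rw [hKcard, hk]; exact h6)
    exact hAE (hKeqA ▸ hKE)


end Cfsg.Agent.S0100
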