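import Cfsg.Statements.S0101
import Mathlib
import Cfsg.Agent.Lead.PGroupFrattini

set_option autoImplicit false
open Cfsg

namespace Cfsg.Agent.S0101

/-- In a perfect central extension, the kernel meets each Sylow p-subgroup P inside the Frattini subgroup of P. -/
theorem result {H : Type*} {G : Type*} [Group H] [Group G] [Finite H] (σ : H →* G) (hσ : Function.Surjective σ) (hc : σ.ker ≤ Subgroup.center H) (hH : commutator H = ⊤) {p : ℕ} [Fact p.Prime] (P : Sylow p H) : σ.ker ⊓ (P : Subgroup H) ≤ (frattini P).map (P : Subgroup H).subtype := by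
  classical
  have hp : p.Prime := Fact.out
  intro z hz
  obtain ⟨hzk, hzP⟩ := Subgroup.mem_inf.mp hz
  have hzZ : z ∈ Subgroup.center H := hc hzk
  have key : ∀ (k : ℕ) (g₀ : H), g₀⁻¹ * z ^ k * g₀ ∈ (P : Subgroup H) → g₀⁻¹ * z ^ k * g₀ = z ^ k := by
    intro k g₀ _
    have hzk' : z ^ k ∈ Subgroup.center H := Subgroup.pow_mem _ hzZ k
    rw [Subgroup.mem_center_iff] at hzk'
    rw [mul_assoc, ← hzk' g₀, inv_mul_cancel_left]
  have ht := MonoidHom.transfer_eq_pow
    (Abelianization.of : (P : Subgroup H) →* Abelianization (P : Subgroup H)) z key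
  have h1 : MonoidHom.transfer
      (Abelianization.of : (P : Subgroup H) →* Abelianization (P : Subgroup H)) z = 1 :=
    Abelianization.commutator_subset_ker _ (by rw [hH]; exact Subgroup.mem_top z)
  rw [h1] at ht
  have h2 : (⟨z, hzP⟩ : (P : Subgroup H)) ^ (P : Subgroup H).index ∈ commutator (P : Subgroup H) := by
    rw [← Abelianization.ker_of, MonoidHom.mem_ker]
    rw [eq_comm] at ht
    exact ht
  have hnd : ¬ p ∣ (P : Subgroup H).index := P.not_dvd_index
  obtain ⟨n, hn⟩ := IsPGroup.iff_card.mp P.2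
  have hcop : IsCoprime ((P : Subgroup H).index : ℤ) (Nat.card (P : Subgroup H) : ℤ) := by
    rw [Nat.isCoprime_iff_coprime, hn]
    exact Nat.Coprime.pow_right n (Nat.Coprime.symm ((Nat.Prime.coprime_iff_not_dvd hp).mpr hnd))
  obtain ⟨a, b, hab⟩ := hcop
  have h3 : (⟨z, hzP⟩ : (P : Subgroup H)) ∈ commutator (P : Subgroup H) := by
    have h4 : (⟨z, hzP⟩ : (P : Subgroup H)) =
        ((⟨z, hzP⟩ : (P : Subgroup H)) ^ (P : Subgroup H).index) ^ a := by
      have h5 : (⟨z, hzP⟩ : (P : Subgroup H)) ^ (a * ((P : Subgroup H).index : ℤ) +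
          b * (Nat.card (P : Subgroup H) : ℤ)) = ⟨z, hzP⟩ := by rw [hab, zpow_one]
      rw [zpow_add, zpow_mul', zpow_mul' _ b, zpow_natCast, zpow_natCast, pow_card_eq_one',
        one_zpow, mul_one] at h5
      exact h5.symm
    rw [h4]
    exact Subgroup.zpow_mem _ h2 a
  have h6 : (⟨z, hzP⟩ : (P : Subgroup H)) ∈ frattini (P : Subgroup H) :=
    Cfsg.Agent.Lead.commutator_le_frattini_of_isPGroup p P.2 h3
  exact ⟨⟨z, hzP⟩, h6, rfl⟩


end Cfsg.Agent.S0101
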