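import Cfsg.Statements.S0102
import Mathlib

set_option autoImplicit false
open Cfsg

namespace Cfsg.Agent.S0102

/-- A finite perfect group with cyclic Sylow p-subgroups has no perfect central extension whose kernel has order divisible by p. -/
theorem result {G : Type*} {H : Type*} [Group G] [Group H] [Finite G] [Finite H] (hG : commutator G = ⊤) {p : ℕ} [Fact p.Prime] (hcyc : ∀ P : Sylow p G, IsCyclic P) (σ : H →* G) (hσ : Function.Surjective σ) (hz : σ.ker ≤ Subgroup.center H) (hH : commutator H = ⊤) : ¬ p ∣ Nat.card σ.ker := by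
  intro hdvd
  obtain ⟨z, hzord⟩ : ∃ z : σ.ker, orderOf z = p := exists_prime_orderOf_dvd_card' p hdvd
  have hzo : orderOf (z : H) = p := by rw [Subgroup.orderOf_coe]; exact hzord
  have hzc : (z : H) ∈ Subgroup.center H := hz z.2
  have hzp : IsPGroup p (Subgroup.zpowers (z : H)) := by
    apply IsPGroup.of_card (n := 1)
    rw [Nat.card_zpowers, hzo, pow_one]
  obtain ⟨Q, hQ⟩ := hzp.exists_le_sylow
  have hzQ : (z : H) ∈ (Q : Subgroup H) := hQ (Subgroup.mem_zpowers _)
  have hQcomm : ∀ a b : (Q : Subgroup H), a * b = b * a := by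
    haveI : IsCyclic ((Q : Subgroup H).map σ) := hcyc (Q.mapSurjective hσ)
    have hcen : (σ.subgroupMap (Q : Subgroup H)).ker ≤ Subgroup.center (Q : Subgroup H) := ?_
    · intro a b
      exact ((σ.subgroupMap (Q : Subgroup H)).isMulCommutative_of_isCyclic_of_ker_le_center
        hcen).is_comm.comm a b
    intro a ha
    rw [Subgroup.mem_center_iff]
    intro b
    apply Subtype.ext
    have hak : (a : H) ∈ σ.ker := by
      rw [MonoidHom.mem_ker] at ha ⊢
      have h3 := congrArg Subtype.val ha
      simpa using h3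
    have h2 := Subgroup.mem_center_iff.mp (hz hak) (b : H)
    simpa using h2
  letI : CommGroup (Q : Subgroup H) :=
    { (inferInstance : Group (Q : Subgroup H)) with mul_comm := hQcomm }
  have key : ∀ (k : ℕ) (g₀ : H), g₀⁻¹ * (z : H) ^ k * g₀ ∈ (Q : Subgroup H) →
      g₀⁻¹ * (z : H) ^ k * g₀ = (z : H) ^ k := by
    intro k g₀ _
    have h3 := Subgroup.mem_center_iff.mp (Subgroup.pow_mem _ hzc k) g₀
    rw [mul_assoc, ← h3, inv_mul_cancel_left]
  have htr := MonoidHom.transfer_eq_pow (MonoidHom.id (Q : Subgroup H)) (z : H) key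
  have hker : (z : H) ∈ (MonoidHom.transfer (MonoidHom.id (Q : Subgroup H))).ker := by
    have h3 := Abelianization.commutator_subset_ker
      (MonoidHom.transfer (MonoidHom.id (Q : Subgroup H)))
    rw [hH] at h3
    exact h3 (Subgroup.mem_top _)
  rw [MonoidHom.mem_ker, htr] at hker
  have h1 : (z : H) ^ (Q : Subgroup H).index = 1 := by
    have h3 := congrArg Subtype.val hker
    simpa using h3
  have h2 : p ∣ (Q : Subgroup H).index := by
    have h3 := orderOf_dvd_of_pow_eq_one h1
    rwa [hzo] at h3
  exact Q.not_dvd_index h2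


end Cfsg.Agent.S0102
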