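import Cfsg.Statements.S0103
import Mathlib
import Cfsg.Agent.Lead.StronglyEmb

set_option autoImplicit false
open Cfsg

namespace Cfsg.Agent.S0103

/-- If a Sylow p-subgroup P intersects every distinct conjugate trivially, then its normalizer controls fusion in P. -/
theorem result {G : Type*} [Group G] [Finite G] {p : ℕ} [Fact p.Prime] (P : Sylow p G) (hTI : ∀ g : G, (P : Subgroup G).map (MulAut.conj g).toMonoidHom ≠ (P : Subgroup G) → (P : Subgroup G) ⊓ (P : Subgroup G).map (MulAut.conj g).toMonoidHom = ⊥) (x y : G) (hx : x ∈ P) (hy : y ∈ P) (hc : ∃ g : G, g * x * g⁻¹ = y) : ∃ n ∈ Subgroup.normalizer (P : Set G), n * x * n⁻¹ = y := by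
  obtain ⟨g, hg⟩ := hc
  by_cases hx1 : x = 1
  · refine ⟨1, Subgroup.one_mem _, ?_⟩
    rw [← hg, hx1]; group
  · have hy1 : y ≠ 1 := by
      intro h
      apply hx1
      have e : x = g⁻¹ * (g * x * g⁻¹) * g := by group
      rw [e, hg, h]; group
    have hmap : (P : Subgroup G).map (MulAut.conj g).toMonoidHom = (P : Subgroup G) := by
      by_contra hne
      have h0 := hTI g hne
      have hmem : y ∈ (P : Subgroup G) ⊓ (P : Subgroup G).map (MulAut.conj g).toMonoidHom := by
        refine Subgroup.mem_inf.mpr ⟨hy, ?_⟩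
        rw [Lead.mem_map_conj_iff, ← hg]
        have e : g⁻¹ * (g * x * g⁻¹) * g = x := by group
        rw [e]; exact hx
      rw [h0, Subgroup.mem_bot] at hmem
      exact hy1 hmem
    refine ⟨g, ?_, hg⟩
    rw [Subgroup.mem_set_normalizer_iff]
    intro h
    have h1 : g * h * g⁻¹ ∈ (P : Subgroup G).map (MulAut.conj g).toMonoidHom ↔ h ∈ (P : Subgroup G) := by
      rw [Lead.mem_map_conj_iff]
      have e : g⁻¹ * (g * h * g⁻¹) * g = h := by group
      rw [e]
    rw [hmap] at h1
    exact h1.symm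


end Cfsg.Agent.S0103
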