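import Cfsg.Statements.S0104
import Mathlib
import Cfsg.Agent.Lead.SylowBasic
import Cfsg.Agent.Lead.StronglyEmb

set_option autoImplicit false
open Cfsg

namespace Cfsg.Agent.S0104

/-- A subgroup Z of a Sylow p-subgroup P that is normalized by N_G(P) is weakly closed in P exactly when it is normal in every Sylow p-subgroup containing it. -/
theorem result {G : Type*} [Group G] [Finite G] {p : ℕ} [Fact p.Prime] (P : Sylow p G) (Z : Subgroup G) (hZP : Z ≤ (P : Subgroup G)) (hZN : Subgroup.normalizer (P : Set G) ≤ Subgroup.normalizer (Z : Set G)) : Cfsg.IsWeaklyClosed Z P ↔ ∀ R : Sylow p G, Z ≤ (R : Subgroup G) → (R : Subgroup G) ≤ Subgroup.normalizer (Z : Set G) := by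
  constructor
  · rintro ⟨-, hwc⟩ R hZR
    obtain ⟨g, rfl⟩ := MulAction.exists_smul_eq G P R
    have h1 : Z.map (MulAut.conj g⁻¹).toMonoidHom ≤ (P : Subgroup G) := by
      intro y hy
      rw [Lead.mem_map_conj_iff, inv_inv] at hy
      have h0 := hZR hy
      rw [Sylow.coe_subgroup_smul, Lead.mem_conj_smul_iff] at h0
      have e : g⁻¹ * (g * y * g⁻¹) * g = y := by group
      rwa [e] at h0
    have h2 := hwc g⁻¹ h1
    have hgN : g ∈ Subgroup.normalizer (Z : Set G) := by
      rw [Subgroup.mem_normalizer_iff]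
      intro z
      have h3 : z ∈ Z.map (MulAut.conj g⁻¹).toMonoidHom ↔ g * z * g⁻¹ ∈ Z := by
        rw [Lead.mem_map_conj_iff, inv_inv]
      rw [h2] at h3
      exact h3
    intro r hr
    rw [Sylow.coe_subgroup_smul, Lead.mem_conj_smul_iff] at hr
    have h4 : g⁻¹ * r * g ∈ Subgroup.normalizer (Z : Set G) := hZN (Subgroup.le_normalizer hr)
    have e : r = g * (g⁻¹ * r * g) * g⁻¹ := by group
    rw [e]
    exact Subgroup.mul_mem _ (Subgroup.mul_mem _ hgN h4) (Subgroup.inv_mem _ hgN)
  · intro h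
    refine ⟨hZP, fun g hg => ?_⟩
    have hZR : Z ≤ ((g⁻¹ • P : Sylow p G) : Subgroup G) := by
      intro z hz
      rw [Sylow.coe_subgroup_smul, Lead.mem_conj_smul_iff, inv_inv]
      apply hg
      rw [Lead.mem_map_conj_iff]
      have e : g⁻¹ * (g * z * g⁻¹) * g = z := by group
      rw [e]; exact hz
    have h1 : (P : Subgroup G) ≤ Subgroup.normalizer (Z : Set G) := h P hZP
    have h2 : ((g⁻¹ • P : Sylow p G) : Subgroup G) ≤ Subgroup.normalizer (Z : Set G) := h _ hZR
    obtain ⟨m, hm⟩ := MulAction.exists_smul_eq (Subgroup.normalizer (Z : Set G))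
      ((g⁻¹ • P).subtype h2) (P.subtype h1)
    simp_rw [Sylow.smul_subtype, Subgroup.smul_def, smul_smul] at hm
    have hn : (m : G) * g⁻¹ ∈ Subgroup.normalizer (P : Set G) :=
      Sylow.smul_eq_iff_mem_normalizer.mp (Sylow.subtype_injective hm)
    have hn' : (m : G) * g⁻¹ ∈ Subgroup.normalizer (Z : Set G) := hZN hn
    have hgN : g ∈ Subgroup.normalizer (Z : Set G) := by
      have h3 : g⁻¹ ∈ Subgroup.normalizer (Z : Set G) := by
        have e : g⁻¹ = (m : G)⁻¹ * ((m : G) * g⁻¹) := by group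
        rw [e]; exact Subgroup.mul_mem _ (Subgroup.inv_mem _ m.2) hn'
      exact (Subgroup.inv_mem_iff _).mp h3
    ext y
    rw [Lead.mem_map_conj_iff]
    exact ((Subgroup.mem_normalizer_iff''.mp hgN) y).symm


end Cfsg.Agent.S0104
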