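import Cfsg.Statements.S0105
import Mathlib
import Cfsg.Agent.Lead.AbelianSylow
import Cfsg.Agent.Lead.SupComm

set_option autoImplicit false
open Cfsg

namespace Cfsg.Agent.S0105

/-- With an abelian Sylow p-subgroup P, some quotient of G is isomorphic to the part of P central in N_G(P). -/
theorem result {G : Type*} [Group G] [Finite G] {p : ℕ} [Fact p.Prime] (P : Sylow p G) (hP : IsMulCommutative P) : ∃ (N : Subgroup G) (hN : N.Normal), Nonempty (G ⧸ N ≃* ((P : Subgroup G) ⊓ Subgroup.centralizer (Subgroup.normalizer (P : Set G) : Set G) : Subgroup G)) := by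
  classical
  haveI := hP
  obtain ⟨hinf, hsup⟩ := Cfsg.Agent.Lead.abelianSylow_decomp P
  have hfoc := Cfsg.Agent.Lead.focal_eq_commutator_normalizer P
  rw [← hfoc] at hinf hsup
  have hab : ∀ a ∈ (P : Subgroup G), ∀ b ∈ (P : Subgroup G), a * b = b * a := fun a ha b hb =>
    congrArg Subtype.val (mul_comm' (⟨a, ha⟩ : (P : Subgroup G)) ⟨b, hb⟩)
  let ι : ((P : Subgroup G) ⊓ Subgroup.centralizer (Subgroup.normalizer (P : Set G) : Set G) : Subgroup G)
      →* (P : Subgroup G) := Subgroup.inclusion inf_le_left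
  let ψ : ((P : Subgroup G) ⊓ Subgroup.centralizer (Subgroup.normalizer (P : Set G) : Set G) : Subgroup G)
      →* (P : Subgroup G) ⧸ (P : Subgroup G).focalSubgroupOf := (QuotientGroup.mk' _).comp ι
  have hψinj : Function.Injective ψ := by
    rw [← MonoidHom.ker_eq_bot_iff, eq_bot_iff]
    intro x hx
    rw [MonoidHom.mem_ker] at hx
    have h1 : ι x ∈ (P : Subgroup G).focalSubgroupOf := (QuotientGroup.eq_one_iff _).mp hx
    rw [Subgroup.focalSubgroupOf_def, Subgroup.mem_subgroupOf] at h1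
    have h2 : (x : G) ∈ ((P : Subgroup G) ⊓
        Subgroup.centralizer (Subgroup.normalizer (P : Set G) : Set G)) ⊓
        Subgroup.focalSubgroup (P : Subgroup G) := Subgroup.mem_inf.mpr ⟨x.2, h1⟩
    rw [hinf, Subgroup.mem_bot] at h2
    rw [Subgroup.mem_bot]; exact Subtype.ext h2
  have hψsurj : Function.Surjective ψ := by
    intro q
    obtain ⟨y, rfl⟩ := QuotientGroup.mk'_surjective _ q
    have hy : (y : G) ∈ ((P : Subgroup G) ⊓
        Subgroup.centralizer (Subgroup.normalizer (P : Set G) : Set G)) ⊔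
        Subgroup.focalSubgroup (P : Subgroup G) := by rw [hsup]; exact y.2
    obtain ⟨c, hc, d, hd, hcd⟩ := Cfsg.Agent.Lead.exists_mul_of_mem_sup_of_commute _ _
      (fun a ha b hb => hab a (Subgroup.mem_inf.mp ha).1 b (Subgroup.focalSubgroup_le _ hb)) hy
    refine ⟨⟨c, hc⟩, ?_⟩
    show (QuotientGroup.mk' _) (ι ⟨c, hc⟩) = (QuotientGroup.mk' _) y
    rw [QuotientGroup.mk'_apply, QuotientGroup.mk'_apply, QuotientGroup.eq,
      Subgroup.focalSubgroupOf_def, Subgroup.mem_subgroupOf]
    have h3 : (((ι ⟨c, hc⟩)⁻¹ * y : (P : Subgroup G)) : G) = d := by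
      show c⁻¹ * (y : G) = d
      rw [hcd]; group
    rw [h3]; exact hd
  refine ⟨(Subgroup.transferFocal (P : Subgroup G)).ker, inferInstance, ⟨?_⟩⟩
  exact (Subgroup.transferFocal.quotientKerMulEquivQuotientFocalSubroupOf P).trans
    (MulEquiv.ofBijective ψ ⟨hψinj, hψsurj⟩).symm


end Cfsg.Agent.S0105
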