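import Cfsg.Statements.S0107
import Mathlib
import Cfsg.Agent.Helper6.ThompsonTransfer
import Cfsg.Agent.Lead.SylowBasic
-- import your own Cfsg.Agent.* helpers here

set_option autoImplicit false
open Cfsg

namespace Cfsg.Agent.S0107


theorem zmod_two_torsion (n : ℕ) (i j : ZMod (2 ^ (n + 1))) (hi : i + i = 0) (hj : j + j = 0)
    (hi0 : i ≠ 0) (hj0 : j ≠ 0) : i = j := by
  have hne : NeZero (2 ^ (n + 1)) := ⟨by positivity⟩
  have keyN : ∀ v : ℕ, v < 2 ^ (n + 1) → 2 ^ (n + 1) ∣ 2 * v → v ≠ 0 → v = 2 ^ n := by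
    intro v h4 h2 h5
    rw [pow_succ, mul_comm] at h2
    have h3 : 2 ^ n ∣ v := Nat.dvd_of_mul_dvd_mul_left (by norm_num) h2
    obtain ⟨c, hc⟩ := h3
    have h6 : c < 2 := by
      by_contra hcon
      push Not at hcon
      have : 2 ^ n * 2 ≤ 2 ^ n * c := Nat.mul_le_mul_left _ hcon
      rw [pow_succ] at h4
      omega
    have h7 : c = 1 := by
      interval_cases c
      · simp at hc; exact absurd hc h5
      · rfl
    rw [hc, h7, mul_one]
  have key : ∀ k : ZMod (2 ^ (n + 1)), k + k = 0 → k ≠ 0 → k.val = 2 ^ n := by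
    intro k hk hk0
    have h : ((2 * k.val : ℕ) : ZMod (2 ^ (n + 1))) = 0 := by
      push_cast
      rw [ZMod.natCast_zmod_val, two_mul]
      exact hk
    have h2 : 2 ^ (n + 1) ∣ 2 * k.val := (ZMod.natCast_eq_zero_iff _ _).mp h
    exact keyN _ (ZMod.val_lt k) h2 (fun h0 => hk0 ((ZMod.val_eq_zero k).mp h0))
  exact ZMod.val_injective _ ((key i hi hi0).trans (key j hj hj0).symm)

/-- A finite group with no nontrivial 2-group quotient and dihedral Sylow 2-subgroups of order at least 8 has a single class of involutions. -/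
theorem result {G : Type*} [Group G] [Finite G] (T : Sylow 2 G) (n : ℕ) (hn : 2 ≤ n) (hT : Nonempty ((T : Subgroup G) ≃* DihedralGroup (2 ^ n))) (hO : Cfsg.pResidual 2 G = ⊤) (x y : G) (hx : orderOf x = 2) (hy : orderOf y = 2) : ∃ g : G, g * x * g⁻¹ = y := by
  have : Fact (Nat.Prime 2) := ⟨Nat.prime_two⟩
  obtain ⟨e⟩ := hT
  obtain ⟨m, rfl⟩ : ∃ m, n = m + 1 := ⟨n - 1, by omega⟩
  let Q : Subgroup G :=
    { carrier := {t | ∃ h : t ∈ (T : Subgroup G), ∃ i, e ⟨t, h⟩ = DihedralGroup.r i}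
      mul_mem' := by
        rintro a b ⟨ha, i, hi⟩ ⟨hb, j, hj⟩
        refine ⟨mul_mem ha hb, i + j, ?_⟩
        have : (⟨a * b, mul_mem ha hb⟩ : (T : Subgroup G)) = ⟨a, ha⟩ * ⟨b, hb⟩ := rfl
        rw [this, map_mul, hi, hj, DihedralGroup.r_mul_r]
      one_mem' := ⟨one_mem _, 0, by
        have : (⟨1, one_mem _⟩ : (T : Subgroup G)) = 1 := rfl
        rw [this, map_one]; rfl⟩
      inv_mem' := by
        rintro a ⟨ha, i, hi⟩
        refine ⟨inv_mem ha, -i, ?_⟩
        have : (⟨a⁻¹, inv_mem ha⟩ : (T : Subgroup G)) = ⟨a, ha⟩⁻¹ := rfl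
        rw [this, map_inv, hi]; rfl }
  have hQmem : ∀ t, t ∈ Q ↔ ∃ h : t ∈ (T : Subgroup G), ∃ i, e ⟨t, h⟩ = DihedralGroup.r i :=
    fun t => Iff.rfl
  have hQi : Q.relIndex (T : Subgroup G) = 2 := by
    show (Q.subgroupOf (T : Subgroup G)).index = 2
    rw [Subgroup.index_eq_two_iff]
    refine ⟨e.symm (DihedralGroup.sr 0), fun b => ?_⟩
    rw [Subgroup.mem_subgroupOf, Subgroup.mem_subgroupOf, hQmem, hQmem]
    have hb1 : ∀ (h : ((b * e.symm (DihedralGroup.sr 0) : (T : Subgroup G)) : G) ∈ (T : Subgroup G)),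
        e ⟨_, h⟩ = e b * DihedralGroup.sr 0 := by
      intro h
      have : (⟨_, h⟩ : (T : Subgroup G)) = b * e.symm (DihedralGroup.sr 0) := rfl
      rw [this, map_mul, MulEquiv.apply_symm_apply]
    have hb2 : ∀ (h : (b : G) ∈ (T : Subgroup G)), e ⟨_, h⟩ = e b := fun h => rfl
    rcases hb' : e b with i | i
    · right
      refine ⟨⟨b.2, i, by rw [hb2, hb']⟩, ?_⟩
      rintro ⟨h, j, hj⟩
      rw [hb1, hb'] at hj
      simp at hj
    · left
      refine ⟨⟨(b * e.symm (DihedralGroup.sr 0)).2, 0 - i, by rw [hb1, hb']; rfl⟩, ?_⟩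
      rintro ⟨h, j, hj⟩
      rw [hb2, hb'] at hj
      simp at hj
  have hodd : Odd (T : Subgroup G).index := by
    rw [← Nat.not_even_iff_odd, even_iff_two_dvd]
    exact T.not_dvd_index
  -- uniqueness of the involution of Q
  have huniq : ∀ s t : G, s ∈ Q → t ∈ Q → orderOf s = 2 → orderOf t = 2 → s = t := by
    intro s t hs ht hs2 ht2
    obtain ⟨hsT, i, hi⟩ := hs
    obtain ⟨htT, j, hj⟩ := ht
    have key : ∀ (w : G) (hw : w ∈ (T : Subgroup G)) (k : ZMod (2 ^ (m + 1))),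
        e ⟨w, hw⟩ = DihedralGroup.r k → orderOf w = 2 → k + k = 0 ∧ k ≠ 0 := by
      intro w hw k hk hw2
      constructor
      · have h1 : (⟨w, hw⟩ : (T : Subgroup G)) * ⟨w, hw⟩ = 1 := by
          apply Subtype.ext
          show w * w = 1
          rw [← pow_two, ← hw2]
          exact pow_orderOf_eq_one w
        have h2 := congrArg e h1
        rw [map_mul, hk, map_one, DihedralGroup.r_mul_r, DihedralGroup.one_def] at h2
        exact DihedralGroup.r.inj h2
      · rintro rfl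
        have h1 : e ⟨w, hw⟩ = 1 := hk
        rw [MulEquiv.map_eq_one_iff] at h1
        have h2 : w = 1 := congrArg Subtype.val h1
        rw [h2, orderOf_one] at hw2
        omega
    obtain ⟨hi1, hi2⟩ := key s hsT i hi hs2
    obtain ⟨hj1, hj2⟩ := key t htT j hj ht2
    have hij : i = j := zmod_two_torsion m i j hi1 hj1 hi2 hj2
    have h3 : e ⟨s, hsT⟩ = e ⟨t, htT⟩ := by rw [hi, hj, hij]
    exact congrArg Subtype.val (e.injective h3)
  -- every involution is conjugate into Q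
  have hconjQ : ∀ u : G, orderOf u = 2 → ∃ g : G, g * u * g⁻¹ ∈ Q := by
    intro u hu
    obtain ⟨a, ha⟩ := Cfsg.Agent.Lead.exists_conj_mem_sylow T
      (Cfsg.Agent.Lead.isPGroup_zpowers_of_orderOf_prime hu)
    have hu' : a * u * a⁻¹ ∈ (T : Subgroup G) := ha u (Subgroup.mem_zpowers u)
    have hu'2 : (a * u * a⁻¹) ^ 2 = 1 := by
      rw [← hu, ← Cfsg.Agent.Lead.orderOf_conj_eq a u]
      exact pow_orderOf_eq_one _
    by_cases hcon : ∀ g : G, g⁻¹ * (a * u * a⁻¹) * g ∈ (T : Subgroup G) →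
        g⁻¹ * (a * u * a⁻¹) * g ∉ Q
    · exfalso
      obtain ⟨M, hM1, hM2, hM3⟩ := Cfsg.Agent.Helper6.thompson_transfer (T : Subgroup G) Q hQi
        hodd (a * u * a⁻¹) hu'2 hcon
      apply hM3
      have hle : Cfsg.pResidual 2 G ≤ M := by
        unfold Cfsg.pResidual
        rw [Subgroup.closure_le]
        intro w hw
        have hw' : (orderOf w).Coprime 2 := hw
        have hoddw : Odd (orderOf w) := Nat.Coprime.odd_of_right hw'
        obtain ⟨k, hk⟩ := hoddw
        have h1 : w = (w ^ 2) ^ (k + 1) := by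
          rw [← pow_mul]
          have : 2 * (k + 1) = orderOf w + 1 := by omega
          rw [this, pow_succ, pow_orderOf_eq_one, one_mul]
        rw [SetLike.mem_coe, h1]
        exact Subgroup.pow_mem _ (Subgroup.sq_mem_of_index_two hM2 w) _
      exact hle (by rw [hO]; trivial)
    · push Not at hcon
      obtain ⟨g, -, hg⟩ := hcon
      refine ⟨g⁻¹ * a, ?_⟩
      have : g⁻¹ * a * u * (g⁻¹ * a)⁻¹ = g⁻¹ * (a * u * a⁻¹) * g := by group
      rw [this]
      exact hg
  obtain ⟨a, ha⟩ := hconjQ x hx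
  obtain ⟨b, hb⟩ := hconjQ y hy
  have h1 := huniq _ _ ha hb (by rw [Cfsg.Agent.Lead.orderOf_conj_eq]; exact hx)
    (by rw [Cfsg.Agent.Lead.orderOf_conj_eq]; exact hy)
  refine ⟨b⁻¹ * a, ?_⟩
  have : b⁻¹ * a * x * (b⁻¹ * a)⁻¹ = b⁻¹ * (a * x * a⁻¹) * b := by group
  rw [this, h1]
  group

end Cfsg.Agent.S0107
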