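import Cfsg.Statements.S0110
import Mathlib

set_option autoImplicit false
open Cfsg

namespace Cfsg.Agent.S0110

open scoped commutatorElement IsMulCommutative

/-- In a p-group G, an extraspecial subgroup E with [G, E] ≤ Z(E) satisfies G = E C_G(E). -/
theorem result {G : Type*} [Group G] [Finite G] {p : ℕ} [Fact p.Prime] (hG : IsPGroup p G) (E : Subgroup G) (hE : Cfsg.IsExtraspecial p E) (h : ⁅(⊤ : Subgroup G), E⁆ ≤ E ⊓ Subgroup.centralizer (E : Set G)) : E ⊔ Subgroup.centralizer (E : Set G) = ⊤ := by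
  classical
  obtain ⟨⟨hpg, hfr, hcomm⟩, hcard⟩ := hE
  have hpp : p.Prime := Fact.out
  have hc : ∀ (g : G) (e : G), e ∈ E →
      g * e * g⁻¹ * e⁻¹ ∈ E ⊓ Subgroup.centralizer (E : Set G) := by
    intro g e he
    apply h
    have : ⁅g, e⁆ ∈ ⁅(⊤ : Subgroup G), E⁆ :=
      Subgroup.commutator_mem_commutator (Subgroup.mem_top g) he
    rwa [commutatorElement_def] at this
  have hcE : ∀ (g : G) (e : E), g * (e : G) * g⁻¹ * (e : G)⁻¹ ∈ E := fun g e => (hc g e e.2).1
  have hcC : ∀ (g : G) (e : E) (x : G), x ∈ E →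
      x * (g * (e : G) * g⁻¹ * (e : G)⁻¹) = (g * (e : G) * g⁻¹ * (e : G)⁻¹) * x := by
    intro g e x hx
    exact Subgroup.mem_centralizer_iff.mp (hc g e e.2).2 x hx
  have hcZ : ∀ (g : G) (e : E),
      (⟨g * (e : G) * g⁻¹ * (e : G)⁻¹, hcE g e⟩ : E) ∈ Subgroup.center E := by
    intro g e
    rw [Subgroup.mem_center_iff]
    intro y
    apply Subtype.ext
    exact hcC g e y y.2
  let θ : G → (E →* Subgroup.center E) := fun g =>
    { toFun := fun e => ⟨⟨g * (e : G) * g⁻¹ * (e : G)⁻¹, hcE g e⟩, hcZ g e⟩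
      map_one' := by
        apply Subtype.ext; apply Subtype.ext
        show g * ((1 : E) : G) * g⁻¹ * ((1 : E) : G)⁻¹ = 1
        simp
      map_mul' := by
        intro e1 e2
        apply Subtype.ext; apply Subtype.ext
        show g * ((e1 * e2 : E) : G) * g⁻¹ * ((e1 * e2 : E) : G)⁻¹
          = (g * (e1 : G) * g⁻¹ * (e1 : G)⁻¹) * (g * (e2 : G) * g⁻¹ * (e2 : G)⁻¹)
        have h1 := hcC g e2 e1 e1.2
        rw [Subgroup.coe_mul]
        calc g * ((e1 : G) * e2) * g⁻¹ * ((e1 : G) * e2)⁻¹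
            = (g * (e1 : G) * g⁻¹ * (e1 : G)⁻¹) * ((e1 : G) * (g * (e2 : G) * g⁻¹ * (e2 : G)⁻¹))
              * (e1 : G)⁻¹ := by group
          _ = _ := by rw [h1]; group }
  have hθ : ∀ (g : G) (e : E),
      (((θ g e : Subgroup.center E) : E) : G) = g * (e : G) * g⁻¹ * (e : G)⁻¹ := fun g e => rfl
  haveI : Fact (Nat.card (Subgroup.center E)).Prime := ⟨by rw [hcard]; exact hpp⟩
  haveI : NeZero ((Monoid.exponent (Subgroup.center E) : ℕ) : ℂ) :=
    ⟨by exact_mod_cast Monoid.exponent_ne_zero_of_finite⟩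
  obtain ⟨a, ha⟩ : ∃ a : Subgroup.center E, a ≠ 1 := by
    haveI : Nontrivial (Subgroup.center E) := by
      apply Finite.one_lt_card_iff_nontrivial.mp
      rw [hcard]; exact hpp.one_lt
    exact exists_ne 1
  obtain ⟨ι, hι⟩ := CommGroup.exists_apply_ne_one_of_hasEnoughRootsOfUnity (Subgroup.center E) ℂ ha
  have hιinj : ∀ z : Subgroup.center E, ι z = 1 → z = 1 := by
    intro z hz
    rcases Subgroup.eq_bot_or_eq_top_of_prime_card ι.ker with hk | hk
    · have : z ∈ ι.ker := hz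
      rw [hk] at this
      exact Subgroup.mem_bot.mp this
    · exfalso
      apply hι
      have : a ∈ ι.ker := by rw [hk]; exact Subgroup.mem_top a
      exact this
  let Ψ : G → (E →* ℂˣ) := fun g => ι.comp (θ g)
  have hΨmul : ∀ a b : E, Ψ ((a : G) * (b : G)) = Ψ (a : G) * Ψ (b : G) := by
    intro a b
    apply MonoidHom.ext
    intro e
    show ι (θ ((a : G) * b) e) = ι (θ (a : G) e) * ι (θ (b : G) e)
    rw [← map_mul]
    congr 1
    apply Subtype.ext; apply Subtype.ext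
    rw [Subgroup.coe_mul, Subgroup.coe_mul, hθ, hθ, hθ]
    have h1 := hcC (b : G) e a a.2
    calc (a : G) * b * e * ((a : G) * b)⁻¹ * (e : G)⁻¹
        = ((a : G) * ((b : G) * e * (b : G)⁻¹ * (e : G)⁻¹)) * (a : G)⁻¹
          * ((a : G) * e * (a : G)⁻¹ * (e : G)⁻¹) := by group
      _ = ((b : G) * e * (b : G)⁻¹ * (e : G)⁻¹) * ((a : G) * e * (a : G)⁻¹ * (e : G)⁻¹) := by
          rw [h1]; group
      _ = _ := (hcC (b : G) e _ (hcE (a : G) e)).symm
  let ΨE : E →* (E →* ℂˣ) := MonoidHom.mk' (fun a : E => Ψ (a : G)) (fun a b => by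
    show Ψ ((a * b : E) : G) = Ψ (a : G) * Ψ (b : G)
    rw [Subgroup.coe_mul]; exact hΨmul a b)
  have hΨE : ∀ a : E, ΨE a = Ψ (a : G) := fun a => rfl
  have hker : ΨE.ker ≤ Subgroup.center E := by
    intro a ha
    rw [Subgroup.mem_center_iff]
    intro e
    have h1 : Ψ (a : G) = 1 := ha
    have h2 : ι (θ (a : G) e) = 1 := DFunLike.congr_fun h1 e
    have h3 := hιinj _ h2
    have h4 : (a : G) * e * (a : G)⁻¹ * (e : G)⁻¹ = 1 := by
      rw [← hθ, h3]; rfl
    apply Subtype.ext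
    rw [Subgroup.coe_mul, Subgroup.coe_mul]
    have : (a : G) * e = e * a := by
      calc (a : G) * e = ((a : G) * e * (a : G)⁻¹ * (e : G)⁻¹) * (e * a) := by group
        _ = e * a := by rw [h4, one_mul]
    exact this.symm
  haveI : NeZero ((Monoid.exponent (Abelianization E) : ℕ) : ℂ) :=
    ⟨by exact_mod_cast Monoid.exponent_ne_zero_of_finite⟩
  have hcardHom : Nat.card (E →* ℂˣ) = (commutator E).index := by
    rw [Nat.card_congr (Abelianization.lift (G := E) (A := ℂˣ)),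
      CommGroup.card_monoidHom_of_hasEnoughRootsOfUnity (Abelianization E) ℂ]
    exact (Subgroup.index_eq_card _).symm
  haveI : Finite (E →* ℂˣ) := by
    apply Nat.finite_of_card_ne_zero
    rw [hcardHom]; exact Subgroup.index_ne_zero_of_finite
  have htop : ΨE.range = ⊤ := by
    apply Subgroup.eq_top_of_le_card
    rw [hcardHom, hcomm, ← Subgroup.index_ker]
    exact Subgroup.index_antitone hker
  rw [eq_top_iff]
  intro g _
  have hg : Ψ g ∈ ΨE.range := by rw [htop]; exact Subgroup.mem_top _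
  obtain ⟨a, ha⟩ := hg
  have ha' : Ψ (a : G) = Ψ g := ha
  have key : ∀ e : E, (a : G) * e * (a : G)⁻¹ * (e : G)⁻¹ = g * e * g⁻¹ * (e : G)⁻¹ := by
    intro e
    have h1 : ι (θ (a : G) e) = ι (θ g e) := DFunLike.congr_fun ha' e
    have h2 : θ (a : G) e = θ g e := by
      have h3 : ι (θ (a : G) e * (θ g e)⁻¹) = 1 := by rw [map_mul, map_inv, h1, mul_inv_cancel]
      have := hιinj _ h3
      exact mul_inv_eq_one.mp this
    rw [← hθ, ← hθ, h2]
  have hmem : (a : G)⁻¹ * g ∈ Subgroup.centralizer (E : Set G) := by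
    rw [Subgroup.mem_centralizer_iff]
    intro x hx
    have h4 : (a : G) * x * (a : G)⁻¹ * x⁻¹ = g * x * g⁻¹ * x⁻¹ := key ⟨x, hx⟩
    have h5 : (a : G) * x * (a : G)⁻¹ = g * x * g⁻¹ := by
      have := congrArg (· * x) h4
      simpa using this
    calc x * ((a : G)⁻¹ * g) = (a : G)⁻¹ * ((a : G) * x * (a : G)⁻¹) * g := by group
      _ = (a : G)⁻¹ * (g * x * g⁻¹) * g := by rw [h5]
      _ = (a : G)⁻¹ * g * x := by group
  have hgdec : g = (a : G) * ((a : G)⁻¹ * g) := by group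
  rw [hgdec]
  exact Subgroup.mul_mem _ (Subgroup.mem_sup_left a.2) (Subgroup.mem_sup_right hmem)


end Cfsg.Agent.S0110
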