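import Cfsg.Statements.S0111
import Mathlib
import Cfsg.Agent.Helper6.ThompsonTransfer
-- import your own Cfsg.Agent.* helpers here

set_option autoImplicit false
open Cfsg

namespace Cfsg.Agent.S0111

/-- The Thompson transfer lemma states that an involution of a Sylow 2-subgroup P lying outside a subgroup Q of index 2 in P either lies outside some normal subgroup of index 2 in G or is conjugate to an element of Q. -/
theorem result {G : Type*} [Group G] [Finite G] (P : Sylow 2 G) (Q : Subgroup G) (hQP : Q ≤ (P : Subgroup G)) (hQi : Q.relIndex (P : Subgroup G) = 2) (u : G) (hu : orderOf u = 2) (huP : u ∈ (P : Subgroup G)) (huQ : u ∉ Q) : (∃ M : Subgroup G, M.Normal ∧ M.index = 2 ∧ u ∉ M) ∨ ∃ g : G, g * u * g⁻¹ ∈ Q := by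
  by_contra hcon
  push Not at hcon
  obtain ⟨h1, h2⟩ := hcon
  have : Fact (Nat.Prime 2) := ⟨Nat.prime_two⟩
  have hodd : Odd (P : Subgroup G).index := by
    rw [← Nat.not_even_iff_odd, even_iff_two_dvd]
    exact P.not_dvd_index
  have hu2 : u ^ 2 = 1 := by rw [← hu]; exact pow_orderOf_eq_one u
  obtain ⟨M, hM1, hM2, hM3⟩ := Cfsg.Agent.Helper6.thompson_transfer (P : Subgroup G) Q hQi hodd u hu2
    (fun g _ => by
      have := h2 g⁻¹
      rwa [inv_inv] at this)
  exact hM3 (h1 M hM1 hM2)

end Cfsg.Agent.S0111
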