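import Cfsg.Statements.S0119
import Mathlib
import Cfsg.Agent.S0130
import Cfsg.Agent.Helper5.Frattini
import Cfsg.Agent.Lead.PGroupFrattini

set_option autoImplicit false
open Cfsg

namespace Cfsg.Agent.S0119

open Subgroup
open scoped commutatorElement

theorem pow_comm_left {G : Type*} [Group G] {X y W : G} (hW : ∀ g : G, g * W = W * g)
    (h : y * X = X * y * W) : ∀ n : ℕ, y ^ n * X = X * y ^ n * W ^ n := by
  intro n
  induction n with
  | zero => simp
  | succ n ih =>
    have c1 : W ^ n * y = y * W ^ n := ((show Commute y W from hW y).pow_right n).eq.symm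
    calc y ^ (n + 1) * X = y ^ n * (y * X) := by rw [pow_succ, mul_assoc]
      _ = y ^ n * (X * y * W) := by rw [h]
      _ = (y ^ n * X) * y * W := by simp only [mul_assoc]
      _ = X * y ^ n * W ^ n * y * W := by rw [ih]
      _ = X * y ^ n * (W ^ n * y) * W := by simp only [mul_assoc]
      _ = X * y ^ n * (y * W ^ n) * W := by rw [c1]
      _ = X * (y ^ n * y) * (W ^ n * W) := by simp only [mul_assoc]
      _ = X * y ^ (n + 1) * W ^ (n + 1) := by rw [← pow_succ, ← pow_succ]

/-- If a p'-group A of automorphisms of a p-group G satisfies G = [G, A] and acts trivially on every characteristic abelian subgroup, then G is special with centre equal to the fixed points of A. -/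
theorem result {G : Type*} [Group G] [Finite G] {p : ℕ} [Fact p.Prime] (hG : IsPGroup p G) (A : Subgroup (MulAut G)) (hA : Nat.Coprime (Nat.card A) p) (hGA : Subgroup.closure {x : G | ∃ g : G, ∃ a ∈ A, x = g⁻¹ * a g} = ⊤) (hchar : ∀ H : Subgroup G, H.Characteristic → IsMulCommutative H → ∀ a ∈ A, ∀ h ∈ H, a h = h) : Cfsg.IsSpecial p G ∧ (∀ g : G, (g ∈ Subgroup.center G ↔ ∀ a ∈ A, a g = g)) := by
  classical
  have hpp : p.Prime := Fact.out
  have hcen : ∀ H : Subgroup G, H.Characteristic → IsMulCommutative H →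
      H ≤ Subgroup.center G := by
    intro H hHc hHa h hh
    haveI := hHc
    haveI hHn : H.Normal := inferInstance
    have hgen : ∀ x ∈ {x : G | ∃ g : G, ∃ a ∈ A, x = g⁻¹ * a g},
        x ∈ Subgroup.centralizer ({h} : Set G) := by
      rintro x ⟨g, a, ha, rfl⟩
      rw [Subgroup.mem_centralizer_iff]
      intro h' hh'
      rw [Set.mem_singleton_iff] at hh'
      subst hh'
      have h1 : a (g * h' * g⁻¹) = g * h' * g⁻¹ :=
        hchar H hHc hHa a ha _ (hHn.conj_mem h' hh g)
      have h2 : a h' = h' := hchar H hHc hHa a ha h' hh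
      rw [map_mul, map_mul, map_inv, h2] at h1
      calc h' * (g⁻¹ * a g) = g⁻¹ * (g * h' * g⁻¹) * a g := by group
        _ = g⁻¹ * (a g * h' * (a g)⁻¹) * a g := by rw [← h1]
        _ = g⁻¹ * a g * h' := by group
    have h3 : (⊤ : Subgroup G) ≤ Subgroup.centralizer ({h} : Set G) := by
      rw [← hGA]; exact (Subgroup.closure_le _).mpr hgen
    rw [Subgroup.mem_center_iff]
    intro g
    exact (Subgroup.mem_centralizer_iff.mp (h3 (Subgroup.mem_top g)) h
      (Set.mem_singleton h)).symm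
  have hZc : IsMulCommutative (Subgroup.center G) :=
    ⟨⟨fun a b => Subtype.ext (Subgroup.mem_center_iff.mp b.2 a.1)⟩⟩
  have hZfix : ∀ a ∈ A, ∀ z ∈ Subgroup.center G, a z = z :=
    fun a ha z hz => hchar (Subgroup.center G) inferInstance hZc a ha z hz
  haveI hAfin : Finite A := Nat.finite_of_card_ne_zero (by
    intro h0
    rw [h0, Nat.coprime_zero_left] at hA
    exact hpp.one_lt.ne' hA)
  letI : Fintype A := Fintype.ofFinite A
  have hfixcomm : ∀ c : G, (∀ a ∈ A, a c = c) → c ∈ commutator G := by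
    intro c hc
    let N : G →* Abelianization G :=
      { toFun := fun g => ∏ a : A, Abelianization.of ((a : MulAut G) g)
        map_one' := by simp
        map_mul' := fun x y => by simp [Finset.prod_mul_distrib] }
    have hNgen : ∀ x ∈ {x : G | ∃ g : G, ∃ a ∈ A, x = g⁻¹ * a g}, x ∈ N.ker := by
      rintro x ⟨g, a₀, ha₀, rfl⟩
      rw [MonoidHom.mem_ker, map_mul, map_inv]
      have h1 : N (a₀ g) = N g := by
        show ∏ a : A, Abelianization.of ((a : MulAut G) (a₀ g))
          = ∏ a : A, Abelianization.of ((a : MulAut G) g)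
        exact Equiv.prod_comp (Equiv.mulRight (⟨a₀, ha₀⟩ : A))
          (fun a : A => Abelianization.of ((a : MulAut G) g))
      rw [h1, inv_mul_cancel]
    have hNtop : N.ker = ⊤ := by
      rw [eq_top_iff, ← hGA]
      exact (Subgroup.closure_le _).mpr hNgen
    have hNc : N c = Abelianization.of c ^ Nat.card A := by
      show ∏ a : A, Abelianization.of ((a : MulAut G) c) = _
      have h1 : ∀ a : A, Abelianization.of ((a : MulAut G) c) = Abelianization.of c :=
        fun a => by rw [hc a a.2]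
      rw [Finset.prod_congr rfl (fun a _ => h1 a), Finset.prod_const, Finset.card_univ,
        Nat.card_eq_fintype_card]
    have hN1 : N c = 1 := by
      have h1 : c ∈ N.ker := by rw [hNtop]; exact Subgroup.mem_top c
      exact MonoidHom.mem_ker.mp h1
    have hmem : c ^ Nat.card A ∈ commutator G := by
      rw [← Abelianization.ker_of, MonoidHom.mem_ker, map_pow, ← hNc, hN1]
    have hcop : (orderOf c).Coprime (Nat.card A) := hG.orderOf_coprime hA.symm c
    have hord : orderOf (c ^ Nat.card A) = orderOf c := hcop.orderOf_pow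
    have hzp : Subgroup.zpowers (c ^ Nat.card A) = Subgroup.zpowers c :=
      Subgroup.eq_of_le_of_card_ge
        (Subgroup.zpowers_le.mpr (pow_mem (Subgroup.mem_zpowers c) _))
        (by rw [Nat.card_zpowers, Nat.card_zpowers, hord])
    have hcz : c ∈ Subgroup.zpowers (c ^ Nat.card A) := by
      rw [hzp]; exact Subgroup.mem_zpowers c
    exact (Subgroup.zpowers_le.mpr hmem) hcz
  have hZcomm : Subgroup.center G ≤ commutator G :=
    fun z hz => hfixcomm z (fun a ha => hZfix a ha z hz)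
  have hclass : commutator G ≤ Subgroup.center G := by
    haveI : Group.IsNilpotent G := hG.isNilpotent
    have hex := Subgroup.nilpotent_iff_lowerCentralSeries.mp
      (inferInstance : Group.IsNilpotent G)
    obtain ⟨n, hn, hnmin⟩ : ∃ n, Subgroup.lowerCentralSeries (⊤ : Subgroup G) n = ⊥ ∧
        ∀ i < n, Subgroup.lowerCentralSeries (⊤ : Subgroup G) i ≠ ⊥ :=
      ⟨Nat.find hex, Nat.find_spec hex, fun i hi => Nat.find_min hex hi⟩
    have hs : ∀ i, Subgroup.lowerCentralSeries (⊤ : Subgroup G) (i + 1)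
        = ⁅Subgroup.lowerCentralSeries (⊤ : Subgroup G) i, (⊤ : Subgroup G)⁆ := fun i => rfl
    have hn2 : n ≤ 2 := by
      by_contra h3
      push_neg at h3
      obtain ⟨k, rfl⟩ : ∃ k, n = k + 1 + 1 + 1 := ⟨n - 3, by omega⟩
      obtain ⟨K, hK⟩ : ∃ K : Subgroup G,
        K = Subgroup.lowerCentralSeries (⊤ : Subgroup G) (k + 1) := ⟨_, rfl⟩
      have hK1 : ⁅⁅K, (⊤ : Subgroup G)⁆, (⊤ : Subgroup G)⁆ = ⊥ := by
        rw [hK, ← hs, ← hs]; exact hn
      have hK2 : ⁅⁅(⊤ : Subgroup G), K⁆, (⊤ : Subgroup G)⁆ = ⊥ := by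
        rw [Subgroup.commutator_comm ⊤ K]; exact hK1
      have h3s : ⁅⁅(⊤ : Subgroup G), (⊤ : Subgroup G)⁆, K⁆ = ⊥ :=
        Subgroup.commutator_commutator_eq_bot_of_rotate hK2 hK1
      have hle : K ≤ ⁅(⊤ : Subgroup G), (⊤ : Subgroup G)⁆ := by
        rw [hK]
        exact Subgroup.lowerCentralSeries_antitone (⊤ : Subgroup G) (by omega : 1 ≤ k + 1)
      have hab : ⁅K, K⁆ = ⊥ :=
        le_bot_iff.mp ((Subgroup.commutator_mono hle le_rfl).trans h3s.le)
      have hKc : IsMulCommutative K := by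
        refine ⟨⟨?_⟩⟩
        rintro ⟨a, ha⟩ ⟨b, hb⟩
        apply Subtype.ext
        have h4 := Subgroup.commutator_eq_bot_iff_le_centralizer.mp hab ha
        exact (Subgroup.mem_centralizer_iff.mp h4 b hb).symm
      have hKchar : K.Characteristic := by rw [hK]; infer_instance
      have hKZ := hcen K hKchar hKc
      apply hnmin (k + 1 + 1) (by omega)
      rw [hs, ← hK, Subgroup.commutator_eq_bot_iff_le_centralizer]
      intro x hx
      rw [Subgroup.mem_centralizer_iff]
      intro g _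
      exact Subgroup.mem_center_iff.mp (hKZ hx) g
    have hL2 : ⁅⁅(⊤ : Subgroup G), (⊤ : Subgroup G)⁆, (⊤ : Subgroup G)⁆ = ⊥ := by
      have h6 := Subgroup.lowerCentralSeries_antitone (⊤ : Subgroup G) hn2
      rw [hn] at h6
      exact le_bot_iff.mp h6
    intro x hx
    have hx' : x ∈ ⁅(⊤ : Subgroup G), (⊤ : Subgroup G)⁆ := hx
    have h5 := Subgroup.commutator_eq_bot_iff_le_centralizer.mp hL2 hx'
    rw [Subgroup.mem_center_iff]
    intro g
    exact Subgroup.mem_centralizer_iff.mp h5 g (Subgroup.mem_top g)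
  have hcommZ : ∀ x y : G, y⁻¹ * x⁻¹ * y * x ∈ Subgroup.center G := by
    intro x y
    apply hclass
    have e : y⁻¹ * x⁻¹ * y * x = ⁅y⁻¹, x⁻¹⁆ := by
      rw [commutatorElement_def, inv_inv, inv_inv]
    rw [e]
    exact Subgroup.commutator_mem_commutator (Subgroup.mem_top _) (Subgroup.mem_top _)
  have hpc : ∀ (x y : G) (m : ℕ), y * x ^ m = x ^ m * y * (y⁻¹ * x⁻¹ * y * x) ^ m := by
    intro x y m
    have hw := Subgroup.mem_center_iff.mp (hcommZ x y)
    exact Cfsg.Agent.S0130.pow_comm_class_two (w := y⁻¹ * x⁻¹ * y * x)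
      (show Commute (y⁻¹ * x⁻¹ * y * x) x from (hw x).symm) (by group) m
  have hZexp : ∃ k : ℕ, ∀ z ∈ Subgroup.center G, z ^ p ^ k = 1 := by
    obtain ⟨k, hk⟩ := hG.exists_card_eq
    exact ⟨k, fun z _ => by rw [← hk]; exact pow_card_eq_one'⟩
  obtain ⟨k, hk, hkmin⟩ : ∃ k, (∀ z ∈ Subgroup.center G, z ^ p ^ k = 1) ∧
      ∀ i < k, ¬ (∀ z ∈ Subgroup.center G, z ^ p ^ i = 1) :=
    ⟨Nat.find hZexp, Nat.find_spec hZexp, fun i hi => Nat.find_min hZexp hi⟩
  have hk1 : k ≤ 1 := by
    by_contra hk2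
    push_neg at hk2
    obtain ⟨j, rfl⟩ : ∃ j, k = j + 2 := ⟨k - 2, by omega⟩
    apply hkmin (j + 1) (by omega)
    obtain ⟨U, hU⟩ : ∃ U : Subgroup G,
      U = Subgroup.closure (Set.range (fun x : G => x ^ p ^ (j + 1))) := ⟨_, rfl⟩
    have hUchar : U.Characteristic := by
      rw [Subgroup.characteristic_iff_map_le]
      intro φ
      rw [hU, MonoidHom.map_closure, Subgroup.closure_le]
      rintro _ ⟨_, ⟨x, rfl⟩, rfl⟩
      apply Subgroup.subset_closure
      exact ⟨φ x, by simp⟩
    have hUc : IsMulCommutative U := by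
      rw [hU]
      apply Subgroup.isMulCommutative_closure
      rintro _ ⟨x, rfl⟩ _ ⟨y, rfl⟩
      have h1 := hpc x y (p ^ (j + 1))
      have hwq : ∀ g : G, g * (y⁻¹ * x⁻¹ * y * x) ^ p ^ (j + 1)
          = (y⁻¹ * x⁻¹ * y * x) ^ p ^ (j + 1) * g := fun g =>
        ((show Commute g (y⁻¹ * x⁻¹ * y * x) from
          Subgroup.mem_center_iff.mp (hcommZ x y) g).pow_right _).eq
      have h2 := pow_comm_left hwq h1 (p ^ (j + 1))
      have h3 : ((y⁻¹ * x⁻¹ * y * x) ^ p ^ (j + 1)) ^ p ^ (j + 1) = 1 := by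
        rw [← pow_mul]
        have e : p ^ (j + 1) * p ^ (j + 1) = p ^ (j + 2) * p ^ j := by ring
        rw [e, pow_mul, hk _ (hcommZ x y), one_pow]
      rw [h3, mul_one] at h2
      exact h2.symm
    have hUZ := hcen U hUchar hUc
    have hw1 : ∀ x y : G, (y⁻¹ * x⁻¹ * y * x) ^ p ^ (j + 1) = 1 := by
      intro x y
      have h1 := hpc x y (p ^ (j + 1))
      have hxq : x ^ p ^ (j + 1) ∈ Subgroup.center G :=
        hUZ (by rw [hU]; exact Subgroup.subset_closure ⟨x, rfl⟩)
      have h2 := Subgroup.mem_center_iff.mp hxq y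
      rw [h2] at h1
      have h3 : x ^ p ^ (j + 1) * y * 1
          = x ^ p ^ (j + 1) * y * (y⁻¹ * x⁻¹ * y * x) ^ p ^ (j + 1) := by
        rw [mul_one]; exact h1
      exact (mul_left_cancel h3).symm
    have hGexp : ∀ z ∈ commutator G, z ^ p ^ (j + 1) = 1 := by
      intro z hz
      have hz' : z ∈ Subgroup.closure {g : G | ∃ g₁ ∈ (⊤ : Subgroup G),
          ∃ g₂ ∈ (⊤ : Subgroup G), ⁅g₁, g₂⁆ = g} := hz
      have key : z ∈ Subgroup.center G ∧ z ^ p ^ (j + 1) = 1 := by
        refine Subgroup.closure_induction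
          (p := fun z _ => z ∈ Subgroup.center G ∧ z ^ p ^ (j + 1) = 1) ?_ ?_ ?_ ?_ hz'
        · rintro _ ⟨g₁, -, g₂, -, rfl⟩
          have e : ⁅g₁, g₂⁆ = g₁⁻¹⁻¹ * g₂⁻¹⁻¹ * g₁⁻¹ * g₂⁻¹ := by
            rw [commutatorElement_def]; group
          rw [e]
          exact ⟨hcommZ g₂⁻¹ g₁⁻¹, hw1 g₂⁻¹ g₁⁻¹⟩
        · exact ⟨one_mem _, one_pow _⟩
        · rintro a b _ _ ⟨ha, ha'⟩ ⟨hb, hb'⟩
          refine ⟨mul_mem ha hb, ?_⟩
          have hc : Commute a b := Subgroup.mem_center_iff.mp hb a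
          rw [hc.mul_pow, ha', hb', one_mul]
        · rintro a _ ⟨ha, ha'⟩
          exact ⟨inv_mem ha, by rw [inv_pow, ha', inv_one]⟩
      exact key.2
    intro z hz
    exact hGexp z (hZcomm hz)
  have hZp : ∀ z ∈ Subgroup.center G, z ^ p = 1 := by
    intro z hz
    have h1 := hk z hz
    rcases Nat.le_one_iff_eq_zero_or_eq_one.mp hk1 with h0 | h0
    · rw [h0, pow_zero, pow_one] at h1; rw [h1, one_pow]
    · rw [h0, pow_one] at h1; exact h1
  have hpowZ : ∀ x : G, x ^ p ∈ Subgroup.center G := by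
    intro x
    rw [Subgroup.mem_center_iff]
    intro y
    have h1 := hpc x y p
    rw [hZp _ (hcommZ x y), mul_one] at h1
    exact h1
  have hfr : frattini G = Subgroup.center G := by
    apply le_antisymm
    · apply Cfsg.Agent.Helper5.frattini_le_of_elementary_quotient hpp
      · intro a b
        apply hclass
        have e : a * b * a⁻¹ * b⁻¹ = ⁅a, b⁆ := (commutatorElement_def a b).symm
        rw [e]
        exact Subgroup.commutator_mem_commutator (Subgroup.mem_top _) (Subgroup.mem_top _)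
      · exact hpowZ
    · exact hZcomm.trans (Cfsg.Agent.Lead.commutator_le_frattini_of_isPGroup p hG)
  exact ⟨⟨hG, hfr, le_antisymm hclass hZcomm⟩, fun g =>
    ⟨fun hg a ha => hZfix a ha g hg, fun hfix => hclass (hfixcomm g hfix)⟩⟩


end Cfsg.Agent.S0119
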