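import Cfsg.Statements.S0120
import Cfsg.Agent.Helper4.CoprimeOmega

set_option autoImplicit false
open Cfsg

namespace Cfsg.Agent.S0120

/-- For odd p, a p'-automorphism of a p-group acting trivially on the elements of order dividing p is trivial. -/
theorem result {G : Type*} [Group G] [Finite G] {p : ℕ} [Fact p.Prime] (hp : p ≠ 2) (hG : IsPGroup p G) (a : MulAut G) (ha : Nat.Coprime (orderOf a) p) (h : ∀ x : G, x ^ p = 1 → a x = x) : a = 1 := by
  have hiter : ∀ (k : ℕ) (g : G), (a ^ k) g = (⇑a.toMonoidHom)^[k] g := by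
    intro k
    induction k with
    | zero => intro g; rfl
    | succ k ih =>
      intro g
      rw [pow_succ, MulAut.mul_apply, ih, Function.iterate_succ_apply]
      rfl
  have hf : ∀ g : G, (⇑a.toMonoidHom)^[orderOf a] g = g := by
    intro g
    rw [← hiter, pow_orderOf_eq_one, MulAut.one_apply]
  ext g
  rw [MulAut.one_apply]
  exact Cfsg.Agent.Helper4.coprime_end_trivial_aux hp (orderOf a) ha (Nat.card G) G le_rfl hG
    a.toMonoidHom hf (fun x hx => h x hx) g

end Cfsg.Agent.S0120
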