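import Cfsg.Statements.S0123
import Mathlib
import Cfsg.Agent.Lead.Class3

set_option autoImplicit false
open Cfsg

namespace Cfsg.Agent.S0123

open scoped commutatorElement

/-- For a p-group of small class relative to p (class ≤ 2 with p odd, or class ≤ 3 with p > 3) whose derived subgroup is generated by elements of order dividing p, the p-th power map is multiplicative. -/
theorem result {R : Type*} [Group R] [Finite R] {p : ℕ} [Fact p.Prime] (hR : IsPGroup p R) (hcl : (p ≠ 2 ∧ ⁅commutator R, (⊤ : Subgroup R)⁆ = ⊥) ∨ (3 < p ∧ ⁅⁅commutator R, (⊤ : Subgroup R)⁆, (⊤ : Subgroup R)⁆ = ⊥)) (hder : commutator R ≤ Subgroup.closure {x : R | x ^ p = 1}) (x y : R) : (x * y) ^ p = x ^ p * y ^ p := by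
  rcases hcl with ⟨hp2, hcl2⟩ | ⟨hp3, hcl3⟩
  · have hpp : p.Prime := Fact.out
    have hZ2 := Cfsg.Agent.Lead.Class3.central2 hcl2
    have hexp := Cfsg.Agent.Lead.Class3.closure_exp p (fun u v hu hv =>
      Cfsg.Agent.Lead.Class3.mul_exp_central hpp hp2 u v ⁅v⁻¹, u⁻¹⁆
        (Cfsg.Agent.Lead.Class3.rels u v).1 (hZ2 v⁻¹ u⁻¹) hu hv)
    have r1 := (Cfsg.Agent.Lead.Class3.rels x y).1
    have hC : ∀ g : R, ⁅y⁻¹, x⁻¹⁆ * g = g * ⁅y⁻¹, x⁻¹⁆ := hZ2 y⁻¹ x⁻¹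
    have hCp : ⁅y⁻¹, x⁻¹⁆ ^ p = 1 := hexp _ (hder (Cfsg.Agent.Lead.Class3.mem_comm _ _))
    obtain ⟨e, a, b, hf, he, -, -⟩ := Cfsg.Agent.Lead.Class3.formula x y ⁅y⁻¹, x⁻¹⁆ 1 1 r1
      (by rw [mul_one]; exact hC x) (by rw [mul_one]; exact hC y)
      (fun g => by rw [one_mul, mul_one]) (fun g => by rw [one_mul, mul_one]) p
    obtain ⟨k, rfl⟩ := Cfsg.Agent.Lead.Class3.dvd_e hpp hp2 he
    rw [hf, pow_mul, hCp]; simp
  · have hpp : p.Prime := Fact.out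
    have hZ := Cfsg.Agent.Lead.Class3.central3 hcl3
    have hexp := Cfsg.Agent.Lead.Class3.closure_exp p (fun u v hu hv =>
      Cfsg.Agent.Lead.Class3.mul_exp3 hpp hp3 hZ u v hu hv)
    obtain ⟨r1, r2, r3⟩ := Cfsg.Agent.Lead.Class3.rels x y
    have hCp : ⁅y⁻¹, x⁻¹⁆ ^ p = 1 := hexp _ (hder (Cfsg.Agent.Lead.Class3.mem_comm _ _))
    have hD1p : ⁅⁅x⁻¹, y⁻¹⁆, x⁻¹⁆ ^ p = 1 := hexp _ (hder (Cfsg.Agent.Lead.Class3.mem_comm _ _))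
    have hD2p : ⁅⁅x⁻¹, y⁻¹⁆, y⁻¹⁆ ^ p = 1 := hexp _ (hder (Cfsg.Agent.Lead.Class3.mem_comm _ _))
    obtain ⟨e, a, b, hf, he, ha, hb⟩ := Cfsg.Agent.Lead.Class3.formula x y _ _ _ r1 r2 r3
      (hZ x⁻¹ y⁻¹ x⁻¹) (hZ x⁻¹ y⁻¹ y⁻¹) p
    obtain ⟨k1, rfl⟩ := Cfsg.Agent.Lead.Class3.dvd_e hpp (by omega) he
    obtain ⟨k2, rfl⟩ := Cfsg.Agent.Lead.Class3.dvd_six hpp hp3 (s := p ^ 2 + 2) (by rw [ha]; ring)
    obtain ⟨k3, rfl⟩ := Cfsg.Agent.Lead.Class3.dvd_six hpp hp3 (s := 2 * p ^ 2 + 1) (by rw [hb]; ring)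
    rw [hf, pow_mul, pow_mul, pow_mul, hCp, hD1p, hD2p]; simp


end Cfsg.Agent.S0123
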