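import Cfsg.Statements.S0125
import Mathlib
import Cfsg.Agent.Helper6.KleinSylow
import Cfsg.Agent.Helper4.RelSylow
-- import your own Cfsg.Agent.* helpers here

set_option autoImplicit false
open Cfsg

namespace Cfsg.Agent.S0125

/-- The centralizer of a self-centralizing normal subgroup A of a Sylow p-subgroup is the direct product of A with a normal p'-subgroup. -/
theorem result {G : Type*} [Group G] [Finite G] {p : ℕ} [Fact p.Prime] (R : Sylow p G) (A : Subgroup G) (hAR : A ≤ (R : Subgroup G)) (hAn : (R : Subgroup G) ≤ Subgroup.normalizer (A : Set G)) (hC : (R : Subgroup G) ⊓ Subgroup.centralizer (A : Set G) = A) : ∃ H : Subgroup G, H ≤ Subgroup.centralizer (A : Set G) ∧ Nat.Coprime (Nat.card H) p ∧ Subgroup.centralizer (A : Set G) ≤ Subgroup.normalizer (H : Set G) ∧ H ⊓ A = ⊥ ∧ H ⊔ A = Subgroup.centralizer (A : Set G) := by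
  obtain ⟨C, hCdef⟩ : ∃ C, C = Subgroup.centralizer (A : Set G) := ⟨_, rfl⟩
  rw [← hCdef]
  have hAC : A ≤ C := by
    rw [hCdef]
    intro a ha
    have h0 : a ∈ (R : Subgroup G) ⊓ Subgroup.centralizer (A : Set G) := by rw [hC]; exact ha
    exact h0.2
  have hcent : ∀ c ∈ C, ∀ a ∈ A, a * c = c * a := by
    intro c hc a ha
    rw [hCdef] at hc
    exact Subgroup.mem_centralizer_iff.mp hc a ha
  have hRC : (R : Subgroup G) ⊓ C = A := by rw [hCdef]; exact hC
  -- elements normalizing A normalize C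
  have hnorm : ∀ γ ∈ Subgroup.normalizer (A : Set G), ∀ x ∈ C, γ * x * γ⁻¹ ∈ C := by
    intro γ hγ x hx
    rw [hCdef, Subgroup.mem_centralizer_iff]
    intro a ha
    have ha' : γ⁻¹ * a * γ ∈ A := by
      have := (Subgroup.mem_normalizer_iff.mp (Subgroup.inv_mem _ hγ) a).mp ha
      simpa using this
    have h1 := hcent x hx _ ha'
    calc a * (γ * x * γ⁻¹) = γ * ((γ⁻¹ * a * γ) * x) * γ⁻¹ := by group
      _ = γ * (x * (γ⁻¹ * a * γ)) * γ⁻¹ := by rw [h1]
      _ = γ * x * γ⁻¹ * a := by group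
  have hApg : IsPGroup p (A.subgroupOf C) :=
    (R.isPGroup'.to_le hAR).comap_of_injective C.subtype C.subtype_injective
  -- A is a Sylow p-subgroup of C
  have hidx : ¬ p ∣ (A.subgroupOf C).index := by
    obtain ⟨S, hS⟩ := hApg.exists_le_sylow
    have hS' : IsPGroup p ((S : Subgroup C).map C.subtype) := S.isPGroup'.map C.subtype
    have hSC : (S : Subgroup C).map C.subtype ≤ C := by
      rintro _ ⟨x, -, rfl⟩; exact x.2
    have hCle : C ≤ Subgroup.normalizer (A : Set G) := by
      intro c hc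
      rw [Subgroup.mem_normalizer_iff]
      intro a
      have e : ∀ a' ∈ A, c * a' * c⁻¹ = a' := by
        intro a' ha'
        rw [← hcent c hc a' ha']; group
      constructor
      · intro ha; rw [e a ha]; exact ha
      · intro ha
        have h1 : c⁻¹ * (c * a * c⁻¹) * c = c * a * c⁻¹ := by
          have := hcent c hc _ ha
          calc c⁻¹ * (c * a * c⁻¹) * c = c⁻¹ * ((c * a * c⁻¹) * c) := by group
            _ = c⁻¹ * (c * (c * a * c⁻¹)) := by rw [this]
            _ = c * a * c⁻¹ := by group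
        have h2 : c⁻¹ * (c * a * c⁻¹) * c = a := by group
        rw [← h2, h1]; exact ha
    have hRidx : ¬ p ∣ (R : Subgroup G).relIndex (Subgroup.normalizer (A : Set G)) := by
      intro hd
      exact R.not_dvd_index (hd.trans (Subgroup.relIndex_dvd_index_of_le hAn))
    obtain ⟨γ, hγ, hγS⟩ := Cfsg.Agent.Helper4.exists_conj_le_of_relIndex
      (Subgroup.normalizer (A : Set G)) (R : Subgroup G) ((S : Subgroup C).map C.subtype)
      R.isPGroup' hRidx hS' (hSC.trans hCle)
    have hle : ((S : Subgroup C).map C.subtype).map (MulAut.conj γ).toMonoidHom ≤ A := by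
      rintro _ ⟨x, hx, rfl⟩
      rw [← hRC]
      have e : (MulAut.conj γ).toMonoidHom x = γ * x * γ⁻¹ := by simp [MulAut.conj_apply]
      rw [e]
      exact ⟨hγS x hx, hnorm γ hγ x (hSC hx)⟩
    have hc1 : Nat.card (S : Subgroup C) ≤ Nat.card A := by
      have h1 := Subgroup.card_le_of_le hle
      rw [Subgroup.card_map_of_injective (MulAut.conj γ).injective,
        Subgroup.card_map_of_injective C.subtype_injective] at h1
      exact h1
    have hc2 : Nat.card (A.subgroupOf C) = Nat.card A :=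
      Nat.card_congr (Subgroup.subgroupOfEquivOfLe hAC).toEquiv
    have heq : A.subgroupOf C = (S : Subgroup C) :=
      Subgroup.eq_of_le_of_card_ge hS (by rw [hc2]; exact hc1)
    rw [heq]; exact S.not_dvd_index
  obtain ⟨N, hNn, hNc⟩ := Cfsg.Agent.Helper6.exists_normal_complement_of_conj_trivial
    (hApg.toSylow hidx) (by
      intro n _ x hx
      have hx' : (x : G) ∈ A := hx
      have h1 := hcent n n.2 x hx'
      apply Subtype.ext
      show (n : G) * x * (n : G)⁻¹ = x
      rw [← h1]; group)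
  have hNc' : N.IsComplement' (A.subgroupOf C) := hNc
  refine ⟨N.map C.subtype, ?_, ?_, ?_, ?_, ?_⟩
  · rintro _ ⟨x, -, rfl⟩; exact x.2
  · rw [Subgroup.card_map_of_injective C.subtype_injective]
    have h1 : Nat.card N = (A.subgroupOf C).index := hNc'.index_eq_card.symm
    rw [h1]
    exact ((Nat.Prime.coprime_iff_not_dvd Fact.out).mpr hidx).symm
  · intro c hc
    rw [Subgroup.mem_normalizer_iff]
    intro y
    constructor
    · rintro ⟨x, hx, rfl⟩
      exact ⟨⟨c, hc⟩ * x * ⟨c, hc⟩⁻¹, hNn.conj_mem x hx ⟨c, hc⟩, rfl⟩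
    · rintro ⟨x, hx, hxy⟩
      refine ⟨⟨c, hc⟩⁻¹ * x * ⟨c, hc⟩, ?_, ?_⟩
      · have := hNn.conj_mem x hx ⟨c, hc⟩⁻¹
        simpa using this
      · show (c : G)⁻¹ * (x : G) * c = y
        have : (x : G) = c * y * c⁻¹ := hxy
        rw [this]; group
  · rw [eq_bot_iff]
    rintro y ⟨⟨x, hx, rfl⟩, hyA⟩
    have h1 : x ∈ N ⊓ A.subgroupOf C := ⟨hx, hyA⟩
    rw [disjoint_iff.mp hNc'.disjoint, Subgroup.mem_bot] at h1
    rw [Subgroup.mem_bot, h1]; rfl
  · apply le_antisymm
    · apply sup_le
      · rintro _ ⟨x, -, rfl⟩; exact x.2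
      · exact hAC
    · intro c hc
      obtain ⟨⟨⟨n, hn⟩, ⟨a, ha⟩⟩, hna, -⟩ := hNc'.existsUnique ⟨c, hc⟩
      simp only at hna
      have e : c = (n : G) * (a : G) := by
        have := congrArg Subtype.val hna
        simpa using this.symm
      rw [e]
      exact Subgroup.mul_mem_sup ⟨n, hn, rfl⟩ ha

end Cfsg.Agent.S0125
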