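import Cfsg.Statements.S0131
import Mathlib

set_option autoImplicit false
open Cfsg

namespace Cfsg.Agent.S0131

open scoped commutatorElement

/-- P/P' has a normal complement in G exactly when the focal subgroup G' ∩ P is as small as possible, namely P'. -/
theorem result {G : Type*} [Group G] [Finite G] {p : ℕ} [Fact p.Prime] (P : Sylow p G) : (∃ N : Subgroup G, N.Normal ∧ N ⊓ (P : Subgroup G) = ⁅(P : Subgroup G), (P : Subgroup G)⁆ ∧ N ⊔ (P : Subgroup G) = ⊤) ↔ commutator G ⊓ (P : Subgroup G) = ⁅(P : Subgroup G), (P : Subgroup G)⁆ := by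
  constructor
  · rintro ⟨N, hN, h1, h2⟩
    haveI := hN
    apply le_antisymm
    · rw [← h1]
      apply inf_le_inf_right
      rw [commutator_eq_closure, Subgroup.closure_le]
      rintro c ⟨a, b, rfl⟩
      obtain ⟨n₁, hn₁, x₁, hx₁, rfl⟩ : ∃ n ∈ N, ∃ x ∈ (P : Subgroup G), n * x = a := by
        have ha : a ∈ N ⊔ (P : Subgroup G) := by rw [h2]; exact Subgroup.mem_top a
        exact Subgroup.mem_sup_of_normal_left.mp ha
      obtain ⟨n₂, hn₂, x₂, hx₂, rfl⟩ : ∃ n ∈ N, ∃ x ∈ (P : Subgroup G), n * x = b := by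
        have hb : b ∈ N ⊔ (P : Subgroup G) := by rw [h2]; exact Subgroup.mem_top b
        exact Subgroup.mem_sup_of_normal_left.mp hb
      have hc : ⁅x₁, x₂⁆ ∈ N := by
        have h0 : ⁅x₁, x₂⁆ ∈ ⁅(P : Subgroup G), (P : Subgroup G)⁆ :=
          Subgroup.commutator_mem_commutator hx₁ hx₂
        rw [← h1] at h0
        exact (Subgroup.mem_inf.mp h0).1
      rw [SetLike.mem_coe, ← QuotientGroup.eq_one_iff]
      have e1 : ((n₁ * x₁ : G) : G ⧸ N) = (x₁ : G ⧸ N) := by
        rw [QuotientGroup.mk_mul, (QuotientGroup.eq_one_iff n₁).mpr hn₁, one_mul]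
      have e2 : ((n₂ * x₂ : G) : G ⧸ N) = (x₂ : G ⧸ N) := by
        rw [QuotientGroup.mk_mul, (QuotientGroup.eq_one_iff n₂).mpr hn₂, one_mul]
      have e3 : ((⁅n₁ * x₁, n₂ * x₂⁆ : G) : G ⧸ N) =
          ⁅((n₁ * x₁ : G) : G ⧸ N), ((n₂ * x₂ : G) : G ⧸ N)⁆ :=
        map_commutatorElement (QuotientGroup.mk' N) _ _
      have e4 : ⁅(x₁ : G ⧸ N), (x₂ : G ⧸ N)⁆ = ((⁅x₁, x₂⁆ : G) : G ⧸ N) :=
        (map_commutatorElement (QuotientGroup.mk' N) _ _).symm
      rw [e3, e1, e2, e4]
      exact (QuotientGroup.eq_one_iff _).mpr hc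
    · apply le_inf
      · rw [commutator_def]
        exact Subgroup.commutator_mono le_top le_top
      · rw [← h1]; exact inf_le_right
  · intro h
    refine ⟨(Subgroup.transferFocal (P : Subgroup G)).ker, MonoidHom.normal_ker _, ?_, ?_⟩
    · rw [Subgroup.ker_transferFocal_inf_eq_focalSubgroup P,
        ← Subgroup.commutator_inf_eq_focalSubgroup P, h]
    · rw [eq_top_iff]
      intro g _
      obtain ⟨y, hy⟩ := Subgroup.focalSubgroupOf.pow_index_surjective P
        ((Subgroup.transferFocal (P : Subgroup G)) g)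
      obtain ⟨x, rfl⟩ := QuotientGroup.mk'_surjective _ y
      have hx : (Subgroup.transferFocal (P : Subgroup G)) (x : G) =
          (Subgroup.transferFocal (P : Subgroup G)) g := by
        rw [Subgroup.transferFocal_eq_pow]; exact hy
      have hker : g * (x : G)⁻¹ ∈ (Subgroup.transferFocal (P : Subgroup G)).ker := by
        rw [MonoidHom.mem_ker, map_mul, map_inv, hx, mul_inv_cancel]
      have e : g = (g * (x : G)⁻¹) * x := by group
      rw [e]
      exact Subgroup.mul_mem_sup hker x.2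


end Cfsg.Agent.S0131
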