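import Cfsg.Statements.S0134
import Mathlib
import Cfsg.Agent.Lead.CharCore4

set_option autoImplicit false
open Cfsg

namespace Cfsg.Agent.S0134

open scoped ComplexConjugate

/-- The sum of the squares of the degrees of the irreducible complex characters of a finite group is the order of the group. -/
theorem result {G : Type*} [Group G] [Finite G] : ∑ᶠ χ : Cfsg.IrrCharacter G, (χ : G → ℂ) 1 ^ 2 = (Nat.card G : ℂ) := by
  classical
  have h := Lead.column_orth_of_isConj (G := G) (IsConj.refl (1 : G))
  have hcent : Nat.card (Subgroup.centralizer ({(1 : G)} : Set G)) = Nat.card G := by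
    have : Subgroup.centralizer ({(1 : G)} : Set G) = ⊤ := by
      ext x; simp [Subgroup.mem_centralizer_iff]
    rw [this]; exact Subgroup.card_top
  rw [hcent] at h
  rw [← h]
  refine finsum_congr (fun χ => ?_)
  obtain ⟨n, _, hn⟩ := Lead.isIrrCharacter_one_eq_nat χ.2
  rw [hn]; simp [sq]


end Cfsg.Agent.S0134
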