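import Cfsg.Statements.S0136
import Mathlib
import Cfsg.Agent.Lead.CharCore4

set_option autoImplicit false
open Cfsg

namespace Cfsg.Agent.S0136

open scoped ComplexConjugate

/-- Two elements of a finite group are conjugate if and only if no irreducible complex character separates them. -/
theorem result {G : Type*} [Group G] [Finite G] (g h : G) : IsConj g h ↔ ∀ χ : Cfsg.IrrCharacter G, (χ : G → ℂ) g = (χ : G → ℂ) h := by
  constructor
  · intro hc χ
    exact Lead.isClassFunction_apply_of_isConj (Lead.isClassFunction_irr χ) hc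
  · intro hall
    by_contra hc
    have h0 := Lead.column_orth_of_not_isConj hc
    have h1 := Lead.column_orth_of_isConj (IsConj.refl g)
    have h2 : ∑ᶠ χ : Cfsg.IrrCharacter G, (χ : G → ℂ) g * conj ((χ : G → ℂ) h)
        = ∑ᶠ χ : Cfsg.IrrCharacter G, (χ : G → ℂ) g * conj ((χ : G → ℂ) g) :=
      finsum_congr (fun χ => by rw [hall χ])
    rw [h2, h1] at h0
    have hpos : (Nat.card (Subgroup.centralizer ({g} : Set G)) : ℂ) ≠ 0 := by
      exact_mod_cast Nat.card_pos.ne'
    exact hpos h0


end Cfsg.Agent.S0136
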