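import Cfsg.Statements.S0150
import Mathlib
import Cfsg.Agent.Lead.IndFun2
import Cfsg.Agent.S0146
import Cfsg.Agent.S0149

set_option autoImplicit false
open Cfsg

namespace Cfsg.Agent.S0150

open scoped ComplexConjugate

/-- Let T be a subset of G meeting each of its conjugates by elements outside its normalizer N only in the identity. If ψ and θ are class functions of N vanishing on N away from T and ψ 1 = 0, then the inner product of the induced functions over G equals the inner product of ψ and θ over N. -/
theorem result {G : Type*} [Group G] [Fintype G] (T : Set G) (hTI : ∀ g : G, g ∉ Subgroup.normalizer T → ∀ t ∈ T, g * t * g⁻¹ ∈ T → t = 1) (hTN : T ⊆ Subgroup.normalizer T) [Fintype (Subgroup.normalizer T)] (ψ θ : Subgroup.normalizer T → ℂ) (hψ : Cfsg.IsClassFunction (Subgroup.normalizer T) ψ) (hθ : Cfsg.IsClassFunction (Subgroup.normalizer T) θ) (hψT : ∀ x : Subgroup.normalizer T, (x : G) ∉ T → ψ x = 0) (hθT : ∀ x : Subgroup.normalizer T, (x : G) ∉ T → θ x = 0) (hψ1 : ψ 1 = 0) : Cfsg.classInner (Cfsg.indFun (Subgroup.normalizer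 T) ψ) (Cfsg.indFun (Subgroup.normalizer T) θ) = Cfsg.classInner ψ θ := by
  classical
  have hcf : Cfsg.IsClassFunction G (Cfsg.indFun (Subgroup.normalizer T) θ) :=
    Lead.indFun_isClassFunction _ θ
  rw [Cfsg.Agent.S0146.result (Subgroup.normalizer T) ψ _ hcf]
  unfold Cfsg.classInner
  congr 1
  refine Finset.sum_congr rfl (fun n _ => ?_)
  by_cases hn : (n : G) ∈ T
  · by_cases hn1 : n = 1
    · subst hn1; rw [hψ1]; simp
    · have h9 := Cfsg.Agent.S0149.result T hTI hTN θ hθ hθT n hn hn1
      simp only [h9]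
  · rw [hψT n hn]; simp


end Cfsg.Agent.S0150
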