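import Cfsg.Statements.S0155
import Mathlib

set_option autoImplicit false
open Cfsg

namespace Cfsg.Agent.S0155

/-- The character of the left regular representation of a finite group takes the value |G| at the identity and 0 at every other element. -/
theorem result {G : Type*} [Group G] [Fintype G] [DecidableEq G] (g : G) : (Representation.leftRegular ℂ G).character g = if g = 1 then (Nat.card G : ℂ) else 0 := by
  classical
  unfold Representation.character
  have h0 : (Representation.leftRegular ℂ G) g
      = (MonoidAlgebra.coeffLinearEquiv ℂ).symm.conj (Finsupp.lmapDomain ℂ ℂ (g • · : G → G)) := by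
    rw [Representation.ofMulAction_def]
    rfl
  rw [h0, LinearMap.trace_conj']
  rw [LinearMap.trace_eq_matrix_trace ℂ (Finsupp.basisSingleOne (R := ℂ) (ι := G)), Matrix.trace]
  have h1 : ∀ x : G, Matrix.diag (LinearMap.toMatrix Finsupp.basisSingleOne Finsupp.basisSingleOne
      (Finsupp.lmapDomain ℂ ℂ (g • · : G → G))) x = if g * x = x then (1 : ℂ) else 0 := by
    intro x
    rw [Matrix.diag_apply, LinearMap.toMatrix_apply]
    simp [Finsupp.single_apply]
  simp only [h1]
  by_cases hg : g = 1
  · subst hg
    simp [Nat.card_eq_fintype_card]
  · simp [hg]


end Cfsg.Agent.S0155
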