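import Cfsg.Statements.S0156
import Mathlib
import Cfsg.Agent.Lead.CharCore4
import Cfsg.Agent.S0155

set_option autoImplicit false
open Cfsg

namespace Cfsg.Agent.S0156

open scoped ComplexConjugate

/-- The character of the left regular representation is the sum over the irreducible characters χ of χ 1 • χ. -/
theorem result {G : Type*} [Group G] [Fintype G] : (Representation.leftRegular ℂ G).character = ∑ᶠ χ : Cfsg.IrrCharacter G, (χ : G → ℂ) 1 • (χ : G → ℂ) := by
  classical
  funext g
  rw [Cfsg.Agent.S0155.result g]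
  have : Finite (Cfsg.IrrCharacter G) := Lead.finite_irrCharacter G
  have : Fintype (Cfsg.IrrCharacter G) := Fintype.ofFinite _
  rw [finsum_eq_sum_of_fintype, Finset.sum_apply]
  simp only [Pi.smul_apply, smul_eq_mul]
  have hconj : ∀ χ : Cfsg.IrrCharacter G, (χ : G → ℂ) 1 * (χ : G → ℂ) g
      = (χ : G → ℂ) g * conj ((χ : G → ℂ) 1) := by
    intro χ
    obtain ⟨n, _, hn⟩ := Lead.isIrrCharacter_one_eq_nat χ.2
    rw [hn]; simp [mul_comm]
  simp only [hconj]
  rw [← finsum_eq_sum_of_fintype]
  by_cases hg : g = 1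
  · subst hg
    rw [if_pos rfl, Lead.column_orth_of_isConj (IsConj.refl 1)]
    have : Subgroup.centralizer ({(1 : G)} : Set G) = ⊤ := by
      ext x; simp [Subgroup.mem_centralizer_iff]
    rw [this, Subgroup.card_top]
  · rw [if_neg hg, Lead.column_orth_of_not_isConj]
    intro hc; exact hg (isConj_one_left.mp hc)


end Cfsg.Agent.S0156
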