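import Cfsg.Statements.S0157
import Mathlib
import Cfsg.Agent.Lead.PermChar

set_option autoImplicit false
open Cfsg

namespace Cfsg.Agent.S0157

/-- For a transitive action of a finite group on a finite set with at least two points: the action is 2-transitive if and only if the function sending g to (number of fixed points of g) − 1 is an irreducible character. -/
theorem result {G : Type*} [Group G] [Finite G] (X : Type*) [MulAction G X] [Finite X] [MulAction.IsPretransitive G X] (hX : 2 ≤ Nat.card X) : Cfsg.IsIrrCharacter G (fun g => (Nat.card (MulAction.fixedBy X g) : ℂ) - 1) ↔ MulAction.IsMultiplyPretransitive G X 2 := by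
  classical
  have hne : Nonempty X := by
    have h0 : 0 < Nat.card X := by omega
    exact (Nat.card_pos_iff.mp h0).1
  have : Fintype G := Fintype.ofFinite G
  have hnorm := Lead.permChar_sub_one_norm G X
  constructor
  · intro hirr
    have h1 := Lead.classInner_self_of_isIrrCharacter hirr
    rw [hnorm] at h1
    have h2 : Nat.card (MulAction.orbitRel.Quotient G (Fin 2 ↪ X)) = 1 := by exact_mod_cast h1
    exact (MulAction.pretransitive_iff_subsingleton_quotient G (Fin 2 ↪ X)).mpr
      (Nat.card_eq_one_iff_unique.mp h2).1
  · intro h2t
    apply Lead.isIrrCharacter_of_classInner_eq_one (Lead.permChar_sub_one_isCharacter G X)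
    rw [hnorm]
    have hsub := (MulAction.pretransitive_iff_subsingleton_quotient G (Fin 2 ↪ X)).mp h2t
    have hneY : Nonempty (Fin 2 ↪ X) := by
      have : Fintype X := Fintype.ofFinite X
      apply Function.Embedding.nonempty_of_card_le
      rw [Fintype.card_fin, ← Nat.card_eq_fintype_card]; exact hX
    have hneQ : Nonempty (MulAction.orbitRel.Quotient G (Fin 2 ↪ X)) :=
      ⟨Quotient.mk'' hneY.some⟩
    have h3 : Nat.card (MulAction.orbitRel.Quotient G (Fin 2 ↪ X)) = 1 :=
      Nat.card_eq_one_iff_unique.mpr ⟨hsub, hneQ⟩
    rw [h3]; simp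


end Cfsg.Agent.S0157
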