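import Mathlib
import Cfsg.Agent.Helper2.FSInd
import Cfsg.Statements.S0158

set_option autoImplicit false
open Cfsg

namespace Cfsg.Agent.S0158

/-- The Frobenius–Schur indicator of an irreducible complex representation of a finite group — the average over s of the character at s * s — is 0, 1 or −1, and it vanishes exactly when some character value is not real. -/
theorem result {G : Type*} [Group G] [Fintype G] {V : Type*} [AddCommGroup V] [Module ℂ V] [FiniteDimensional ℂ V] (ρ : Representation ℂ G V) [ρ.IsIrreducible] : ((Nat.card G : ℂ)⁻¹ * ∑ s : G, ρ.character (s * s) = 0 ∨ (Nat.card G : ℂ)⁻¹ * ∑ s : G, ρ.character (s * s) = 1 ∨ (Nat.card G : ℂ)⁻¹ * ∑ s : G, ρ.character (s * s) = -1) ∧ ((Nat.card G : ℂ)⁻¹ * ∑ s : G, ρ.character (s * s) = 0 ↔ ∃ s : G, (ρ.character s).im ≠ 0) := by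
  have hi : ρ.IsIrreducible := inferInstance
  have h := Cfsg.Agent.Helper2.FSInd.trichotomy
    (Cfsg.Agent.Lead.repTransport ρ (Module.finBasis ℂ V).equivFun)
    (Cfsg.Agent.Lead.repTransport_isIrreducible ρ _ hi)
  rw [Cfsg.Agent.Lead.repTransport_character] at h
  exact h


end Cfsg.Agent.S0158
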