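import Cfsg.Statements.S0159
import Mathlib
import Cfsg.Agent.Lead.CharCore5
import Cfsg.Agent.S0156
import Cfsg.Agent.S0155

set_option autoImplicit false
open Cfsg

namespace Cfsg.Agent.S0159

/-- The number of solutions of s * s = 1 in a finite group equals the sum, over the irreducible characters χ, of (the average over s of χ (s * s)) times χ 1. -/
theorem result {G : Type*} [Group G] [Fintype G] : (Nat.card {s : G // s * s = 1} : ℂ) = ∑ᶠ χ : Cfsg.IrrCharacter G, ((Nat.card G : ℂ)⁻¹ * ∑ s : G, (χ : G → ℂ) (s * s)) * (χ : G → ℂ) 1 := by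
  classical
  have : Finite (Cfsg.IrrCharacter G) := Lead.finite_irrCharacter G
  have : Fintype (Cfsg.IrrCharacter G) := Fintype.ofFinite _
  have hG : (Nat.card G : ℂ) ≠ 0 := by exact_mod_cast Nat.card_pos.ne'
  rw [finsum_eq_sum_of_fintype]
  have hreg : ∀ g : G, ∑ χ : Cfsg.IrrCharacter G, (χ : G → ℂ) 1 * (χ : G → ℂ) g
      = if g = 1 then (Nat.card G : ℂ) else 0 := by
    intro g
    have h1 := congrFun (Cfsg.Agent.S0156.result (G := G)) g
    rw [Cfsg.Agent.S0155.result g, finsum_eq_sum_of_fintype, Finset.sum_apply] at h1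
    simp only [Pi.smul_apply, smul_eq_mul] at h1
    exact h1.symm
  calc (Nat.card {s : G // s * s = 1} : ℂ)
      = ∑ s : G, (if s * s = 1 then (1:ℂ) else 0) := by
        rw [Finset.sum_boole, Nat.card_eq_fintype_card, Fintype.card_subtype]
    _ = ∑ s : G, (Nat.card G : ℂ)⁻¹ *
          ∑ χ : Cfsg.IrrCharacter G, (χ : G → ℂ) 1 * (χ : G → ℂ) (s * s) := by
        refine Finset.sum_congr rfl (fun s _ => ?_)
        rw [hreg (s * s)]
        by_cases h : s * s = 1
        · simp [h, hG]
        · simp [h]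
    _ = ∑ χ : Cfsg.IrrCharacter G,
          ((Nat.card G : ℂ)⁻¹ * ∑ s : G, (χ : G → ℂ) (s * s)) * (χ : G → ℂ) 1 := by
        simp only [Finset.mul_sum, Finset.sum_mul]
        rw [Finset.sum_comm]
        refine Finset.sum_congr rfl (fun χ _ => Finset.sum_congr rfl (fun s _ => by ring))


end Cfsg.Agent.S0159
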