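import Cfsg.Statements.S0160
import Mathlib
import Cfsg.Agent.Lead.CharPerm

set_option autoImplicit false
open Cfsg

namespace Cfsg.Agent.S0160

open scoped ComplexConjugate

/-- A finite group has as many real-valued irreducible complex characters as conjugacy classes closed under taking inverses. -/
theorem result {G : Type*} [Group G] [Finite G] : Nat.card {χ : Cfsg.IrrCharacter G // ∀ g : G, ((χ : G → ℂ) g).im = 0} = Nat.card {C : ConjClasses G // ∀ g : G, ConjClasses.mk g = C → IsConj g g⁻¹} := by
  classical
  have hβcl : ∀ g h : G, IsConj g h → (IsConj g g⁻¹ ↔ IsConj h h⁻¹) := by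
    intro g h hgh
    have h1 : IsConj g⁻¹ h⁻¹ := by
      obtain ⟨c, hc⟩ := isConj_iff.mp hgh
      exact isConj_iff.mpr ⟨c, by rw [← hc]; group⟩
    constructor
    · intro h2; exact (hgh.symm.trans h2).trans h1
    · intro h2; exact (hgh.trans h2).trans h1.symm
  have hcomp : ∀ χ : Cfsg.IrrCharacter G,
      (χ : G → ℂ) ∘ (fun g => g⁻¹) = fun g => conj ((χ : G → ℂ) g) := by
    intro χ
    funext g
    exact Lead.isCharacter_inv (Lead.isCharacter_of_isIrrCharacter χ.2) g
  have key := Lead.brauer_perm_general (G := G) (fun g => g⁻¹)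
    (fun χ => by rw [hcomp χ]; exact Lead.isIrrCharacter_conj χ.2) hβcl
  rw [← key]
  refine Nat.card_congr (Equiv.subtypeEquivRight (fun χ => ?_))
  rw [hcomp χ]
  constructor
  · intro h
    funext g
    exact Complex.conj_eq_iff_im.mpr (h g)
  · intro h g
    exact Complex.conj_eq_iff_im.mp (congrFun h g)


end Cfsg.Agent.S0160
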