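import Cfsg.Statements.S0161
import Mathlib
import Cfsg.Agent.Lead.CharOdd

set_option autoImplicit false
open Cfsg

namespace Cfsg.Agent.S0161

/-- In a finite group of odd order, a real-valued irreducible complex character is the trivial character. -/
theorem result {G : Type*} [Group G] [Finite G] (hodd : Odd (Nat.card G)) (χ : Cfsg.IrrCharacter G) (hreal : ∀ g : G, ((χ : G → ℂ) g).im = 0) : (χ : G → ℂ) = fun _ => 1 := by
  classical
  have : Fintype G := Fintype.ofFinite G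
  by_contra hne
  have hG : (Nat.card G : ℂ) ≠ 0 := by exact_mod_cast Nat.card_pos.ne'
  have h1 : Cfsg.classInner (χ : G → ℂ) (fun _ => (1 : ℂ)) = 0 := by
    have h0 := Lead.classInner_irr χ ⟨fun _ => 1, Lead.isIrrCharacter_one⟩
    rw [h0, if_neg]
    intro h; apply hne; exact congrArg Subtype.val h
  unfold Cfsg.classInner at h1
  have h2 : ∑ g : G, (χ : G → ℂ) g = 0 := by
    rcases mul_eq_zero.mp h1 with h | h
    · exact absurd (inv_eq_zero.mp h) hG
    · simpa using h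
  have hF : ∀ g : G, (χ : G → ℂ) g⁻¹ = (χ : G → ℂ) g := by
    intro g
    rw [Lead.isCharacter_inv (Lead.isCharacter_of_isIrrCharacter χ.2)]
    exact Complex.conj_eq_iff_im.mpr (hreal g)
  obtain ⟨S, hS⟩ := Lead.sum_eq_one_add_two_mul_of_inv hodd (χ : G → ℂ) hF
  rw [h2] at hS
  obtain ⟨n, hn0, hn1, hndvd⟩ := Lead.irrCharacter_degree_dvd_card χ
  rw [hn1] at hS
  have hβ : IsIntegral ℤ (∑ g ∈ S, (χ : G → ℂ) g) :=
    IsIntegral.sum _ (fun g _ => Lead.irrCharacter_isIntegral χ g)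
  have h3 : (n : ℂ) / ((2 : ℕ) : ℂ) = - ∑ g ∈ S, (χ : G → ℂ) g := by
    push_cast
    have h30 : (n : ℂ) = - (2 * ∑ g ∈ S, (χ : G → ℂ) g) := by linear_combination -hS
    rw [h30]; ring
  have h4 : 2 ∣ n := Lead.nat_dvd_of_isIntegral_div (by norm_num) (h3 ▸ hβ.neg)
  have h5 : 2 ∣ Nat.card G := h4.trans hndvd
  exact (Nat.not_even_iff_odd.mpr hodd) (even_iff_two_dvd.mpr h5)


end Cfsg.Agent.S0161
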