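import Cfsg.Statements.S0162
import Mathlib
import Cfsg.Agent.Lead.CharConj2
import Cfsg.Agent.Lead.InvolSum
import Cfsg.Agent.S0134
import Cfsg.Agent.S0161

set_option autoImplicit false
open Cfsg

namespace Cfsg.Agent.S0162

open scoped ComplexConjugate

/-- If a finite group has odd order, its order is congruent to its number of conjugacy classes modulo 16. -/
theorem result {G : Type*} [Group G] [Finite G] (hodd : Odd (Nat.card G)) : Nat.card G ≡ Nat.card (ConjClasses G) [MOD 16] := by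
  classical
  have : Fintype G := Fintype.ofFinite G
  have : Finite (Cfsg.IrrCharacter G) := Lead.finite_irrCharacter G
  have : Fintype (Cfsg.IrrCharacter G) := Fintype.ofFinite _
  choose d hd0 hd1 hddvd using
    (fun χ : Cfsg.IrrCharacter G => Lead.irrCharacter_degree_dvd_card χ)
  let T : Cfsg.IrrCharacter G → Cfsg.IrrCharacter G :=
    fun χ => ⟨fun g => conj ((χ : G → ℂ) g), Lead.isIrrCharacter_conj χ.2⟩
  let one : Cfsg.IrrCharacter G := ⟨fun _ => 1, Lead.isIrrCharacter_one⟩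
  have hT : ∀ χ, T (T χ) = χ := by
    intro χ; apply Subtype.ext; funext g; simp [T]
  have h0 : T one = one := by
    apply Subtype.ext; funext g; simp [T, one]
  have hfix : ∀ χ, T χ = χ → χ = one := by
    intro χ h
    apply Subtype.ext
    apply Cfsg.Agent.S0161.result hodd χ
    intro g
    have h1 := congrFun (congrArg Subtype.val h) g
    exact Complex.conj_eq_iff_im.mp h1
  have hdT : ∀ χ, d (T χ) = d χ := by
    intro χ
    have h1 := hd1 (T χ)
    have h2 : ((T χ : Cfsg.IrrCharacter G) : G → ℂ) 1 = conj ((χ : G → ℂ) 1) := rfl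
    rw [h2, hd1 χ, Complex.conj_natCast] at h1
    exact_mod_cast h1.symm
  have hdone : d one = 1 := by
    have h1 := hd1 one
    have h2 : ((one : Cfsg.IrrCharacter G) : G → ℂ) 1 = 1 := rfl
    rw [h2] at h1
    exact_mod_cast h1.symm
  obtain ⟨S, hS⟩ := Lead.sum_involution_unique_fixed T hT one h0 hfix
    (fun χ => d χ ^ 2 - 1) (fun χ => by simp only [hdT])
  have hsq : ∑ χ : Cfsg.IrrCharacter G, d χ ^ 2 = Nat.card G := by
    have h1 := Cfsg.Agent.S0134.result (G := G)
    rw [finsum_eq_sum_of_fintype] at h1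
    simp only [hd1] at h1
    exact_mod_cast h1
  have hk : ∑ _χ : Cfsg.IrrCharacter G, 1 = Nat.card (ConjClasses G) := by
    rw [Finset.sum_const, Finset.card_univ, smul_eq_mul, mul_one, ← Nat.card_eq_fintype_card,
      Lead.card_irrCharacter]
  have hsum : ∑ χ : Cfsg.IrrCharacter G, (d χ ^ 2 - 1) + Nat.card (ConjClasses G)
      = Nat.card G := by
    rw [← hk, ← Finset.sum_add_distrib, ← hsq]
    refine Finset.sum_congr rfl (fun χ _ => ?_)
    have h1 := hd0 χ
    have h2 : 1 ≤ d χ ^ 2 := Nat.one_le_pow _ _ h1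
    omega
  have h8 : ∀ χ : Cfsg.IrrCharacter G, 8 ∣ d χ ^ 2 - 1 := by
    intro χ
    have hoddd : Odd (d χ) := Odd.of_dvd_nat hodd (hddvd χ)
    obtain ⟨m, hm⟩ := hoddd
    rw [hm]
    have h1 : (2 * m + 1) ^ 2 - 1 = 4 * (m * (m + 1)) := by
      have h2 : (2 * m + 1) ^ 2 = 4 * (m * (m + 1)) + 1 := by ring
      omega
    rw [h1]
    have h2 : 2 ∣ m * (m + 1) := (Nat.even_mul_succ_self m).two_dvd
    obtain ⟨c, hc⟩ := h2
    exact ⟨c, by rw [hc]; ring⟩
  have h16 : 16 ∣ ∑ χ : Cfsg.IrrCharacter G, (d χ ^ 2 - 1) := by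
    rw [hS, hdone]
    have h1 : 8 ∣ ∑ a ∈ S, (d a ^ 2 - 1) := Finset.dvd_sum (fun χ _ => h8 χ)
    obtain ⟨c, hc⟩ := h1
    exact ⟨c, by rw [hc]; norm_num; ring⟩
  obtain ⟨c, hc⟩ := h16
  rw [hc] at hsum
  rw [← hsum]
  unfold Nat.ModEq
  omega


end Cfsg.Agent.S0162
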