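import Cfsg.Statements.S0167
import Mathlib
import Cfsg.Agent.Lead.CharComm

set_option autoImplicit false
open Cfsg

namespace Cfsg.Agent.S0167

/-- An element g of a finite group is a commutator if and only if the sum over the irreducible characters χ of χ g / χ 1 is nonzero. -/
theorem result {G : Type*} [Group G] [Finite G] (g : G) : (∃ a b : G, g = a * b * a⁻¹ * b⁻¹) ↔ ∑ᶠ χ : Cfsg.IrrCharacter G, (χ : G → ℂ) g / (χ : G → ℂ) 1 ≠ 0 := by
  classical
  have : Fintype G := Fintype.ofFinite G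
  have hG : (Nat.card G : ℂ) ≠ 0 := by exact_mod_cast Nat.card_pos.ne'
  have hcount := Lead.commutator_count g
  constructor
  · rintro ⟨a, b, hab⟩ hzero
    rw [hzero, mul_zero] at hcount
    have h0 : (Finset.univ.filter (fun p : G × G => p.1 * p.2 * p.1⁻¹ * p.2⁻¹ = g)).card = 0 := by
      exact_mod_cast hcount
    have hmem : (a, b) ∈ Finset.univ.filter (fun p : G × G => p.1 * p.2 * p.1⁻¹ * p.2⁻¹ = g) := by
      simp [hab]
    rw [Finset.card_eq_zero] at h0
    rw [h0] at hmem
    exact absurd hmem (Finset.notMem_empty _)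
  · intro hne
    have h1 : ((Finset.univ.filter
        (fun p : G × G => p.1 * p.2 * p.1⁻¹ * p.2⁻¹ = g)).card : ℂ) ≠ 0 := by
      rw [hcount]; exact mul_ne_zero hG hne
    have h2 : (Finset.univ.filter (fun p : G × G => p.1 * p.2 * p.1⁻¹ * p.2⁻¹ = g)).card ≠ 0 := by
      intro h; apply h1; rw [h]; simp
    obtain ⟨p, hp⟩ := Finset.card_pos.mp (Nat.pos_of_ne_zero h2)
    rw [Finset.mem_filter] at hp
    exact ⟨p.1, p.2, hp.2.symm⟩


end Cfsg.Agent.S0167
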