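import Cfsg.Statements.S0168
import Mathlib
import Cfsg.Agent.Lead.CharCore4
import Cfsg.Agent.S0139

set_option autoImplicit false
open Cfsg

namespace Cfsg.Agent.S0168

open scoped ComplexConjugate

/-- The Burnside–Brauer Theorem. Let χ be the character of a faithful complex representation of a finite group, taking m distinct values. Then every irreducible character has nonzero inner product with χ ^ i for some i < m. -/
theorem result {G : Type*} [Group G] [Fintype G] {V : Type*} [AddCommGroup V] [Module ℂ V] [FiniteDimensional ℂ V] (ρ : Representation ℂ G V) (hfaithful : Function.Injective ρ) (ψ : G → ℂ) (hψ : Cfsg.IsIrrCharacter G ψ) : ∃ i : ℕ, i < Nat.card (Set.range ρ.character) ∧ Cfsg.classInner (fun g => ρ.character g ^ i) ψ ≠ 0 := by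
  classical
  by_contra hcon
  push Not at hcon
  set χ : G → ℂ := ρ.character with hχ
  let R : Finset ℂ := Finset.univ.image χ
  have hRcard : Nat.card (Set.range χ) = R.card := by
    rw [Nat.card_eq_fintype_card, ← Set.toFinset_card, Set.toFinset_range]
  let d : ℂ := χ 1
  have hdR : d ∈ R := Finset.mem_image_of_mem χ (Finset.mem_univ 1)
  let L : Polynomial ℂ := ∏ a ∈ R.erase d, (Polynomial.X - Polynomial.C a)
  have hdeg : L.natDegree = R.card - 1 := by
    rw [Polynomial.natDegree_finsetProd_X_sub_C_eq_card, Finset.card_erase_of_mem hdR]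
  have hsum0 : ∀ i < R.card, ∑ g : G, χ g ^ i * conj (ψ g) = 0 := by
    intro i hi
    have h := hcon i (by rw [hRcard]; exact hi)
    unfold Cfsg.classInner at h
    have hG : (Nat.card G : ℂ)⁻¹ ≠ 0 := inv_ne_zero (by exact_mod_cast Nat.card_pos.ne')
    exact (mul_eq_zero.mp h).resolve_left hG
  have hS : ∑ g : G, L.eval (χ g) * conj (ψ g) = 0 := by
    have hexp : ∀ g : G, L.eval (χ g) * conj (ψ g)
        = ∑ i ∈ Finset.range (L.natDegree + 1), L.coeff i * (χ g ^ i * conj (ψ g)) := by
      intro g
      rw [Polynomial.eval_eq_sum_range, Finset.sum_mul]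
      exact Finset.sum_congr rfl (fun i _ => by ring)
    rw [Finset.sum_congr rfl (fun g _ => hexp g), Finset.sum_comm]
    apply Finset.sum_eq_zero
    intro i hi
    rw [← Finset.mul_sum, hsum0 i (by
      have := Finset.mem_range.mp hi
      have hpos : 0 < R.card := Finset.card_pos.mpr ⟨d, hdR⟩
      omega), mul_zero]
  have hS' : ∑ g : G, L.eval (χ g) * conj (ψ g) = L.eval d * conj (ψ 1) := by
    rw [Finset.sum_eq_single (1 : G)]
    · intro g _ hg
      have hne : χ g ≠ d := by
        intro h
        apply hg
        apply hfaithful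
        rw [map_one]
        have h1 : ρ.character g = (Module.finrank ℂ V : ℂ) := by
          rw [← hχ, h]; exact Representation.char_one ρ
        exact (Cfsg.Agent.S0139.result ρ g).mp h1
      have hmem : χ g ∈ R.erase d :=
        Finset.mem_erase.mpr ⟨hne, Finset.mem_image_of_mem χ (Finset.mem_univ g)⟩
      have h0 : L.eval (χ g) = 0 := by
        rw [Polynomial.eval_prod]
        exact Finset.prod_eq_zero hmem (by simp)
      rw [h0, zero_mul]
    · intro h; exact absurd (Finset.mem_univ _) h
  have hLd : L.eval d ≠ 0 := by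
    rw [Polynomial.eval_prod]
    apply Finset.prod_ne_zero_iff.mpr
    intro a ha
    simp only [Polynomial.eval_sub, Polynomial.eval_X, Polynomial.eval_C]
    exact sub_ne_zero.mpr (Finset.ne_of_mem_erase ha).symm
  obtain ⟨n, hn, hψ1⟩ := Lead.isIrrCharacter_one_eq_nat hψ
  have hψ1' : conj (ψ 1) ≠ 0 := by
    rw [hψ1, Complex.conj_natCast]
    exact_mod_cast hn.ne'
  rw [hS'] at hS
  exact (mul_ne_zero hLd hψ1') hS


end Cfsg.Agent.S0168
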