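import Cfsg.Statements.S0198
import Mathlib
import Cfsg.Agent.Lead.CharCore5
import Cfsg.Agent.Lead.CharCore4
import Cfsg.Agent.Lead.CharCore3
import Cfsg.Agent.Lead.CharOdd

set_option autoImplicit false
open Cfsg

namespace Cfsg.Agent.S0198

open scoped ComplexConjugate
open Cfsg.Agent.Lead

theorem norm_two_vec {ι : Type*} [Fintype ι] [DecidableEq ι] (c d : ι → ℤ) (hd : ∀ i, 0 < d i)
    (h2 : ∑ i, c i ^ 2 = 2) (h0 : ∑ i, c i * d i = 0) :
    ∃ α β, α ≠ β ∧ c α = 1 ∧ c β = -1 ∧ ∀ i, i ≠ α → i ≠ β → c i = 0 := by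
  have hle : ∀ i, c i ^ 2 ≤ 2 := by
    intro i
    rw [← h2]
    exact Finset.single_le_sum (fun j _ => sq_nonneg (c j)) (Finset.mem_univ i)
  have hrange : ∀ i, c i = -1 ∨ c i = 0 ∨ c i = 1 := by
    intro i
    have h := hle i
    have h1 : c i ≤ 1 := by nlinarith
    have h2 : -1 ≤ c i := by nlinarith
    omega
  have hsq : ∀ i, c i ^ 2 = if c i ≠ 0 then 1 else 0 := by
    intro i
    rcases hrange i with h | h | h <;> rw [h] <;> norm_num
  have hcard : (Finset.univ.filter (fun i => c i ≠ 0)).card = 2 := by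
    have : ∑ i, c i ^ 2 = ((Finset.univ.filter (fun i => c i ≠ 0)).card : ℤ) := by
      rw [Finset.card_filter]
      push_cast
      exact Finset.sum_congr rfl (fun i _ => hsq i)
    rw [h2] at this
    exact_mod_cast this.symm
  obtain ⟨α, β, hαβ, hS⟩ := Finset.card_eq_two.mp hcard
  have hα : c α ≠ 0 := by
    have : α ∈ Finset.univ.filter (fun i => c i ≠ 0) := by rw [hS]; simp
    exact (Finset.mem_filter.mp this).2
  have hβ : c β ≠ 0 := by
    have : β ∈ Finset.univ.filter (fun i => c i ≠ 0) := by rw [hS]; simp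
    exact (Finset.mem_filter.mp this).2
  have hrest : ∀ i, i ≠ α → i ≠ β → c i = 0 := by
    intro i hiα hiβ
    by_contra hne
    have : i ∈ Finset.univ.filter (fun i => c i ≠ 0) :=
      Finset.mem_filter.mpr ⟨Finset.mem_univ _, hne⟩
    rw [hS, Finset.mem_insert, Finset.mem_singleton] at this
    rcases this with h | h
    · exact hiα h
    · exact hiβ h
  have hsum : c α * d α + c β * d β = 0 := by
    rw [← h0]
    symm
    apply Finset.sum_eq_add α β hαβ
    · intro i _ h12
      rw [hrest i h12.1 h12.2, zero_mul]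
    · intro h; exact absurd (Finset.mem_univ α) h
    · intro h; exact absurd (Finset.mem_univ β) h
  have hdα := hd α
  have hdβ := hd β
  rcases hrange α with h | h | h
  · rcases hrange β with h' | h' | h'
    · exfalso; rw [h, h'] at hsum; linarith
    · exact absurd h' hβ
    · exact ⟨β, α, hαβ.symm, h', h, fun i h1 h2 => hrest i h2 h1⟩
  · exact absurd h hα
  · rcases hrange β with h' | h' | h'
    · exact ⟨α, β, hαβ, h, h', hrest⟩
    · exact absurd h' hβ
    · exfalso; rw [h, h'] at hsum; linarith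

theorem gen_decomp {G : Type*} [Group G] [Fintype G] [Fintype (Cfsg.IrrCharacter G)] {θ : G → ℂ}
    (hθ : Cfsg.IsGeneralizedCharacter G θ) :
    ∃ c : Cfsg.IrrCharacter G → ℤ, θ = ∑ φ : Cfsg.IrrCharacter G, (c φ : ℂ) • (φ : G → ℂ) := by
  classical
  obtain ⟨χ, ψ, hχ, hψ, rfl⟩ := hθ
  obtain ⟨m₁, hm₁⟩ := exists_multiset_irr hχ
  obtain ⟨m₂, hm₂⟩ := exists_multiset_irr hψ
  refine ⟨fun φ => (m₁.count φ : ℤ) - (m₂.count φ : ℤ), ?_⟩
  have hcf : Cfsg.IsClassFunction G (χ - ψ) :=
    isClassFunction_sub (isCharacter_isClassFunction hχ) (isCharacter_isClassFunction hψ)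
  have h1 := classFunction_eq_finsum (χ - ψ) hcf
  rw [finsum_eq_sum_of_fintype] at h1
  refine h1.trans ?_
  refine Finset.sum_congr rfl (fun φ _ => ?_)
  congr 1
  have hsub : χ - ψ = χ + (-1 : ℂ) • ψ := by ext; simp [sub_eq_add_neg]
  rw [hsub, classInner_add_left, classInner_smul_left, hm₁, hm₂, classInner_multiset_irr,
    classInner_multiset_irr]
  push_cast; ring

theorem inner_combo {G : Type*} [Group G] [Fintype G] [Fintype (Cfsg.IrrCharacter G)]
    (c c' : Cfsg.IrrCharacter G → ℤ) :
    Cfsg.classInner (∑ φ : Cfsg.IrrCharacter G, (c φ : ℂ) • (φ : G → ℂ))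
        (∑ φ : Cfsg.IrrCharacter G, (c' φ : ℂ) • (φ : G → ℂ))
      = ((∑ φ : Cfsg.IrrCharacter G, c φ * c' φ : ℤ) : ℂ) := by
  classical
  rw [classInner_sum_left]
  push_cast
  refine Finset.sum_congr rfl (fun φ _ => ?_)
  rw [classInner_smul_left, classInner_sum_right]
  simp only [classInner_smul_right, classInner_irr, map_intCast]
  rw [Finset.sum_eq_single φ]
  · simp
  · intro ψ _ hne; simp [Ne.symm hne]
  · intro h; exact absurd (Finset.mem_univ φ) h

theorem inner_diff {G : Type*} [Group G] [Fintype G] [DecidableEq (Cfsg.IrrCharacter G)]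
    (a b c d : Cfsg.IrrCharacter G) :
    Cfsg.classInner (a.1 - b.1) (c.1 - d.1) = (if a = c then (1 : ℂ) else 0) - (if a = d then 1 else 0)
      - (if b = c then 1 else 0) + (if b = d then 1 else 0) := by
  have h1 : a.1 - b.1 = a.1 + (-1 : ℂ) • b.1 := by ext; simp [sub_eq_add_neg]
  have h2 : c.1 - d.1 = c.1 + (-1 : ℂ) • d.1 := by ext; simp [sub_eq_add_neg]
  rw [h1, h2, classInner_add_left, classInner_add_right, classInner_add_right,
    classInner_smul_left, classInner_smul_right, classInner_smul_right, classInner_smul_left,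
    classInner_irr, classInner_irr, classInner_irr, classInner_irr]
  simp only [map_neg, map_one]
  ring

theorem norm_two_decomp {G : Type*} [Group G] [Fintype G] [Fintype (Cfsg.IrrCharacter G)]
    {θ : G → ℂ} (hθ : Cfsg.IsGeneralizedCharacter G θ) (h2 : Cfsg.classInner θ θ = 2)
    (h1 : θ 1 = 0) : ∃ α β : Cfsg.IrrCharacter G, α ≠ β ∧ θ = α.1 - β.1 := by
  classical
  obtain ⟨c, hc⟩ := gen_decomp hθ
  choose d hd using fun φ : Cfsg.IrrCharacter G => isIrrCharacter_one_eq_nat φ.2
  have hn : ∑ φ : Cfsg.IrrCharacter G, c φ ^ 2 = 2 := by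
    have h := inner_combo c c
    rw [← hc, h2] at h
    have h' : ((∑ φ : Cfsg.IrrCharacter G, c φ * c φ : ℤ) : ℂ) = ((2 : ℤ) : ℂ) := by
      rw [← h]; norm_num
    have h'' := Int.cast_injective h'
    rw [← h'']
    exact Finset.sum_congr rfl (fun φ _ => pow_two _)
  have h0 : ∑ φ : Cfsg.IrrCharacter G, c φ * (d φ : ℤ) = 0 := by
    have h : θ 1 = ∑ φ : Cfsg.IrrCharacter G, (c φ : ℂ) * (d φ : ℂ) := by
      rw [hc, Finset.sum_apply]
      refine Finset.sum_congr rfl (fun φ _ => ?_)
      rw [Pi.smul_apply, smul_eq_mul, (hd φ).2]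
    rw [h1] at h
    have h' : ((∑ φ : Cfsg.IrrCharacter G, c φ * (d φ : ℤ) : ℤ) : ℂ) = ((0 : ℤ) : ℂ) := by
      push_cast; exact h.symm
    exact Int.cast_injective h'
  obtain ⟨α, β, hαβ, hα, hβ, hrest⟩ := norm_two_vec c (fun φ => (d φ : ℤ))
    (fun φ => by exact_mod_cast (hd φ).1) hn h0
  refine ⟨α, β, hαβ, ?_⟩
  rw [hc]
  rw [Finset.sum_eq_add α β hαβ]
  · rw [hα, hβ]; ext g; simp [sub_eq_add_neg]
  · intro φ _ h12
    rw [hrest φ h12.1 h12.2]; simp
  · intro h; exact absurd (Finset.mem_univ α) h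
  · intro h; exact absurd (Finset.mem_univ β) h

/-- The isometry lemma behind exceptional characters. Let τ be a family of generalized characters of a finite group G indexed by Fin n, with τ i₀ = 0, every τ i vanishing at the identity, and inner products ⟨τ i, τ j⟩ = 2 if i = j and 1 otherwise for i, j ≠ i₀. Then there are a sign ε and pairwise distinct irreducible characters μ i with τ i = ε (μ i − μ i₀) for all i. -/
theorem result {G : Type*} [Group G] [Fintype G] (n : ℕ) (i₀ : Fin n) (τ : Fin n → (G → ℂ)) (h0 : τ i₀ = 0) (hgen : ∀ i, Cfsg.IsGeneralizedCharacter G (τ i)) (hone : ∀ i, τ i 1 = 0) (hgram : ∀ i j, i ≠ i₀ → j ≠ i₀ → Cfsg.classInner (τ i) (τ j) = if i = j then 2 else 1) : ∃ ε : ℂ, (ε = 1 ∨ ε = -1) ∧ ∃ μ : Fin n → (G → ℂ), (∀ i, Cfsg.IsIrrCharacter G (μ i)) ∧ Function.Injective μ ∧ ∀ i, τ i = ε • (μ i - μ i₀) := by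
  classical
  haveI : Finite (Cfsg.IrrCharacter G) := finite_irrCharacter G
  haveI : Fintype (Cfsg.IrrCharacter G) := Fintype.ofFinite _
  obtain ⟨triv, htriv⟩ : ∃ t : Cfsg.IrrCharacter G, t = ⟨fun _ => (1 : ℂ), isIrrCharacter_one⟩ :=
    ⟨_, rfl⟩
  have key : ∀ i : Fin n, ∃ α β : Cfsg.IrrCharacter G, i ≠ i₀ → (α ≠ β ∧ τ i = α.1 - β.1) := by
    intro i
    by_cases hi : i = i₀
    · exact ⟨triv, triv, fun h => absurd hi h⟩
    · have h2 := hgram i i hi hi
      rw [if_pos rfl] at h2
      obtain ⟨α, β, hαβ, hτ⟩ := norm_two_decomp (hgen i) h2 (hone i)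
      exact ⟨α, β, fun _ => ⟨hαβ, hτ⟩⟩
  choose α β hαβ using key
  have hd : ∀ i j, i ≠ i₀ → j ≠ i₀ → i ≠ j →
      (α i = α j ∧ β i ≠ β j) ∨ (β i = β j ∧ α i ≠ α j) := by
    intro i j hi hj hij
    have h := hgram i j hi hj
    rw [if_neg hij, (hαβ i hi).2, (hαβ j hj).2, inner_diff] at h
    have hi' := (hαβ i hi).1
    have hj' := (hαβ j hj).1
    by_cases h1 : α i = α j
    · by_cases h2 : β i = β j
      · exfalso
        have h3 : α i ≠ β j := fun h3 => hj' (h1.symm.trans h3)
        have h4 : β i ≠ α j := fun h4 => hj' (h4.symm.trans h2)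
        rw [if_pos h1, if_neg h3, if_neg h4, if_pos h2] at h
        norm_num at h
      · exact Or.inl ⟨h1, h2⟩
    · by_cases h2 : β i = β j
      · exact Or.inr ⟨h2, h1⟩
      · exfalso
        rw [if_neg h1, if_neg h2] at h
        by_cases h3 : α i = β j <;> by_cases h4 : β i = α j <;> norm_num [h3, h4] at h
  by_cases hJ : ∀ i : Fin n, i = i₀
  · refine ⟨1, Or.inl rfl, fun _ => triv.1, fun _ => triv.2, ?_, ?_⟩
    · intro i j _; rw [hJ i, hJ j]
    · intro i; rw [hJ i, h0]; simp
  · push Not at hJ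
    obtain ⟨i₁, hi₁⟩ := hJ
    by_cases hP : ∀ j, j ≠ i₀ → α j = α i₁
    · refine ⟨-1, Or.inr rfl, fun i => if i = i₀ then (α i₁).1 else (β i).1, ?_, ?_, ?_⟩
      · intro i
        show Cfsg.IsIrrCharacter G (if i = i₀ then (α i₁).1 else (β i).1)
        by_cases h : i = i₀
        · rw [if_pos h]; exact (α i₁).2
        · rw [if_neg h]; exact (β i).2
      · intro i j hij
        by_cases hi : i = i₀ <;> by_cases hj : j = i₀
        · rw [hi, hj]
        · exfalso
          have hij' : (α i₁).1 = (β j).1 := by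
            have := hij; simp only [if_pos hi, if_neg hj] at this; exact this
          exact (hαβ j hj).1 ((hP j hj).trans (Subtype.ext hij'))
        · exfalso
          have hij' : (β i).1 = (α i₁).1 := by
            have := hij; simp only [if_pos hj, if_neg hi] at this; exact this
          exact (hαβ i hi).1 ((hP i hi).trans (Subtype.ext hij'.symm))
        · have hij' : (β i).1 = (β j).1 := by
            have := hij; simp only [if_neg hi, if_neg hj] at this; exact this
          by_contra hne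
          rcases hd i j hi hj hne with ⟨_, h2⟩ | ⟨_, h2⟩
          · exact h2 (Subtype.ext hij')
          · exact h2 ((hP i hi).trans (hP j hj).symm)
      · intro i
        by_cases hi : i = i₀
        · rw [hi, h0]; simp
        · show τ i = (-1 : ℂ) • ((if i = i₀ then (α i₁).1 else (β i).1) -
            (if i₀ = i₀ then (α i₁).1 else (β i₀).1))
          rw [if_neg hi, if_pos rfl, (hαβ i hi).2, hP i hi, neg_one_smul, neg_sub]
    · by_cases hN : ∀ j, j ≠ i₀ → β j = β i₁
      · refine ⟨1, Or.inl rfl, fun i => if i = i₀ then (β i₁).1 else (α i).1, ?_, ?_, ?_⟩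
        · intro i
          show Cfsg.IsIrrCharacter G (if i = i₀ then (β i₁).1 else (α i).1)
          by_cases h : i = i₀
          · rw [if_pos h]; exact (β i₁).2
          · rw [if_neg h]; exact (α i).2
        · intro i j hij
          by_cases hi : i = i₀ <;> by_cases hj : j = i₀
          · rw [hi, hj]
          · exfalso
            have hij' : (β i₁).1 = (α j).1 := by
              have := hij; simp only [if_pos hi, if_neg hj] at this; exact this
            exact (hαβ j hj).1 ((Subtype.ext hij').symm.trans (hN j hj).symm)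
          · exfalso
            have hij' : (α i).1 = (β i₁).1 := by
              have := hij; simp only [if_pos hj, if_neg hi] at this; exact this
            exact (hαβ i hi).1 ((Subtype.ext hij').trans (hN i hi).symm)
          · have hij' : (α i).1 = (α j).1 := by
              have := hij; simp only [if_neg hi, if_neg hj] at this; exact this
            by_contra hne
            rcases hd i j hi hj hne with ⟨_, h2⟩ | ⟨_, h2⟩
            · exact h2 ((hN i hi).trans (hN j hj).symm)
            · exact h2 (Subtype.ext hij')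
        · intro i
          by_cases hi : i = i₀
          · rw [hi, h0]; simp
          · show τ i = (1 : ℂ) • ((if i = i₀ then (β i₁).1 else (α i).1) -
              (if i₀ = i₀ then (β i₁).1 else (α i₀).1))
            rw [if_neg hi, if_pos rfl, (hαβ i hi).2, hN i hi, one_smul]
      · exfalso
        push Not at hP hN
        obtain ⟨j, hj, hjα⟩ := hP
        obtain ⟨k, hk, hkβ⟩ := hN
        have hji : j ≠ i₁ := fun h => hjα (by rw [h])
        have hki : k ≠ i₁ := fun h => hkβ (by rw [h])
        have h1 : β j = β i₁ := by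
          rcases hd j i₁ hj hi₁ hji with ⟨h, _⟩ | ⟨h, _⟩
          · exact absurd h hjα
          · exact h
        have h2 : α k = α i₁ := by
          rcases hd k i₁ hk hi₁ hki with ⟨h, _⟩ | ⟨h, _⟩
          · exact h
          · exact absurd h hkβ
        have hjk : j ≠ k := fun h => hjα (by rw [h]; exact h2)
        rcases hd j k hj hk hjk with ⟨h, _⟩ | ⟨h, _⟩
        · exact hjα (h.trans h2)
        · exact hkβ (h.symm.trans h1)


end Cfsg.Agent.S0198
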