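import Cfsg.Statements.S0170
import Mathlib
import Cfsg.Agent.Lead.CharCore6
import Cfsg.Agent.Lead.CharCore3
import Cfsg.Agent.Lead.IndFun2
import Cfsg.Agent.S0148
import Cfsg.Agent.S0150
import Cfsg.Agent.S0198

set_option autoImplicit false
open Cfsg

namespace Cfsg.Agent.S0170

open scoped ComplexConjugate
open Cfsg.Agent.Lead

theorem extendByZero_sub' {G : Type*} [Group G] (H : Subgroup G) (ψ θ : H → ℂ) (g : G) :
    Cfsg.extendByZero H (ψ - θ) g = Cfsg.extendByZero H ψ g - Cfsg.extendByZero H θ g := by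
  by_cases h : g ∈ H
  · rw [extendByZero_mem H _ h, extendByZero_mem H _ h, extendByZero_mem H _ h]; rfl
  · rw [extendByZero_not_mem H _ h, extendByZero_not_mem H _ h, extendByZero_not_mem H _ h,
      sub_zero]

theorem indFun_sub' {G : Type*} [Group G] [Fintype G] (H : Subgroup G) (ψ θ : H → ℂ) :
    Cfsg.indFun H (ψ - θ) = Cfsg.indFun H ψ - Cfsg.indFun H θ := by
  funext g
  rw [Pi.sub_apply, indFun_apply, indFun_apply, indFun_apply, ← mul_sub,
    ← Finset.sum_sub_distrib]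
  congr 1
  exact Finset.sum_congr rfl (fun x _ => extendByZero_sub' H ψ θ _)

/-- Exceptional characters. Let S be a subset of a finite group contained in its normalizer N and meeting its conjugates by elements outside N only in the identity. Given n ≥ 2 distinct irreducible characters of N of equal degree that vanish on N away from S, there exist a sign ε and n distinct irreducible characters θ_i of G such that inducing χ_i − χ_j to G gives ε (θ_i − θ_j) for all i, j. -/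
theorem result {G : Type*} [Group G] [Fintype G] (S : Set G) (hSN : S ⊆ Subgroup.normalizer S) (hTI : ∀ g : G, g ∉ Subgroup.normalizer S → ∀ s ∈ S, g * s * g⁻¹ ∈ S → s = 1) (n : ℕ) (hn : 2 ≤ n) (χ : Fin n → (Subgroup.normalizer S → ℂ)) (hirr : ∀ i, Cfsg.IsIrrCharacter (Subgroup.normalizer S) (χ i)) (hinj : Function.Injective χ) (hvan : ∀ i, ∀ x : Subgroup.normalizer S, (x : G) ∉ S → χ i x = 0) (hdeg : ∀ i j, χ i 1 = χ j 1) : ∃ ε : ℂ, (ε = 1 ∨ ε = -1) ∧ ∃ θ : Fin n → (G → ℂ), (∀ i, Cfsg.IsIrrCharacter G (θ i)) ∧ Function.Injective θ ∧ ∀ i j, Cfsg.indFun (Subgroup.normalizer S) (χ i) - Cfsg.indFun (Subgroup.normalizer S) (χ j) = ε • (θ i - θ j) := by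
  classical
  haveI : Fintype (Subgroup.normalizer S) := Fintype.ofFinite _
  obtain ⟨i₀, hi₀⟩ : ∃ i₀ : Fin n, i₀ = ⟨0, by omega⟩ := ⟨_, rfl⟩
  obtain ⟨τ, hτ⟩ : ∃ τ : Fin n → (G → ℂ),
      ∀ i, τ i = Cfsg.indFun (Subgroup.normalizer S) (χ i - χ i₀) :=
    ⟨fun i => Cfsg.indFun (Subgroup.normalizer S) (χ i - χ i₀), fun i => rfl⟩
  have hτ' : ∀ i, τ i = Cfsg.indFun (Subgroup.normalizer S) (χ i) -
      Cfsg.indFun (Subgroup.normalizer S) (χ i₀) := fun i => by rw [hτ, indFun_sub']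
  have h0 : τ i₀ = 0 := by rw [hτ', sub_self]
  have hgen : ∀ i, Cfsg.IsGeneralizedCharacter G (τ i) := fun i =>
    ⟨_, _, Cfsg.Agent.S0148.result _ _ (isCharacter_of_isIrrCharacter (hirr i)),
      Cfsg.Agent.S0148.result _ _ (isCharacter_of_isIrrCharacter (hirr i₀)), hτ' i⟩
  have hone : ∀ i, τ i 1 = 0 := by
    intro i
    rw [hτ, indFun_one, Pi.sub_apply, hdeg i i₀, sub_self, mul_zero]
  have hcf : ∀ i, Cfsg.IsClassFunction (Subgroup.normalizer S) (χ i - χ i₀) := fun i =>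
    isClassFunction_sub (isCharacter_isClassFunction (isCharacter_of_isIrrCharacter (hirr i)))
      (isCharacter_isClassFunction (isCharacter_of_isIrrCharacter (hirr i₀)))
  have hvan' : ∀ i, ∀ x : Subgroup.normalizer S, (x : G) ∉ S → (χ i - χ i₀) x = 0 := by
    intro i x hx
    rw [Pi.sub_apply, hvan i x hx, hvan i₀ x hx, sub_zero]
  have hgram : ∀ i j, i ≠ i₀ → j ≠ i₀ →
      Cfsg.classInner (τ i) (τ j) = if i = j then 2 else 1 := by
    intro i j hi hj
    rw [hτ, hτ, Cfsg.Agent.S0150.result S hTI hSN (χ i - χ i₀) (χ j - χ i₀) (hcf i) (hcf j)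
      (hvan' i) (hvan' j) (by rw [Pi.sub_apply, hdeg i i₀, sub_self])]
    have h := Cfsg.Agent.S0198.inner_diff (G := Subgroup.normalizer S) ⟨χ i, hirr i⟩
      ⟨χ i₀, hirr i₀⟩ ⟨χ j, hirr j⟩ ⟨χ i₀, hirr i₀⟩
    refine h.trans ?_
    have e1 : ((⟨χ i, hirr i⟩ : Cfsg.IrrCharacter (Subgroup.normalizer S)) = ⟨χ j, hirr j⟩) ↔
        i = j := by
      constructor
      · intro h; exact hinj (congrArg Subtype.val h)
      · intro h; subst h; rfl
    have e2 : ¬ ((⟨χ i, hirr i⟩ : Cfsg.IrrCharacter (Subgroup.normalizer S)) =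
        ⟨χ i₀, hirr i₀⟩) := fun h => hi (hinj (congrArg Subtype.val h))
    have e3 : ¬ ((⟨χ i₀, hirr i₀⟩ : Cfsg.IrrCharacter (Subgroup.normalizer S)) =
        ⟨χ j, hirr j⟩) := fun h => hj (hinj (congrArg Subtype.val h)).symm
    by_cases hij : i = j
    · rw [if_pos (e1.mpr hij), if_neg e2, if_neg e3, if_pos rfl, if_pos hij]; norm_num
    · rw [if_neg (fun h => hij (e1.mp h)), if_neg e2, if_neg e3, if_pos rfl, if_neg hij]
      norm_num
  obtain ⟨ε, hε, μ, hμirr, hμinj, hμ⟩ := Cfsg.Agent.S0198.result n i₀ τ h0 hgen hone hgram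
  refine ⟨ε, hε, μ, hμirr, hμinj, ?_⟩
  intro i j
  have h1 := hμ i
  have h2 := hμ j
  rw [hτ'] at h1 h2
  calc Cfsg.indFun (Subgroup.normalizer S) (χ i) - Cfsg.indFun (Subgroup.normalizer S) (χ j)
      = (Cfsg.indFun (Subgroup.normalizer S) (χ i) - Cfsg.indFun (Subgroup.normalizer S) (χ i₀))
        - (Cfsg.indFun (Subgroup.normalizer S) (χ j)
          - Cfsg.indFun (Subgroup.normalizer S) (χ i₀)) := by abel
    _ = ε • (μ i - μ i₀) - ε • (μ j - μ i₀) := by rw [h1, h2]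
    _ = ε • (μ i - μ j) := by rw [← smul_sub]; congr 1; abel


end Cfsg.Agent.S0170
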