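import Cfsg.Statements.S0173
import Mathlib
import Cfsg.Agent.Lead.CharPerm

set_option autoImplicit false
open Cfsg

namespace Cfsg.Agent.S0173

/-- Brauer's permutation lemma for a single automorphism: the number of conjugacy classes mapped to themselves equals the number of irreducible complex characters χ with χ ∘ α = χ. -/
theorem result {G : Type*} [Group G] [Finite G] (α : G ≃* G) : Nat.card {C : ConjClasses G // ConjClasses.map α.toMonoidHom C = C} = Nat.card {χ : Cfsg.IrrCharacter G // (χ : G → ℂ) ∘ α = (χ : G → ℂ)} := by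
  classical
  have hβcl : ∀ g h : G, IsConj g h → (IsConj g (α g) ↔ IsConj h (α h)) := by
    intro g h hgh
    have h1 : IsConj (α g) (α h) := by
      obtain ⟨c, hc⟩ := isConj_iff.mp hgh
      exact isConj_iff.mpr ⟨α c, by rw [← hc]; simp⟩
    constructor
    · intro h2; exact (hgh.symm.trans h2).trans h1
    · intro h2; exact (hgh.trans h2).trans h1.symm
  have key := Lead.brauer_perm_general (G := G) (fun g => α g)
    (fun χ => Lead.isIrrCharacter_comp_mulEquiv α χ.2) hβcl
  have e1 : Nat.card {χ : Cfsg.IrrCharacter G // (χ : G → ℂ) ∘ α = (χ : G → ℂ)}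
      = Nat.card {χ : Cfsg.IrrCharacter G // (χ : G → ℂ) ∘ (fun g => α g) = (χ : G → ℂ)} := rfl
  rw [e1, key]
  refine Nat.card_congr (Equiv.subtypeEquivRight (fun c => ?_))
  obtain ⟨x, rfl⟩ := ConjClasses.mk_surjective c
  constructor
  · intro h g hg
    have h2 : ConjClasses.mk (α g) = ConjClasses.mk g := by
      have h3 : ConjClasses.map α.toMonoidHom (ConjClasses.mk g) = ConjClasses.mk g := by
        rw [hg]; exact h
      exact h3
    exact (ConjClasses.mk_eq_mk_iff_isConj.mp h2).symm
  · intro h
    have h2 := h x rfl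
    exact ConjClasses.mk_eq_mk_iff_isConj.mpr h2.symm


end Cfsg.Agent.S0173
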