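import Cfsg.Statements.S0171
import Mathlib
import Cfsg.Agent.Lead.CharPerm
import Cfsg.Agent.Lead.FrobKH
import Cfsg.Agent.S0173
import Cfsg.Agent.S0193
import Cfsg.Agent.S0148

set_option autoImplicit false
open Cfsg

namespace Cfsg.Agent.S0171

/-- Let G = K H with K normal, K ⊓ H trivial, and no non-identity element of H commuting with a non-identity element of K (a Frobenius group with kernel K and complement H). Then every non-principal irreducible character of K induces to an irreducible character of G. -/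
theorem result {G : Type*} [Group G] [Fintype G] (K H : Subgroup G) [K.Normal] (hKH : K ⊓ H = ⊥) (hKH' : K ⊔ H = ⊤) (hfpf : ∀ h ∈ H, h ≠ 1 → ∀ k ∈ K, h * k = k * h → k = 1) (τ : K → ℂ) (hτ : Cfsg.IsIrrCharacter K τ) (hτ1 : τ ≠ fun _ => 1) : Cfsg.IsIrrCharacter G (Cfsg.indFun K τ) := by
  classical
  have : Fintype K := Fintype.ofFinite K
  have hK0 : (Nat.card K : ℂ) ≠ 0 := Lead.natCard_ne_zero_complex K
  have hcf : Cfsg.IsClassFunction K τ :=
    Lead.isCharacter_isClassFunction (Lead.isCharacter_of_isIrrCharacter hτ)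
  -- a non-identity element of H does not fix τ
  have hnofix : ∀ h ∈ H, h ≠ 1 → τ ∘ (MulAut.conjNormal h : K ≃* K) ≠ τ := by
    intro h hh hh1 hfix
    have hB := Cfsg.Agent.S0173.result (G := K) (MulAut.conjNormal h : K ≃* K)
    have hone : Nat.card {C : ConjClasses K //
        ConjClasses.map (MulAut.conjNormal h : K ≃* K).toMonoidHom C = C} = 1 := by
      rw [Nat.card_eq_one_iff_unique]
      refine ⟨⟨?_⟩, ⟨⟨ConjClasses.mk 1, by
        change ConjClasses.mk ((MulAut.conjNormal h : K ≃* K) 1) = ConjClasses.mk 1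
        rw [map_one]⟩⟩⟩
      rintro ⟨C, hC⟩ ⟨D, hD⟩
      have hfixed : ∀ (C : ConjClasses K),
          ConjClasses.map (MulAut.conjNormal h : K ≃* K).toMonoidHom C = C →
          C = ConjClasses.mk 1 := by
        intro C hC
        obtain ⟨x, rfl⟩ := ConjClasses.mk_surjective C
        have h1 : ConjClasses.mk ((MulAut.conjNormal h : K ≃* K) x) = ConjClasses.mk x := hC
        have h2 := ConjClasses.mk_eq_mk_iff_isConj.mp h1
        obtain ⟨c, hc⟩ := isConj_iff.mp h2
        have h3 : (c : G) * (h * (x : G) * h⁻¹) * (c : G)⁻¹ = (x : G) := by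
          have := congrArg Subtype.val hc
          simpa [MulAut.conjNormal_apply] using this
        by_contra hne
        have hx1 : (x : G) ≠ 1 := by
          intro hx
          apply hne
          have : x = 1 := Subtype.ext hx
          rw [this]
        have h4 : ((c : G) * h) * (x : G) = (x : G) * ((c : G) * h) := by
          calc ((c : G) * h) * (x : G) = ((c : G) * (h * (x : G) * h⁻¹) * (c : G)⁻¹) * ((c : G) * h) := by group
            _ = (x : G) * ((c : G) * h) := by rw [h3]
        have h5 := Lead.frobKH_centralizer_le K H hKH hKH' hfpf (x : G) x.2 hx1 _ h4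
        have h6 : h ∈ K := by
          have := K.mul_mem (K.inv_mem c.2) h5
          simpa using this
        have h7 : h ∈ K ⊓ H := Subgroup.mem_inf.mpr ⟨h6, hh⟩
        rw [hKH, Subgroup.mem_bot] at h7
        exact hh1 h7
      apply Subtype.ext
      exact (hfixed C hC).trans (hfixed D hD).symm
    rw [hone] at hB
    have hsub := (Nat.card_eq_one_iff_unique.mp hB.symm).1
    have h8 : (⟨⟨τ, hτ⟩, hfix⟩ : {χ : Cfsg.IrrCharacter K //
        (χ : K → ℂ) ∘ (MulAut.conjNormal h : K ≃* K) = (χ : K → ℂ)})
        = ⟨⟨fun _ => 1, Lead.isIrrCharacter_one⟩, rfl⟩ := Subsingleton.elim _ _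
    exact hτ1 (congrArg (fun z => (z.1 : K → ℂ)) h8)
  -- the stabilizer of τ is K
  have hstab : Nat.card {g : G // ∀ k : K, τ ⟨g * k * g⁻¹,
      (inferInstance : K.Normal).conj_mem k k.2 g⟩ = τ k} = Nat.card K := by
    refine Nat.card_congr (Equiv.subtypeEquivRight (fun g => ?_))
    constructor
    · intro hg
      have hgtop : g ∈ K ⊔ H := by rw [hKH']; trivial
      obtain ⟨k₀, hk₀, h₀, hh₀, rfl⟩ := Subgroup.mem_sup_of_normal_left.mp hgtop
      by_cases hh1 : h₀ = 1
      · rw [hh1, mul_one]; exact hk₀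
      · exfalso
        apply hnofix h₀ hh₀ hh1
        funext k
        change τ ((MulAut.conjNormal h₀ : K ≃* K) k) = τ k
        have h1 := hg k
        have h2 := hcf ((MulAut.conjNormal h₀ : K ≃* K) k) ⟨k₀, hk₀⟩
        rw [← h1, ← h2]
        congr 1
        apply Subtype.ext
        simp [MulAut.conjNormal_apply, mul_assoc]
    · intro hg k
      have h1 := hcf k ⟨g, hg⟩
      rw [← h1]
      congr 1
  have h193 := Cfsg.Agent.S0193.result K τ hτ
  rw [hstab] at h193
  have hnorm : Cfsg.classInner (Cfsg.indFun K τ) (Cfsg.indFun K τ) = 1 := by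
    have := mul_left_cancel₀ hK0 (h193.trans (mul_one _).symm)
    exact this
  exact Lead.isIrrCharacter_of_classInner_eq_one
    (Cfsg.Agent.S0148.result K τ (Lead.isCharacter_of_isIrrCharacter hτ)) hnorm


end Cfsg.Agent.S0171
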