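import Cfsg.Statements.S0175
import Mathlib
import Cfsg.Agent.Lead.CharCore5
import Cfsg.Agent.Lead.CharCore4
import Cfsg.Agent.Lead.CharOdd
import Cfsg.Agent.Lead.CharLin
import Cfsg.Agent.Lead.IndFun2
import Cfsg.Agent.S0148
import Cfsg.Agent.S0146
import Cfsg.Agent.S0184

set_option autoImplicit false
open Cfsg

namespace Cfsg.Agent.S0175

open scoped ComplexConjugate commutatorElement
open Cfsg.Agent.Lead

theorem ind_lin_eq {G : Type*} [Group G] [Fintype G] (H : Subgroup G) (lam : H →* ℂˣ) (g : G)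
    (hg : ∀ x : G, ∃ hx : x⁻¹ * g * x ∈ H, lam ⟨x⁻¹ * g * x, hx⟩ = 1) :
    Cfsg.indFun H (fun h => (lam h : ℂ)) g = (Nat.card H : ℂ)⁻¹ * (Nat.card G : ℂ) := by
  rw [indFun_apply]
  congr 1
  have : ∀ x : G, Cfsg.extendByZero H (fun h => (lam h : ℂ)) (x⁻¹ * g * x) = 1 := by
    intro x
    obtain ⟨hx, hl⟩ := hg x
    rw [extendByZero_mem H _ hx, hl]; rfl
  rw [Finset.sum_congr rfl (fun x _ => this x), Finset.sum_const, Finset.card_univ,
    Nat.card_eq_fintype_card]
  simp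

theorem ind_one_eq_imp_mem {G : Type*} [Group G] [Fintype G] (H : Subgroup G) (g : G)
    (hg : Cfsg.indFun H (fun _ => (1 : ℂ)) g = Cfsg.indFun H (fun _ => (1 : ℂ)) 1) : g ∈ H := by
  classical
  rw [indFun_apply, indFun_apply] at hg
  have hH : (Nat.card H : ℂ)⁻¹ ≠ 0 := inv_ne_zero (by exact_mod_cast Nat.card_pos.ne')
  have h1 := mul_left_cancel₀ hH hg
  have e1 : ∀ x : G, Cfsg.extendByZero H (fun _ => (1 : ℂ)) (x⁻¹ * 1 * x) = 1 := by
    intro x
    have : x⁻¹ * 1 * x ∈ H := by rw [mul_one, inv_mul_cancel]; exact H.one_mem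
    rw [extendByZero_mem H _ this]
  have e2 : ∀ x : G, Cfsg.extendByZero H (fun _ => (1 : ℂ)) (x⁻¹ * g * x) =
      if x⁻¹ * g * x ∈ H then 1 else 0 := by
    intro x
    by_cases h : x⁻¹ * g * x ∈ H
    · rw [if_pos h, extendByZero_mem H _ h]
    · rw [if_neg h, extendByZero_not_mem H _ h]
  rw [Finset.sum_congr rfl (fun x _ => e1 x), Finset.sum_congr rfl (fun x _ => e2 x),
    Finset.sum_boole, Finset.sum_const, nsmul_eq_mul, mul_one] at h1
  have h2 : (Finset.univ.filter (fun x : G => x⁻¹ * g * x ∈ H)).card = (Finset.univ : Finset G).card := by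
    exact_mod_cast h1
  have h3 := Finset.card_filter_eq_iff.mp h2 1 (Finset.mem_univ _)
  simpa using h3

theorem taketa_aux {G : Type*} [Group G] [Fintype G]
    (hM : ∀ χ : G → ℂ, Cfsg.IsIrrCharacter G χ → ∃ (H : Subgroup G) (lam : H →* ℂˣ),
      χ = Cfsg.indFun H (fun h => (lam h : ℂ))) :
    ∀ d : ℕ, ∀ χ : G → ℂ, Cfsg.IsIrrCharacter G χ → χ 1 = (d : ℂ) →
      ∀ g ∈ derivedSeries G d, χ g = χ 1 := by
  classical
  intro d
  induction d using Nat.strong_induction_on with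
  | _ d ih =>
  intro χ hχ hd g hg
  obtain ⟨H, lam, hχH⟩ := hM χ hχ
  have hGne : (Nat.card G : ℂ) ≠ 0 := by exact_mod_cast Nat.card_pos.ne'
  have hHne : (Nat.card H : ℂ) ≠ 0 := by exact_mod_cast Nat.card_pos.ne'
  have hχ1 : χ 1 = (Nat.card H : ℂ)⁻¹ * (Nat.card G : ℂ) := by
    rw [hχH]
    apply ind_lin_eq
    intro x
    have hx : x⁻¹ * 1 * x ∈ H := by rw [mul_one, inv_mul_cancel]; exact H.one_mem
    refine ⟨hx, ?_⟩
    have : (⟨x⁻¹ * 1 * x, hx⟩ : H) = 1 := Subtype.ext (by simp)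
    rw [this, map_one]
  obtain ⟨d', hd'pos, hd'⟩ := isIrrCharacter_one_eq_nat hχ
  have hdd : d = d' := by
    have : (d : ℂ) = (d' : ℂ) := by rw [← hd, ← hd']
    exact_mod_cast this
  have hdpos : 0 < d := hdd ▸ hd'pos
  obtain ⟨π, hπ⟩ : ∃ π : G → ℂ, π = Cfsg.indFun H (fun _ => (1 : ℂ)) := ⟨_, rfl⟩
  have hπchar : Cfsg.IsCharacter G π := by
    rw [hπ]; exact Cfsg.Agent.S0148.result H _ isCharacter_one
  have hπ1 : π 1 = (d : ℂ) := by
    rw [← hd, hχ1, hπ]
    exact ind_lin_eq H (1 : H →* ℂˣ) 1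
      (fun x => ⟨by rw [mul_one, inv_mul_cancel]; exact H.one_mem, rfl⟩)
  obtain ⟨m, hm⟩ := exists_multiset_irr hπchar
  haveI : Fintype H := Fintype.ofFinite H
  obtain ⟨triv, htriv⟩ : ∃ t : Cfsg.IrrCharacter G, t = ⟨fun _ => (1 : ℂ), isIrrCharacter_one⟩ :=
    ⟨_, rfl⟩
  have htriv1 : ∀ x : G, triv.1 x = 1 := by intro x; rw [htriv]
  have hcount : m.count triv = 1 := by
    have h1 := classInner_multiset_irr m triv
    rw [← hm, hπ] at h1
    have h2 := Cfsg.Agent.S0146.result H (fun _ => (1 : ℂ)) triv.1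
      (fun a b => by rw [htriv1, htriv1])
    rw [h2] at h1
    have h3 : Cfsg.classInner (fun _ : H => (1 : ℂ)) (fun h : H => triv.1 (h : G)) = 1 := by
      unfold Cfsg.classInner
      simp only [htriv1, map_one, mul_one, Finset.sum_const, Finset.card_univ, nsmul_eq_mul]
      rw [Nat.card_eq_fintype_card]
      exact inv_mul_cancel₀ (by exact_mod_cast Fintype.card_ne_zero)
    rw [h3] at h1
    exact_mod_cast h1.symm
  have htm : triv ∈ m := Multiset.count_pos.mp (by omega)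
  choose deg hdeg using fun φ : Cfsg.IrrCharacter G => isIrrCharacter_one_eq_nat φ.2
  have hdegsum : (m.map deg).sum = d := by
    have h1 : π 1 = (((m.map deg).sum : ℕ) : ℂ) := by
      rw [hm, multiset_irr_sum_apply, Nat.cast_multiset_sum, Multiset.map_map]
      congr 1
      exact Multiset.map_congr rfl (fun φ _ => (hdeg φ).2)
    rw [hπ1] at h1
    exact_mod_cast h1.symm
  have hdegtriv : deg triv = 1 := by
    have h1 := (hdeg triv).2
    rw [htriv1] at h1
    exact_mod_cast h1.symm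
  obtain ⟨m', hm'⟩ : ∃ m' : Multiset (Cfsg.IrrCharacter G), m = triv ::ₘ m' :=
    ⟨m.erase triv, (Multiset.cons_erase htm).symm⟩
  have hdegsum' : (m'.map deg).sum = d - 1 := by
    rw [hm', Multiset.map_cons, Multiset.sum_cons, hdegtriv] at hdegsum
    omega
  have hkey : ∀ ψ ∈ m, ∀ y ∈ derivedSeries G (d - 1), ψ.1 y = ψ.1 1 := by
    intro ψ hψ y hy
    rw [hm', Multiset.mem_cons] at hψ
    rcases hψ with h | h
    · rw [h, htriv1, htriv1]
    · have hle : deg ψ ≤ d - 1 := by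
        rw [← hdegsum']
        exact Multiset.le_sum_of_mem (Multiset.mem_map_of_mem deg h)
      exact ih (deg ψ) (by omega) ψ.1 ψ.2 (hdeg ψ).2 y (derivedSeries_antitone G hle hy)
  have hDH : derivedSeries G (d - 1) ≤ H := by
    intro y hy
    apply ind_one_eq_imp_mem
    rw [← hπ, hm, multiset_irr_sum_apply, multiset_irr_sum_apply]
    congr 1
    exact Multiset.map_congr rfl (fun ψ hψ => hkey ψ hψ y hy)
  have hcomm : ⁅derivedSeries G (d - 1), derivedSeries G (d - 1)⁆ ≤ (lam.ker).map H.subtype := by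
    rw [Subgroup.commutator_le]
    intro a ha b hb
    refine Subgroup.mem_map.mpr ⟨⁅(⟨a, hDH ha⟩ : H), (⟨b, hDH hb⟩ : H)⁆, ?_, rfl⟩
    rw [MonoidHom.mem_ker, map_commutatorElement]
    exact commutatorElement_eq_one_iff_commute.mpr (Commute.all _ _)
  have hdsucc : derivedSeries G d = ⁅derivedSeries G (d - 1), derivedSeries G (d - 1)⁆ := by
    have : d = (d - 1) + 1 := by omega
    conv_lhs => rw [this]
    exact derivedSeries_succ G _
  rw [hχ1, hχH]
  apply ind_lin_eq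
  intro x
  have hxg : x⁻¹ * g * x ∈ derivedSeries G d := by
    have := (derivedSeries_normal (G := G) d).conj_mem g hg x⁻¹
    rw [inv_inv] at this; exact this
  rw [hdsucc] at hxg
  obtain ⟨w, hw, hwx⟩ := Subgroup.mem_map.mp (hcomm hxg)
  have hwx' : (w : G) = x⁻¹ * g * x := hwx
  refine ⟨hwx' ▸ w.2, ?_⟩
  have : (⟨x⁻¹ * g * x, hwx' ▸ w.2⟩ : H) = w := Subtype.ext hwx'.symm
  rw [this]
  exact MonoidHom.mem_ker.mp hw

/-- Taketa's Theorem on M-groups: if every irreducible complex character of a finite group is induced from a linear character (a homomorphism to ℂˣ) of some subgroup, the group is solvable. -/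
theorem result {G : Type*} [Group G] [Fintype G] (hM : ∀ χ : G → ℂ, Cfsg.IsIrrCharacter G χ → ∃ (H : Subgroup G) (lam : H →* ℂˣ), χ = Cfsg.indFun H (fun h => (lam h : ℂ))) : Group.IsSolvable G := by
  classical
  haveI : Finite (Cfsg.IrrCharacter G) := finite_irrCharacter G
  haveI : Fintype (Cfsg.IrrCharacter G) := Fintype.ofFinite _
  choose deg hdeg using fun φ : Cfsg.IrrCharacter G => isIrrCharacter_one_eq_nat φ.2
  obtain ⟨k, hk⟩ : ∃ k : ℕ, ∀ φ : Cfsg.IrrCharacter G, deg φ ≤ k :=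
    ⟨∑ φ, deg φ, fun φ => Finset.single_le_sum (fun _ _ => Nat.zero_le _) (Finset.mem_univ φ)⟩
  rw [Group.isSolvable_def]
  refine ⟨k, ?_⟩
  rw [eq_bot_iff]
  intro g hg
  rw [Subgroup.mem_bot]
  by_contra hg1
  obtain ⟨χ, hχ, hne⟩ := Cfsg.Agent.S0184.exists_irr_ne g hg1
  apply hne
  exact taketa_aux hM (deg ⟨χ, hχ⟩) χ hχ (hdeg ⟨χ, hχ⟩).2 g
    (derivedSeries_antitone G (hk ⟨χ, hχ⟩) hg)


end Cfsg.Agent.S0175
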