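import Cfsg.Statements.S0178
import Mathlib
import Cfsg.Agent.Lead.CharCore6
import Cfsg.Agent.S0146
import Cfsg.Agent.S0148

set_option autoImplicit false
open Cfsg

namespace Cfsg.Agent.S0178

/-- The degree of an irreducible complex representation of a finite group is at most the index of any abelian subgroup. -/
theorem result {G : Type*} [Group G] [Finite G] {V : Type*} [AddCommGroup V] [Module ℂ V] [FiniteDimensional ℂ V] (ρ : Representation ℂ G V) [ρ.IsIrreducible] (A : Subgroup G) (hA : ∀ a ∈ A, ∀ b ∈ A, a * b = b * a) : Module.finrank ℂ V ≤ A.index := by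
  classical
  have : Fintype G := Fintype.ofFinite G
  have : Fintype A := Fintype.ofFinite A
  have hirr : ρ.IsIrreducible := inferInstance
  have hχ : Cfsg.IsIrrCharacter G ρ.character := Lead.isIrrCharacter_of_rep ρ hirr
  have hnt : Nontrivial V := ((Lead.isIrreducible_iff ρ).mp hirr).1
  have hpos : 0 < Module.finrank ℂ V := Module.finrank_pos
  have hres : Cfsg.IsCharacter A (fun a : A => ρ.character a) :=
    Lead.isCharacter_res A (Lead.isCharacter_of_isIrrCharacter hχ)
  obtain ⟨m, hm⟩ := Lead.exists_multiset_irr hres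
  have hm0 : m ≠ 0 := by
    rintro rfl
    have h1 := congrFun hm 1
    simp only [Multiset.map_zero, Multiset.sum_zero, Pi.zero_apply] at h1
    have h2 : ρ.character ((1 : A) : G) = (Module.finrank ℂ V : ℂ) := by
      rw [Subgroup.coe_one]; exact Representation.char_one ρ
    rw [h2] at h1
    exact hpos.ne' (by exact_mod_cast h1)
  obtain ⟨lam, hlam⟩ := Multiset.exists_mem_of_ne_zero hm0
  have hcount : Cfsg.classInner (fun a : A => ρ.character a) (lam : A → ℂ)
      = (m.count lam : ℂ) := by
    rw [hm]; exact Lead.classInner_multiset_irr m lam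
  have hc1 : 1 ≤ m.count lam := Multiset.one_le_count_iff_mem.mpr hlam
  have hfrob : Cfsg.classInner (Cfsg.indFun A (lam : A → ℂ)) ρ.character
      = (m.count lam : ℂ) := by
    rw [Cfsg.Agent.S0146.result A (lam : A → ℂ) ρ.character
      (Lead.isCharacter_isClassFunction (Lead.isCharacter_of_isIrrCharacter hχ))]
    rw [← Lead.classInner_conj_symm, hcount]; simp
  have hind : Cfsg.IsCharacter G (Cfsg.indFun A (lam : A → ℂ)) :=
    Cfsg.Agent.S0148.result A _ (Lead.isCharacter_of_isIrrCharacter lam.2)
  obtain ⟨m', hm'⟩ := Lead.exists_multiset_irr hind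
  have hcount' : (m'.count (⟨ρ.character, hχ⟩ : Cfsg.IrrCharacter G) : ℂ)
      = (m.count lam : ℂ) := by
    rw [← hfrob, hm']; exact (Lead.classInner_multiset_irr m' ⟨ρ.character, hχ⟩).symm
  have hmem : (⟨ρ.character, hχ⟩ : Cfsg.IrrCharacter G) ∈ m' := by
    have : m'.count (⟨ρ.character, hχ⟩ : Cfsg.IrrCharacter G) = m.count lam := by
      exact_mod_cast hcount'
    exact Multiset.one_le_count_iff_mem.mp (by omega)
  obtain ⟨m'', rfl⟩ := Multiset.exists_cons_of_mem hmem
  obtain ⟨k, hk⟩ := Lead.isCharacter_one_eq_nat (Lead.isCharacter_multiset_sum m'')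
  have h1 := congrFun hm' 1
  rw [Multiset.map_cons, Multiset.sum_cons, Pi.add_apply, hk, Lead.indFun_one] at h1
  have hlam1 : (lam : A → ℂ) 1 = 1 :=
    Lead.irrCharacter_one_of_comm (fun a b => Subtype.ext (hA a a.2 b b.2)) lam
  rw [hlam1, mul_one] at h1
  have h2 : (A.index : ℂ) = (Module.finrank ℂ V : ℂ) + (k : ℂ) := by
    rw [h1]; congr 1; exact Representation.char_one ρ
  have : A.index = Module.finrank ℂ V + k := by exact_mod_cast h2
  omega


end Cfsg.Agent.S0178
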