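import Mathlib
import Cfsg.Agent.Helper2.GalAM3
import Cfsg.Agent.Helper2.ClsSep
import Cfsg.Agent.Lead.CharCore3
import Cfsg.Statements.S0180

set_option autoImplicit false
open Cfsg

namespace Cfsg.Agent.S0180

/-- Every irreducible complex character of a finite group takes only rational values if and only if g is conjugate to g ^ m for every element g and every m coprime to the group order. -/
theorem result {G : Type*} [Group G] [Finite G] : (∀ χ : Cfsg.IrrCharacter G, ∀ g : G, ∃ q : ℚ, (χ : G → ℂ) g = (q : ℂ)) ↔ ∀ m : ℕ, m.Coprime (Nat.card G) → ∀ g : G, IsConj g (g ^ m) := by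
  classical
  haveI : Fintype G := Fintype.ofFinite G
  set n := Nat.card G with hn
  have hnpos : 0 < n := Nat.card_pos
  have hζ : IsPrimitiveRoot (Complex.exp (2 * Real.pi * Complex.I / n)) n :=
    Complex.isPrimitiveRoot_exp n hnpos.ne'
  set ζ := Complex.exp (2 * Real.pi * Complex.I / n) with hζdef
  have hgn : ∀ g : G, g ^ n = 1 := fun g => by rw [hn]; exact pow_card_eq_one'
  constructor
  · intro hrat m hm g
    apply Cfsg.Agent.Helper2.ClsSep.isConj_of_irr_eq
    intro χ
    obtain ⟨F, hF⟩ := Cfsg.Agent.Helper2.GalAM.exists_poly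
      (Cfsg.Agent.Lead.isCharacter_of_isIrrCharacter χ.2) g n hnpos (hgn g) hζ
    obtain ⟨q, hq⟩ := hrat χ g
    have h1 := hF 1
    rw [pow_one, pow_one] at h1
    have hqc : (q.den : ℂ) * (q : ℂ) = (q.num : ℂ) := by
      have := congrArg (fun x : ℚ => (x : ℂ)) (Rat.den_mul_eq_num q)
      push_cast at this
      exact this
    have h0 : Polynomial.aeval ζ (Polynomial.C ((q.den : ℕ) : ℤ) * F - Polynomial.C q.num) = 0 := by
      rw [map_sub, map_mul, Polynomial.aeval_C, Polynomial.aeval_C]
      simp only [eq_intCast, Int.cast_natCast]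
      rw [← h1, hq, hqc, sub_self]
    have hprim : IsPrimitiveRoot (ζ ^ m) n := hζ.pow_of_coprime m hm
    have h2 := Cfsg.Agent.Helper2.GalAM.aeval_primitive_eq_zero _ n hnpos hζ hprim h0
    rw [map_sub, map_mul, Polynomial.aeval_C, Polynomial.aeval_C] at h2
    simp only [eq_intCast, Int.cast_natCast] at h2
    rw [← hF m] at h2
    have hden : (q.den : ℂ) ≠ 0 := by exact_mod_cast q.den_pos.ne'
    have h3 : (q.den : ℂ) * (χ : G → ℂ) (g ^ m) = (q.den : ℂ) * (χ : G → ℂ) g := by
      rw [hq, hqc]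
      linear_combination h2
    exact (mul_left_cancel₀ hden h3).symm
  · intro hconj χ g
    obtain ⟨F, hF⟩ := Cfsg.Agent.Helper2.GalAM.exists_poly
      (Cfsg.Agent.Lead.isCharacter_of_isIrrCharacter χ.2) g n hnpos (hgn g) hζ
    apply Cfsg.Agent.Helper2.GalAM.rational_of_const F n hnpos ((χ : G → ℂ) g)
    intro ω hω
    haveI : NeZero n := ⟨hnpos.ne'⟩
    obtain ⟨i, hi, hc, rfl⟩ := (hζ.isPrimitiveRoot_iff).mp ((mem_primitiveRoots hnpos).mp hω)
    rw [← hF i]
    exact (Cfsg.Agent.Lead.isClassFunction_apply_of_isConj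
      (Cfsg.Agent.Lead.isClassFunction_irr χ) (hconj i hc g)).symm


end Cfsg.Agent.S0180
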