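import Cfsg.Statements.S0181
import Mathlib
import Cfsg.Agent.Lead.CharCore5

set_option autoImplicit false
open Cfsg

namespace Cfsg.Agent.S0181

/-- Let H be a normal subgroup of a finite group G and ρ an irreducible complex representation whose kernel does not contain H. If g commutes with no non-identity element of H, then the character of ρ vanishes at g. -/
theorem result {G : Type*} [Group G] [Finite G] {V : Type*} [AddCommGroup V] [Module ℂ V] [FiniteDimensional ℂ V] (ρ : Representation ℂ G V) [ρ.IsIrreducible] (H : Subgroup G) [H.Normal] (hker : ∃ h ∈ H, ρ h ≠ LinearMap.id) (g : G) (hg : ∀ h ∈ H, h * g = g * h → h = 1) : ρ.character g = 0 := by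
  classical
  have : Fintype H := Fintype.ofFinite H
  have hirr : ρ.IsIrreducible := inferInstance
  set T : Module.End ℂ V := ∑ h : H, ρ (h : G) with hT
  have hcomm : ∀ x : G, T ∘ₗ ρ x = ρ x ∘ₗ T := by
    intro x
    change T * ρ x = ρ x * T
    rw [hT, Finset.sum_mul, Finset.mul_sum]
    simp only [← map_mul]
    refine Fintype.sum_equiv (MulAut.conjNormal x⁻¹ : H ≃* H).toEquiv _ _ (fun h => ?_)
    congr 1
    simp only [MulEquiv.toEquiv_eq_coe, MulEquiv.coe_toEquiv, MulAut.conjNormal_apply, inv_inv]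
    group
  obtain ⟨c, hc⟩ := Lead.schur_scalar ρ hirr T hcomm
  obtain ⟨k, hkH, hk⟩ := hker
  have hkT : ρ k * T = T := by
    rw [hT, Finset.mul_sum]
    simp only [← map_mul]
    refine Fintype.sum_equiv (Equiv.mulLeft (⟨k, hkH⟩ : H)) _ _ (fun h => ?_)
    rfl
  have hc0 : c = 0 := by
    by_contra hne
    apply hk
    rw [hc] at hkT
    have h1 : c • ρ k = c • (LinearMap.id : V →ₗ[ℂ] V) := by
      rw [← hkT]; ext v; simp
    exact smul_right_injective _ hne h1
  have hT0 : T = 0 := by rw [hc, hc0, zero_smul]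
  have htr : ∑ h : H, ρ.character ((h : G) * g) = 0 := by
    have h1 : LinearMap.trace ℂ V (T * ρ g) = 0 := by rw [hT0, zero_mul, map_zero]
    rw [hT, Finset.sum_mul, map_sum] at h1
    rw [← h1]
    refine Finset.sum_congr rfl (fun h _ => ?_)
    rw [← map_mul]; rfl
  have hmem : ∀ x : H, (x : G)⁻¹ * g * x * g⁻¹ ∈ H := by
    intro x
    have h1 : g * x * g⁻¹ ∈ H := Subgroup.Normal.conj_mem inferInstance (x : G) x.2 g
    have h2 := H.mul_mem (H.inv_mem x.2) h1
    convert h2 using 1; group
  let f : H → H := fun x => ⟨(x : G)⁻¹ * g * x * g⁻¹, hmem x⟩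
  have hinj : Function.Injective f := by
    intro x y hxy
    have h1 : (x : G)⁻¹ * g * x * g⁻¹ = (y : G)⁻¹ * g * y * g⁻¹ := congrArg Subtype.val hxy
    have h3 : (x : G)⁻¹ * g * x = (y : G)⁻¹ * g * y := by
      simpa using congrArg (· * g) h1
    have h2 : ((y : G) * (x : G)⁻¹) * g = g * ((y : G) * (x : G)⁻¹) := by
      calc (y : G) * (x : G)⁻¹ * g = y * ((x : G)⁻¹ * g * x) * (x : G)⁻¹ := by group
        _ = y * ((y : G)⁻¹ * g * y) * (x : G)⁻¹ := by rw [h3]
        _ = g * ((y : G) * (x : G)⁻¹) := by group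
    have h4 := hg _ (H.mul_mem y.2 (H.inv_mem x.2)) h2
    apply Subtype.ext
    have h5 : (y : G) = x := by
      calc (y : G) = (y : G) * (x : G)⁻¹ * x := by group
        _ = x := by rw [h4, one_mul]
    exact h5.symm
  have hbij : Function.Bijective f := Finite.injective_iff_bijective.mp hinj
  have hsum : ∑ h : H, ρ.character ((h : G) * g) = ∑ x : H, ρ.character ((f x : G) * g) :=
    (Fintype.sum_bijective f hbij _ _ (fun x => rfl)).symm
  rw [hsum] at htr
  have hval : ∀ x : H, ρ.character ((f x : G) * g) = ρ.character g := by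
    intro x
    have h1 : ((f x : H) : G) * g = (x : G)⁻¹ * g * ((x : G)⁻¹)⁻¹ := by
      simp [f]
    rw [h1, Representation.char_conj]
  simp only [hval] at htr
  rw [Finset.sum_const, Finset.card_univ, nsmul_eq_mul] at htr
  rcases mul_eq_zero.mp htr with h | h
  · exfalso
    have h1 : Fintype.card H ≠ 0 := Fintype.card_ne_zero
    exact h1 (by exact_mod_cast h)
  · exact h


end Cfsg.Agent.S0181
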