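import Cfsg.Statements.S0185
import Mathlib
import Cfsg.Agent.Lead.CharLin
import Cfsg.Agent.Lead.CharOdd
import Cfsg.Agent.S0139

set_option autoImplicit false
open Cfsg

namespace Cfsg.Agent.S0185

/-- If a finite group has a faithful complex representation of degree less than the smallest prime dividing its order, the group is abelian. -/
theorem result {G : Type*} [Group G] [Finite G] {V : Type*} [AddCommGroup V] [Module ℂ V] [FiniteDimensional ℂ V] (ρ : Representation ℂ G V) (hfaithful : Function.Injective ρ) (hdeg : ∀ p : ℕ, p.Prime → p ∣ Nat.card G → Module.finrank ℂ V < p) (a b : G) : a * b = b * a := by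
  classical
  obtain ⟨m, hm⟩ := Lead.exists_multiset_irr_of_rep ρ
  have happ : ∀ g : G, ρ.character g
      = (m.map (fun ψ : Cfsg.IrrCharacter G => (ψ : G → ℂ) g)).sum := by
    intro g; rw [hm]; exact Lead.multiset_irr_sum_apply m g
  choose deg hdegpos hdeg1 hdegdvd using
    (fun ψ : Cfsg.IrrCharacter G => Lead.irrCharacter_degree_dvd_card ψ)
  have hfr : Module.finrank ℂ V = (m.map deg).sum := by
    have h1 := happ 1
    rw [Representation.char_one] at h1
    have h2 : (m.map (fun ψ : Cfsg.IrrCharacter G => (ψ : G → ℂ) 1))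
        = (m.map deg).map (fun k : ℕ => (k : ℂ)) := by
      rw [Multiset.map_map]
      exact Multiset.map_congr rfl (fun ψ _ => hdeg1 ψ)
    rw [h2, ← Nat.cast_multiset_sum] at h1
    exact_mod_cast h1
  have hlin : ∀ ψ ∈ m, (ψ : G → ℂ) 1 = 1 := by
    intro ψ hψ
    have hle : deg ψ ≤ Module.finrank ℂ V := by
      rw [hfr]
      exact Multiset.le_sum_of_mem (Multiset.mem_map_of_mem deg hψ)
    by_contra hne
    have hn1 : deg ψ ≠ 1 := fun h => hne (by rw [hdeg1 ψ, h]; simp)
    obtain ⟨p, hp, hpn⟩ := Nat.exists_prime_and_dvd hn1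
    have h3 := hdeg p hp (hpn.trans (hdegdvd ψ))
    have h4 := Nat.le_of_dvd (hdegpos ψ) hpn
    omega
  have hc : ρ.character (a * b * a⁻¹ * b⁻¹) = ρ.character 1 := by
    rw [happ, happ]
    congr 1
    apply Multiset.map_congr rfl
    intro ψ hψ
    rw [hlin ψ hψ]
    exact Lead.linear_commutator_eq_one (Lead.isCharacter_of_isIrrCharacter ψ.2) (hlin ψ hψ) a b
  rw [Representation.char_one] at hc
  have h2 := (Cfsg.Agent.S0139.result ρ _).mp hc
  have h3 : a * b * a⁻¹ * b⁻¹ = 1 := hfaithful (by rw [h2, map_one]; rfl)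
  have h4 := congrArg (· * b * a) h3
  simpa [mul_assoc] using h4


end Cfsg.Agent.S0185
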