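import Cfsg.Statements.S0186
import Mathlib
import Cfsg.Agent.Lead.CharOdd
import Cfsg.Agent.Lead.RepInv
import Cfsg.Agent.S0185
import Cfsg.Agent.S0133
import Cfsg.Agent.S0134

set_option autoImplicit false
open Cfsg

namespace Cfsg.Agent.S0186

/-- Let G be a finite simple group of order n and p a prime dividing n. If G has more than n / p^2 conjugacy classes, then every Sylow p-subgroup of G is abelian. -/
theorem result {G : Type*} [Group G] [Finite G] [IsSimpleGroup G] (p : ℕ) [Fact p.Prime] (hp : p ∣ Nat.card G) (hmany : Nat.card G < p ^ 2 * Nat.card (ConjClasses G)) (P : Sylow p G) (a b : G) (ha : a ∈ P) (hb : b ∈ P) : a * b = b * a := by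
  classical
  by_contra hab
  have hpp : p.Prime := Fact.out
  have hfin : Finite (Cfsg.IrrCharacter G) := Lead.finite_irrCharacter G
  have : Fintype (Cfsg.IrrCharacter G) := Fintype.ofFinite _
  let χ₀ : Cfsg.IrrCharacter G := ⟨fun _ => 1, Lead.isIrrCharacter_one⟩
  choose deg hdegpos hdeg1 hdegdvd using
    (fun ψ : Cfsg.IrrCharacter G => Lead.irrCharacter_degree_dvd_card ψ)
  obtain ⟨k, hk⟩ := (IsPGroup.iff_card.mp P.isPGroup')
  have hbig : ∀ ψ : Cfsg.IrrCharacter G, ψ ≠ χ₀ → p ≤ deg ψ := by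
    intro ψ hψ
    by_contra hlt
    push Not at hlt
    obtain ⟨n, σ, hi, hσ⟩ := ψ.2
    have hn : n = deg ψ := by
      have h1 := hdeg1 ψ
      rw [← hσ, Representation.char_one, Module.finrank_fin_fun] at h1
      exact_mod_cast h1
    have hinj : Function.Injective σ := by
      have hK : (MonoidHom.ker σ).Normal := MonoidHom.normal_ker σ
      rcases hK.eq_bot_or_eq_top with h | h
      · intro x y hxy
        have h2 : x * y⁻¹ ∈ MonoidHom.ker σ := by
          rw [MonoidHom.mem_ker, map_mul, hxy, ← map_mul, mul_inv_cancel, map_one]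
        rw [h, Subgroup.mem_bot] at h2
        exact mul_inv_eq_one.mp h2
      · exfalso
        apply hψ
        apply Subtype.ext
        have := hi
        have hnt : Nontrivial (Fin n → ℂ) := ((Lead.isIrreducible_iff σ).mp hi).1
        obtain ⟨v, hv⟩ := exists_ne (0 : Fin n → ℂ)
        rw [← hσ]
        refine Lead.irr_character_eq_one_of_fixed σ v hv (fun x => ?_)
        have hx : x ∈ MonoidHom.ker σ := by rw [h]; trivial
        rw [MonoidHom.mem_ker.mp hx]; rfl
    let τ : Representation ℂ (P : Subgroup G) (Fin n → ℂ) := σ.comp (P : Subgroup G).subtype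
    have hτ : Function.Injective τ := fun x y hxy => Subtype.ext (hinj hxy)
    have hcomm := Cfsg.Agent.S0185.result τ hτ (by
      intro r hr hrdvd
      rw [hk] at hrdvd
      have hrp : r = p := (Nat.prime_dvd_prime_iff_eq hr hpp).mp (hr.dvd_of_dvd_pow hrdvd)
      rw [hrp, Module.finrank_fin_fun, hn]; exact hlt) ⟨a, ha⟩ ⟨b, hb⟩
    exact hab (congrArg Subtype.val hcomm)
  have hsum : ∑ ψ : Cfsg.IrrCharacter G, (deg ψ) ^ 2 = Nat.card G := by
    have h := Cfsg.Agent.S0134.result (G := G)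
    rw [finsum_eq_sum_of_fintype] at h
    have h2 : ∑ ψ : Cfsg.IrrCharacter G, ((ψ : G → ℂ) 1) ^ 2
        = ((∑ ψ : Cfsg.IrrCharacter G, (deg ψ) ^ 2 : ℕ) : ℂ) := by
      push_cast
      exact Finset.sum_congr rfl (fun ψ _ => by rw [hdeg1 ψ])
    rw [h2] at h
    exact_mod_cast h
  have hkc : Fintype.card (Cfsg.IrrCharacter G) = Nat.card (ConjClasses G) := by
    rw [← Nat.card_eq_fintype_card]; exact Cfsg.Agent.S0133.result
  have hge : 1 + (Nat.card (ConjClasses G) - 1) * p ^ 2 ≤ Nat.card G := by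
    rw [← hsum, ← Finset.add_sum_erase Finset.univ _ (Finset.mem_univ χ₀)]
    have h0 : deg χ₀ = 1 := by
      have h1 := hdeg1 χ₀
      have h2 : (χ₀ : G → ℂ) 1 = 1 := rfl
      rw [h2] at h1
      exact_mod_cast h1.symm
    rw [h0]
    have h3 : (Nat.card (ConjClasses G) - 1) * p ^ 2 ≤ ∑ ψ ∈ Finset.univ.erase χ₀, deg ψ ^ 2 := by
      have hc : (Finset.univ.erase χ₀).card = Nat.card (ConjClasses G) - 1 := by
        rw [Finset.card_erase_of_mem (Finset.mem_univ χ₀), Finset.card_univ, hkc]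
      rw [← hc, ← smul_eq_mul, ← Finset.sum_const]
      exact Finset.sum_le_sum
        (fun ψ hψ => Nat.pow_le_pow_left (hbig ψ (Finset.ne_of_mem_erase hψ)) 2)
    omega
  have hk2 : 2 ≤ k := by
    by_contra hlt
    push Not at hlt
    have hdvd : Nat.card (P : Subgroup G) ∣ p := by
      rw [hk]
      calc p ^ k ∣ p ^ 1 := pow_dvd_pow p (by omega)
        _ = p := pow_one p
    have hcyc : IsCyclic (P : Subgroup G) := isCyclic_of_card_dvd_prime hdvd
    have h5 : (⟨a, ha⟩ : (P : Subgroup G)) * ⟨b, hb⟩ = ⟨b, hb⟩ * ⟨a, ha⟩ :=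
      (IsCyclic.isMulCommutative (α := (P : Subgroup G))).is_comm.comm _ _
    exact hab (congrArg Subtype.val h5)
  have hp2 : p ^ 2 ∣ Nat.card G :=
    ((pow_dvd_pow p hk2).trans (hk ▸ dvd_refl _)).trans
      (Subgroup.card_subgroup_dvd_card (P : Subgroup G))
  obtain ⟨t, ht⟩ := hp2
  rw [ht] at hmany hge
  have hp2pos : 0 < p ^ 2 := pow_pos hpp.pos 2
  have h6 : t < Nat.card (ConjClasses G) := lt_of_mul_lt_mul_left hmany (Nat.zero_le _)
  have h7 : t ≤ Nat.card (ConjClasses G) - 1 := by omega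
  have h8 : p ^ 2 * t ≤ (Nat.card (ConjClasses G) - 1) * p ^ 2 := by
    rw [mul_comm]; exact Nat.mul_le_mul_right _ h7
  omega


end Cfsg.Agent.S0186
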