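import Cfsg.Statements.S0187
import Mathlib
import Cfsg.Agent.Lead.CharCore4
import Cfsg.Agent.S0134

set_option autoImplicit false
open Cfsg

namespace Cfsg.Agent.S0187

/-- A finite group is commutative if and only if every irreducible complex character has degree 1. -/
theorem result {G : Type*} [Group G] [Finite G] : (∀ a b : G, a * b = b * a) ↔ ∀ χ : Cfsg.IrrCharacter G, (χ : G → ℂ) 1 = 1 := by
  classical
  constructor
  · intro hcomm χ
    have : IsMulCommutative G := ⟨⟨hcomm⟩⟩
    obtain ⟨n, ρ, hi, hρ⟩ := χ.2
    have := hi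
    rw [← hρ, Representation.char_one, Representation.IsIrreducible.finrank_eq_one_of_isMulCommutative ρ]
    simp
  · intro hall
    have : Finite (Cfsg.IrrCharacter G) := Lead.finite_irrCharacter G
    have : Fintype (Cfsg.IrrCharacter G) := Fintype.ofFinite _
    have h1 := Cfsg.Agent.S0134.result (G := G)
    have h2 : ∑ᶠ χ : Cfsg.IrrCharacter G, (χ : G → ℂ) 1 ^ 2 = (Nat.card (Cfsg.IrrCharacter G) : ℂ) := by
      rw [finsum_eq_sum_of_fintype]
      simp only [hall, one_pow, Finset.sum_const, Finset.card_univ, nsmul_eq_mul, mul_one]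
      rw [Nat.card_eq_fintype_card]
    rw [h2] at h1
    have h3 : Nat.card (Cfsg.IrrCharacter G) = Nat.card G := by exact_mod_cast h1
    rw [Lead.card_irrCharacter G] at h3
    have hbij : Function.Bijective (ConjClasses.mk : G → ConjClasses G) :=
      ConjClasses.mk_surjective.bijective_of_nat_card_le h3.ge
    intro a b
    have h4 : ConjClasses.mk (a * b * a⁻¹) = ConjClasses.mk b :=
      ConjClasses.mk_eq_mk_iff_isConj.mpr (isConj_iff.mpr ⟨a, rfl⟩).symm
    have h5 := hbij.1 h4
    calc a * b = a * b * a⁻¹ * a := by group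
      _ = b * a := by rw [h5]


end Cfsg.Agent.S0187
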