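import Cfsg.Statements.S0189
import Mathlib
import Cfsg.Agent.Lead.RepInv

set_option autoImplicit false
open Cfsg

namespace Cfsg.Agent.S0189

/-- If a complex character of a finite group vanishes at every non-identity element of a Sylow p-subgroup P, then |P| divides its degree. -/
theorem result {G : Type*} [Group G] [Finite G] (p : ℕ) [Fact p.Prime] (P : Sylow p G) (χ : G → ℂ) (hχ : Cfsg.IsCharacter G χ) (hvan : ∀ g : G, g ∈ P → g ≠ 1 → χ g = 0) : ∃ k : ℕ, χ 1 = (Nat.card P : ℂ) * k := by
  classical
  obtain ⟨n, ρ, rfl⟩ := hχ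
  haveI : Fintype (P : Subgroup G) := Fintype.ofFinite _
  have hP : (Nat.card (P : Subgroup G) : ℂ) ≠ 0 := by exact_mod_cast Nat.card_pos.ne'
  have h1 := Lead.classInner_res_one ρ (P : Subgroup G)
  unfold Cfsg.classInner at h1
  have h2 : ∑ x : (P : Subgroup G), ρ.character x * (starRingEnd ℂ) 1 = ρ.character 1 := by
    rw [Finset.sum_eq_single (1 : (P : Subgroup G))]
    · simp
    · intro x _ hx
      have := hvan x x.2 (fun h => hx (Subtype.ext h))
      rw [this, zero_mul]
    · intro h; exact absurd (Finset.mem_univ _) h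
  rw [h2] at h1
  refine ⟨Module.finrank ℂ (Representation.invariants (ρ.comp (P : Subgroup G).subtype)), ?_⟩
  rw [← h1]
  field_simp


end Cfsg.Agent.S0189
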