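import Cfsg.Statements.S0190
import Mathlib
import Cfsg.Agent.Lead.IndFun

set_option autoImplicit false
open Cfsg

namespace Cfsg.Agent.S0190

/-- For a transitive action of a finite group on X, the permutation character g ↦ (number of fixed points of g) is the function induced from the principal character of the stabilizer of any point. -/
theorem result {G : Type*} [Group G] [Fintype G] (X : Type*) [MulAction G X] [Finite X] [MulAction.IsPretransitive G X] (x : X) : (fun g : G => (Nat.card (MulAction.fixedBy X g) : ℂ)) = Cfsg.indFun (MulAction.stabilizer G x) (fun _ => 1) := by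
  classical
  obtain ⟨c, hc⟩ : ∃ c : X → G, ∀ z, c z • x = z :=
    ⟨fun z => (MulAction.exists_smul_eq G x z).choose,
      fun z => (MulAction.exists_smul_eq G x z).choose_spec⟩
  funext g
  let e : {y : G // g • (y • x) = y • x} ≃ (MulAction.fixedBy X g) × (MulAction.stabilizer G x) :=
    { toFun := fun y => (⟨y.1 • x, y.2⟩, ⟨(c (y.1 • x))⁻¹ * y.1, by
          rw [MulAction.mem_stabilizer_iff, mul_smul, inv_smul_eq_iff, hc]⟩)
      invFun := fun p => ⟨c p.1.1 * p.2.1, by
          have h2 : (p.2.1 : G) • x = x := p.2.2
          rw [mul_smul, h2, hc]; exact p.1.2⟩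
      left_inv := fun y => by
          apply Subtype.ext
          simp
      right_inv := fun p => by
          obtain ⟨⟨z, hz⟩, ⟨s, hs⟩⟩ := p
          have hs' : s • x = x := hs
          simp [mul_smul, hs', hc] }
  have hcard : Nat.card {y : G // g • (y • x) = y • x}
      = Nat.card (MulAction.fixedBy X g) * Nat.card (MulAction.stabilizer G x) := by
    rw [Nat.card_congr e, Nat.card_prod]
  unfold Cfsg.indFun
  have h1 : ∀ y : G, Cfsg.extendByZero (MulAction.stabilizer G x) (fun _ => (1:ℂ)) (y⁻¹ * g * y)
      = if g • (y • x) = y • x then 1 else 0 := by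
    intro y
    by_cases h : g • (y • x) = y • x
    · rw [if_pos h, Lead.extendByZero_mem]
      rw [MulAction.mem_stabilizer_iff, mul_smul, mul_smul, h, inv_smul_smul]
    · rw [if_neg h, Lead.extendByZero_not_mem]
      intro h'
      apply h
      rw [MulAction.mem_stabilizer_iff, mul_smul, mul_smul, inv_smul_eq_iff] at h'
      exact h'
  simp only [h1]
  rw [Finset.sum_boole, ← Fintype.card_subtype, ← Nat.card_eq_fintype_card, hcard]
  have hS : (Nat.card (MulAction.stabilizer G x) : ℂ) ≠ 0 := Lead.natCard_ne_zero_complex _
  push_cast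
  field_simp


end Cfsg.Agent.S0190
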