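import Mathlib
import Cfsg.Agent.Helper2.GalAM2
import Cfsg.Agent.Lead.CharCore
import Cfsg.Statements.S0191

set_option autoImplicit false
open Cfsg

namespace Cfsg.Agent.S0191

/-- An irreducible complex representation of a finite group of degree greater than 1 has a character that vanishes somewhere. -/
theorem result {G : Type*} [Group G] [Finite G] {V : Type*} [AddCommGroup V] [Module ℂ V] [FiniteDimensional ℂ V] (ρ : Representation ℂ G V) [ρ.IsIrreducible] (hdeg : 1 < Module.finrank ℂ V) : ∃ g : G, ρ.character g = 0 := by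
  classical
  by_contra hno
  push_neg at hno
  haveI : Fintype G := Fintype.ofFinite G
  have hirr : Cfsg.IsIrrCharacter G ρ.character :=
    Cfsg.Agent.Lead.isIrrCharacter_of_rep ρ inferInstance
  have hchar := Cfsg.Agent.Lead.isCharacter_of_isIrrCharacter hirr
  have h1 := Cfsg.Agent.Helper2.GalAM.nonzero_card_le_sum_compl hchar (⊥ : Subgroup G)
  have h2 := Cfsg.Agent.Helper2.GalAM.sum_norm_sq_irr hirr
  have h3 : ∑ g : G, ‖ρ.character g‖ ^ 2
      = ∑ g ∈ Finset.univ.filter (fun g : G => g ∉ (⊥ : Subgroup G)), ‖ρ.character g‖ ^ 2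
        + ‖ρ.character 1‖ ^ 2 := by
    rw [← Finset.sum_filter_add_sum_filter_not Finset.univ (fun g : G => g ∉ (⊥ : Subgroup G))]
    congr 1
    have : Finset.univ.filter (fun g : G => ¬ g ∉ (⊥ : Subgroup G)) = {1} := by
      ext g; simp [Subgroup.mem_bot]
    rw [this, Finset.sum_singleton]
  have h4 : (Finset.univ.filter (fun g : G => g ∉ (⊥ : Subgroup G))).filter
      (fun g => ρ.character g ≠ 0) = Finset.univ.filter (fun g : G => g ∉ (⊥ : Subgroup G)) :=
    Finset.filter_true_of_mem (fun g _ => hno g)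
  have h5 : (Finset.univ.filter (fun g : G => g ∉ (⊥ : Subgroup G))).card
      = Fintype.card G - 1 := by
    have : Finset.univ.filter (fun g : G => g ∉ (⊥ : Subgroup G)) = Finset.univ.erase 1 := by
      ext g; simp [Subgroup.mem_bot]
    rw [this, Finset.card_erase_of_mem (Finset.mem_univ _), Finset.card_univ]
  have h6 : ρ.character 1 = (Module.finrank ℂ V : ℂ) := Representation.char_one ρ
  rw [h4, h5] at h1
  have hcard : 1 ≤ Fintype.card G := Fintype.card_pos
  rw [h6, Complex.norm_natCast] at h3
  have hd : (2 : ℝ) ≤ (Module.finrank ℂ V : ℝ) := by exact_mod_cast hdeg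
  rw [Nat.cast_sub hcard] at h1
  push_cast at h1
  nlinarith


end Cfsg.Agent.S0191
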