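import Cfsg.Statements.S0192
import Mathlib
import Cfsg.Agent.Lead.RepInv

set_option autoImplicit false
open Cfsg

namespace Cfsg.Agent.S0192

/-- Brauer's generation criterion. Let G be a finite simple group, H₁ and H₂ subgroups, and χ a non-principal irreducible character. If the multiplicity of the principal character in χ restricted to H₁ ⊓ H₂ is less than the sum of the corresponding multiplicities for H₁ and H₂, then H₁ and H₂ do not generate G. -/
theorem result {G : Type*} [Group G] [Fintype G] [IsSimpleGroup G] (H₁ H₂ : Subgroup G) [Fintype H₁] [Fintype H₂] [Fintype ↥(H₁ ⊓ H₂)] (χ : G → ℂ) (hχ : Cfsg.IsIrrCharacter G χ) (hχ1 : χ ≠ fun _ => 1) (hlt : (Cfsg.classInner (fun x : ↥(H₁ ⊓ H₂) => χ x) (fun _ => 1)).re < (Cfsg.classInner (fun x : H₁ => χ x) (fun _ => 1)).re + (Cfsg.classInner (fun x : H₂ => χ x) (fun _ => 1)).re) : H₁ ⊔ H₂ ≠ ⊤ := by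
  classical
  obtain ⟨n, ρ, hirr, rfl⟩ := hχ
  haveI := hirr
  intro htop
  apply hχ1
  rw [Lead.classInner_res_one ρ H₁, Lead.classInner_res_one ρ H₂,
    Lead.classInner_res_one ρ (H₁ ⊓ H₂)] at hlt
  simp only [Complex.natCast_re] at hlt
  have hlt' : Module.finrank ℂ (Representation.invariants (ρ.comp (H₁ ⊓ H₂).subtype))
      < Module.finrank ℂ (Representation.invariants (ρ.comp H₁.subtype))
        + Module.finrank ℂ (Representation.invariants (ρ.comp H₂.subtype)) := by
    exact_mod_cast hlt
  set I₁ := Representation.invariants (ρ.comp H₁.subtype) with hI₁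
  set I₂ := Representation.invariants (ρ.comp H₂.subtype) with hI₂
  set I₁₂ := Representation.invariants (ρ.comp (H₁ ⊓ H₂).subtype) with hI₁₂
  have hle1 : I₁ ≤ I₁₂ := by
    intro v hv
    rw [hI₁, Representation.mem_invariants] at hv
    rw [hI₁₂, Representation.mem_invariants]
    intro g
    exact hv ⟨g.1, (Subgroup.mem_inf.mp g.2).1⟩
  have hle2 : I₂ ≤ I₁₂ := by
    intro v hv
    rw [hI₂, Representation.mem_invariants] at hv
    rw [hI₁₂, Representation.mem_invariants]
    intro g
    exact hv ⟨g.1, (Subgroup.mem_inf.mp g.2).2⟩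
  have hsup : Module.finrank ℂ ↥(I₁ ⊔ I₂) ≤ Module.finrank ℂ I₁₂ :=
    Submodule.finrank_mono (sup_le hle1 hle2)
  have hdim := Submodule.finrank_sup_add_finrank_inf_eq I₁ I₂
  have hpos : 0 < Module.finrank ℂ ↥(I₁ ⊓ I₂) := by omega
  have hne : I₁ ⊓ I₂ ≠ ⊥ := by
    intro h
    rw [h] at hpos
    simp at hpos
  obtain ⟨v, hvmem, hv0⟩ := Submodule.exists_mem_ne_zero_of_ne_bot hne
  obtain ⟨hv1, hv2⟩ := Submodule.mem_inf.mp hvmem
  rw [hI₁, Representation.mem_invariants] at hv1
  rw [hI₂, Representation.mem_invariants] at hv2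
  let K : Subgroup G :=
    { carrier := {g | ρ g v = v}
      mul_mem' := by
        intro a b ha hb
        simp only [Set.mem_setOf_eq] at ha hb ⊢
        rw [map_mul, Module.End.mul_apply, hb, ha]
      one_mem' := by simp
      inv_mem' := by
        intro a ha
        simp only [Set.mem_setOf_eq] at ha ⊢
        have : ρ a⁻¹ (ρ a v) = v := by
          rw [← Module.End.mul_apply, ← map_mul, inv_mul_cancel, map_one]; rfl
        rw [ha] at this
        exact this }
  have hK : H₁ ⊔ H₂ ≤ K := by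
    refine sup_le ?_ ?_
    · intro g hg; exact hv1 ⟨g, hg⟩
    · intro g hg; exact hv2 ⟨g, hg⟩
  rw [htop] at hK
  exact Lead.irr_character_eq_one_of_fixed ρ v hv0 (fun g => hK (Subgroup.mem_top g))


end Cfsg.Agent.S0192
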