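import Cfsg.Statements.S0194
import Mathlib
import Cfsg.Agent.Lead.CharConj2
import Cfsg.Agent.S0146
import Cfsg.Agent.S0161

set_option autoImplicit false
open scoped ComplexConjugate
open Cfsg

namespace Cfsg.Agent.S0194

/-- Let G have odd order, H be a normal subgroup and θ a non-principal irreducible character of H. Then the function induced from θ is orthogonal to its complex conjugate. -/
theorem result {G : Type*} [Group G] [Fintype G] (hodd : Odd (Nat.card G)) (H : Subgroup G) [H.Normal] (θ : H → ℂ) (hθ : Cfsg.IsIrrCharacter H θ) (hθ1 : θ ≠ fun _ => 1) : Cfsg.classInner (fun g => conj (Cfsg.indFun H θ g)) (Cfsg.indFun H θ) = 0 := by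
  classical
  have : Fintype H := Fintype.ofFinite H
  have hH : (Nat.card H : ℂ) ≠ 0 := Lead.natCard_ne_zero_complex H
  rw [Lead.indFun_conj H θ]
  have h1 : Cfsg.classInner (Cfsg.indFun H (fun h => conj (θ h))) (Cfsg.indFun H θ)
      = Cfsg.classInner (fun h => conj (θ h)) (fun h : H => Cfsg.indFun H θ h) :=
    Cfsg.Agent.S0146.result H _ _ (Lead.indFun_isClassFunction H θ)
  rw [h1, Lead.indFun_res_normal H θ, Lead.classInner_smul_right, Lead.classInner_sum_right]
  have hbar : Cfsg.IsIrrCharacter H (fun h => conj (θ h)) := Lead.isIrrCharacter_conj hθ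
  have h2 : ∀ g : G, Cfsg.classInner (fun h => conj (θ h)) (Lead.conjFun H θ g) = 0 := by
    intro g
    have h3 := Lead.classInner_irr (⟨fun h => conj (θ h), hbar⟩ : Cfsg.IrrCharacter H)
      ⟨Lead.conjFun H θ g, Lead.isIrrCharacter_conjFun H hθ g⟩
    rw [h3, if_neg]
    intro heq
    have heq' : (fun h => conj (θ h)) = Lead.conjFun H θ g := congrArg Subtype.val heq
    have h4 : Lead.conjFun H θ (g * g) = θ := by
      rw [← Lead.conjFun_conjFun, ← heq', Lead.conjFun_conj, ← heq']
      funext h; simp
    have hgodd : Odd (orderOf g) := Odd.of_dvd_nat hodd (orderOf_dvd_natCard g)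
    obtain ⟨k, hk⟩ := hgodd
    have h5 : (g * g) ^ (k + 1) = g := by
      rw [← pow_two, ← pow_mul]
      have h50 : 2 * (k + 1) = orderOf g + 1 := by omega
      rw [h50, pow_succ, pow_orderOf_eq_one, one_mul]
    have h6 : Lead.conjFun H θ g = θ := by
      have h60 := Lead.conjFun_pow_of_fixed H θ (g * g) h4 (k + 1)
      rwa [h5] at h60
    have h7 : ∀ h : H, (θ h).im = 0 := by
      intro h
      have h70 := congrFun heq' h
      rw [h6] at h70
      exact Complex.conj_eq_iff_im.mp h70
    have hHodd : Odd (Nat.card H) := Odd.of_dvd_nat hodd (Subgroup.card_subgroup_dvd_card H)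
    exact hθ1 (Cfsg.Agent.S0161.result hHodd ⟨θ, hθ⟩ h7)
  simp only [h2, Finset.sum_const_zero, mul_zero]


end Cfsg.Agent.S0194
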