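import Cfsg.Statements.S0196
import Mathlib
import Cfsg.Agent.Lead.FreeAction

set_option autoImplicit false
open Cfsg

namespace Cfsg.Agent.S0196

/-- Let A be a subgroup of a finite group G that equals the centralizer of each of its non-identity elements, and let N be its normalizer. Then the index of A in N divides |A| − 1 (N/A permutes the non-identity elements of A in orbits of full length). -/
theorem result {G : Type*} [Group G] [Finite G] (A : Subgroup G) (hA : ∀ x ∈ A, x ≠ 1 → Subgroup.centralizer ({x} : Set G) = A) : (A.subgroupOf (Subgroup.normalizer (A : Set G))).index ∣ Nat.card A - 1 := by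
  classical
  have hS : ∀ n ∈ Subgroup.normalizer (A : Set G), ∀ s ∈ ((A : Set G) \ {1}),
      n * s * n⁻¹ ∈ ((A : Set G) \ {1}) := by
    intro n hn s hs
    refine ⟨(Subgroup.mem_normalizer_iff.mp hn s).mp hs.1, ?_⟩
    intro h1
    apply hs.2
    have h1' : n * s * n⁻¹ = 1 := h1
    have e : s = n⁻¹ * (n * s * n⁻¹) * n := by group
    rw [e, h1']; simp
  letI := Cfsg.Agent.Lead.conjActOn (Subgroup.normalizer (A : Set G)) ((A : Set G) \ {1}) hS
  have hstab : ∀ s : ((A : Set G) \ {1} : Set G),
      (MulAction.stabilizer (Subgroup.normalizer (A : Set G)) s).index =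
        (A.subgroupOf (Subgroup.normalizer (A : Set G))).index := by
    intro s
    congr 1
    ext n
    rw [MulAction.mem_stabilizer_iff, Subgroup.mem_subgroupOf]
    have hs1 : (s : G) ≠ 1 := fun h => s.2.2 h
    constructor
    · intro h
      have h1 : (n : G) * s * (n : G)⁻¹ = s := congrArg Subtype.val h
      have h2 : (n : G) ∈ Subgroup.centralizer ({(s : G)} : Set G) := by
        rw [Subgroup.mem_centralizer_singleton_iff]
        calc (n : G) * s = (n * s * (n : G)⁻¹) * n := by group
          _ = s * n := by rw [h1]
      rw [hA s s.2.1 hs1] at h2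
      exact h2
    · intro h
      apply Subtype.ext
      show (n : G) * s * (n : G)⁻¹ = s
      have h2 : (n : G) ∈ Subgroup.centralizer ({(s : G)} : Set G) := by
        rw [hA s s.2.1 hs1]; exact h
      rw [Subgroup.mem_centralizer_singleton_iff] at h2
      rw [h2]; group
  have hdvd := Cfsg.Agent.Lead.dvd_card_of_index_stabilizer
    (G := Subgroup.normalizer (A : Set G)) (X := ((A : Set G) \ {1} : Set G)) _ hstab
  have hcard : Nat.card ((A : Set G) \ {1} : Set G) = Nat.card A - 1 := by
    rw [Nat.card_coe_set_eq, Set.ncard_sdiff_singleton_of_mem (Subgroup.one_mem A)]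
    rfl
  rw [hcard] at hdvd
  exact hdvd


end Cfsg.Agent.S0196
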