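import Cfsg.Statements.S0202
import Mathlib
import Cfsg.Agent.Lead.SubTools

set_option autoImplicit false
open Cfsg

namespace Cfsg.Agent.S0202

open scoped Pointwise

theorem two_elt_mem_sylow {G : Type*} [Group G] [Finite G] (P : Sylow 2 G) (u : G)
    (hu : u ∈ Subgroup.normalizer ((P : Subgroup G) : Set G)) (e : ℕ) (hue : u ^ (2 ^ e) = 1) :
    u ∈ (P : Subgroup G) := by
  haveI : Fact (Nat.Prime 2) := ⟨Nat.prime_two⟩
  have h1 : IsPGroup 2 (Subgroup.zpowers u) := by
    obtain ⟨m, -, hm⟩ := (Nat.dvd_prime_pow Nat.prime_two).mp (orderOf_dvd_of_pow_eq_one hue)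
    exact IsPGroup.of_card (n := m) (by rw [Nat.card_zpowers, hm])
  have h2 : Subgroup.zpowers u ≤ Subgroup.normalizer ((P : Subgroup G) : Set G) := by
    rw [Subgroup.zpowers_le]; exact hu
  have h3 := IsPGroup.to_sup_of_normal_right' h1 P.isPGroup' h2
  have h4 : Subgroup.zpowers u ⊔ (P : Subgroup G) = P := P.is_maximal' h3 le_sup_right
  rw [← h4]
  exact (le_sup_left : Subgroup.zpowers u ≤ _) (Subgroup.mem_zpowers u)

/-- If a Sylow 2-subgroup of a finite group is a Klein four-group, the group has one or three conjugacy classes of involutions. -/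
theorem result {G : Type*} [Group G] [Finite G] (P : Sylow 2 G) (hP : IsKleinFour (P : Subgroup G)) : Nat.card {C : ConjClasses G // ∃ t : G, orderOf t = 2 ∧ ConjClasses.mk t = C} = 1 ∨ Nat.card {C : ConjClasses G // ∃ t : G, orderOf t = 2 ∧ ConjClasses.mk t = C} = 3 := by
  classical
  haveI : Fact (Nat.Prime 2) := ⟨Nat.prime_two⟩
  haveI := hP
  haveI hPcomm : IsMulCommutative (P : Subgroup G) := IsKleinFour.isMulCommutative
  have hsq : ∀ y ∈ (P : Subgroup G), y * y = 1 := by
    intro y hy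
    have := IsKleinFour.mul_self (⟨y, hy⟩ : (P : Subgroup G))
    exact congrArg Subtype.val this
  have hcommP : ∀ x ∈ (P : Subgroup G), ∀ y ∈ (P : Subgroup G), x * y = y * x := by
    intro x hx y hy
    have := mul_comm_of_exponent_two (IsKleinFour.exponent_two (G := (P : Subgroup G)))
      ⟨x, hx⟩ ⟨y, hy⟩
    exact congrArg Subtype.val this
  have hall : ∀ x ∈ (P : Subgroup G), ∀ y ∈ (P : Subgroup G), x ≠ 1 → y ≠ 1 → x ≠ y →
      ∀ z ∈ (P : Subgroup G), z = 1 ∨ z = x ∨ z = y ∨ z = x * y := by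
    intro x hx y hy hx1 hy1 hxy z hz
    by_cases hz1 : z = 1
    · exact Or.inl hz1
    by_cases hzx : z = x
    · exact Or.inr (Or.inl hzx)
    by_cases hzy : z = y
    · exact Or.inr (Or.inr (Or.inl hzy))
    have := IsKleinFour.eq_mul_of_ne_all (G := (P : Subgroup G)) (x := ⟨x, hx⟩) (y := ⟨y, hy⟩)
      (z := ⟨z, hz⟩)
      (fun h => hx1 (congrArg Subtype.val h)) (fun h => hy1 (congrArg Subtype.val h))
      (fun h => hxy (congrArg Subtype.val h)) (fun h => hz1 (congrArg Subtype.val h))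
      (fun h => hzx (congrArg Subtype.val h)) (fun h => hzy (congrArg Subtype.val h))
    exact Or.inr (Or.inr (Or.inr (congrArg Subtype.val this)))
  have hA : ∀ x ∈ (P : Subgroup G), ∀ y ∈ (P : Subgroup G), x ≠ 1 → y ≠ 1 → x ≠ y →
      IsConj x y → IsConj x (x * y) := by
    intro x hx y hy hx1 hy1 hxy hconj
    obtain ⟨g, hg⟩ := isConj_iff.mp hconj
    obtain ⟨n, hn, hnx⟩ := P.conj_eq_normalizer_conj_of_mem x g⁻¹ hx
      (by rw [inv_inv, hg]; exact hy)
    rw [inv_inv, hg] at hnx
    have hτP : ∀ z ∈ (P : Subgroup G), n⁻¹ * z * n ∈ (P : Subgroup G) := by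
      intro z hz
      have hn' : n⁻¹ ∈ Subgroup.normalizer ((P : Subgroup G) : Set G) := Subgroup.inv_mem _ hn
      have := (Subgroup.mem_normalizer_iff.mp hn' z).mp hz
      rw [inv_inv] at this; exact this
    have hτy := hτP y hy
    have hτy1 : n⁻¹ * y * n ≠ 1 := by
      intro h
      apply hy1
      have : y = n * (n⁻¹ * y * n) * n⁻¹ := by group
      rw [this, h]; group
    have hτyy : n⁻¹ * y * n ≠ y := by
      intro h
      apply hxy
      have h2 : n⁻¹ * x * n = n⁻¹ * y * n := by rw [← hnx, h]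
      exact mul_left_cancel (mul_right_cancel h2)
    rcases hall x hx y hy hx1 hy1 hxy _ hτy with h | h | h | h
    · exact absurd h hτy1
    · exfalso
      have hn2 : (n * n) * x = x * (n * n) := by
        have e1 : n⁻¹ * (n⁻¹ * x * n) * n = x := by rw [← hnx]; exact h
        calc n * n * x = n * n * (n⁻¹ * (n⁻¹ * x * n) * n) := by rw [e1]
          _ = x * (n * n) := by group
      obtain ⟨e, m, hm, ho⟩ := Nat.exists_eq_two_pow_mul_odd (orderOf_pos n).ne'
      obtain ⟨j, hj⟩ := hm
      obtain ⟨u, hu⟩ : ∃ u : G, u = n ^ m := ⟨_, rfl⟩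
      have hupow : u ^ (2 ^ e) = 1 := by
        rw [hu, ← pow_mul, mul_comm, ← ho]; exact pow_orderOf_eq_one n
      have huN : u ∈ Subgroup.normalizer ((P : Subgroup G) : Set G) := by
        rw [hu]; exact Subgroup.pow_mem _ hn m
      have huP := two_elt_mem_sylow P u huN e hupow
      have hux : u * x = x * u := hcommP u huP x hx
      have hu' : u = (n * n) ^ j * n := by
        rw [hu, hj, pow_succ, pow_mul, pow_two]
      have hcj : (n * n) ^ j * x = x * (n * n) ^ j := by
        have : Commute (n * n) x := hn2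
        exact (this.pow_left j).eq
      apply hxy
      have h3 : n * x = x * n := by
        have : (n * n) ^ j * (n * x) = (n * n) ^ j * (x * n) := by
          calc (n * n) ^ j * (n * x) = u * x := by rw [hu', mul_assoc]
            _ = x * u := hux
            _ = x * (n * n) ^ j * n := by rw [hu', mul_assoc]
            _ = (n * n) ^ j * x * n := by rw [hcj]
            _ = (n * n) ^ j * (x * n) := mul_assoc _ _ _
        exact mul_left_cancel this
      rw [hnx]
      calc x = n⁻¹ * (n * x) := by group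
        _ = n⁻¹ * (x * n) := by rw [h3]
        _ = n⁻¹ * x * n := by group
    · exact absurd h hτyy
    · have h1 : IsConj y (x * y) := isConj_iff.mpr ⟨n⁻¹, by rw [inv_inv]; exact h⟩
      exact hconj.trans h1
  haveI : Fintype (P : Subgroup G) := Fintype.ofFinite _
  have hcard4 : Fintype.card (P : Subgroup G) = 4 := IsKleinFour.card_four'
  obtain ⟨a', b', ha', hb', hab'⟩ : ∃ a b : (P : Subgroup G), a ≠ 1 ∧ b ≠ 1 ∧ a ≠ b := by
    obtain ⟨x, y, z, hxy, hxz, hyz⟩ := Fintype.two_lt_card_iff.mp (by rw [hcard4]; norm_num)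
    by_cases hx : x = 1
    · exact ⟨y, z, fun h => hxy (hx.trans h.symm), fun h => hxz (hx.trans h.symm), hyz⟩
    · by_cases hy : y = 1
      · exact ⟨x, z, hx, fun h => hyz (hy.trans h.symm), hxz⟩
      · exact ⟨x, y, hx, hy, hxy⟩
  obtain ⟨a, ha⟩ : ∃ a : G, a = (a' : G) := ⟨_, rfl⟩
  obtain ⟨b, hb⟩ : ∃ b : G, b = (b' : G) := ⟨_, rfl⟩
  have haP : a ∈ (P : Subgroup G) := ha ▸ a'.2
  have hbP : b ∈ (P : Subgroup G) := hb ▸ b'.2
  have ha1 : a ≠ 1 := by rw [ha]; exact fun h => ha' (Subtype.ext h)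
  have hb1 : b ≠ 1 := by rw [hb]; exact fun h => hb' (Subtype.ext h)
  have hab : a ≠ b := by rw [ha, hb]; exact fun h => hab' (Subtype.ext h)
  obtain ⟨c, hc⟩ : ∃ c : G, c = a * b := ⟨_, rfl⟩
  have hcP : c ∈ (P : Subgroup G) := hc ▸ Subgroup.mul_mem _ haP hbP
  have hc1 : c ≠ 1 := by
    intro h
    apply hab
    rw [hc] at h
    have h2 := hsq b hbP
    exact mul_right_cancel (h.trans h2.symm)
  have hca : c ≠ a := by
    intro h; apply hb1; rw [hc] at h
    exact mul_left_cancel (h.trans (mul_one a).symm)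
  have hcb : c ≠ b := by
    intro h; apply ha1; rw [hc] at h
    exact mul_right_cancel (h.trans (one_mul b).symm)
  have hord : ∀ y ∈ (P : Subgroup G), y ≠ 1 → orderOf y = 2 := fun y hy hy1 =>
    orderOf_eq_prime (by rw [pow_two]; exact hsq y hy) hy1
  have hS : {C : ConjClasses G | ∃ t : G, orderOf t = 2 ∧ ConjClasses.mk t = C} =
      {ConjClasses.mk a, ConjClasses.mk b, ConjClasses.mk c} := by
    ext C
    simp only [Set.mem_setOf_eq, Set.mem_insert_iff, Set.mem_singleton_iff]
    constructor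
    · rintro ⟨t, ht, rfl⟩
      have h1 : IsPGroup 2 (Subgroup.zpowers t) :=
        IsPGroup.of_card (n := 1) (by rw [Nat.card_zpowers, ht, pow_one])
      obtain ⟨Q, hQ⟩ := h1.exists_le_sylow
      obtain ⟨g, hg⟩ := MulAction.exists_smul_eq G P Q
      have htQ : t ∈ (Q : Subgroup G) := hQ (Subgroup.mem_zpowers t)
      rw [← hg, Sylow.coe_subgroup_smul, Cfsg.Agent.Lead.mem_conj_smul] at htQ
      have hne : g⁻¹ * t * g ≠ 1 := by
        intro h
        have h1 : t = 1 := by
          have e : t = g * (g⁻¹ * t * g) * g⁻¹ := by group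
          rw [e, h]; group
        rw [h1, orderOf_one] at ht; omega
      have hconj : IsConj t (g⁻¹ * t * g) := isConj_iff.mpr ⟨g⁻¹, by rw [inv_inv]⟩
      rcases hall a haP b hbP ha1 hb1 hab _ htQ with h | h | h | h
      · exact absurd h hne
      · left; rw [ConjClasses.mk_eq_mk_iff_isConj, ← h]; exact hconj
      · right; left; rw [ConjClasses.mk_eq_mk_iff_isConj, ← h]; exact hconj
      · right; right; rw [ConjClasses.mk_eq_mk_iff_isConj, hc, ← h]; exact hconj
    · rintro (h | h | h)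
      · exact ⟨a, hord a haP ha1, h.symm⟩
      · exact ⟨b, hord b hbP hb1, h.symm⟩
      · exact ⟨c, hord c hcP hc1, h.symm⟩
  have hcardS : Nat.card {C : ConjClasses G // ∃ t : G, orderOf t = 2 ∧ ConjClasses.mk t = C} =
      Set.ncard {C : ConjClasses G | ∃ t : G, orderOf t = 2 ∧ ConjClasses.mk t = C} :=
    Nat.card_coe_set_eq {C : ConjClasses G | ∃ t : G, orderOf t = 2 ∧ ConjClasses.mk t = C}
  rw [hcardS, hS]
  by_cases h1 : IsConj a b
  · left
    have h2 : IsConj a c := hc ▸ hA a haP b hbP ha1 hb1 hab h1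
    rw [ConjClasses.mk_eq_mk_iff_isConj.mpr h1.symm, ConjClasses.mk_eq_mk_iff_isConj.mpr h2.symm]
    simp
  · by_cases h2 : IsConj a c
    · exfalso; apply h1
      have h3 := hA a haP c hcP ha1 hc1 (Ne.symm hca) h2
      have e : a * c = b := by rw [hc, ← mul_assoc, hsq a haP, one_mul]
      rw [e] at h3; exact h3
    · by_cases h3 : IsConj b c
      · exfalso; apply h1
        have h4 := hA b hbP c hcP hb1 hc1 (Ne.symm hcb) h3
        have e : b * c = a := by rw [hc, hcommP a haP b hbP, ← mul_assoc, hsq b hbP, one_mul]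
        rw [e] at h4; exact h4.symm
      · right
        rw [Set.ncard_eq_three]
        refine ⟨_, _, _, ?_, ?_, ?_, rfl⟩
        · rwa [Ne, ConjClasses.mk_eq_mk_iff_isConj]
        · rwa [Ne, ConjClasses.mk_eq_mk_iff_isConj]
        · rwa [Ne, ConjClasses.mk_eq_mk_iff_isConj]


end Cfsg.Agent.S0202
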