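import Cfsg.Statements.S0203
import Mathlib
import Cfsg.Agent.Helper6.KleinSylow
-- import your own Cfsg.Agent.* helpers here

set_option autoImplicit false
open Cfsg

namespace Cfsg.Agent.S0203

theorem ncard_three_iff {α : Type*} (x y z : α) :
    ({x, y, z} : Set α).ncard = 3 ↔ x ≠ y ∧ x ≠ z ∧ y ≠ z := by
  constructor
  · intro h
    have h2 : ∀ u v : α, ({u, v} : Set α).ncard ≤ 2 := by
      intro u v
      have := Set.ncard_insert_le u ({v} : Set α)
      rw [Set.ncard_singleton] at this
      exact this
    refine ⟨?_, ?_, ?_⟩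
    · rintro rfl
      have e : ({x, x, z} : Set α) = {x, z} := by simp
      rw [e] at h
      have := h2 x z
      omega
    · rintro rfl
      have e : ({x, y, x} : Set α) = {y, x} := by
        ext w; simp
      rw [e] at h
      have := h2 y x
      omega
    · rintro rfl
      have e : ({x, y, y} : Set α) = {x, y} := by simp
      rw [e] at h
      have := h2 x y
      omega
  · rintro ⟨h1, h2, h3⟩
    exact Set.ncard_eq_three.mpr ⟨x, y, z, h1, h2, h3, rfl⟩

/-- If a Sylow 2-subgroup P of a finite group G is a Klein four-group, then G has three classes of involutions if and only if P has a normal complement in G. -/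
theorem result {G : Type*} [Group G] [Finite G] (P : Sylow 2 G) (hP : IsKleinFour (P : Subgroup G)) : Nat.card {C : ConjClasses G // ∃ t : G, orderOf t = 2 ∧ ConjClasses.mk t = C} = 3 ↔ ∃ N : Subgroup G, N.Normal ∧ Subgroup.IsComplement' N (P : Subgroup G) := by
  obtain ⟨a, b, haP, hbP, ha1, hb1, hab, haa, hbb, hcomm, hall⟩ :=
    Cfsg.Agent.Helper6.kleinFour_elems (P : Subgroup G) hP
  have hPab : ∀ x ∈ (P : Subgroup G), ∀ y ∈ (P : Subgroup G), x * y = y * x := by
    intro x hx y hy
    haveI := hP
    have := (IsKleinFour.isMulCommutative (G := (P : Subgroup G))).is_comm.comm ⟨x, hx⟩ ⟨y, hy⟩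
    exact congrArg Subtype.val this
  have hc1 : a * b ≠ 1 := by
    intro h
    apply hab
    calc a = a * (a * b) := by rw [h, mul_one]
      _ = (a * a) * b := by group
      _ = b := by rw [haa, one_mul]
  have hca : a * b ≠ a := by
    intro h; apply hb1
    calc b = a⁻¹ * (a * b) := by group
      _ = a⁻¹ * a := by rw [h]
      _ = 1 := by group
  have hcb : a * b ≠ b := by
    intro h; apply ha1
    calc a = (a * b) * b⁻¹ := by group
      _ = b * b⁻¹ := by rw [h]
      _ = 1 := by group
  have hcP : a * b ∈ (P : Subgroup G) := mul_mem haP hbP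
  have hsq : ∀ x ∈ (P : Subgroup G), x ^ 2 = 1 := by
    intro x hx
    haveI := hP
    have := IsKleinFour.mul_self (⟨x, hx⟩ : (P : Subgroup G))
    rw [pow_two]
    exact congrArg Subtype.val this
  have ord : ∀ x ∈ (P : Subgroup G), x ≠ 1 → orderOf x = 2 := fun x hx hx1 =>
    orderOf_eq_prime (hsq x hx) hx1
  have hS : {C : ConjClasses G | ∃ t : G, orderOf t = 2 ∧ ConjClasses.mk t = C} =
      {ConjClasses.mk a, ConjClasses.mk b, ConjClasses.mk (a * b)} := by
    ext C
    simp only [Set.mem_setOf_eq, Set.mem_insert_iff, Set.mem_singleton_iff]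
    constructor
    · rintro ⟨t, ht, rfl⟩
      obtain ⟨g, hg⟩ := Cfsg.Agent.Helper6.exists_conj_mem_sylow_two P ht
      have hne : g * t * g⁻¹ ≠ 1 := by
        intro h
        have : t = 1 := by
          calc t = g⁻¹ * (g * t * g⁻¹) * g := by group
            _ = 1 := by rw [h]; group
        rw [this, orderOf_one] at ht
        omega
      have hmk : ConjClasses.mk t = ConjClasses.mk (g * t * g⁻¹) :=
        ConjClasses.mk_eq_mk_iff_isConj.mpr (isConj_iff.mpr ⟨g, rfl⟩)
      rw [hmk]
      rcases hall _ hg with h | h | h | h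
      · exact absurd h hne
      · left; rw [h]
      · right; left; rw [h]
      · right; right; rw [h]
    · rintro (rfl | rfl | rfl)
      · exact ⟨a, ord a haP ha1, rfl⟩
      · exact ⟨b, ord b hbP hb1, rfl⟩
      · exact ⟨a * b, ord _ hcP hc1, rfl⟩
  have hcard : Nat.card {C : ConjClasses G // ∃ t : G, orderOf t = 2 ∧ ConjClasses.mk t = C} =
      ({ConjClasses.mk a, ConjClasses.mk b, ConjClasses.mk (a * b)} : Set (ConjClasses G)).ncard := by
    rw [← hS]
    exact Nat.card_coe_set_eq _
  rw [hcard, ncard_three_iff]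
  constructor
  · rintro ⟨d1, d2, d3⟩
    have fus : ∀ x ∈ (P : Subgroup G), ∀ y ∈ (P : Subgroup G), x ≠ 1 → IsConj x y → x = y := by
      intro x hx y hy hx1 hconj
      have hy1 : y ≠ 1 := by
        rintro rfl
        exact hx1 (isConj_one_left.mp hconj)
      have hmk := ConjClasses.mk_eq_mk_iff_isConj.mpr hconj
      rcases hall x hx with h | h | h | h
      · exact absurd h hx1
      · rcases hall y hy with h' | h' | h' | h'
        · exact absurd h' hy1
        · rw [h, h']
        · rw [h, h'] at hmk; exact absurd hmk d1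
        · rw [h, h'] at hmk; exact absurd hmk d2
      · rcases hall y hy with h' | h' | h' | h'
        · exact absurd h' hy1
        · rw [h, h'] at hmk; exact absurd hmk.symm d1
        · rw [h, h']
        · rw [h, h'] at hmk; exact absurd hmk d3
      · rcases hall y hy with h' | h' | h' | h'
        · exact absurd h' hy1
        · rw [h, h'] at hmk; exact absurd hmk.symm d2
        · rw [h, h'] at hmk; exact absurd hmk.symm d3
        · rw [h, h']
    apply Cfsg.Agent.Helper6.exists_normal_complement_of_conj_trivial P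
    intro n hn x hx
    by_cases hx1 : x = 1
    · rw [hx1]; group
    · have hy : n * x * n⁻¹ ∈ (P : Subgroup G) := (Subgroup.mem_normalizer_iff.mp hn x).mp hx
      exact (fus x hx _ hy hx1 (isConj_iff.mpr ⟨n, rfl⟩)).symm
  · rintro ⟨N, hN, hc⟩
    have key : ∀ x ∈ (P : Subgroup G), ∀ y ∈ (P : Subgroup G),
        ConjClasses.mk x = ConjClasses.mk y → x = y := by
      intro x hx y hy h
      obtain ⟨g, hg⟩ := isConj_iff.mp (ConjClasses.mk_eq_mk_iff_isConj.mp h)
      exact Cfsg.Agent.Helper6.eq_of_conj_of_normal_complement N (P : Subgroup G) hN hc hPab hx hy g hg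
    refine ⟨fun h => hab (key a haP b hbP h), fun h => ?_, fun h => ?_⟩
    · exact hca (key a haP _ hcP h).symm
    · exact hcb (key b hbP _ hcP h).symm

end Cfsg.Agent.S0203
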