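import Cfsg.Statements.S0207
import Mathlib
import Cfsg.Agent.Lead.Dihedral

set_option autoImplicit false
open Cfsg

namespace Cfsg.Agent.S0207

/-- If x, y are distinct involutions, every element of the subgroup they generate that lies outside the cyclic subgroup generated by xy is an involution. -/
theorem result {G : Type*} [Group G] [Finite G] (x y : G) (hx : orderOf x = 2) (hy : orderOf y = 2) (hxy : x ≠ y) (d : G) (hd : d ∈ Subgroup.closure ({x, y} : Set G)) (hd' : d ∉ Subgroup.zpowers (x * y)) : orderOf d = 2 := by
  rcases Lead.closure_pair_cases hx hy hd with ⟨i, rfl⟩ | ⟨i, rfl⟩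
  · exact absurd (Subgroup.zpow_mem_zpowers _ i) hd'
  · apply orderOf_eq_prime
    · rw [pow_two]
      calc x * (x * y) ^ i * (x * (x * y) ^ i) = x * ((x * y) ^ i * x) * (x * y) ^ i := by group
        _ = x * (x * (x * y) ^ (-i)) * (x * y) ^ i := by rw [Lead.zpow_mul_invol hx hy i]
        _ = (x * x) * ((x * y) ^ (-i) * (x * y) ^ i) := by group
        _ = 1 := by
            rw [Lead.mul_self_of_orderOf_two hx, one_mul, ← zpow_add, neg_add_cancel, zpow_zero]
    · intro h
      apply hd'
      rw [h]; exact Subgroup.one_mem _


end Cfsg.Agent.S0207
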