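import Cfsg.Statements.S0208
import Mathlib

set_option autoImplicit false
open Cfsg

namespace Cfsg.Agent.S0208

/-- If x, y are involutions and xy has odd order, then some element of the subgroup generated by x and y conjugates x to y. -/
theorem result {G : Type*} [Group G] [Finite G] (x y : G) (hx : orderOf x = 2) (hy : orderOf y = 2) (hodd : Odd (orderOf (x * y))) : ∃ d ∈ Subgroup.closure ({x, y} : Set G), d * x * d⁻¹ = y := by
  have hinv : ∀ u : G, orderOf u = 2 → u⁻¹ = u := fun u hu => by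
    have h : u ^ 2 = 1 := by rw [← hu]; exact pow_orderOf_eq_one u
    rw [pow_two] at h
    exact inv_eq_of_mul_eq_one_left h
  have hxx : x * x = 1 := by rw [← pow_two, ← hx]; exact pow_orderOf_eq_one x
  have hxi : x⁻¹ = x := hinv x hx
  have hyi : y⁻¹ = y := hinv y hy
  obtain ⟨k, hk⟩ := hodd
  have hmem : x * y ∈ Subgroup.closure ({x, y} : Set G) :=
    Subgroup.mul_mem _ (Subgroup.subset_closure (by simp)) (Subgroup.subset_closure (by simp))
  have hxz : x * (x * y) * x⁻¹ = (x * y)⁻¹ := by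
    rw [mul_inv_rev, hyi, ← mul_assoc, hxx, one_mul]
  have hzk : x * (x * y) ^ k * x⁻¹ = ((x * y) ^ k)⁻¹ := by
    rw [← conj_pow, hxz, inv_pow]
  have hz1 : (x * y) ^ (2 * k + 1) = 1 := by rw [← hk]; exact pow_orderOf_eq_one _
  refine ⟨(x * y) ^ k, Subgroup.pow_mem _ hmem k, ?_⟩
  have h3 : x * ((x * y) ^ k)⁻¹ = (x * y) ^ k * x := by
    have h4 := congrArg (·⁻¹) hzk
    simp only [mul_inv_rev, inv_inv] at h4
    calc x * ((x * y) ^ k)⁻¹ = x * (((x * y) ^ k)⁻¹ * x⁻¹) * x := by group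
      _ = (x * y) ^ k * x := by rw [h4]
  have h5 : (x * y) ^ (2 * k) = (x * y)⁻¹ := by
    apply eq_inv_of_mul_eq_one_left
    rw [← pow_succ]; exact hz1
  calc (x * y) ^ k * x * ((x * y) ^ k)⁻¹ = (x * y) ^ k * (x * ((x * y) ^ k)⁻¹) := by group
    _ = (x * y) ^ k * ((x * y) ^ k * x) := by rw [h3]
    _ = (x * y) ^ (2 * k) * x := by rw [← mul_assoc, ← pow_add, two_mul]
    _ = (x * y)⁻¹ * x := by rw [h5]
    _ = y := by rw [mul_inv_rev, hyi, hxi, mul_assoc, hxx, mul_one]


end Cfsg.Agent.S0208
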