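import Cfsg.Statements.S0209
import Mathlib

set_option autoImplicit false
open Cfsg

namespace Cfsg.Agent.S0209

/-- If x, y are involutions whose product has even order n, the element (xy)^(n/2) is an involution that commutes with x and with y. -/
theorem result {G : Type*} [Group G] [Finite G] (x y : G) (hx : orderOf x = 2) (hy : orderOf y = 2) (heven : Even (orderOf (x * y))) : orderOf ((x * y) ^ (orderOf (x * y) / 2)) = 2 ∧ Commute ((x * y) ^ (orderOf (x * y) / 2)) x ∧ Commute ((x * y) ^ (orderOf (x * y) / 2)) y := by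
  have hinv : ∀ u : G, orderOf u = 2 → u⁻¹ = u := fun u hu => by
    have h : u ^ 2 = 1 := by rw [← hu]; exact pow_orderOf_eq_one u
    rw [pow_two] at h
    exact inv_eq_of_mul_eq_one_left h
  have hxx : x * x = 1 := by rw [← pow_two, ← hx]; exact pow_orderOf_eq_one x
  obtain ⟨m, hm⟩ := heven
  have hpos : 0 < orderOf (x * y) := orderOf_pos (x * y)
  have hdiv : orderOf (x * y) / 2 = m := by omega
  rw [hdiv]
  have hzm2 : (x * y) ^ m * (x * y) ^ m = 1 := by
    rw [← pow_add, ← hm]; exact pow_orderOf_eq_one _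
  have hzm_inv : ((x * y) ^ m)⁻¹ = (x * y) ^ m := inv_eq_of_mul_eq_one_left hzm2
  have hxz : x * (x * y) * x⁻¹ = (x * y)⁻¹ := by
    rw [mul_inv_rev, hinv y hy, ← mul_assoc, hxx, one_mul]
  have hzk : x * (x * y) ^ m * x⁻¹ = (x * y) ^ m := by
    rw [← conj_pow, hxz, inv_pow, hzm_inv]
  have hcx : Commute ((x * y) ^ m) x := by
    show (x * y) ^ m * x = x * (x * y) ^ m
    exact (mul_inv_eq_iff_eq_mul.mp hzk).symm
  refine ⟨?_, hcx, ?_⟩
  · apply orderOf_eq_prime
    · rw [pow_two]; exact hzm2
    · intro h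
      have h1 : orderOf (x * y) ∣ m := orderOf_dvd_of_pow_eq_one h
      have h2 := Nat.le_of_dvd (by omega) h1
      omega
  · have hy' : y = x⁻¹ * (x * y) := by group
    have hc2 : Commute ((x * y) ^ m) (x⁻¹ * (x * y)) :=
      (hcx.inv_right).mul_right (Commute.pow_self (x * y) m)
    rw [← hy'] at hc2
    exact hc2


end Cfsg.Agent.S0209
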