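import Cfsg.Statements.S0210
import Mathlib
import Cfsg.Agent.Lead.Dihedral

set_option autoImplicit false
open Cfsg

namespace Cfsg.Agent.S0210

/-- If x, y are involutions whose product has even order, no element of the subgroup generated by x and y conjugates x to y. -/
theorem result {G : Type*} [Group G] [Finite G] (x y : G) (hx : orderOf x = 2) (hy : orderOf y = 2) (heven : Even (orderOf (x * y))) (d : G) (hd : d ∈ Subgroup.closure ({x, y} : Set G)) : d * x * d⁻¹ ≠ y := by
  intro hcon
  have hxx := Lead.mul_self_of_orderOf_two hx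
  have hstep : ∀ k : ℤ, x * (x * y) ^ k = y → (x * y) ^ (k - 1) = 1 := by
    intro k hk
    have h2 : (x * y) ^ k = x * y := by
      calc (x * y) ^ k = (x * x) * (x * y) ^ k := by rw [hxx, one_mul]
        _ = x * (x * (x * y) ^ k) := by group
        _ = x * y := by rw [hk]
    rw [zpow_sub, zpow_one, h2, mul_inv_cancel]
  rcases Lead.closure_pair_cases hx hy hd with ⟨i, rfl⟩ | ⟨i, rfl⟩
  · rw [Lead.rot_conj_invol hx hy i] at hcon
    obtain ⟨r, hr⟩ := Lead.even_of_zpow_eq_one heven (hstep _ hcon)
    omega
  · rw [Lead.refl_conj_invol hx hy i] at hcon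
    obtain ⟨r, hr⟩ := Lead.even_of_zpow_eq_one heven (hstep _ hcon)
    omega


end Cfsg.Agent.S0210
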