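import Cfsg.Statements.S0211
import Mathlib
import Cfsg.Agent.Lead.Dihedral

set_option autoImplicit false
open Cfsg

namespace Cfsg.Agent.S0211

/-- Let x, y be involutions with xy of even order n and z = (xy)^(n/2). Then xz is conjugate to x by an element of the subgroup generated by x, y if and only if 4 divides n. -/
theorem result {G : Type*} [Group G] [Finite G] (x y : G) (hx : orderOf x = 2) (hy : orderOf y = 2) (heven : Even (orderOf (x * y))) : (∃ d ∈ Subgroup.closure ({x, y} : Set G), d * x * d⁻¹ = x * (x * y) ^ (orderOf (x * y) / 2)) ↔ 4 ∣ orderOf (x * y) := by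
  have hxx := Lead.mul_self_of_orderOf_two hx
  obtain ⟨m, hm⟩ := heven
  have hdiv : orderOf (x * y) / 2 = m := by omega
  rw [hdiv]
  constructor
  · rintro ⟨d, hd, hcon⟩
    have hstep : ∀ k : ℤ, x * (x * y) ^ k = x * (x * y) ^ m → ((orderOf (x * y) : ℕ) : ℤ) ∣ k - m := by
      intro k hk
      have h2 : (x * y) ^ k = (x * y) ^ (m : ℤ) := by
        rw [zpow_natCast]; exact mul_left_cancel hk
      apply orderOf_dvd_iff_zpow_eq_one.mpr
      rw [zpow_sub, h2, mul_inv_cancel]
    rw [hm]
    rw [hm] at hstep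
    rcases Lead.closure_pair_cases hx hy hd with ⟨i, rfl⟩ | ⟨i, rfl⟩
    · rw [Lead.rot_conj_invol hx hy i] at hcon
      obtain ⟨r, hr⟩ := hstep _ hcon
      push_cast at hr
      have h2m : (2 : ℤ) ∣ (m : ℤ) := ⟨-i - m * r, by linarith⟩
      have h2m' : 2 ∣ m := by exact_mod_cast h2m
      omega
    · rw [Lead.refl_conj_invol hx hy i] at hcon
      obtain ⟨r, hr⟩ := hstep _ hcon
      push_cast at hr
      have h2m : (2 : ℤ) ∣ (m : ℤ) := ⟨i - m * r, by linarith⟩
      have h2m' : 2 ∣ m := by exact_mod_cast h2m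
      omega
  · intro h4
    rw [hm] at h4
    obtain ⟨j, hj⟩ : 2 ∣ m := by omega
    have hmem : x * y ∈ Subgroup.closure ({x, y} : Set G) :=
      Subgroup.mul_mem _ (Subgroup.subset_closure (by simp)) (Subgroup.subset_closure (by simp))
    refine ⟨(x * y) ^ (j : ℤ), Subgroup.zpow_mem _ hmem _, ?_⟩
    rw [Lead.rot_conj_invol hx hy]
    congr 1
    have hz1 : (x * y) ^ (m + m) = 1 := by rw [← hm]; exact pow_orderOf_eq_one _
    rw [← zpow_natCast (x * y) m, show (-(j : ℤ) + -(j : ℤ)) = -(m : ℤ) by omega, zpow_neg,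
      zpow_natCast]
    apply inv_eq_of_mul_eq_one_left
    rw [← pow_add]; exact hz1


end Cfsg.Agent.S0211
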