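import Cfsg.Statements.S0212
import Mathlib
import Cfsg.Agent.S0233

set_option autoImplicit false
open Cfsg

namespace Cfsg.Agent.S0212

/-- The Brauer–Fowler bound: if G is a finite simple group and t an involution of G whose centralizer has order n, then |G| ≤ (2n^2)!. -/
theorem result {G : Type*} [Group G] [Finite G] [IsSimpleGroup G] (t : G) (ht : orderOf t = 2) : Nat.card G ≤ Nat.factorial (2 * (Nat.card (Subgroup.centralizer ({t} : Set G))) ^ 2) := by
  classical
  haveI : Fintype G := Fintype.ofFinite G
  obtain ⟨C, hC⟩ : ∃ C : Subgroup G, C = Subgroup.centralizer ({t} : Set G) := ⟨_, rfl⟩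
  rw [← hC]
  obtain ⟨c, hc⟩ : ∃ c : ℕ, c = Nat.card C := ⟨_, rfl⟩
  rw [← hc]
  have hcpos : 0 < c := hc ▸ Nat.card_pos
  obtain ⟨N, hN⟩ : ∃ N : ℕ, N = Nat.card G := ⟨_, rfl⟩
  rw [← hN]
  have hNpos : 0 < N := hN ▸ Nat.card_pos
  -- embedding
  have hemb : ∀ H : Subgroup G, H ≠ ⊤ → N ≤ Nat.factorial H.index := by
    intro H hH
    have hker : (MulAction.toPermHom G (G ⧸ H)).ker = ⊥ := by
      rw [← Subgroup.normalCore_eq_ker]
      rcases (Subgroup.normalCore_normal H).eq_bot_or_eq_top with h | h
      · exact h
      · exfalso; apply hH; rw [eq_top_iff, ← h]; exact Subgroup.normalCore_le H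
    have hinj : Function.Injective (MulAction.toPermHom G (G ⧸ H)) :=
      (MonoidHom.ker_eq_bot_iff _).mp hker
    have := Nat.card_le_card_of_injective _ hinj
    rw [Nat.card_perm] at this
    rw [hN]; exact this
  by_cases hcomm : ∀ a b : G, a * b = b * a
  · -- centralizer = ⊤
    have hCtop : C = ⊤ := by
      rw [hC, eq_top_iff]; intro x _
      rw [Subgroup.mem_centralizer_singleton_iff]; exact hcomm x t
    have hcN : c = N := by rw [hc, hN, hCtop, Subgroup.card_top]
    rw [hcN]
    calc N ≤ 2 * N ^ 2 := by nlinarith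
      _ ≤ Nat.factorial (2 * N ^ 2) := Nat.self_le_factorial _
  · push Not at hcomm
    have hZ : Subgroup.center G = ⊥ := by
      rcases (inferInstance : (Subgroup.center G).Normal).eq_bot_or_eq_top with h | h
      · exact h
      · exfalso
        obtain ⟨a, b, hab⟩ := hcomm
        apply hab
        have ha : b ∈ Subgroup.center G := by rw [h]; trivial
        exact (Subgroup.mem_center_iff.mp ha a)
    have hZodd : Odd (Nat.card (Subgroup.center G)) := by
      rw [hZ, Subgroup.card_bot]; exact odd_one
    have heven : Even (Nat.card G) := by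
      rw [even_iff_two_dvd, ← ht]; exact orderOf_dvd_natCard t
    obtain ⟨H, hH, hcase⟩ := Cfsg.Agent.S0233.result heven hZodd
    obtain ⟨I, hI⟩ : ∃ I : Finset G, ∀ s, s ∈ I ↔ orderOf s = 2 :=
      ⟨Finset.univ.filter (fun s => orderOf s = 2), by simp⟩
    obtain ⟨n, hn⟩ : ∃ n : ℕ, n = Nat.card {s : G // orderOf s = 2} := ⟨_, rfl⟩
    have hnI : I.card = n := by
      rw [hn, Nat.card_eq_fintype_card, Fintype.card_subtype]
      congr 1
      ext s; simp [hI]
    rw [← hn, ← hN] at hcase
    have hNnc : N ≤ n * c := by
      have h1 : N = (Finset.univ : Finset G).card := by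
        rw [hN, Nat.card_eq_fintype_card, Finset.card_univ]
      have h2 := Finset.card_eq_sum_card_fiberwise (f := fun g : G => g * t * g⁻¹)
        (s := Finset.univ) (t := I) (by
          intro g _
          rw [Finset.mem_coe, hI, ← ht]
          have : orderOf (MulAut.conj g t) = orderOf t := (MulAut.conj g).orderOf_eq t
          rw [MulAut.conj_apply] at this
          exact this)
      rw [h1, h2, ← hnI]
      calc ∑ b ∈ I, (Finset.univ.filter (fun g : G => g * t * g⁻¹ = b)).card
          ≤ ∑ _b ∈ I, c := by
            apply Finset.sum_le_sum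
            intro s hs
            by_cases hempty : Finset.univ.filter (fun g : G => g * t * g⁻¹ = s) = ∅
            · rw [hempty, Finset.card_empty]; exact Nat.zero_le _
            obtain ⟨g₀, hg₀⟩ := Finset.nonempty_iff_ne_empty.mpr hempty
            rw [Finset.mem_filter] at hg₀
            have hg₀' := hg₀.2
            rw [hc, Nat.card_eq_fintype_card, Fintype.card_subtype]
            apply Finset.card_le_card_of_injOn (fun g => g₀⁻¹ * g)
            · intro g hg
              have hg' : g * t * g⁻¹ = s := (Finset.mem_filter.mp (Finset.mem_coe.mp hg)).2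
              rw [Finset.mem_coe, Finset.mem_filter]
              refine ⟨Finset.mem_univ _, ?_⟩
              rw [hC, Subgroup.mem_centralizer_singleton_iff]
              calc g₀⁻¹ * g * t = g₀⁻¹ * (g * t * g⁻¹) * g := by group
                _ = g₀⁻¹ * (g₀ * t * g₀⁻¹) * g := by rw [hg', hg₀']
                _ = t * (g₀⁻¹ * g) := by group
            · intro x _ y _ hxy
              exact mul_left_cancel hxy
        _ = I.card * c := by rw [Finset.sum_const, smul_eq_mul]
    have hfin : H.index ≤ 2 * c ^ 2 := by
      have h6 : c ≤ c ^ 2 := by nlinarith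
      rcases hcase with h2 | hlt
      · rw [h2]; omega
      · have h3 : N * (N + n) ≤ n * c * (n * c + n) := Nat.mul_le_mul hNnc (by omega)
        have h4 : 2 * H.index * n ^ 2 < (c * (c + 1)) * n ^ 2 := by
          calc 2 * H.index * n ^ 2 < N * (N + n) := hlt
            _ ≤ n * c * (n * c + n) := h3
            _ = (c * (c + 1)) * n ^ 2 := by ring
        have h5 : 2 * H.index < c * (c + 1) := Nat.lt_of_mul_lt_mul_right h4
        have h7 : c * (c + 1) = c ^ 2 + c := by ring
        omega
    exact (hemb H hH).trans (Nat.factorial_le hfin)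


end Cfsg.Agent.S0212
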