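import Cfsg.Statements.S0213
import Mathlib
import Cfsg.Agent.Lead.Fpf2
import Cfsg.Agent.Lead.UniqSub

set_option autoImplicit false
open Cfsg

namespace Cfsg.Agent.S0213

theorem card_class_mul_card_centralizer {G : Type*} [Group G] [Fintype G] [DecidableEq G]
    (t : G) (K : Finset G) (hK : ∀ s, s ∈ K ↔ IsConj t s) :
    K.card * Nat.card (Subgroup.centralizer ({t} : Set G)) = Nat.card G := by
  classical
  have h1 : Nat.card G = (Finset.univ : Finset G).card := by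
    rw [Nat.card_eq_fintype_card, Finset.card_univ]
  have h2 := Finset.card_eq_sum_card_fiberwise (f := fun g : G => g * t * g⁻¹)
    (s := Finset.univ) (t := K) (by
      intro g _
      rw [Finset.mem_coe, hK]
      exact isConj_iff.mpr ⟨g, rfl⟩)
  rw [h1, h2]
  rw [← smul_eq_mul, ← Finset.sum_const]
  apply Finset.sum_congr rfl
  intro s hs
  obtain ⟨g₀, hg₀⟩ := isConj_iff.mp ((hK s).mp hs)
  rw [Nat.card_eq_fintype_card, Fintype.card_subtype]
  symm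
  apply Finset.card_nbij' (fun g => g₀⁻¹ * g) (fun g => g₀ * g)
  · intro g hg
    have hg' : g * t * g⁻¹ = s := (Finset.mem_filter.mp (Finset.mem_coe.mp hg)).2
    rw [Finset.mem_coe, Finset.mem_filter]
    refine ⟨Finset.mem_univ _, ?_⟩
    rw [Subgroup.mem_centralizer_singleton_iff]
    calc g₀⁻¹ * g * t = g₀⁻¹ * (g * t * g⁻¹) * g := by group
      _ = g₀⁻¹ * (g₀ * t * g₀⁻¹) * g := by rw [hg', hg₀]
      _ = t * (g₀⁻¹ * g) := by group
  · intro g hg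
    have hg' : g * t = t * g :=
      Subgroup.mem_centralizer_singleton_iff.mp (Finset.mem_filter.mp (Finset.mem_coe.mp hg)).2
    rw [Finset.mem_coe, Finset.mem_filter]
    refine ⟨Finset.mem_univ _, ?_⟩
    calc g₀ * g * t * (g₀ * g)⁻¹ = g₀ * (g * t) * g⁻¹ * g₀⁻¹ := by group
      _ = g₀ * (t * g) * g⁻¹ * g₀⁻¹ := by rw [hg']
      _ = g₀ * t * g₀⁻¹ := by group
      _ = s := hg₀
  · intro g _; simp
  · intro g _; simp

theorem invol_unique_in_zpowers {G : Type*} [Group G] [Finite G] (r w₁ w₂ : G)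
    (h1 : w₁ ∈ Subgroup.zpowers r) (h2 : w₂ ∈ Subgroup.zpowers r)
    (o1 : orderOf w₁ = 2) (o2 : orderOf w₂ = 2) : w₁ = w₂ := by
  haveI : Fact (Nat.Prime 2) := ⟨Nat.prime_two⟩
  have e1 : w₁ ^ 2 = 1 := by rw [← o1]; exact pow_orderOf_eq_one w₁
  have e2 : w₂ ^ 2 = 1 := by rw [← o2]; exact pow_orderOf_eq_one w₂
  have n1 : w₁ ≠ 1 := by intro h; rw [h, orderOf_one] at o1; omega
  have n2 : w₂ ≠ 1 := by intro h; rw [h, orderOf_one] at o2; omega
  have key := Cfsg.Agent.Lead.cyclic_mem_zpowers_of_pow_eq_one (p := 2) (Subgroup.zpowers r)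
    ⟨w₁, h1⟩ ⟨w₂, h2⟩ (Subtype.ext e1) (Subtype.ext e2) (fun h => n1 (congrArg Subtype.val h))
  rcases Cfsg.Agent.Lead.eq_one_or_eq_of_mem_zpowers_sq key (Subtype.ext e1) with h | h
  · exact absurd (congrArg Subtype.val h) n2
  · exact (congrArg Subtype.val h).symm

theorem exists_invol_in_zpowers {G : Type*} [Group G] [Finite G] (u v : G)
    (hu : u * u = 1) (hv : v * v = 1) (hnc : ¬ IsConj u v) :
    ∃ w ∈ Subgroup.zpowers (u * v), orderOf w = 2 := by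
  obtain ⟨r, hr⟩ : ∃ r : G, r = u * v := ⟨_, rfl⟩
  rw [← hr]
  have hpos : 0 < orderOf r := orderOf_pos r
  rcases Nat.even_or_odd' (orderOf r) with ⟨k, hk | hk⟩
  · refine ⟨r ^ k, Subgroup.pow_mem _ (Subgroup.mem_zpowers r) k, ?_⟩
    have h := orderOf_pow_orderOf_div (x := r) (n := 2) hpos.ne' ⟨k, hk⟩
    rw [hk, Nat.mul_div_cancel_left k (by norm_num)] at h
    exact h
  · exfalso
    apply hnc
    rw [isConj_iff]
    have huinv : u⁻¹ = u := inv_eq_of_mul_eq_one_left hu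
    have hvinv : v⁻¹ = v := inv_eq_of_mul_eq_one_left hv
    have h1 : u * r * u⁻¹ = r⁻¹ := by
      rw [hr, mul_inv_rev, huinv, hvinv, ← mul_assoc, hu, one_mul]
    have h2 : u * r ^ (k + 1) * u⁻¹ = (r ^ (k + 1))⁻¹ := by
      rw [← conj_pow, h1, inv_pow]
    have h3 : r ^ (2 * k + 1) = 1 := by rw [← hk]; exact pow_orderOf_eq_one r
    have h4 : (r ^ (k + 1))⁻¹ * (r ^ (k + 1))⁻¹ = r⁻¹ := by
      rw [← mul_inv_rev, ← pow_add]
      have : k + 1 + (k + 1) = 2 * k + 1 + 1 := by ring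
      rw [this, pow_succ, h3, one_mul]
    have h5 : r⁻¹ * u = v := by
      rw [hr, mul_inv_rev, huinv, hvinv, mul_assoc, hu, mul_one]
    obtain ⟨R, hR⟩ : ∃ R : G, R = r ^ (k + 1) := ⟨_, rfl⟩
    rw [← hR] at h2 h4
    refine ⟨R⁻¹, ?_⟩
    calc R⁻¹ * u * R⁻¹⁻¹ = R⁻¹ * (u * R * u⁻¹) * u := by group
      _ = R⁻¹ * R⁻¹ * u := by rw [h2]
      _ = v := by rw [h4, h5]

/-- Thompson Order Formula, two-class case: if every involution of the finite group G is conjugate to exactly one of the non-conjugate involutions x₁, x₂, and nᵢ is the number of pairs (u, v) with u conjugate to x₁, v conjugate to x₂ and xᵢ in the cyclic group generated by uv, then |G| = |C(x₂)| n₁ + |C(x₁)| n₂. -/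
theorem result {G : Type*} [Group G] [Finite G] (x₁ x₂ : G) (h₁ : orderOf x₁ = 2) (h₂ : orderOf x₂ = 2) (hnc : ¬ IsConj x₁ x₂) (hall : ∀ t : G, orderOf t = 2 → IsConj x₁ t ∨ IsConj x₂ t) : Nat.card G = Nat.card (Subgroup.centralizer ({x₂} : Set G)) * Nat.card {p : G × G // IsConj x₁ p.1 ∧ IsConj x₂ p.2 ∧ x₁ ∈ Subgroup.zpowers (p.1 * p.2)} + Nat.card (Subgroup.centralizer ({x₁} : Set G)) * Nat.card {p : G × G // IsConj x₁ p.1 ∧ IsConj x₂ p.2 ∧ x₂ ∈ Subgroup.zpowers (p.1 * p.2)} := by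
  classical
  haveI : Fintype G := Fintype.ofFinite G
  obtain ⟨K₁, hK₁⟩ : ∃ K : Finset G, ∀ s, s ∈ K ↔ IsConj x₁ s :=
    ⟨Finset.univ.filter (fun s => IsConj x₁ s), by simp⟩
  obtain ⟨K₂, hK₂⟩ : ∃ K : Finset G, ∀ s, s ∈ K ↔ IsConj x₂ s :=
    ⟨Finset.univ.filter (fun s => IsConj x₂ s), by simp⟩
  obtain ⟨f, hf⟩ : ∃ f : G → ℕ, ∀ w, f w =
      ((K₁ ×ˢ K₂).filter (fun p => w ∈ Subgroup.zpowers (p.1 * p.2))).card := ⟨_, fun _ => rfl⟩
  have hn₁ : Nat.card {p : G × G // IsConj x₁ p.1 ∧ IsConj x₂ p.2 ∧ x₁ ∈ Subgroup.zpowers (p.1 * p.2)} = f x₁ := by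
    rw [hf, Nat.card_eq_fintype_card, Fintype.card_subtype]
    congr 1
    ext p
    simp [Finset.mem_product, hK₁, hK₂, and_assoc]
  have hn₂ : Nat.card {p : G × G // IsConj x₁ p.1 ∧ IsConj x₂ p.2 ∧ x₂ ∈ Subgroup.zpowers (p.1 * p.2)} = f x₂ := by
    rw [hf, Nat.card_eq_fintype_card, Fintype.card_subtype]
    congr 1
    ext p
    simp [Finset.mem_product, hK₁, hK₂, and_assoc]
  rw [hn₁, hn₂]
  have hc₁ := card_class_mul_card_centralizer x₁ K₁ hK₁
  have hc₂ := card_class_mul_card_centralizer x₂ K₂ hK₂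
  obtain ⟨c₁, hc₁def⟩ : ∃ c : ℕ, c = Nat.card (Subgroup.centralizer ({x₁} : Set G)) := ⟨_, rfl⟩
  obtain ⟨c₂, hc₂def⟩ : ∃ c : ℕ, c = Nat.card (Subgroup.centralizer ({x₂} : Set G)) := ⟨_, rfl⟩
  rw [← hc₁def] at hc₁ ⊢
  rw [← hc₂def] at hc₂ ⊢
  obtain ⟨N, hN⟩ : ∃ N : ℕ, N = Nat.card G := ⟨_, rfl⟩
  rw [← hN] at hc₁ hc₂ ⊢
  have hNpos : 0 < N := hN ▸ Nat.card_pos
  have hinv : ∀ s : G, orderOf s = 2 → s * s = 1 := by
    intro s hs; rw [← pow_two, ← hs]; exact pow_orderOf_eq_one s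
  have hord₁ : ∀ s ∈ K₁, orderOf s = 2 := by
    intro s hs
    obtain ⟨g, hg⟩ := isConj_iff.mp ((hK₁ s).mp hs)
    rw [← hg, ← h₁]
    exact (MulAut.conj g).orderOf_eq x₁
  have hord₂ : ∀ s ∈ K₂, orderOf s = 2 := by
    intro s hs
    obtain ⟨g, hg⟩ := isConj_iff.mp ((hK₂ s).mp hs)
    rw [← hg, ← h₂]
    exact (MulAut.conj g).orderOf_eq x₂
  have hdisj : Disjoint K₁ K₂ := by
    rw [Finset.disjoint_left]
    intro s hs1 hs2
    exact hnc (((hK₁ s).mp hs1).trans ((hK₂ s).mp hs2).symm)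
  have hfle : ∀ (g w : G), f w ≤ f (g * w * g⁻¹) := by
    intro g w
    rw [hf, hf]
    apply Finset.card_le_card_of_injOn (fun p => (g * p.1 * g⁻¹, g * p.2 * g⁻¹))
    · intro p hp
      rw [Finset.mem_coe, Finset.mem_filter, Finset.mem_product] at hp
      obtain ⟨⟨hp1, hp2⟩, hw⟩ := hp
      rw [Finset.mem_coe, Finset.mem_filter, Finset.mem_product]
      refine ⟨⟨?_, ?_⟩, ?_⟩
      · rw [hK₁] at hp1 ⊢
        exact hp1.trans (isConj_iff.mpr ⟨g, rfl⟩)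
      · rw [hK₂] at hp2 ⊢
        exact hp2.trans (isConj_iff.mpr ⟨g, rfl⟩)
      · obtain ⟨k, hk⟩ := Subgroup.mem_zpowers_iff.mp hw
        rw [Subgroup.mem_zpowers_iff]
        refine ⟨k, ?_⟩
        show (g * p.1 * g⁻¹ * (g * p.2 * g⁻¹)) ^ k = g * w * g⁻¹
        have e : g * p.1 * g⁻¹ * (g * p.2 * g⁻¹) = g * (p.1 * p.2) * g⁻¹ := by group
        rw [e, conj_zpow, hk]
    · intro p _ q _ hpq
      have h1 : g * p.1 * g⁻¹ = g * q.1 * g⁻¹ := congrArg Prod.fst hpq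
      have h2 : g * p.2 * g⁻¹ = g * q.2 * g⁻¹ := congrArg Prod.snd hpq
      exact Prod.ext (mul_left_cancel (mul_right_cancel h1)) (mul_left_cancel (mul_right_cancel h2))
  have hfconj : ∀ (g w : G), f (g * w * g⁻¹) = f w := by
    intro g w
    apply le_antisymm
    · have := hfle g⁻¹ (g * w * g⁻¹)
      have e : g⁻¹ * (g * w * g⁻¹) * g⁻¹⁻¹ = w := by group
      rw [e] at this; exact this
    · exact hfle g w
  have hf₁ : ∀ s ∈ K₁, f s = f x₁ := by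
    intro s hs
    obtain ⟨g, hg⟩ := isConj_iff.mp ((hK₁ s).mp hs)
    rw [← hg]; exact hfconj g x₁
  have hf₂ : ∀ s ∈ K₂, f s = f x₂ := by
    intro s hs
    obtain ⟨g, hg⟩ := isConj_iff.mp ((hK₂ s).mp hs)
    rw [← hg]; exact hfconj g x₂
  obtain ⟨I, hI⟩ : ∃ I : Finset G, I = K₁ ∪ K₂ := ⟨_, rfl⟩
  have hImem : ∀ w : G, w ∈ I ↔ orderOf w = 2 := by
    intro w
    rw [hI, Finset.mem_union]
    constructor
    · rintro (h | h)
      · exact hord₁ w h
      · exact hord₂ w h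
    · intro h
      rcases hall w h with h' | h'
      · exact Or.inl ((hK₁ w).mpr h')
      · exact Or.inr ((hK₂ w).mpr h')
  have hcount : ∀ p ∈ K₁ ×ˢ K₂,
      (I.filter (fun w => w ∈ Subgroup.zpowers (p.1 * p.2))).card = 1 := by
    intro p hp
    rw [Finset.mem_product] at hp
    have hu := hinv p.1 (hord₁ _ hp.1)
    have hv := hinv p.2 (hord₂ _ hp.2)
    have hncp : ¬ IsConj p.1 p.2 := by
      intro h
      exact hnc ((((hK₁ _).mp hp.1).trans h).trans ((hK₂ _).mp hp.2).symm)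
    obtain ⟨w, hw, hwo⟩ := exists_invol_in_zpowers p.1 p.2 hu hv hncp
    rw [Finset.card_eq_one]
    refine ⟨w, ?_⟩
    ext w'
    rw [Finset.mem_filter, Finset.mem_singleton, hImem]
    constructor
    · rintro ⟨h1, h2⟩
      exact invol_unique_in_zpowers (p.1 * p.2) w' w h2 hw h1 hwo
    · rintro rfl
      exact ⟨hwo, hw⟩
  have hdc : (K₁ ×ˢ K₂).card = ∑ w ∈ I, f w := by
    calc (K₁ ×ˢ K₂).card = ∑ p ∈ K₁ ×ˢ K₂, 1 := by rw [Finset.card_eq_sum_ones]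
      _ = ∑ p ∈ K₁ ×ˢ K₂, (I.filter (fun w => w ∈ Subgroup.zpowers (p.1 * p.2))).card :=
          Finset.sum_congr rfl (fun p hp => (hcount p hp).symm)
      _ = ∑ p ∈ K₁ ×ˢ K₂, ∑ w ∈ I, (if w ∈ Subgroup.zpowers (p.1 * p.2) then 1 else 0) := by
          apply Finset.sum_congr rfl; intro p _; rw [Finset.card_filter]
      _ = ∑ w ∈ I, ∑ p ∈ K₁ ×ˢ K₂, (if w ∈ Subgroup.zpowers (p.1 * p.2) then 1 else 0) :=
          Finset.sum_comm
      _ = ∑ w ∈ I, f w := by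
          apply Finset.sum_congr rfl; intro w _; rw [hf, Finset.card_filter]
  rw [hI, Finset.sum_union hdisj, Finset.sum_congr rfl hf₁, Finset.sum_congr rfl hf₂,
    Finset.sum_const, Finset.sum_const, smul_eq_mul, smul_eq_mul, Finset.card_product] at hdc
  have key : N * N = N * (c₂ * f x₁ + c₁ * f x₂) := by
    calc N * N = (K₁.card * c₁) * (K₂.card * c₂) := by rw [hc₁, hc₂]
      _ = (K₁.card * K₂.card) * (c₁ * c₂) := by ring
      _ = (K₁.card * f x₁ + K₂.card * f x₂) * (c₁ * c₂) := by rw [hdc]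
      _ = (K₁.card * c₁) * (c₂ * f x₁) + (K₂.card * c₂) * (c₁ * f x₂) := by ring
      _ = N * (c₂ * f x₁ + c₁ * f x₂) := by rw [hc₁, hc₂]; ring
  exact Nat.eq_of_mul_eq_mul_left hNpos key


end Cfsg.Agent.S0213
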