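import Cfsg.Statements.S0216
import Mathlib
import Cfsg.Agent.Lead.SylowBasic
import Cfsg.Agent.Helper2.Isolated

set_option autoImplicit false
open Cfsg

namespace Cfsg.Agent.S0216

/-- For an involution u in a Sylow 2-subgroup P of a finite group G, the following are equivalent: no G-conjugate of u other than u lies in P; every commutator of u with an element of G has odd order. -/
theorem result {G : Type*} [Group G] [Finite G] (P : Sylow 2 G) (u : G) (hu : orderOf u = 2) (huP : u ∈ P) : (∀ g : G, g * u * g⁻¹ ∈ P → g * u * g⁻¹ = u) ↔ (∀ g : G, Odd (orderOf (u * g * u⁻¹ * g⁻¹))) := by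
  have hui := Lead.inv_eq_self_of_orderOf_two hu
  have e : ∀ g : G, u * g * u⁻¹ * g⁻¹ = u * (g * u * g⁻¹) := by
    intro g; rw [hui]; group
  constructor
  · intro hiso g
    have hI := Lead.isolated_of_sylow_isolated P hu hiso
    rw [e]
    exact Helper2.isolated_mul_conj_odd hI g
  · intro hodd g hgP
    have hmem : u * (g * u * g⁻¹) ∈ (P : Subgroup G) := Subgroup.mul_mem _ huP hgP
    obtain ⟨k, hk⟩ := P.2 ⟨_, hmem⟩
    have hk' : (u * (g * u * g⁻¹)) ^ 2 ^ k = 1 := by
      have h0 := congrArg Subtype.val hk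
      rw [Subgroup.coe_pow] at h0
      exact h0
    have hd : orderOf (u * (g * u * g⁻¹)) ∣ 2 ^ k := orderOf_dvd_of_pow_eq_one hk'
    have ho : Odd (orderOf (u * (g * u * g⁻¹))) := by
      have h0 := hodd g
      rwa [e] at h0
    have h1 : orderOf (u * (g * u * g⁻¹)) = 1 :=
      Nat.Coprime.eq_one_of_dvd (Nat.Coprime.pow_right k (Nat.coprime_two_right.mpr ho)) hd
    have h2 : u * (g * u * g⁻¹) = 1 := orderOf_eq_one_iff.mp h1
    have h3 := eq_inv_of_mul_eq_one_right h2
    rw [h3, hui]


end Cfsg.Agent.S0216
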