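import Cfsg.Statements.S0218
import Mathlib

set_option autoImplicit false
open Cfsg

namespace Cfsg.Agent.S0218

/-- The generalized quaternion group of order 2^(n+3) contains exactly one element of order 2. -/
theorem result (n : ℕ) : Nat.card {x : QuaternionGroup (2 ^ (n + 1)) // orderOf x = 2} = 1 := by
  set N := 2 ^ (n + 1) with hN
  have hNpos : 0 < N := by positivity
  have hNZ : NeZero N := ⟨by omega⟩
  have hNZ2 : NeZero (2 * N) := ⟨by omega⟩
  have key : ∀ x : QuaternionGroup N, orderOf x = 2 ↔ x = QuaternionGroup.a (N : ZMod (2 * N)) := by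
    intro x
    constructor
    · intro hx
      cases x with
      | a i =>
        have h1 : (QuaternionGroup.a i : QuaternionGroup N) ^ 2 = 1 := by
          rw [← hx]; exact pow_orderOf_eq_one _
        rw [pow_two, QuaternionGroup.a_mul_a, QuaternionGroup.one_def] at h1
        have h2 : i + i = 0 := QuaternionGroup.a.inj h1
        have h3 : i ≠ 0 := by
          rintro rfl
          rw [QuaternionGroup.a_zero, orderOf_one] at hx
          omega
        congr 1
        have h4 : ((i.val + i.val : ℕ) : ZMod (2 * N)) = 0 := by
          push_cast; rw [ZMod.natCast_zmod_val]; exact h2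
        rw [ZMod.natCast_eq_zero_iff] at h4
        have h5 : i.val < 2 * N := ZMod.val_lt i
        have h6 : i.val ≠ 0 := by
          intro h; apply h3; exact (ZMod.val_eq_zero i).mp h
        have h7 : i.val + i.val = 2 * N := Nat.eq_of_dvd_of_lt_two_mul (by omega) h4 (by omega)
        have h8 : i.val = N := by omega
        calc i = ((i.val : ℕ) : ZMod (2 * N)) := (ZMod.natCast_zmod_val i).symm
          _ = (N : ZMod (2 * N)) := by rw [h8]
      | xa i =>
        rw [QuaternionGroup.orderOf_xa] at hx
        omega
    · rintro rfl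
      apply orderOf_eq_prime
      · rw [pow_two, QuaternionGroup.a_mul_a, QuaternionGroup.one_def]
        congr 1
        have h9 : ((N + N : ℕ) : ZMod (2 * N)) = 0 := by
          rw [ZMod.natCast_eq_zero_iff]; exact ⟨1, by ring⟩
        push_cast at h9; exact h9
      · intro h
        rw [QuaternionGroup.one_def] at h
        have h1 : (N : ZMod (2 * N)) = 0 := QuaternionGroup.a.inj h
        rw [ZMod.natCast_eq_zero_iff] at h1
        have h10 := Nat.le_of_dvd hNpos h1
        omega
  rw [Nat.card_eq_one_iff_unique]
  refine ⟨⟨?_⟩, ⟨⟨QuaternionGroup.a (N : ZMod (2 * N)), (key _).mpr rfl⟩⟩⟩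
  rintro ⟨x, hx⟩ ⟨y, hy⟩
  apply Subtype.ext
  show x = y
  rw [(key x).mp hx, (key y).mp hy]


end Cfsg.Agent.S0218
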