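import Cfsg.Statements.S0219
import Mathlib

set_option autoImplicit false
open Cfsg

namespace Cfsg.Agent.S0219

/-- If a finite group has even order and a cyclic Sylow 2-subgroup, then it has a subgroup of index 2 (consider the parity of permutations in the regular representation). -/
theorem result {G : Type*} [Group G] [Finite G] (heven : Even (Nat.card G)) (T : Sylow 2 G) (hT : IsCyclic (T : Subgroup G)) : ∃ H : Subgroup G, H.index = 2 := by
  have h2 : (Nat.card G).minFac = 2 := (Nat.minFac_eq_two_iff _).mpr heven.two_dvd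
  have hN := hT.normalizer_le_centralizer h2
  have hcomp : (MonoidHom.transferSylow T hN).ker.IsComplement' T := IsCyclic.isComplement' h2 hT
  set K := (MonoidHom.transferSylow T hN).ker with hK
  have hidx : K.index = Nat.card T := by
    have h1 := hcomp.card_mul_card
    have h3 := K.card_mul_index
    have hpos : 0 < Nat.card K := Nat.card_pos
    exact Nat.eq_of_mul_eq_mul_left hpos (h3.trans h1.symm)
  obtain ⟨k, hk⟩ := T.2.exists_card_eq
  have hk1 : 1 ≤ k := by
    have hd := T.dvd_card_of_dvd_card heven.two_dvd
    rw [hk] at hd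
    by_contra hk0
    have hk0' : k = 0 := by omega
    rw [hk0', pow_zero] at hd
    omega
  have hQ : Nat.card (G ⧸ K) = 2 ^ k := by rw [← hk, ← hidx]; rfl
  obtain ⟨H', hH'⟩ := Sylow.exists_subgroup_card_pow_prime 2 (n := k - 1) (G := G ⧸ K)
    (by rw [hQ]; exact pow_dvd_pow 2 (by omega))
  refine ⟨H'.comap (QuotientGroup.mk' K), ?_⟩
  rw [Subgroup.index_comap_of_surjective _ (QuotientGroup.mk'_surjective K)]
  have h5 := H'.card_mul_index
  rw [hH', hQ] at h5
  have h6 : 2 ^ k = 2 ^ (k - 1) * 2 := by
    rw [← pow_succ]; congr 1; omega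
  rw [h6] at h5
  exact Nat.eq_of_mul_eq_mul_left (by positivity) h5


end Cfsg.Agent.S0219
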