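import Cfsg.Statements.S0220
import Mathlib
import Cfsg.Agent.Lead.SylowBasic
import Cfsg.Agent.Lead.Cyclic2
import Cfsg.Agent.S0219

set_option autoImplicit false
open Cfsg

namespace Cfsg.Agent.S0220

/-- If x is an involution of a finite group G and a Sylow 2-subgroup of the centralizer of x is cyclic, then G has a subgroup of index 2; in particular G is not simple unless it has order 2. -/
theorem result {G : Type*} [Group G] [Finite G] (x : G) (hx : orderOf x = 2) (S : Sylow 2 ↥(Subgroup.centralizer ({x} : Set G))) (hS : IsCyclic (S : Subgroup ↥(Subgroup.centralizer ({x} : Set G)))) : ∃ H : Subgroup G, H.index = 2 := by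
  classical
  have hxC : x ∈ Subgroup.centralizer ({x} : Set G) := by
    rw [Subgroup.mem_centralizer_singleton_iff]
  have hcentral : ∀ c : Subgroup.centralizer ({x} : Set G), c * ⟨x, hxC⟩ = ⟨x, hxC⟩ * c := by
    intro c
    apply Subtype.ext
    exact Subgroup.mem_centralizer_singleton_iff.mp c.2
  have hxo : orderOf (⟨x, hxC⟩ : Subgroup.centralizer ({x} : Set G)) = 2 := by
    rw [Subgroup.orderOf_mk]; exact hx
  have hxS : (⟨x, hxC⟩ : Subgroup.centralizer ({x} : Set G)) ∈ S := by
    obtain ⟨c, hc⟩ := Lead.exists_conj_mem_sylow S (Lead.isPGroup_zpowers_of_orderOf_prime hxo)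
    have h1 := hc _ (Subgroup.mem_zpowers _)
    rwa [hcentral c, mul_inv_cancel_right] at h1
  have hS'p : IsPGroup 2 ((S : Subgroup (Subgroup.centralizer ({x} : Set G))).map
      (Subgroup.centralizer ({x} : Set G)).subtype) := S.2.map _
  obtain ⟨T, hST⟩ := hS'p.exists_le_sylow
  have hxT : x ∈ T := hST (Subgroup.mem_map.mpr ⟨⟨x, hxC⟩, hxS, rfl⟩)
  -- T ⊓ C ≤ S'
  have hTC : ∀ y : G, y ∈ T → (hy : y ∈ Subgroup.centralizer ({x} : Set G)) →
      (⟨y, hy⟩ : Subgroup.centralizer ({x} : Set G)) ∈ S := by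
    intro y hyT hyC
    have hQ : IsPGroup 2 (((T : Subgroup G)).subgroupOf (Subgroup.centralizer ({x} : Set G))) :=
      T.2.comap_subtype
    have hle : (S : Subgroup (Subgroup.centralizer ({x} : Set G))) ≤
        ((T : Subgroup G)).subgroupOf (Subgroup.centralizer ({x} : Set G)) := by
      intro c hc
      rw [Subgroup.mem_subgroupOf]
      exact hST (Subgroup.mem_map.mpr ⟨c, hc, rfl⟩)
    have heq := S.3 hQ hle
    have hmem : (⟨y, hyC⟩ : Subgroup.centralizer ({x} : Set G)) ∈
        ((T : Subgroup G)).subgroupOf (Subgroup.centralizer ({x} : Set G)) := by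
      rw [Subgroup.mem_subgroupOf]; exact hyT
    rw [heq] at hmem
    exact hmem
  -- an involution in the centre of T
  have hTnt : Nontrivial (T : Subgroup G) := ⟨⟨⟨x, hxT⟩, 1, by
    intro h
    have h1 : x = 1 := congrArg Subtype.val h
    exact Lead.ne_one_of_orderOf_two hx h1⟩⟩
  have hcnt : Nontrivial (Subgroup.center (T : Subgroup G)) := T.2.center_nontrivial
  have hcp : IsPGroup 2 (Subgroup.center (T : Subgroup G)) := T.2.to_subgroup _
  have h2c : 2 ∣ Nat.card (Subgroup.center (T : Subgroup G)) := by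
    rcases hcp.card_eq_or_dvd with h | h
    · exfalso
      have h3 := Nat.card_eq_one_iff_unique.mp h
      obtain ⟨a, b, hab⟩ := hcnt
      exact hab (h3.1.elim a b)
    · exact h
  obtain ⟨z', hz'⟩ := exists_prime_orderOf_dvd_card' 2 h2c
  have hzo : orderOf ((z' : (T : Subgroup G)) : G) = 2 := by
    rw [Subgroup.orderOf_coe, Subgroup.orderOf_coe]; exact hz'
  have hzT : ((z' : (T : Subgroup G)) : G) ∈ T := (z' : (T : Subgroup G)).2
  have hzcomm : ∀ t : G, t ∈ T → t * ((z' : (T : Subgroup G)) : G) = ((z' : (T : Subgroup G)) : G) * t := by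
    intro t ht
    have h1 := Subgroup.mem_center_iff.mp z'.2 ⟨t, ht⟩
    exact congrArg Subtype.val h1
  have hzC : ((z' : (T : Subgroup G)) : G) ∈ Subgroup.centralizer ({x} : Set G) := by
    rw [Subgroup.mem_centralizer_singleton_iff]
    exact (hzcomm x hxT).symm
  have hzS := hTC _ hzT hzC
  have hzx : ((z' : (T : Subgroup G)) : G) = x := by
    have h1 : (⟨⟨((z' : (T : Subgroup G)) : G), hzC⟩, hzS⟩ : (S : Subgroup (Subgroup.centralizer ({x} : Set G)))) =
        ⟨⟨x, hxC⟩, hxS⟩ := by
      apply Lead.eq_of_orderOf_two_of_isCyclic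
      · rw [Subgroup.orderOf_mk, Subgroup.orderOf_mk]; exact hzo
      · rw [Subgroup.orderOf_mk, Subgroup.orderOf_mk]; exact hx
    have h2 := congrArg (fun w : (S : Subgroup (Subgroup.centralizer ({x} : Set G))) => ((w : Subgroup.centralizer ({x} : Set G)) : G)) h1
    exact h2
  rw [hzx] at hzcomm
  have hTeq : (T : Subgroup G) = (S : Subgroup (Subgroup.centralizer ({x} : Set G))).map
      (Subgroup.centralizer ({x} : Set G)).subtype := by
    apply le_antisymm
    · intro y hy
      have hyC : y ∈ Subgroup.centralizer ({x} : Set G) := by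
        rw [Subgroup.mem_centralizer_singleton_iff]; exact hzcomm y hy
      exact Subgroup.mem_map.mpr ⟨⟨y, hyC⟩, hTC y hy hyC, rfl⟩
    · exact hST
  have hcyc' : IsCyclic ((S : Subgroup (Subgroup.centralizer ({x} : Set G))).map
      (Subgroup.centralizer ({x} : Set G)).subtype) :=
    isCyclic_of_surjective _
      ((Subgroup.centralizer ({x} : Set G)).subtype.subgroupMap_surjective (S : Subgroup _))
  have hTcyc : IsCyclic (T : Subgroup G) := by rw [hTeq]; exact hcyc'
  have heven : Even (Nat.card G) := by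
    rw [even_iff_two_dvd, ← hx]; exact orderOf_dvd_natCard x
  exact Cfsg.Agent.S0219.result heven T hTcyc


end Cfsg.Agent.S0220
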