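import Cfsg.Statements.S0221
import Mathlib
import Cfsg.Agent.Lead.UniqSub
import Cfsg.Agent.Lead.SylowBasic
import Cfsg.Agent.S0129
import Cfsg.Agent.S0111

set_option autoImplicit false
open Cfsg

namespace Cfsg.Agent.S0221

theorem index_le_two_of {H : Type*} [Group H] [Finite H] (D : Subgroup H)
    (h : ∀ x y : H, x ∉ D → y ∉ D → x⁻¹ * y ∈ D) : D.index ≤ 2 := by
  classical
  by_cases hall : ∀ x : H, x ∈ D
  · have : D = ⊤ := by rw [eq_top_iff]; intro x _; exact hall x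
    rw [this, Subgroup.index_top]; norm_num
  · push_neg at hall
    obtain ⟨x₀, hx₀⟩ := hall
    have hsurj : Function.Surjective
        (fun b : Bool => cond b (QuotientGroup.mk x₀ : H ⧸ D) (QuotientGroup.mk 1)) := by
      intro q
      obtain ⟨y, rfl⟩ := QuotientGroup.mk_surjective q
      by_cases hy : y ∈ D
      · refine ⟨false, ?_⟩
        show (QuotientGroup.mk 1 : H ⧸ D) = QuotientGroup.mk y
        exact QuotientGroup.eq.mpr (by rw [inv_one, one_mul]; exact hy)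
      · refine ⟨true, ?_⟩
        show (QuotientGroup.mk x₀ : H ⧸ D) = QuotientGroup.mk y
        exact QuotientGroup.eq.mpr (h x₀ y hx₀ hy)
    have h1 := Nat.card_le_card_of_surjective _ hsurj
    have hb : Nat.card Bool = 2 := by simp
    rw [hb] at h1
    exact h1

theorem exists_dbl {G : Type*} [Group G] [Finite G] (V : Subgroup G) (w : G) (hw2 : w * w = 1)
    (hwc : ∀ v ∈ V, w * v = v * w) (hwV : w ∉ V) :
    ∃ W : Subgroup G, (∀ g, g ∈ W ↔ g ∈ V ∨ w * g ∈ V) ∧ Nat.card W = Nat.card V * 2 ∧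
      ((∀ v ∈ V, v ^ 2 = 1) → ∀ g ∈ W, g ^ 2 = 1) := by
  have key : ∀ a : G, w * (w * a) = a := fun a => by rw [← mul_assoc, hw2, one_mul]
  have hwinv : w⁻¹ = w := inv_eq_of_mul_eq_one_left hw2
  let W : Subgroup G :=
    { carrier := {g | g ∈ V ∨ w * g ∈ V}
      one_mem' := Or.inl V.one_mem
      mul_mem' := by
        rintro a b (ha | ha) (hb | hb)
        · exact Or.inl (V.mul_mem ha hb)
        · refine Or.inr ?_
          have e : w * (a * b) = a * (w * b) := by rw [← mul_assoc, hwc a ha, mul_assoc]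
          rw [e]; exact V.mul_mem ha hb
        · refine Or.inr ?_
          have e : w * (a * b) = (w * a) * b := (mul_assoc w a b).symm
          rw [e]; exact V.mul_mem ha hb
        · refine Or.inl ?_
          have e : (w * a) * (w * b) = a * b := by
            rw [← mul_assoc (w * a) w b, ← hwc (w * a) ha, key a]
          rw [← e]; exact V.mul_mem ha hb
      inv_mem' := by
        rintro a (ha | ha)
        · exact Or.inl (V.inv_mem ha)
        · refine Or.inr ?_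
          have h2 : (w * a)⁻¹ * w = w * (w * a)⁻¹ := (hwc _ (V.inv_mem ha)).symm
          have h1 : w * a⁻¹ = (w * a)⁻¹ := by
            rw [mul_inv_rev, hwinv] at h2 ⊢
            rw [mul_assoc, hw2, mul_one] at h2
            calc w * a⁻¹ = w * a⁻¹ * (w * w) := by rw [hw2, mul_one]
              _ = w * (a⁻¹ * w) * w := by simp only [mul_assoc]
              _ = a⁻¹ * w := by rw [← h2]
          rw [h1]; exact V.inv_mem ha }
  have hWmem : ∀ g, g ∈ W ↔ g ∈ V ∨ w * g ∈ V := fun g => Iff.rfl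
  have hVW : V ≤ W := fun g hg => Or.inl hg
  have hwW : w ∈ W := Or.inr (by rw [hw2]; exact V.one_mem)
  refine ⟨W, hWmem, ?_, ?_⟩
  · have hidx : (V.subgroupOf W).index = 2 := by
      rw [Subgroup.index_eq_two_iff]
      refine ⟨⟨w, hwW⟩, fun b => ?_⟩
      by_cases hb : (b : G) ∈ V
      · refine Or.inr ⟨Subgroup.mem_subgroupOf.mpr hb, fun h => hwV ?_⟩
        have h1 : (b : G) * w ∈ V := Subgroup.mem_subgroupOf.mp h
        exact (Subgroup.mul_mem_cancel_left V hb).mp h1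
      · have hb' : w * (b : G) ∈ V := ((hWmem _).mp b.2).resolve_left hb
        refine Or.inl ⟨Subgroup.mem_subgroupOf.mpr ?_, fun h => hb (Subgroup.mem_subgroupOf.mp h)⟩
        have e : (b : G) * w = w * (b : G) := by
          have h2 := hwc _ hb'
          rw [key] at h2
          calc (b : G) * w = w * (b : G) * w * w := by rw [← h2]
            _ = w * (b : G) := by rw [mul_assoc, hw2, mul_one]
        show ((b : G) * w) ∈ V
        rw [e]; exact hb'
    have h1 := Subgroup.card_mul_index (V.subgroupOf W)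
    rw [hidx, Nat.card_congr (Subgroup.subgroupOfEquivOfLe hVW).toEquiv] at h1
    exact h1.symm
  · intro hV2 g hg
    rcases (hWmem g).mp hg with hg | hg
    · exact hV2 g hg
    · have h2 := hwc _ hg
      rw [key] at h2
      have h3 := hV2 _ hg
      rw [pow_two] at h3 ⊢
      rw [← mul_assoc (w * g) w g, ← h2] at h3
      exact h3

theorem comm_of_sq {G : Type*} [Group G] (V : Subgroup G) (hV2 : ∀ v ∈ V, v ^ 2 = 1) :
    ∀ a ∈ V, ∀ b ∈ V, a * b = b * a := by
  have hinv : ∀ u ∈ V, u⁻¹ = u := fun u hu =>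
    inv_eq_of_mul_eq_one_left (by rw [← pow_two]; exact hV2 u hu)
  intro a ha b hb
  calc a * b = (a * b)⁻¹ := (hinv _ (V.mul_mem ha hb)).symm
    _ = b⁻¹ * a⁻¹ := mul_inv_rev a b
    _ = b * a := by rw [hinv a ha, hinv b hb]

theorem exists_e8 {G : Type*} [Group G] [Finite G] (V : Subgroup G) (hV4 : Nat.card V = 4)
    (hV2 : ∀ v ∈ V, v ^ 2 = 1) (x : G) (hx2 : x * x = 1) (hxV : x ∉ V)
    (hxc : V ≤ Subgroup.centralizer ({x} : Set G)) :
    ∃ E : Subgroup G, E ≤ Subgroup.centralizer ({x} : Set G) ∧ Nat.card E = 8 ∧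
      ∀ e ∈ E, e ^ 2 = 1 := by
  have hwc : ∀ v ∈ V, x * v = v * x := fun v hv =>
    Subgroup.mem_centralizer_iff.mp (hxc hv) x (Set.mem_singleton x)
  obtain ⟨W, hWmem, hWcard, hW2⟩ := exists_dbl V x hx2 hwc hxV
  refine ⟨W, ?_, by rw [hWcard, hV4], hW2 hV2⟩
  intro g hg
  have hxC : x ∈ Subgroup.centralizer ({x} : Set G) :=
    Subgroup.mem_centralizer_iff.mpr (fun h hh => by rw [Set.mem_singleton_iff.mp hh])
  rcases (hWmem g).mp hg with h | h
  · exact hxc h
  · exact (Subgroup.mul_mem_cancel_left _ hxC).mp (hxc h)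

theorem conj_back {G : Type*} [Group G] [Finite G] (x h : G)
    (hE : ∃ E : Subgroup G, E ≤ Subgroup.centralizer ({h * x * h⁻¹} : Set G) ∧ Nat.card E = 8 ∧
      ∀ e ∈ E, e ^ 2 = 1) :
    ∃ E : Subgroup G, E ≤ Subgroup.centralizer ({x} : Set G) ∧ Nat.card E = 8 ∧
      ∀ e ∈ E, e ^ 2 = 1 := by
  obtain ⟨E, hEc, hE8, hE2⟩ := hE
  refine ⟨E.map (MulAut.conj h⁻¹).toMonoidHom, ?_, ?_, ?_⟩
  · rintro _ ⟨e, he, rfl⟩
    rw [Subgroup.mem_centralizer_iff]
    intro y hy
    rw [Set.mem_singleton_iff.mp hy]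
    have hc : (h * x * h⁻¹) * e = e * (h * x * h⁻¹) :=
      Subgroup.mem_centralizer_iff.mp (hEc he) _ (Set.mem_singleton _)
    show x * (h⁻¹ * e * h⁻¹⁻¹) = (h⁻¹ * e * h⁻¹⁻¹) * x
    have e1 : x * (h⁻¹ * e * h⁻¹⁻¹) = h⁻¹ * ((h * x * h⁻¹) * e) * h := by group
    have e2 : (h⁻¹ * e * h⁻¹⁻¹) * x = h⁻¹ * (e * (h * x * h⁻¹)) * h := by group
    rw [e1, e2, hc]
  · rw [Subgroup.card_map_of_injective (f := (MulAut.conj h⁻¹).toMonoidHom)
      (MulAut.conj h⁻¹).injective]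
    exact hE8
  · rintro _ ⟨e, he, rfl⟩
    rw [← map_pow, hE2 e he, map_one]

theorem exists_normal_elem {R : Type*} [Group R] [Finite R] (hR : IsPGroup 2 R)
    (E : Subgroup R) (hE : Nat.card E = 8) (hE2 : ∀ e ∈ E, e ^ 2 = 1) :
    ∃ N : Subgroup R, N.Normal ∧ (∀ u ∈ N, u ^ 2 = 1) ∧ 4 ≤ Nat.card N := by
  classical
  haveI : Fact (Nat.Prime 2) := ⟨Nat.prime_two⟩
  haveI : Group.IsNilpotent R := hR.isNilpotent
  obtain ⟨A, hAn, hAc, hAmax⟩ := Cfsg.Agent.Lead.exists_max_normal_abelian (G := R)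
  haveI := hAn
  have hCA : Subgroup.centralizer (A : Set R) ≤ A :=
    Cfsg.Agent.Lead.centralizer_le_of_max_normal_abelian A hAc hAmax
  let Ω : Subgroup R :=
    { carrier := {a | a ∈ A ∧ a ^ 2 = 1}
      one_mem' := ⟨A.one_mem, one_pow 2⟩
      mul_mem' := by
        rintro a b ⟨ha, ha2⟩ ⟨hb, hb2⟩
        refine ⟨A.mul_mem ha hb, ?_⟩
        have hcm : Commute a b := hAc a ha b hb
        rw [hcm.mul_pow, ha2, hb2, one_mul]
      inv_mem' := by
        rintro a ⟨ha, ha2⟩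
        refine ⟨A.inv_mem ha, ?_⟩
        rw [inv_pow, ha2, inv_one] }
  have hΩmem : ∀ g, g ∈ Ω ↔ g ∈ A ∧ g ^ 2 = 1 := fun g => Iff.rfl
  have hΩn : Ω.Normal := by
    refine ⟨fun a ha g => ?_⟩
    rw [hΩmem] at ha ⊢
    refine ⟨hAn.conj_mem a ha.1 g, ?_⟩
    rw [conj_pow, ha.2, mul_one, mul_inv_cancel]
  by_cases h4 : 4 ≤ Nat.card Ω
  · exact ⟨Ω, hΩn, fun u hu => ((hΩmem u).mp hu).2, h4⟩
  push_neg at h4
  -- Ω has at most two elements
  have hΩle : Nat.card Ω ≤ 2 := by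
    obtain ⟨j, hj⟩ := IsPGroup.iff_card.mp (hR.to_subgroup Ω)
    rw [hj] at h4 ⊢
    have hj1 : j ≤ 1 := by
      by_contra hcon
      have := Nat.pow_le_pow_right (show 0 < 2 by norm_num) (show 2 ≤ j by omega)
      omega
    have := Nat.pow_le_pow_right (show 0 < 2 by norm_num) hj1
    omega
  have hΩ3 : ∀ b ∈ Ω, ∀ c ∈ Ω, b ≠ 1 → c ≠ 1 → b = c := by
    intro b hb c hc hb1 hc1
    by_contra hne
    haveI : Fintype Ω := Fintype.ofFinite _
    have h3 : 2 < Fintype.card Ω := Fintype.two_lt_card_iff.mpr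
      ⟨⟨1, Ω.one_mem⟩, ⟨b, hb⟩, ⟨c, hc⟩, fun h => hb1 (congrArg Subtype.val h).symm,
        fun h => hc1 (congrArg Subtype.val h).symm, fun h => hne (congrArg Subtype.val h)⟩
    rw [← Nat.card_eq_fintype_card] at h3
    omega
  -- two elements of E independent modulo A
  have hDle : Nat.card (A.subgroupOf E) ≤ Nat.card Ω := by
    refine Nat.card_le_card_of_injective (fun d : A.subgroupOf E =>
      (⟨((d : E) : R), (hΩmem _).mpr ⟨Subgroup.mem_subgroupOf.mp d.2, hE2 _ (d : E).2⟩⟩ : Ω)) ?_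
    intro d₁ d₂ h
    have h1 : ((d₁ : E) : R) = ((d₂ : E) : R) := congrArg (fun t : Ω => (t : R)) h
    exact Subtype.ext (Subtype.ext h1)
  have hidx : 2 < (A.subgroupOf E).index := by
    by_contra hcon
    push_neg at hcon
    have h1 := Subgroup.card_mul_index (A.subgroupOf E)
    rw [hE] at h1
    have h2 : Nat.card (A.subgroupOf E) ≤ 3 := by omega
    have h3 := Nat.mul_le_mul h2 hcon
    omega
  have hex : ∃ a b : E, a ∉ A.subgroupOf E ∧ b ∉ A.subgroupOf E ∧ a⁻¹ * b ∉ A.subgroupOf E := by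
    by_contra hcon
    push_neg at hcon
    have := index_le_two_of (A.subgroupOf E) hcon
    omega
  obtain ⟨a', b', ha', hb', hab'⟩ := hex
  obtain ⟨e₁, he₁⟩ : ∃ e₁ : R, e₁ = (a' : R)⁻¹ := ⟨_, rfl⟩
  obtain ⟨e₂, he₂⟩ : ∃ e₂ : R, e₂ = (b' : R) := ⟨_, rfl⟩
  have he₁E : e₁ ∈ E := by rw [he₁]; exact E.inv_mem a'.2
  have he₂E : e₂ ∈ E := by rw [he₂]; exact b'.2
  have he₁A : e₁ ∉ A := by
    rw [he₁]
    exact fun h => ha' (Subgroup.mem_subgroupOf.mpr (A.inv_mem_iff.mp h))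
  have he₂A : e₂ ∉ A := by
    rw [he₂]
    exact fun h => hb' (Subgroup.mem_subgroupOf.mpr h)
  have he₃A : e₁ * e₂ ∉ A := by
    rw [he₁, he₂]
    exact fun h => hab' (Subgroup.mem_subgroupOf.mpr h)
  -- A is cyclic
  have hsub : ∀ H : Subgroup A, Nat.card H = 2 →
      ∃ h : A, h ∈ H ∧ h ≠ 1 ∧ (h : R) ∈ Ω ∧ ∀ k ∈ H, k = 1 ∨ k = h := by
    intro H hH
    obtain ⟨h', hh', huq⟩ := (Nat.card_eq_two_iff' (1 : H)).mp hH
    refine ⟨(h' : A), h'.2, fun h => hh' (Subtype.ext h), (hΩmem _).mpr ⟨(h' : A).2, ?_⟩, ?_⟩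
    · have h1 : h' ^ Nat.card H = 1 := pow_card_eq_one'
      rw [hH] at h1
      have h2 := congrArg (fun t : H => ((t : A) : R)) h1
      simpa using h2
    · intro k hk
      by_cases hk1 : k = 1
      · exact Or.inl hk1
      · right
        have := huq ⟨k, hk⟩ (fun h => hk1 (congrArg Subtype.val h))
        exact congrArg Subtype.val this
  have huniq : ∀ H K : Subgroup A, Nat.card H = 2 → Nat.card K = 2 → H = K := by
    have hle : ∀ H K : Subgroup A, Nat.card H = 2 → Nat.card K = 2 → H ≤ K := by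
      intro H K hH hK
      obtain ⟨h, hhH, hh1, hhΩ, hHall⟩ := hsub H hH
      obtain ⟨k, hkK, hk1, hkΩ, hKall⟩ := hsub K hK
      have hhk : (h : R) = (k : R) :=
        hΩ3 _ hhΩ _ hkΩ (fun e => hh1 (Subtype.ext e)) (fun e => hk1 (Subtype.ext e))
      have hhk' : h = k := Subtype.ext hhk
      intro t ht
      rcases hHall t ht with ht1 | ht1
      · rw [ht1]; exact K.one_mem
      · rw [ht1, hhk']; exact hkK
    intro H K hH hK
    exact le_antisymm (hle H K hH hK) (hle K H hK hH)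
  have hAp : IsPGroup 2 A := hR.to_subgroup A
  haveI hcycT : IsCyclic (⊤ : Subgroup A) :=
    Cfsg.Agent.Lead.uniq_comm_cyclic hAp huniq ⊤
      (fun x _ y _ => Subtype.ext (hAc x x.2 y y.2))
  haveI hcyc : IsCyclic A :=
    isCyclic_of_surjective (Subgroup.topEquiv (G := A)) (Subgroup.topEquiv (G := A)).surjective
  obtain ⟨a₀, ha₀⟩ := hcyc.exists_generator
  obtain ⟨a, ha⟩ : ∃ a : R, a = (a₀ : R) := ⟨_, rfl⟩
  have haA : a ∈ A := by rw [ha]; exact a₀.2
  have hgen : ∀ c ∈ A, ∃ n : ℕ, a ^ n = c := by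
    intro c hc
    obtain ⟨n, hn⟩ := Cfsg.Agent.Lead.exists_pow_of_mem_zpowers (ha₀ ⟨c, hc⟩)
    refine ⟨n, ?_⟩
    rw [ha, ← Subgroup.coe_pow, hn]
  have hact : ∀ g : R, ∃ r : ℕ, ∀ c ∈ A, g * c * g⁻¹ = c ^ r := by
    intro g
    obtain ⟨r, hr⟩ := hgen (g * a * g⁻¹) (hAn.conj_mem a haA g)
    refine ⟨r, fun c hc => ?_⟩
    obtain ⟨n, hn⟩ := hgen c hc
    rw [← hn, ← conj_pow, ← hr, ← pow_mul, ← pow_mul, mul_comm]
  have hcent : ∀ g : R, g * a * g⁻¹ = a → g ∈ A := by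
    intro g hg
    apply hCA
    rw [Subgroup.mem_centralizer_iff]
    intro c hc
    obtain ⟨n, hn⟩ := hgen c hc
    have h1 : g * a ^ n * g⁻¹ = a ^ n := by rw [← conj_pow, hg]
    rw [← hn]
    exact (mul_inv_eq_iff_eq_mul.mp h1).symm
  obtain ⟨m, hm⟩ := IsPGroup.iff_orderOf.mp hR a
  have hm2 : 2 ≤ m := by
    by_contra hcon
    have ha2 : a ^ 2 = 1 := by
      apply orderOf_dvd_iff_pow_eq_one.mp
      rw [hm]
      have hm1 : m ≤ 1 := by omega
      exact (pow_dvd_pow 2 hm1).trans (by norm_num)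
    apply he₁A
    apply hcent
    have h1 : e₁ * a * e₁⁻¹ ∈ Subgroup.zpowers a := by
      obtain ⟨r, hr⟩ := hgen _ (hAn.conj_mem a haA e₁)
      rw [← hr]; exact Subgroup.pow_mem _ (Subgroup.mem_zpowers a) r
    rcases Cfsg.Agent.Lead.eq_one_or_eq_of_mem_zpowers_sq h1 ha2 with h | h
    · rw [h]; exact (conj_eq_one_iff.mp h).symm
    · exact h
  obtain ⟨y, hy⟩ : ∃ y : R, y = a ^ 2 ^ (m - 2) := ⟨_, rfl⟩
  have hyA : y ∈ A := by rw [hy]; exact A.pow_mem haA _
  have hy4 : orderOf y = 4 := by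
    rw [hy, orderOf_pow' a (by positivity), hm,
      Nat.gcd_eq_right (pow_dvd_pow 2 (Nat.sub_le m 2)),
      Nat.pow_div (Nat.sub_le m 2) (by norm_num)]
    have : m - (m - 2) = 2 := by omega
    rw [this]
  have hy44 : y ^ 4 = 1 := by rw [← hy4]; exact pow_orderOf_eq_one y
  have hy2 : y ^ 2 ≠ 1 := by
    intro h
    have := orderOf_dvd_of_pow_eq_one h
    rw [hy4] at this
    omega
  obtain ⟨z, hz⟩ : ∃ z : R, z = y ^ 2 := ⟨_, rfl⟩
  have hzA : z ∈ A := by rw [hz]; exact A.pow_mem hyA _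
  have hz2 : z ^ 2 = 1 := by rw [hz, ← pow_mul]; exact hy44
  have hz1 : z ≠ 1 := by rw [hz]; exact hy2
  have hzΩ : z ∈ Ω := (hΩmem z).mpr ⟨hzA, hz2⟩
  have hΩz : ∀ b ∈ A, b ^ 2 = 1 → b = 1 ∨ b = z := by
    intro b hb hb2
    by_cases hb1 : b = 1
    · exact Or.inl hb1
    · exact Or.inr (hΩ3 b ((hΩmem b).mpr ⟨hb, hb2⟩) z hzΩ hb1 hz1)
  have hzc : ∀ s : R, s * z * s⁻¹ = z := by
    intro s
    have h1 : s * z * s⁻¹ ∈ A := hAn.conj_mem z hzA s
    have h2 : (s * z * s⁻¹) ^ 2 = 1 := by rw [conj_pow, hz2, mul_one, mul_inv_cancel]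
    rcases hΩz _ h1 h2 with h | h
    · exact absurd (conj_eq_one_iff.mp h) hz1
    · exact h
  have hmod : ∀ (g : R) (r : ℕ), (∀ c ∈ A, g * c * g⁻¹ = c ^ r) → r % 4 = 1 ∨ r % 4 = 3 := by
    intro g r hr
    have h1 : g * y * g⁻¹ = y ^ (r % 4) := by
      rw [hr y hyA, ← hy4, pow_mod_orderOf]
    have h4 : r % 4 < 4 := Nat.mod_lt _ (by norm_num)
    have hcases : r % 4 = 0 ∨ r % 4 = 1 ∨ r % 4 = 2 ∨ r % 4 = 3 := by omega
    rcases hcases with h | h | h | h
    · exfalso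
      rw [h, pow_zero] at h1
      have h5 := conj_eq_one_iff.mp h1
      rw [h5, orderOf_one] at hy4
      omega
    · exact Or.inl h
    · exfalso
      rw [h] at h1
      have h2 : (g * y * g⁻¹) ^ 2 = 1 := by rw [h1, ← pow_mul]; exact hy44
      rw [conj_pow] at h2
      exact hy2 (conj_eq_one_iff.mp h2)
    · exact Or.inr h
  obtain ⟨r₁, hr₁⟩ := hact e₁
  obtain ⟨r₂, hr₂⟩ := hact e₂
  have hsel : ∃ (e : R) (r : ℕ), e ∈ E ∧ e ∉ A ∧ (∀ c ∈ A, e * c * e⁻¹ = c ^ r) ∧ r % 4 = 1 := by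
    rcases hmod e₁ r₁ hr₁ with h1 | h1
    · exact ⟨e₁, r₁, he₁E, he₁A, hr₁, h1⟩
    · rcases hmod e₂ r₂ hr₂ with h2 | h2
      · exact ⟨e₂, r₂, he₂E, he₂A, hr₂, h2⟩
      · refine ⟨e₁ * e₂, r₂ * r₁, E.mul_mem he₁E he₂E, he₃A, ?_, ?_⟩
        · intro c hc
          have hc2 : c ^ r₂ ∈ A := A.pow_mem hc r₂
          calc e₁ * e₂ * c * (e₁ * e₂)⁻¹ = e₁ * (e₂ * c * e₂⁻¹) * e₁⁻¹ := by group
            _ = e₁ * c ^ r₂ * e₁⁻¹ := by rw [hr₂ c hc]
            _ = (c ^ r₂) ^ r₁ := hr₁ _ hc2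
            _ = c ^ (r₂ * r₁) := (pow_mul c r₂ r₁).symm
        · have h3 := Nat.mul_mod r₂ r₁ 4
          rw [h1, h2] at h3
          exact h3.trans (by norm_num)
  obtain ⟨e, r, heE, heA, hr, hr4⟩ := hsel
  have he2 : e ^ 2 = 1 := hE2 e heE
  have hee : e * e = 1 := by rw [← pow_two]; exact he2
  have he_inv : e⁻¹ = e := inv_eq_of_mul_eq_one_left hee
  have key_e : ∀ t : R, e * (e * t) = t := fun t => by rw [← mul_assoc, hee, one_mul]
  have hez : e * z = z * e := mul_inv_eq_iff_eq_mul.mp (hzc e)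
  have hzA' : Subgroup.zpowers z ≤ A := Subgroup.zpowers_le.mpr hzA
  have heV : e ∉ Subgroup.zpowers z := fun h => heA (hzA' h)
  have hwc : ∀ v ∈ Subgroup.zpowers z, e * v = v * e := by
    intro v hv
    rcases Cfsg.Agent.Lead.eq_one_or_eq_of_mem_zpowers_sq hv hz2 with h | h
    · rw [h, mul_one, one_mul]
    · rw [h]; exact hez
  obtain ⟨U, hUmem, hUcard, hU2⟩ := exists_dbl (Subgroup.zpowers z) e hee hwc heV
  have hstar : ∀ s : R, ∃ c ∈ Subgroup.zpowers z, s * e * s⁻¹ = e * c := by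
    intro s
    have hc₁ : s⁻¹ * a * s ∈ A := by
      have := hAn.conj_mem a haA s⁻¹
      rwa [inv_inv] at this
    have h1 : (s * e * s⁻¹) * a * (s * e * s⁻¹)⁻¹ = e * a * e⁻¹ := by
      have e1 : (s * e * s⁻¹) * a * (s * e * s⁻¹)⁻¹ = s * (e * (s⁻¹ * a * s) * e⁻¹) * s⁻¹ := by
        group
      have e2 : (s⁻¹ * a * s⁻¹⁻¹) ^ r = s⁻¹ * a ^ r * s⁻¹⁻¹ := conj_pow
      rw [inv_inv] at e2
      rw [e1, hr _ hc₁, e2, hr a haA]; group
    have hbA : e⁻¹ * (s * e * s⁻¹) ∈ A := by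
      apply hcent
      have e3 : e⁻¹ * (s * e * s⁻¹) * a * (e⁻¹ * (s * e * s⁻¹))⁻¹
          = e⁻¹ * ((s * e * s⁻¹) * a * (s * e * s⁻¹)⁻¹) * e := by group
      rw [e3, h1]; group
    obtain ⟨b, hb⟩ : ∃ b : R, b = e⁻¹ * (s * e * s⁻¹) := ⟨_, rfl⟩
    rw [← hb] at hbA
    have hseb : s * e * s⁻¹ = e * b := by rw [hb]; group
    have hsq : (e * b) * (e * b) = 1 := by
      rw [← hseb, ← pow_two, conj_pow, he2, mul_one, mul_inv_cancel]
    have hbr : b ^ (r + 1) = 1 := by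
      have h2 := hr b hbA
      rw [he_inv] at h2
      rw [pow_succ, ← h2, mul_assoc (e * b) e b]
      exact hsq
    have hb2 : b ^ 2 = 1 := by
      obtain ⟨j, hj⟩ := IsPGroup.iff_orderOf.mp hR b
      have hd : orderOf b ∣ r + 1 := orderOf_dvd_of_pow_eq_one hbr
      have hj1 : j ≤ 1 := by
        by_contra hcon
        have h42 : (2:ℕ) ^ 2 ∣ 2 ^ j := pow_dvd_pow 2 (by omega)
        have h4 : (4:ℕ) ∣ orderOf b := by
          rw [hj]; exact (by norm_num : (4:ℕ) ∣ 2 ^ 2).trans h42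
        have := h4.trans hd
        omega
      apply orderOf_dvd_iff_pow_eq_one.mp
      rw [hj]
      exact (pow_dvd_pow 2 hj1).trans (by norm_num)
    refine ⟨b, ?_, hseb⟩
    rcases hΩz b hbA hb2 with h | h
    · rw [h]; exact Subgroup.one_mem _
    · rw [h]; exact Subgroup.mem_zpowers z
  have hUn : U.Normal := by
    refine ⟨fun u hu s => ?_⟩
    rw [hUmem] at hu ⊢
    have hzcent : ∀ v ∈ Subgroup.zpowers z, s * v * s⁻¹ = v := by
      intro v hv
      rcases Cfsg.Agent.Lead.eq_one_or_eq_of_mem_zpowers_sq hv hz2 with h | h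
      · rw [h, mul_one, mul_inv_cancel]
      · rw [h]; exact hzc s
    rcases hu with hu | hu
    · left; rw [hzcent u hu]; exact hu
    · right
      obtain ⟨c, hc, hsc⟩ := hstar s
      have e0 : s * u * s⁻¹ = (s * e * s⁻¹) * (s * (e * u) * s⁻¹) := by
        have e00 : (s * e * s⁻¹) * (s * (e * u) * s⁻¹) = s * ((e * e) * u) * s⁻¹ := by group
        rw [e00, hee, one_mul]
      have e1 : e * (s * u * s⁻¹) = (e * (s * e * s⁻¹)) * (s * (e * u) * s⁻¹) := by
        rw [e0]; exact (mul_assoc e _ _).symm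
      rw [e1, hsc, hzcent _ hu, key_e c]
      exact Subgroup.mul_mem _ hc hu
  refine ⟨U, hUn, hU2 (fun v hv => ?_), ?_⟩
  · rcases Cfsg.Agent.Lead.eq_one_or_eq_of_mem_zpowers_sq hv hz2 with h | h
    · rw [h, one_pow]
    · rw [h]; exact hz2
  · rw [hUcard, Nat.card_zpowers, orderOf_eq_prime hz2 hz1]

theorem exists_four {R : Type*} [Group R] [Finite R] (hR : IsPGroup 2 R)
    (E : Subgroup R) (hE : Nat.card E = 8) (hE2 : ∀ e ∈ E, e ^ 2 = 1) :
    ∃ (U : Subgroup R) (z : R), Nat.card U = 4 ∧ (∀ u ∈ U, u ^ 2 = 1) ∧ z ∈ U ∧ z ≠ 1 ∧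
      (∀ s : R, s * z = z * s) ∧
      (∀ s : R, ∀ u ∈ U, s * u * s⁻¹ = u ∨ s * u * s⁻¹ = z * u) := by
  haveI : Fact (Nat.Prime 2) := ⟨Nat.prime_two⟩
  obtain ⟨N, hNn, hN2, hN4⟩ := exists_normal_elem hR E hE hE2
  haveI := hNn
  have hbotN : (⊥ : Subgroup R) ≠ N := by
    intro h
    rw [← h, Subgroup.card_bot] at hN4
    omega
  obtain ⟨B₁, hB₁n, -, hB₁N, hB₁card, hB₁comm⟩ :=
    Cfsg.Agent.S0129.exists_central_ext hR ⊥ N bot_le hbotN
  rw [Subgroup.card_bot, one_mul] at hB₁card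
  haveI := hB₁n
  have hB₁ne : B₁ ≠ N := by
    intro h
    rw [← h, hB₁card] at hN4
    omega
  obtain ⟨B₂, hB₂n, hB₁B₂, hB₂N, hB₂card, hB₂comm⟩ :=
    Cfsg.Agent.S0129.exists_central_ext hR B₁ N hB₁N hB₁ne
  rw [hB₁card] at hB₂card
  obtain ⟨z', hz', huq⟩ := (Nat.card_eq_two_iff' (1 : B₁)).mp hB₁card
  have hB₁all : ∀ b ∈ B₁, b = 1 ∨ b = (z' : R) := by
    intro b hb
    by_cases hb1 : b = 1
    · exact Or.inl hb1
    · right
      have := huq ⟨b, hb⟩ (fun h => hb1 (congrArg Subtype.val h))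
      exact congrArg Subtype.val this
  refine ⟨B₂, (z' : R), by omega, fun u hu => hN2 u (hB₂N hu), hB₁B₂ z'.2,
    fun h => hz' (Subtype.ext h), ?_, ?_⟩
  · intro s
    have h1 := hB₁comm s (z' : R) z'.2
    rw [Subgroup.mem_bot] at h1
    have h2 : s * (z' : R) * s⁻¹ = z' := mul_inv_eq_one.mp h1
    exact mul_inv_eq_iff_eq_mul.mp h2
  · intro s u hu
    rcases hB₁all _ (hB₂comm s u hu) with h | h
    · left; exact mul_inv_eq_one.mp h
    · right; exact mul_inv_eq_iff_eq_mul.mp h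

theorem exists_four_sub {G : Type*} [Group G] [Finite G] (P : Subgroup G) (hP : IsPGroup 2 P)
    (E : Subgroup G) (hEP : E ≤ P) (hE : Nat.card E = 8) (hE2 : ∀ e ∈ E, e ^ 2 = 1) :
    ∃ (U : Subgroup G) (z : G), U ≤ P ∧ Nat.card U = 4 ∧ (∀ u ∈ U, u ^ 2 = 1) ∧ z ∈ U ∧ z ≠ 1 ∧
      (∀ s ∈ P, s * z = z * s) ∧
      (∀ s ∈ P, ∀ u ∈ U, s * u * s⁻¹ = u ∨ s * u * s⁻¹ = z * u) := by
  obtain ⟨U₀, z₀, h4, h2, hz, hz1, hzc, hb⟩ := exists_four hP (E.subgroupOf P)
    (by rw [Nat.card_congr (Subgroup.subgroupOfEquivOfLe hEP).toEquiv]; exact hE)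
    (by
      intro e he
      have h := hE2 (e : G) (Subgroup.mem_subgroupOf.mp he)
      apply Subtype.ext
      rw [Subgroup.coe_pow, Subgroup.coe_one]
      exact h)
  refine ⟨U₀.map P.subtype, (z₀ : G), Subgroup.map_subtype_le _, ?_, ?_, ?_, ?_, ?_, ?_⟩
  · rw [Subgroup.card_map_of_injective P.subtype_injective]; exact h4
  · rintro _ ⟨u, hu, rfl⟩
    have h := congrArg Subtype.val (h2 u hu)
    rw [Subgroup.coe_pow, Subgroup.coe_one] at h
    exact h
  · exact Subgroup.mem_map_of_mem _ hz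
  · intro h; exact hz1 (Subtype.ext h)
  · intro s hs
    exact congrArg Subtype.val (hzc ⟨s, hs⟩)
  · rintro s hs _ ⟨u, hu, rfl⟩
    rcases hb ⟨s, hs⟩ u hu with h | h
    · left; exact congrArg Subtype.val h
    · right; exact congrArg Subtype.val h

/-- Let G be a finite group with no subgroup of index 2 whose 2-rank is at least 3 (it contains an elementary abelian subgroup of order 8). Then the centralizer of every involution of G also contains an elementary abelian subgroup of order 8. -/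
theorem result {G : Type*} [Group G] [Finite G] (hno : ∀ H : Subgroup G, H.index ≠ 2) (hrank : ∃ E : Subgroup G, Nat.card E = 8 ∧ ∀ e ∈ E, e ^ 2 = 1) (x : G) (hx : orderOf x = 2) : ∃ E : Subgroup G, E ≤ Subgroup.centralizer ({x} : Set G) ∧ Nat.card E = 8 ∧ ∀ e ∈ E, e ^ 2 = 1 := by
  classical
  haveI : Fact (Nat.Prime 2) := ⟨Nat.prime_two⟩
  obtain ⟨E, hE8, hE2⟩ := hrank
  have hEp : IsPGroup 2 E := IsPGroup.of_card (n := 3) (by rw [hE8]; norm_num)
  obtain ⟨P, hEP⟩ := hEp.exists_le_sylow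
  obtain ⟨U, z, hUP, hU4, hU2, hzU, hz1, hzc, hb⟩ :=
    exists_four_sub (P : Subgroup G) P.isPGroup' E hEP hE8 hE2
  have hEc := comm_of_sq E hE2
  have hUc := comm_of_sq U hU2
  have hz2 : z ^ 2 = 1 := hU2 z hzU
  have hc : ∀ u ∈ U, ∀ s ∈ (P : Subgroup G), ∀ t ∈ (P : Subgroup G), s * u * s⁻¹ ≠ u →
      t * u * t⁻¹ ≠ u → (s⁻¹ * t) * u * (s⁻¹ * t)⁻¹ = u := by
    intro u hu s hs t ht h1 h2
    have e1 : s * u * s⁻¹ = z * u := (hb s hs u hu).resolve_left h1
    have e2 : t * u * t⁻¹ = z * u := (hb t ht u hu).resolve_left h2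
    have e3 : (s⁻¹ * t) * u * (s⁻¹ * t)⁻¹ = s⁻¹ * (t * u * t⁻¹) * s := by group
    rw [e3, e2, ← e1]; group
  have hzc' : ∀ (u s : G), s * u * s⁻¹ = u → s ∈ Subgroup.centralizer ({u} : Set G) := by
    intro u s h
    rw [Subgroup.mem_centralizer_iff]
    intro y hy
    rw [Set.mem_singleton_iff.mp hy]
    exact (mul_inv_eq_iff_eq_mul.mp h).symm
  have hcz : ∀ (u s : G), s ∉ Subgroup.centralizer ({u} : Set G) → s * u * s⁻¹ ≠ u :=
    fun u s hs h => hs (hzc' u s h)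
  have hzx : ∀ t ∈ (P : Subgroup G),
      Subgroup.zpowers z ≤ Subgroup.centralizer ({t} : Set G) := by
    intro t ht
    rw [Subgroup.zpowers_le, Subgroup.mem_centralizer_iff]
    intro y hy
    rw [Set.mem_singleton_iff.mp hy]
    exact hzc t ht
  have hK : ∀ x₁ : G, orderOf x₁ = 2 → x₁ ∈ (P : Subgroup G) →
      U ≤ Subgroup.centralizer ({x₁} : Set G) →
      ∃ E' : Subgroup G, E' ≤ Subgroup.centralizer ({x₁} : Set G) ∧ Nat.card E' = 8 ∧
        ∀ e ∈ E', e ^ 2 = 1 := by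
    intro x₁ hx₁ hx₁P hUx
    have hx2 : x₁ * x₁ = 1 := by rw [← pow_two, ← hx₁]; exact pow_orderOf_eq_one x₁
    by_cases hxU : x₁ ∈ U
    · by_cases hEx : E ≤ Subgroup.centralizer ({x₁} : Set G)
      · exact ⟨E, hEx, hE8, hE2⟩
      · obtain ⟨F, hF⟩ : ∃ F : Subgroup G, F = E ⊓ Subgroup.centralizer ({x₁} : Set G) :=
          ⟨_, rfl⟩
        have hFE : F ≤ E := by rw [hF]; exact inf_le_left
        have hFc : F ≤ Subgroup.centralizer ({x₁} : Set G) := by rw [hF]; exact inf_le_right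
        have hFmem : ∀ g ∈ E, g ∈ Subgroup.centralizer ({x₁} : Set G) → g ∈ F := by
          intro g hg hgc
          rw [hF]; exact Subgroup.mem_inf.mpr ⟨hg, hgc⟩
        have hidx2 : (F.subgroupOf E).index ≤ 2 := by
          apply index_le_two_of
          intro a b ha hb
          have ha' : (a : G) ∉ Subgroup.centralizer ({x₁} : Set G) := fun h =>
            ha (Subgroup.mem_subgroupOf.mpr (hFmem _ a.2 h))
          have hb' : (b : G) ∉ Subgroup.centralizer ({x₁} : Set G) := fun h =>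
            hb (Subgroup.mem_subgroupOf.mpr (hFmem _ b.2 h))
          have h1 := hc x₁ hxU a (hEP a.2) b (hEP b.2) (hcz _ _ ha') (hcz _ _ hb')
          exact Subgroup.mem_subgroupOf.mpr (hFmem _ (a⁻¹ * b).2 (hzc' _ _ h1))
        have hidx1 : (F.subgroupOf E).index ≠ 1 := by
          intro h
          rw [Subgroup.index_eq_one] at h
          apply hEx
          intro e he
          have h5 : (⟨e, he⟩ : E) ∈ F.subgroupOf E := by rw [h]; exact Subgroup.mem_top _
          exact hFc (Subgroup.mem_subgroupOf.mp h5)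
        have hidx0 : (F.subgroupOf E).index ≠ 0 := Subgroup.index_ne_zero_of_finite
        have hidx : (F.subgroupOf E).index = 2 := by omega
        have hF4 : Nat.card F = 4 := by
          have h1 := Subgroup.card_mul_index (F.subgroupOf E)
          rw [hidx, Nat.card_congr (Subgroup.subgroupOfEquivOfLe hFE).toEquiv, hE8] at h1
          omega
        have hxF : x₁ ∉ F := by
          intro h
          apply hEx
          intro e he
          rw [Subgroup.mem_centralizer_iff]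
          intro y hy
          rw [Set.mem_singleton_iff.mp hy]
          exact hEc x₁ (hFE h) e he
        exact exists_e8 F hF4 (fun v hv => hE2 v (hFE hv)) x₁ hx2 hxF hFc
    · exact exists_e8 U hU4 hU2 x₁ hx2 hxU hUx
  have hmain : ∀ x₁ : G, orderOf x₁ = 2 → x₁ ∈ (P : Subgroup G) →
      ∃ E' : Subgroup G, E' ≤ Subgroup.centralizer ({x₁} : Set G) ∧ Nat.card E' = 8 ∧
        ∀ e ∈ E', e ^ 2 = 1 := by
    intro x₁ hx₁ hx₁P
    by_cases hUx : U ≤ Subgroup.centralizer ({x₁} : Set G)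
    · exact hK x₁ hx₁ hx₁P hUx
    · obtain ⟨u₁, hu₁U, hu₁x⟩ := SetLike.not_le_iff_exists.mp hUx
      have hx₁u : x₁ ∉ Subgroup.centralizer ({u₁} : Set G) := by
        intro h
        apply hu₁x
        rw [Subgroup.mem_centralizer_iff] at h ⊢
        intro y hy
        rw [Set.mem_singleton_iff.mp hy]
        exact (h u₁ (Set.mem_singleton _)).symm
      obtain ⟨Q, hQ⟩ : ∃ Q : Subgroup G,
          Q = (P : Subgroup G) ⊓ Subgroup.centralizer ({u₁} : Set G) := ⟨_, rfl⟩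
      have hQP : Q ≤ (P : Subgroup G) := by rw [hQ]; exact inf_le_left
      have hQmem : ∀ g ∈ (P : Subgroup G), g ∈ Subgroup.centralizer ({u₁} : Set G) → g ∈ Q := by
        intro g hg hgc
        rw [hQ]; exact Subgroup.mem_inf.mpr ⟨hg, hgc⟩
      have hQc : Q ≤ Subgroup.centralizer ({u₁} : Set G) := by rw [hQ]; exact inf_le_right
      have hx₁Q : x₁ ∉ Q := fun h => hx₁u (hQc h)
      have hQi : Q.relIndex (P : Subgroup G) = 2 := by
        have h2 : (Q.subgroupOf (P : Subgroup G)).index ≤ 2 := by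
          apply index_le_two_of
          intro a b ha hb
          have ha' : (a : G) ∉ Subgroup.centralizer ({u₁} : Set G) := fun h =>
            ha (Subgroup.mem_subgroupOf.mpr (hQmem _ a.2 h))
          have hb' : (b : G) ∉ Subgroup.centralizer ({u₁} : Set G) := fun h =>
            hb (Subgroup.mem_subgroupOf.mpr (hQmem _ b.2 h))
          have h1 := hc u₁ hu₁U a a.2 b b.2 (hcz _ _ ha') (hcz _ _ hb')
          exact Subgroup.mem_subgroupOf.mpr (hQmem _ (a⁻¹ * b).2 (hzc' _ _ h1))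
        have h1 : (Q.subgroupOf (P : Subgroup G)).index ≠ 1 := by
          intro h
          rw [Subgroup.index_eq_one] at h
          have h5 : (⟨x₁, hx₁P⟩ : (P : Subgroup G)) ∈ Q.subgroupOf (P : Subgroup G) := by
            rw [h]; exact Subgroup.mem_top _
          exact hx₁Q (Subgroup.mem_subgroupOf.mp h5)
        have h0 : (Q.subgroupOf (P : Subgroup G)).index ≠ 0 := Subgroup.index_ne_zero_of_finite
        show (Q.subgroupOf (P : Subgroup G)).index = 2
        omega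
      rcases Cfsg.Agent.S0111.result P Q hQP hQi x₁ hx₁ hx₁P hx₁Q with ⟨M, -, hM, -⟩ | ⟨g, hg⟩
      · exact absurd hM (hno M)
      · apply conj_back x₁ g
        have hgP : g * x₁ * g⁻¹ ∈ (P : Subgroup G) := hQP hg
        have hgu : g * x₁ * g⁻¹ ∈ Subgroup.centralizer ({u₁} : Set G) := hQc hg
        refine hK (g * x₁ * g⁻¹) ?_ hgP ?_
        · rw [Cfsg.Agent.Lead.orderOf_conj_eq]; exact hx₁
        · have hu₁C : u₁ ∈ Subgroup.centralizer ({g * x₁ * g⁻¹} : Set G) := by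
            rw [Subgroup.mem_centralizer_iff] at hgu ⊢
            intro y hy
            rw [Set.mem_singleton_iff.mp hy]
            exact (hgu u₁ (Set.mem_singleton _)).symm
          have hu₁z : u₁ ∉ Subgroup.zpowers z := fun h => hu₁x (hzx x₁ hx₁P h)
          have hu₁2 : u₁ * u₁ = 1 := by rw [← pow_two]; exact hU2 u₁ hu₁U
          have hzU' : Subgroup.zpowers z ≤ U := Subgroup.zpowers_le.mpr hzU
          have hwc : ∀ v ∈ Subgroup.zpowers z, u₁ * v = v * u₁ :=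
            fun v hv => hUc u₁ hu₁U v (hzU' hv)
          obtain ⟨W, hWmem, hWcard, -⟩ := exists_dbl (Subgroup.zpowers z) u₁ hu₁2 hwc hu₁z
          have hWU : W ≤ U := by
            intro v hv
            rcases (hWmem v).mp hv with h | h
            · exact hzU' h
            · exact (Subgroup.mul_mem_cancel_left _ hu₁U).mp (hzU' h)
          have hWeq : W = U := by
            apply Subgroup.eq_of_le_of_card_ge hWU
            rw [hWcard, Nat.card_zpowers, orderOf_eq_prime hz2 hz1, hU4]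
          intro v hv
          have hvW : v ∈ W := by rw [hWeq]; exact hv
          rcases (hWmem v).mp hvW with h | h
          · exact hzx _ hgP h
          · exact (Subgroup.mul_mem_cancel_left _ hu₁C).mp (hzx _ hgP h)
  obtain ⟨g, hg⟩ := Cfsg.Agent.Lead.exists_conj_mem_sylow P
    (Cfsg.Agent.Lead.isPGroup_zpowers_of_orderOf_prime (p := 2) hx)
  apply conj_back x g
  exact hmain (g * x * g⁻¹) (by rw [Cfsg.Agent.Lead.orderOf_conj_eq]; exact hx)
    (hg x (Subgroup.mem_zpowers x))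


end Cfsg.Agent.S0221
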