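import Cfsg.Statements.S0226
import Mathlib

set_option autoImplicit false
open Cfsg

namespace Cfsg.Agent.S0226

/-- A finite group of even order has an odd number of involutions. -/
theorem result {G : Type*} [Group G] [Finite G] (heven : Even (Nat.card G)) : Odd (Nat.card {t : G // orderOf t = 2}) := by
  classical
  have := Fintype.ofFinite G
  have hσ : (Equiv.inv G) ^ 2 ^ 1 = 1 := by
    ext g; simp [pow_two]
  have key := Equiv.Perm.card_compl_support_modEq (p := 2) (n := 1) hσ
  have hsupp : (Equiv.inv G).supportᶜ = insert 1 (Finset.univ.filter (fun t : G => orderOf t = 2)) := by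
    ext g
    simp only [Finset.mem_compl, Equiv.Perm.mem_support, Equiv.inv_apply, not_not, Finset.mem_insert,
      Finset.mem_filter, Finset.mem_univ, true_and]
    constructor
    · intro h
      by_cases h1 : g = 1
      · exact Or.inl h1
      · right
        have h2 : g ^ 2 = 1 := by rw [pow_two]; nth_rewrite 1 [← h]; exact inv_mul_cancel g
        exact orderOf_eq_prime h2 h1
    · rintro (rfl | h)
      · simp
      · have h2 : g ^ 2 = 1 := by rw [← h]; exact pow_orderOf_eq_one g
        rw [pow_two] at h2
        exact inv_eq_of_mul_eq_one_left h2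
  rw [hsupp, Finset.card_insert_of_notMem (by simp)] at key
  have hcard : Nat.card {t : G // orderOf t = 2} = (Finset.univ.filter (fun t : G => orderOf t = 2)).card := by
    rw [Nat.card_eq_fintype_card, Fintype.card_subtype]
  rw [hcard, Nat.odd_iff]
  have h0 : Fintype.card G % 2 = 0 := by
    rw [← Nat.card_eq_fintype_card]; exact Nat.even_iff.mp heven
  unfold Nat.ModEq at key
  omega


end Cfsg.Agent.S0226
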