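import Cfsg.Statements.S0228
import Mathlib
import Cfsg.Agent.Helper2.SylowCard
import Cfsg.Agent.Lead.SylowBasic
import Cfsg.Agent.Lead.UniqSub

set_option autoImplicit false
open Cfsg

namespace Cfsg.Agent.S0228

theorem sylow_card_pow {G : Type*} [Group G] [Finite G] (p k m : ℕ) [Fact p.Prime]
    (hG : Nat.card G = p ^ k * m) (hm : ¬ p ∣ m) (S : Sylow p G) :
    Nat.card (S : Subgroup G) = p ^ k := by
  have hp : p.Prime := Fact.out
  have hm0 : m ≠ 0 := by
    rintro rfl
    exact hm (dvd_zero p)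
  rw [Sylow.card_eq_multiplicity, hG, Nat.factorization_mul (pow_ne_zero k hp.ne_zero) hm0,
    Finsupp.add_apply, hp.factorization_pow, Finsupp.single_eq_same,
    Nat.factorization_eq_zero_of_not_dvd hm, add_zero]

theorem central_invol {G : Type*} [Group G] [Finite G] (hG : Nat.card G = 12) (P : Sylow 3 G)
    (hPn : (P : Subgroup G).Normal) : ∃ z : G, orderOf z = 2 ∧ z ∈ Subgroup.center G := by
  classical
  have hP3 : Nat.card (P : Subgroup G) = 3 :=
    Cfsg.Agent.Helper2.card_sylow_eq_prime 3 4 (by rw [hG]) (by norm_num) P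
  obtain ⟨x, hxo⟩ := exists_prime_orderOf_dvd_card' (G := G) 3 (by rw [hG]; norm_num)
  have hxP : x ∈ (P : Subgroup G) := by
    obtain ⟨g, hg⟩ := Cfsg.Agent.Lead.exists_conj_mem_sylow P
      (Cfsg.Agent.Lead.isPGroup_zpowers_of_orderOf_prime hxo)
    have h1 := hg x (Subgroup.mem_zpowers x)
    have h2 := hPn.conj_mem _ h1 g⁻¹
    have e : g⁻¹ * (g * x * g⁻¹) * g⁻¹⁻¹ = x := by group
    rw [e] at h2
    exact h2
  have hPz : (P : Subgroup G) = Subgroup.zpowers x := by
    symm
    apply Subgroup.eq_of_le_of_card_ge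
    · rw [Subgroup.zpowers_le]; exact hxP
    · rw [Nat.card_zpowers, hxo, hP3]
  have hx3 : x ^ 3 = 1 := by rw [← hxo]; exact pow_orderOf_eq_one x
  have hx1 : x ≠ 1 := by
    intro h
    rw [h, orderOf_one] at hxo
    omega
  have hconj : ∀ s : G, s * x * s⁻¹ = x ∨ s * x * s⁻¹ = x⁻¹ := by
    intro s
    have h1 : s * x * s⁻¹ ∈ Subgroup.zpowers x := by
      rw [← hPz]; exact hPn.conj_mem x hxP s
    obtain ⟨n, hn⟩ := Cfsg.Agent.Lead.exists_pow_of_mem_zpowers h1
    rw [← pow_mod_orderOf, hxo] at hn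
    have hlt : n % 3 < 3 := Nat.mod_lt _ (by norm_num)
    obtain ⟨r, hr⟩ : ∃ r, r = n % 3 := ⟨_, rfl⟩
    rw [← hr] at hn hlt
    interval_cases r
    · exfalso
      apply hx1
      rw [pow_zero] at hn
      exact conj_eq_one_iff.mp hn.symm
    · left; rw [← hn, pow_one]
    · right; rw [← hn]
      exact eq_inv_of_mul_eq_one_left (by rw [← pow_succ]; exact hx3)
  obtain ⟨P2⟩ : Nonempty (Sylow 2 G) := inferInstance
  have hP2 : Nat.card (P2 : Subgroup G) = 2 ^ 2 :=
    sylow_card_pow 2 2 3 (by rw [hG]; norm_num) (by norm_num) P2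
  have hP2comm : ∀ a b : (P2 : Subgroup G), a * b = b * a :=
    (IsPGroup.isMulCommutative_of_card_eq_prime_sq hP2).is_comm.comm
  have hu : ∃ u ∈ (P2 : Subgroup G), u ≠ 1 ∧ u * x * u⁻¹ = x := by
    have h2lt : 2 < Nat.card (P2 : Subgroup G) := by rw [hP2]; norm_num
    haveI : Fintype (P2 : Subgroup G) := Fintype.ofFinite _
    rw [Nat.card_eq_fintype_card, Fintype.two_lt_card_iff] at h2lt
    obtain ⟨a, b, c, hab, hac, hbc⟩ := h2lt
    have hs1 : (a : G)⁻¹ * b ∈ (P2 : Subgroup G) := Subgroup.mul_mem _ (Subgroup.inv_mem _ a.2) b.2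
    have hs2 : (b : G)⁻¹ * c ∈ (P2 : Subgroup G) := Subgroup.mul_mem _ (Subgroup.inv_mem _ b.2) c.2
    have hs1ne : (a : G)⁻¹ * b ≠ 1 := by
      intro h
      apply hab
      apply Subtype.ext
      exact (inv_mul_eq_one.mp h)
    have hs2ne : (b : G)⁻¹ * c ≠ 1 := by
      intro h
      apply hbc
      apply Subtype.ext
      exact (inv_mul_eq_one.mp h)
    have hs12ne : (a : G)⁻¹ * b * ((b : G)⁻¹ * c) ≠ 1 := by
      intro h
      apply hac
      apply Subtype.ext
      have e : (a : G)⁻¹ * b * ((b : G)⁻¹ * c) = (a : G)⁻¹ * c := by group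
      rw [e] at h
      exact (inv_mul_eq_one.mp h)
    rcases hconj ((a : G)⁻¹ * b) with h1 | h1
    · exact ⟨_, hs1, hs1ne, h1⟩
    · rcases hconj ((b : G)⁻¹ * c) with h2 | h2
      · exact ⟨_, hs2, hs2ne, h2⟩
      · refine ⟨_, Subgroup.mul_mem _ hs1 hs2, hs12ne, ?_⟩
        obtain ⟨s1, hs1def⟩ : ∃ s1 : G, s1 = (a : G)⁻¹ * b := ⟨_, rfl⟩
        obtain ⟨s2, hs2def⟩ : ∃ s2 : G, s2 = (b : G)⁻¹ * c := ⟨_, rfl⟩
        rw [← hs1def] at h1 ⊢
        rw [← hs2def] at h2 ⊢
        calc s1 * s2 * x * (s1 * s2)⁻¹ = s1 * (s2 * x * s2⁻¹) * s1⁻¹ := by group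
          _ = s1 * x⁻¹ * s1⁻¹ := by rw [h2]
          _ = (s1 * x * s1⁻¹)⁻¹ := by group
          _ = x⁻¹⁻¹ := by rw [h1]
          _ = x := inv_inv x
  obtain ⟨u, huP, hu1, hux⟩ := hu
  have hu4 : u ^ 4 = 1 := by
    have h1 := orderOf_dvd_natCard (⟨u, huP⟩ : (P2 : Subgroup G))
    rw [hP2] at h1
    have h := orderOf_dvd_iff_pow_eq_one.mp h1
    have := congrArg (fun t : (P2 : Subgroup G) => (t : G)) h
    simpa using this
  obtain ⟨t, htP, hto, htx⟩ : ∃ t ∈ (P2 : Subgroup G), orderOf t = 2 ∧ t * x * t⁻¹ = x := by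
    by_cases h2 : u ^ 2 = 1
    · exact ⟨u, huP, orderOf_eq_prime h2 hu1, hux⟩
    · refine ⟨u ^ 2, Subgroup.pow_mem _ huP 2, orderOf_eq_prime ?_ h2, ?_⟩
      · rw [← pow_mul]; exact hu4
      · calc u ^ 2 * x * (u ^ 2)⁻¹ = u * (u * x * u⁻¹) * u⁻¹ := by
              rw [pow_two]; simp only [mul_inv_rev, mul_assoc]
          _ = x := by rw [hux, hux]
  refine ⟨t, hto, ?_⟩
  have hC4 : Nat.card (P2 : Subgroup G) ∣ Nat.card (Subgroup.centralizer ({t} : Set G)) := by
    apply Subgroup.card_dvd_of_le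
    intro s hs
    rw [Subgroup.mem_centralizer_singleton_iff]
    have := hP2comm ⟨s, hs⟩ ⟨t, htP⟩
    exact congrArg (fun r : (P2 : Subgroup G) => (r : G)) this
  have hC3 : 3 ∣ Nat.card (Subgroup.centralizer ({t} : Set G)) := by
    have hxC : x ∈ Subgroup.centralizer ({t} : Set G) := by
      rw [Subgroup.mem_centralizer_singleton_iff]
      calc x * t = t * x * t⁻¹ * t := by rw [htx]
        _ = t * x := by group
    have := Subgroup.orderOf_dvd_natCard _ hxC
    rwa [hxo] at this
  have h12 : 12 ∣ Nat.card (Subgroup.centralizer ({t} : Set G)) := by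
    rw [hP2] at hC4
    have hcop : Nat.Coprime (2 ^ 2) 3 := by norm_num
    have := hcop.mul_dvd_of_dvd_of_dvd hC4 hC3
    simpa using this
  have htop : Subgroup.centralizer ({t} : Set G) = ⊤ := by
    apply Subgroup.eq_top_of_card_eq
    apply le_antisymm (Subgroup.card_le_card_group _)
    rw [hG]
    exact Nat.le_of_dvd Nat.card_pos h12
  rw [Subgroup.mem_center_iff]
  intro g
  have hg : g ∈ Subgroup.centralizer ({t} : Set G) := by rw [htop]; trivial
  rw [Subgroup.mem_centralizer_singleton_iff] at hg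
  exact hg

theorem iso_of_four {G : Type*} [Group G] [Finite G] (hG : Nat.card G = 12)
    (h4 : Nat.card (Sylow 3 G) = 4) : Nonempty (G ≃* alternatingGroup (Fin 4)) := by
  classical
  have hcard3 : ∀ P : Sylow 3 G, Nat.card (P : Subgroup G) = 3 := fun P =>
    Cfsg.Agent.Helper2.card_sylow_eq_prime 3 4 (by rw [hG]) (by norm_num) P
  have hinj : Function.Injective (MulAction.toPermHom G (Sylow 3 G)) := by
    rw [injective_iff_map_eq_one]
    intro g hg
    by_contra hg1
    have hfix : ∀ P : Sylow 3 G, g • P = P := by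
      intro P
      have := congrArg (fun σ : Equiv.Perm (Sylow 3 G) => σ P) hg
      exact this
    have hmem : ∀ P : Sylow 3 G, g ∈ (P : Subgroup G) := by
      intro P
      have hN : g ∈ Subgroup.normalizer ((P : Subgroup G) : Set G) :=
        Sylow.smul_eq_iff_mem_normalizer.mp (hfix P)
      have hidx : (Subgroup.normalizer ((P : Subgroup G) : Set G)).index = 4 := by
        have := Sylow.card_eq_index_normalizer P
        rw [h4] at this
        exact this.symm
      have hcardN : Nat.card (Subgroup.normalizer ((P : Subgroup G) : Set G)) = 3 := by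
        have := (Subgroup.normalizer ((P : Subgroup G) : Set G)).card_mul_index
        rw [hidx, hG] at this
        omega
      have : (P : Subgroup G) = Subgroup.normalizer ((P : Subgroup G) : Set G) :=
        Subgroup.eq_of_le_of_card_ge Subgroup.le_normalizer (by rw [hcardN, hcard3 P])
      rw [this]
      exact hN
    have hall : ∀ P : Sylow 3 G, (P : Subgroup G) = Subgroup.zpowers g := by
      intro P
      symm
      apply Subgroup.eq_of_le_of_card_ge
      · rw [Subgroup.zpowers_le]; exact hmem P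
      · rw [Nat.card_zpowers, hcard3 P]
        have hdvd : orderOf g ∣ 3 := by
          have := Subgroup.orderOf_dvd_natCard _ (hmem P)
          rwa [hcard3 P] at this
        rcases (Nat.dvd_prime Nat.prime_three).mp hdvd with h | h
        · exact absurd (orderOf_eq_one_iff.mp h) hg1
        · rw [h]
    have hsub : Subsingleton (Sylow 3 G) :=
      ⟨fun P Q => Sylow.ext ((hall P).trans (hall Q).symm)⟩
    have : Nat.card (Sylow 3 G) ≤ 1 := Finite.card_le_one_iff_subsingleton.mpr hsub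
    omega
  have e : Sylow 3 G ≃ Fin 4 := Finite.equivFinOfCardEq h4
  obtain ⟨ψ, hψinj⟩ : ∃ ψ : G →* Equiv.Perm (Fin 4), Function.Injective ψ :=
    ⟨(Equiv.permCongrHom e).toMonoidHom.comp (MulAction.toPermHom G (Sylow 3 G)),
      (Equiv.permCongrHom e).injective.comp hinj⟩
  have hcard : Nat.card ψ.range = 12 := by
    rw [← hG]
    exact (Nat.card_congr (MonoidHom.ofInjective hψinj).toEquiv).symm
  have hidx : ψ.range.index = 2 := by
    have := ψ.range.card_mul_index
    rw [hcard, Nat.card_perm, Nat.card_fin] at this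
    have h24 : Nat.factorial 4 = 24 := rfl
    omega
  have hrange : ψ.range = alternatingGroup (Fin 4) :=
    Equiv.Perm.eq_alternatingGroup_of_index_eq_two hidx
  exact ⟨(MonoidHom.ofInjective hψinj).trans (MulEquiv.subgroupCongr hrange)⟩

/-- A group of order 12 in which no involution is central is isomorphic to the alternating group on four letters. -/
theorem result {G : Type*} [Group G] [Finite G] (hG : Nat.card G = 12) (hz : ∀ z : G, orderOf z = 2 → z ∉ Subgroup.center G) : Nonempty (G ≃* alternatingGroup (Fin 4)) := by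
  classical
  obtain ⟨P⟩ : Nonempty (Sylow 3 G) := inferInstance
  have hmod := card_sylow_modEq_one 3 G
  have hdvd := Sylow.card_dvd_index P
  have hP3 : Nat.card (P : Subgroup G) = 3 :=
    Cfsg.Agent.Helper2.card_sylow_eq_prime 3 4 (by rw [hG]) (by norm_num) P
  have hidx : (P : Subgroup G).index = 4 := by
    have := (P : Subgroup G).card_mul_index
    rw [hP3, hG] at this
    omega
  rw [hidx] at hdvd
  have hle : Nat.card (Sylow 3 G) ≤ 4 := Nat.le_of_dvd (by norm_num) hdvd
  have hpos : 0 < Nat.card (Sylow 3 G) := Nat.card_pos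
  unfold Nat.ModEq at hmod
  have h14 : Nat.card (Sylow 3 G) = 1 ∨ Nat.card (Sylow 3 G) = 4 := by
    obtain ⟨n, hn⟩ : ∃ n, n = Nat.card (Sylow 3 G) := ⟨_, rfl⟩
    rw [← hn] at hmod hdvd hle hpos ⊢
    interval_cases n
    · left; rfl
    · exfalso; omega
    · exfalso; omega
    · right; rfl
  rcases h14 with h1 | h4
  · exfalso
    have hPn := Cfsg.Agent.Helper2.sylow_normal_of_card_eq_one 3 P h1
    obtain ⟨z, hzo, hzc⟩ := central_invol hG P hPn
    exact hz z hzo hzc
  · exact iso_of_four hG h4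


end Cfsg.Agent.S0228
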