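import Cfsg.Statements.S0229
import Mathlib
import Cfsg.Agent.Lead.SylowBasic
import Cfsg.Agent.S0208
import Cfsg.Agent.S0209
import Cfsg.Agent.S0211

set_option autoImplicit false
open Cfsg

namespace Cfsg.Agent.S0229

/-- Let t be an involution of a Sylow 2-subgroup S of a finite group G, conjugate in G to no other element of S, and let s be an involution of G not conjugate to t. Then the order of st is twice an odd number. -/
theorem result {G : Type*} [Group G] [Finite G] (S : Sylow 2 G) (t : G) (ht : orderOf t = 2) (htS : t ∈ S) (hiso : ∀ g : G, g * t * g⁻¹ ∈ S → g * t * g⁻¹ = t) (s : G) (hs : orderOf s = 2) (hns : ¬ IsConj s t) : orderOf (s * t) % 4 = 2 := by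
  have hI := Lead.isolated_of_sylow_isolated S ht hiso
  have hts : orderOf (t * s) = orderOf (s * t) := by
    rw [show t * s = t * (s * t) * t⁻¹ by group, Lead.orderOf_conj_eq]
  by_cases hodd : Odd (orderOf (s * t))
  · exfalso
    obtain ⟨d, -, hd⟩ := Cfsg.Agent.S0208.result s t hs ht hodd
    exact hns (isConj_iff.mpr ⟨d, hd⟩)
  · have heven : Even (orderOf (s * t)) := Nat.not_odd_iff_even.mp hodd
    by_contra h4
    have h4' : 4 ∣ orderOf (t * s) := by
      rw [hts]; obtain ⟨m, hm⟩ := heven; omega
    have heven' : Even (orderOf (t * s)) := by rw [hts]; exact heven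
    obtain ⟨d, -, hd⟩ := (Cfsg.Agent.S0211.result t s ht hs heven').mpr h4'
    obtain ⟨hw2, hwt, hws⟩ := Cfsg.Agent.S0209.result t s ht hs heven'
    have hcomm : Commute t (d * t * d⁻¹) := by
      rw [hd]; exact (Commute.refl t).mul_right hwt.symm
    have h5 := hI.2 d hcomm
    rw [hd] at h5
    have hw1 : (t * s) ^ (orderOf (t * s) / 2) = 1 := by simpa using h5
    rw [hw1, orderOf_one] at hw2
    omega


end Cfsg.Agent.S0229
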