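import Cfsg.Statements.S0230
import Mathlib
import Cfsg.Agent.Lead.SylowBasic
import Cfsg.Agent.S0208
import Cfsg.Agent.S0209

set_option autoImplicit false
open Cfsg

namespace Cfsg.Agent.S0230

/-- Let G be a finite group with two non-conjugate involutions, and let t be an involution whose centralizer has maximal order among centralizers of involutions. Then |G| < |C_G(t)|^3. -/
theorem result {G : Type*} [Group G] [Finite G] (s t : G) (hs : orderOf s = 2) (ht : orderOf t = 2) (hnc : ¬ IsConj s t) (hmax : ∀ u : G, orderOf u = 2 → Nat.card (Subgroup.centralizer ({u} : Set G)) ≤ Nat.card (Subgroup.centralizer ({t} : Set G))) : Nat.card G < Nat.card (Subgroup.centralizer ({t} : Set G)) ^ 3 := by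
  classical
  have := Fintype.ofFinite G
  have hcardfilter : ∀ H : Subgroup G,
      (Finset.univ.filter (fun y : G => y ∈ H)).card = Nat.card H := by
    intro H
    rw [Nat.card_eq_fintype_card, Fintype.card_subtype]
  have hXt : ∀ g : G, orderOf (g * t * g⁻¹) = 2 := fun g => by
    rw [Lead.orderOf_conj_eq]; exact ht
  have h1 : Fintype.card G ≤ Nat.card (Subgroup.centralizer ({t} : Set G)) *
      (Finset.univ.image (fun g : G => g * t * g⁻¹)).card := by
    have h := Finset.card_le_mul_card_image (f := fun g : G => g * t * g⁻¹) Finset.univ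
      (Nat.card (Subgroup.centralizer ({t} : Set G))) (by
      intro a ha
      obtain ⟨g₀, -, hg₀⟩ := Finset.mem_image.mp ha
      rw [← hcardfilter]
      apply Finset.card_le_card_of_injOn (fun g => g₀⁻¹ * g)
      · intro g hg
        have hg' : g * t * g⁻¹ = a := (Finset.mem_filter.mp (Finset.mem_coe.mp hg)).2
        rw [Finset.mem_coe, Finset.mem_filter]
        refine ⟨Finset.mem_univ _, ?_⟩
        rw [Subgroup.mem_centralizer_singleton_iff]
        have e : g * t * g⁻¹ = g₀ * t * g₀⁻¹ := hg'.trans hg₀.symm
        calc g₀⁻¹ * g * t = g₀⁻¹ * (g * t * g⁻¹) * g := by group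
          _ = g₀⁻¹ * (g₀ * t * g₀⁻¹) * g := by rw [e]
          _ = t * (g₀⁻¹ * g) := by group
      · intro g _ g' _ h
        exact mul_left_cancel h)
    rwa [Finset.card_univ] at h
  have hprop : ∀ g : G, orderOf ((s * (g * t * g⁻¹)) ^ (orderOf (s * (g * t * g⁻¹)) / 2)) = 2 ∧
      Commute ((s * (g * t * g⁻¹)) ^ (orderOf (s * (g * t * g⁻¹)) / 2)) s ∧
      Commute ((s * (g * t * g⁻¹)) ^ (orderOf (s * (g * t * g⁻¹)) / 2)) (g * t * g⁻¹) := by
    intro g
    apply Cfsg.Agent.S0209.result s _ hs (hXt g)
    by_contra hodd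
    rw [Nat.not_even_iff_odd] at hodd
    obtain ⟨d, -, hd⟩ := Cfsg.Agent.S0208.result s _ hs (hXt g) hodd
    apply hnc
    rw [isConj_iff]
    refine ⟨g⁻¹ * d, ?_⟩
    calc g⁻¹ * d * s * (g⁻¹ * d)⁻¹ = g⁻¹ * (d * s * d⁻¹) * g := by group
      _ = g⁻¹ * (g * t * g⁻¹) * g := by rw [hd]
      _ = t := by group
  have h2 : (Finset.univ.image (fun g : G => g * t * g⁻¹)).card ≤
      Nat.card (Subgroup.centralizer ({t} : Set G)) *
      ((Finset.univ.filter (fun y : G => y ∈ Subgroup.centralizer ({s} : Set G))).erase 1).card := by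
    apply Finset.card_le_mul_card_image_of_maps_to
      (f := fun y : G => (s * y) ^ (orderOf (s * y) / 2))
    · intro y hy
      obtain ⟨g, -, hg⟩ := Finset.mem_image.mp hy
      have hg' : g * t * g⁻¹ = y := hg
      subst hg'
      obtain ⟨ho, hcs, -⟩ := hprop g
      rw [Finset.mem_erase, Finset.mem_filter]
      refine ⟨Lead.ne_one_of_orderOf_two ho, Finset.mem_univ _, ?_⟩
      rw [Subgroup.mem_centralizer_singleton_iff]
      exact hcs.eq
    · intro b _
      rcases (Finset.filter (fun y : G => (s * y) ^ (orderOf (s * y) / 2) = b)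
        (Finset.univ.image (fun g : G => g * t * g⁻¹))).eq_empty_or_nonempty with h | ⟨y₀, hy₀⟩
      · rw [h]; simp
      · have hb2 : orderOf b = 2 := by
          obtain ⟨hy₀X, hy₀b⟩ := Finset.mem_filter.mp hy₀
          obtain ⟨g, -, hg⟩ := Finset.mem_image.mp hy₀X
          have hg' : g * t * g⁻¹ = y₀ := hg
          subst hg'
          rw [← hy₀b]; exact (hprop g).1
        calc _ ≤ (Finset.univ.filter
                (fun y : G => y ∈ Subgroup.centralizer ({b} : Set G))).card := by
              apply Finset.card_le_card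
              intro y hy
              obtain ⟨hyX, hyb⟩ := Finset.mem_filter.mp hy
              obtain ⟨g, -, hg⟩ := Finset.mem_image.mp hyX
              have hg' : g * t * g⁻¹ = y := hg
              subst hg'
              rw [Finset.mem_filter]
              refine ⟨Finset.mem_univ _, ?_⟩
              rw [Subgroup.mem_centralizer_singleton_iff, ← hyb]
              exact ((hprop g).2.2).eq.symm
          _ = Nat.card (Subgroup.centralizer ({b} : Set G)) := hcardfilter _
          _ ≤ Nat.card (Subgroup.centralizer ({t} : Set G)) := hmax b hb2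
  have h3 : ((Finset.univ.filter (fun y : G => y ∈ Subgroup.centralizer ({s} : Set G))).erase 1).card
      = Nat.card (Subgroup.centralizer ({s} : Set G)) - 1 := by
    rw [Finset.card_erase_of_mem (by simp), hcardfilter]
  have h4 : Nat.card (Subgroup.centralizer ({s} : Set G)) ≤
      Nat.card (Subgroup.centralizer ({t} : Set G)) := hmax s hs
  have h5 : 0 < Nat.card (Subgroup.centralizer ({s} : Set G)) := Nat.card_pos
  rw [Nat.card_eq_fintype_card (α := G)]
  rw [h3] at h2
  generalize Nat.card (Subgroup.centralizer ({t} : Set G)) = m at *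
  generalize Nat.card (Subgroup.centralizer ({s} : Set G)) = k at *
  generalize (Finset.univ.image (fun g : G => g * t * g⁻¹)).card = c at *
  have hk : k - 1 < m := by omega
  have hm : 0 < m := by omega
  calc Fintype.card G ≤ m * c := h1
    _ ≤ m * (m * (k - 1)) := Nat.mul_le_mul_left _ h2
    _ < m * (m * m) := by gcongr
    _ = m ^ 3 := by ring


end Cfsg.Agent.S0230
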