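import Cfsg.Statements.S0231
import Mathlib
import Cfsg.Agent.Lead.SylowBasic
import Cfsg.Agent.S0208
import Cfsg.Agent.S0209

set_option autoImplicit false
open scoped Pointwise
open Cfsg

namespace Cfsg.Agent.S0231

/-- Let T be a Sylow 2-subgroup of the finite group G which is not normal and which intersects every other Sylow 2-subgroup trivially. Then G has a single conjugacy class of involutions. -/
theorem result {G : Type*} [Group G] [Finite G] (T : Sylow 2 G) (hnn : ¬ (T : Subgroup G).Normal) (hTI : ∀ g : G, MulAut.conj g • (T : Subgroup G) ≠ T → MulAut.conj g • (T : Subgroup G) ⊓ T = ⊥) (s t : G) (hs : orderOf s = 2) (ht : orderOf t = 2) : IsConj s t := by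
  classical
  by_contra hns
  have stepA : ∀ a b x : G, x ≠ 1 → a⁻¹ * x * a ∈ T → b⁻¹ * x * b ∈ T →
      ∀ y : G, a⁻¹ * y * a ∈ T ↔ b⁻¹ * y * b ∈ T := by
    intro a b x hx1 hxa hxb
    have hc : MulAut.conj (a⁻¹ * b) • (T : Subgroup G) = T := by
      by_contra hne
      have h0 := hTI (a⁻¹ * b) hne
      have hmem : a⁻¹ * x * a ∈ MulAut.conj (a⁻¹ * b) • (T : Subgroup G) ⊓ T := by
        refine Subgroup.mem_inf.mpr ⟨?_, hxa⟩
        rw [Lead.mem_conj_smul_iff]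
        have e : (a⁻¹ * b)⁻¹ * (a⁻¹ * x * a) * (a⁻¹ * b) = b⁻¹ * x * b := by group
        rw [e]; exact hxb
      rw [h0, Subgroup.mem_bot] at hmem
      apply hx1
      calc x = a * (a⁻¹ * x * a) * a⁻¹ := by group
        _ = 1 := by rw [hmem]; group
    intro y
    have h1 : a⁻¹ * y * a ∈ MulAut.conj (a⁻¹ * b) • (T : Subgroup G) ↔ b⁻¹ * y * b ∈ T := by
      rw [Lead.mem_conj_smul_iff]
      have e : (a⁻¹ * b)⁻¹ * (a⁻¹ * y * a) * (a⁻¹ * b) = b⁻¹ * y * b := by group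
      rw [e]
      exact Iff.rfl
    rw [hc] at h1
    exact h1
  have stepB : ∀ u v : G, orderOf u = 2 → orderOf v = 2 → Commute u v →
      ∃ a : G, a⁻¹ * u * a ∈ T ∧ a⁻¹ * v * a ∈ T := by
    intro u v hu hv huv
    obtain ⟨h, h1, h2⟩ := Lead.exists_conj_mem_sylow_of_commute_invol T hu hv huv
    refine ⟨h⁻¹, ?_, ?_⟩
    · rw [inv_inv]; exact h1
    · rw [inv_inv]; exact h2
  have claim1 : ∀ u v : G, orderOf u = 2 → orderOf v = 2 → ¬ IsConj u v →
      ∃ a : G, a⁻¹ * u * a ∈ T ∧ a⁻¹ * v * a ∈ T := by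
    intro u v hu hv hnc
    have heven : Even (orderOf (u * v)) := by
      by_contra hodd
      rw [Nat.not_even_iff_odd] at hodd
      obtain ⟨d, -, hd⟩ := Cfsg.Agent.S0208.result u v hu hv hodd
      exact hnc (isConj_iff.mpr ⟨d, hd⟩)
    obtain ⟨hw2, hwu, hwv⟩ := Cfsg.Agent.S0209.result u v hu hv heven
    obtain ⟨a, ha1, ha2⟩ := stepB u _ hu hw2 hwu.symm
    obtain ⟨b, hb1, hb2⟩ := stepB v _ hv hw2 hwv.symm
    have hA := stepA a b _ (Lead.ne_one_of_orderOf_two hw2) ha2 hb2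
    exact ⟨a, ha1, (hA v).mpr hb1⟩
  obtain ⟨g, hg⟩ : ∃ g : G, MulAut.conj g • (T : Subgroup G) ≠ T := by
    by_contra hall
    push Not at hall
    apply hnn
    constructor
    intro n hn g
    have h1 := Lead.conj_mem_conj_smul (g := g) hn
    rw [hall g] at h1
    exact h1
  obtain ⟨r₀, hr₀T, hr₀⟩ : ∃ r₀ : G, r₀ ∈ T ∧ orderOf r₀ = 2 := by
    have h2 : 2 ∣ Nat.card G := by rw [← hs]; exact orderOf_dvd_natCard s
    have h3 := T.dvd_card_of_dvd_card h2
    obtain ⟨x, hx⟩ := exists_prime_orderOf_dvd_card' 2 h3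
    exact ⟨x.1, x.2, by rw [Subgroup.orderOf_coe]; exact hx⟩
  obtain ⟨a, has, hat⟩ := claim1 s t hs ht hns
  have hr2 : orderOf ((a * g) * r₀ * (a * g)⁻¹) = 2 := by rw [Lead.orderOf_conj_eq]; exact hr₀
  have hrag : (a * g)⁻¹ * ((a * g) * r₀ * (a * g)⁻¹) * (a * g) ∈ T := by
    have e : (a * g)⁻¹ * ((a * g) * r₀ * (a * g)⁻¹) * (a * g) = r₀ := by group
    rw [e]; exact hr₀T
  have hra : ¬ a⁻¹ * ((a * g) * r₀ * (a * g)⁻¹) * a ∈ T := by
    intro hmem
    have hA := stepA a (a * g) _ (Lead.ne_one_of_orderOf_two hr2) hmem hrag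
    apply hg
    ext y
    rw [Lead.mem_conj_smul_iff]
    have h1 := hA (a * y * a⁻¹)
    have e1 : a⁻¹ * (a * y * a⁻¹) * a = y := by group
    have e2 : (a * g)⁻¹ * (a * y * a⁻¹) * (a * g) = g⁻¹ * y * g := by group
    rw [e1, e2] at h1
    exact h1.symm
  have hsr : IsConj s ((a * g) * r₀ * (a * g)⁻¹) := by
    by_contra hnc
    obtain ⟨b, hb1, hb2⟩ := claim1 s _ hs hr2 hnc
    have hA := stepA a b s (Lead.ne_one_of_orderOf_two hs) has hb1
    exact hra ((hA _).mpr hb2)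
  have htr : IsConj t ((a * g) * r₀ * (a * g)⁻¹) := by
    by_contra hnc
    obtain ⟨b, hb1, hb2⟩ := claim1 t _ ht hr2 hnc
    have hA := stepA a b t (Lead.ne_one_of_orderOf_two ht) hat hb1
    exact hra ((hA _).mpr hb2)
  exact hns (hsr.trans htr.symm)


end Cfsg.Agent.S0231
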