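import Cfsg.Statements.S0232
import Mathlib
import Cfsg.Agent.S0233
import Cfsg.Agent.S0213

set_option autoImplicit false
open Cfsg

namespace Cfsg.Agent.S0232

theorem arith232 (a n : ℕ) (h : 2 * a = n) (hn : 2 < n) : n < a ^ 3 := by
  have ha2 : 2 ≤ a := by omega
  have h4 : 4 ≤ a * a := Nat.mul_le_mul ha2 ha2
  have h5 : a * 4 ≤ a * (a * a) := Nat.mul_le_mul_left a h4
  have e : a ^ 3 = a * (a * a) := by ring
  rw [← h, e]; omega

theorem aux232.{u} : ∀ (n : ℕ) (G : Type u) [Group G] [Finite G], Nat.card G = n → Even n → 2 < n →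
    ∃ H : Subgroup G, H ≠ ⊤ ∧ Nat.card G < (Nat.card H) ^ 3 := by
  intro n
  induction n using Nat.strong_induction_on with
  | _ n ih =>
  intro G _ _ hcard heven hgt
  classical
  haveI : Fintype G := Fintype.ofFinite G
  haveI : Fact (Nat.Prime 2) := ⟨Nat.prime_two⟩
  rw [hcard]
  by_cases hZ : Odd (Nat.card (Subgroup.center G))
  · obtain ⟨H, hH, hcase⟩ := Cfsg.Agent.S0233.result (G := G) (by rw [hcard]; exact heven) hZ
    have hHcard : Nat.card H * H.index = n := by rw [← hcard]; exact Subgroup.card_mul_index H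
    rcases hcase with h2 | hlt
    · refine ⟨H, hH, ?_⟩
      rw [h2] at hHcard
      exact arith232 _ n (by rw [← hHcard, mul_comm]) hgt
    · obtain ⟨t, ht⟩ := exists_prime_orderOf_dvd_card' (G := G) 2
        (by rw [hcard]; exact even_iff_two_dvd.mp heven)
      obtain ⟨C, hC⟩ : ∃ C : Subgroup G, C = Subgroup.centralizer ({t} : Set G) := ⟨_, rfl⟩
      have hCtop : C ≠ ⊤ := by
        intro htop
        have htc : t ∈ Subgroup.center G := by
          rw [Subgroup.mem_center_iff]
          intro x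
          have hx : x ∈ C := by rw [htop]; trivial
          rw [hC, Subgroup.mem_centralizer_singleton_iff] at hx
          exact hx
        have h2 : orderOf (⟨t, htc⟩ : Subgroup.center G) = 2 := by
          rw [← ht]; exact Subgroup.orderOf_mk t htc
        have h3 : 2 ∣ Nat.card (Subgroup.center G) := h2 ▸ orderOf_dvd_natCard _
        exact (Nat.not_even_iff_odd.mpr hZ) (even_iff_two_dvd.mpr h3)
      obtain ⟨c, hc⟩ : ∃ c : ℕ, c = Nat.card C := ⟨_, rfl⟩
      have hcpos : 0 < c := hc ▸ Nat.card_pos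
      by_cases hc3 : n < c ^ 3
      · exact ⟨C, hCtop, by rw [← hc]; exact hc3⟩
      push Not at hc3
      obtain ⟨K, hK⟩ : ∃ K : Finset G, ∀ s, s ∈ K ↔ IsConj t s :=
        ⟨Finset.univ.filter (fun s => IsConj t s), by simp⟩
      have hKc := Cfsg.Agent.S0213.card_class_mul_card_centralizer t K hK
      rw [← hC, ← hc, hcard] at hKc
      obtain ⟨ni, hni⟩ : ∃ ni : ℕ, ni = Nat.card {s : G // orderOf s = 2} := ⟨_, rfl⟩
      rw [← hni, hcard] at hlt
      have hKle : K.card ≤ ni := by
        rw [hni, Nat.card_eq_fintype_card, Fintype.card_subtype]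
        apply Finset.card_le_card
        intro s hs
        rw [Finset.mem_filter]
        refine ⟨Finset.mem_univ _, ?_⟩
        obtain ⟨g, hg⟩ := isConj_iff.mp ((hK s).mp hs)
        rw [← hg, ← ht]
        exact (MulAut.conj g).orderOf_eq t
      have hNnc : n ≤ ni * c := by rw [← hKc]; exact Nat.mul_le_mul_right c hKle
      have h3 : n * (n + ni) ≤ ni * c * (ni * c + ni) := Nat.mul_le_mul hNnc (by omega)
      have h4 : 2 * H.index * ni ^ 2 < (c * (c + 1)) * ni ^ 2 := by
        calc 2 * H.index * ni ^ 2 < n * (n + ni) := hlt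
          _ ≤ ni * c * (ni * c + ni) := h3
          _ = (c * (c + 1)) * ni ^ 2 := by ring
      have h5 : 2 * H.index < c * (c + 1) := Nat.lt_of_mul_lt_mul_right h4
      have h6 : c ≤ c ^ 2 := by nlinarith
      have h7 : c * (c + 1) = c ^ 2 + c := by ring
      have h8 : H.index < c ^ 2 := by omega
      refine ⟨H, hH, ?_⟩
      obtain ⟨m, hm⟩ : ∃ m : ℕ, m = Nat.card H := ⟨_, rfl⟩
      obtain ⟨i, hi⟩ : ∃ i : ℕ, i = H.index := ⟨_, rfl⟩
      rw [← hm, ← hi] at hHcard
      rw [← hi] at h8
      rw [← hm]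
      have hmpos : 0 < m := hm ▸ Nat.card_pos
      have h9 : i ^ 3 < n ^ 2 := by
        calc i ^ 3 < (c ^ 2) ^ 3 := Nat.pow_lt_pow_left h8 (by norm_num)
          _ = (c ^ 3) ^ 2 := by ring
          _ ≤ n ^ 2 := Nat.pow_le_pow_left hc3 2
      have h10 : n * n ^ 2 < m ^ 3 * n ^ 2 := by
        calc n * n ^ 2 = m ^ 3 * i ^ 3 := by rw [← hHcard]; ring
          _ < m ^ 3 * n ^ 2 := mul_lt_mul_of_pos_left h9 (by positivity)
      exact Nat.lt_of_mul_lt_mul_right h10
  · rw [Nat.not_odd_iff_even] at hZ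
    obtain ⟨z', hz'⟩ := exists_prime_orderOf_dvd_card' (G := Subgroup.center G) 2
      (even_iff_two_dvd.mp hZ)
    obtain ⟨z, hz⟩ : ∃ z : G, z = (z' : G) := ⟨_, rfl⟩
    have hzc : z ∈ Subgroup.center G := hz ▸ z'.2
    have hzo : orderOf z = 2 := by rw [hz, Subgroup.orderOf_coe]; exact hz'
    obtain ⟨Zz, hZz⟩ : ∃ Zz : Subgroup G, Zz = Subgroup.zpowers z := ⟨_, rfl⟩
    have hZzle : Zz ≤ Subgroup.center G := by rw [hZz, Subgroup.zpowers_le]; exact hzc
    haveI hZzn : Zz.Normal := ⟨fun x hx g => by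
      have := Subgroup.mem_center_iff.mp (hZzle hx) g
      rw [this, mul_inv_cancel_right]; exact hx⟩
    have hZzcard : Nat.card Zz = 2 := by rw [hZz, Nat.card_zpowers, hzo]
    have hidx : 2 * Zz.index = n := by
      rw [← hZzcard, ← hcard]; exact Subgroup.card_mul_index Zz
    obtain ⟨m, hm⟩ : ∃ m : ℕ, m = Zz.index := ⟨_, rfl⟩
    rw [← hm] at hidx
    rcases Nat.even_or_odd m with hme | hmo
    · by_cases hm2 : m = 2
      · refine ⟨Zz, ?_, ?_⟩
        · intro h; rw [h, Subgroup.card_top, hcard] at hZzcard; omega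
        · rw [hZzcard]; omega
      · have hm_lt : m < n := by omega
        have hmgt : 2 < m := by obtain ⟨k, hk⟩ := hme; omega
        obtain ⟨H', hH', hlt'⟩ := ih m hm_lt (G ⧸ Zz) hm.symm hme hmgt
        obtain ⟨H, hHdef⟩ : ∃ H : Subgroup G, H = H'.comap (QuotientGroup.mk' Zz) := ⟨_, rfl⟩
        have hidxH : H.index = H'.index := by
          rw [hHdef]; exact Subgroup.index_comap_of_surjective H' (QuotientGroup.mk'_surjective Zz)
        have hHtop : H ≠ ⊤ := by
          intro h
          apply hH'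
          rw [← Subgroup.index_eq_one, ← hidxH, h, Subgroup.index_top]
        have e1 : Nat.card H * H.index = n := by rw [← hcard]; exact Subgroup.card_mul_index H
        have e2 : Nat.card H' * H'.index = m := by rw [hm]; exact Subgroup.card_mul_index H'
        refine ⟨H, hHtop, ?_⟩
        obtain ⟨a, ha⟩ : ∃ a : ℕ, a = Nat.card H := ⟨_, rfl⟩
        obtain ⟨b, hb⟩ : ∃ b : ℕ, b = Nat.card H' := ⟨_, rfl⟩
        obtain ⟨i, hi⟩ : ∃ i : ℕ, i = H'.index := ⟨_, rfl⟩
        rw [← ha, hidxH, ← hi] at e1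
        rw [← hb, ← hi] at e2
        rw [← hb] at hlt'
        rw [← ha]
        have hipos : 0 < i := by
          rcases Nat.eq_zero_or_pos i with h | h
          · rw [h] at e2; omega
          · exact h
        have hab : a = 2 * b := by
          have : a * i = 2 * b * i := by rw [e1, mul_assoc, e2, hidx]
          exact Nat.eq_of_mul_eq_mul_right hipos this
        have hlt'' : m < b ^ 3 := by rw [hm]; exact hlt'
        have e8 : (2 * b) ^ 3 = 8 * b ^ 3 := by ring
        rw [hab, ← hidx, e8]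
        omega
    · have hcop : Nat.Coprime (Nat.card Zz) Zz.index := by
        rw [hZzcard, ← hm]
        exact (Nat.Prime.coprime_iff_not_dvd Nat.prime_two).mpr (fun h =>
          (Nat.not_even_iff_odd.mpr hmo) (even_iff_two_dvd.mpr h))
      obtain ⟨H, hH⟩ := Subgroup.exists_right_complement'_of_coprime hcop
      have hHc : Nat.card Zz * Nat.card H = Nat.card G := hH.card_mul_card
      rw [hZzcard, hcard] at hHc
      refine ⟨H, ?_, ?_⟩
      · intro h; rw [h, Subgroup.card_top, hcard] at hHc; omega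
      · exact arith232 _ n hHc hgt

/-- A finite group G of even order greater than 2 has a proper subgroup H with |G| < |H|^3. -/
theorem result {G : Type*} [Group G] [Finite G] (heven : Even (Nat.card G)) (hgt : 2 < Nat.card G) : ∃ H : Subgroup G, H ≠ ⊤ ∧ Nat.card G < (Nat.card H) ^ 3 := by
  exact aux232 _ G rfl heven hgt


end Cfsg.Agent.S0232
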