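import Cfsg.Statements.S0234
import Mathlib
import Cfsg.Agent.S0233
import Cfsg.Agent.S0144

set_option autoImplicit false
open Cfsg

namespace Cfsg.Agent.S0234

set_option maxRecDepth 100000 in
theorem a5_invol_count : (Finset.univ.filter (fun σ : Equiv.Perm (Fin 5) =>
    Equiv.Perm.sign σ = 1 ∧ σ ≠ 1 ∧ σ * σ = 1)).card = 15 := by decide

theorem not_comm_of_simple_even {G : Type*} [Group G] [Finite G] [IsSimpleGroup G]
    (heven : Even (Nat.card G)) (hgt : 2 < Nat.card G) : ¬ (∀ a b : G, a * b = b * a) := by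
  intro hcomm
  letI : CommGroup G := { (inferInstance : Group G) with mul_comm := hcomm }
  have hp : (Nat.card G).Prime := IsSimpleGroup.prime_card
  have := (Nat.prime_dvd_prime_iff_eq Nat.prime_two hp).mp (even_iff_two_dvd.mp heven)
  omega

theorem not_simple_two_primes {G : Type*} [Group G] [Finite G] [IsSimpleGroup G]
    (heven : Even (Nat.card G)) (hgt : 2 < Nat.card G) (p q a b : ℕ) (hp : p.Prime) (hq : q.Prime)
    (hcard : Nat.card G = p ^ a * q ^ b) : False :=
  not_comm_of_simple_even heven hgt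
    (IsSimpleGroup.comm_iff_isSolvable.mpr (Cfsg.Agent.S0144.result p q a b hp hq hcard))

theorem not_simple_thirty {G : Type*} [Group G] [Finite G] [IsSimpleGroup G]
    (h30 : Nat.card G = 30) : False := by
  haveI : Fact (Nat.Prime 2) := ⟨Nat.prime_two⟩
  obtain ⟨P⟩ : Nonempty (Sylow 2 G) := inferInstance
  obtain ⟨k, hk⟩ := (IsPGroup.iff_card).mp P.isPGroup'
  have hPi : Nat.card P * (P : Subgroup G).index = 30 := by
    rw [← h30]; exact Subgroup.card_mul_index _
  have hnd : ¬ 2 ∣ (P : Subgroup G).index := P.not_dvd_index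
  have hk1 : k = 1 := by
    rcases Nat.lt_or_ge k 2 with h | h
    · interval_cases k
      · exfalso; rw [hk, pow_zero, one_mul] at hPi; rw [hPi] at hnd; exact hnd (by norm_num)
      · rfl
    · exfalso
      have h4 : 2 ^ 2 ∣ Nat.card P := by rw [hk]; exact pow_dvd_pow 2 h
      have h5 : 2 ^ 2 ∣ 30 := by rw [← hPi]; exact Dvd.dvd.mul_right h4 _
      omega
  rw [hk1, pow_one] at hk
  have hPc : IsCyclic P := isCyclic_of_prime_card (p := 2) hk
  have hmin : (Nat.card G).minFac = 2 := (Nat.minFac_eq_two_iff _).mpr (by rw [h30]; norm_num)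
  have hcomp := IsCyclic.isComplement' hmin hPc
  obtain ⟨K, hK⟩ : ∃ K : Subgroup G,
      K = (MonoidHom.transferSylow P (hPc.normalizer_le_centralizer hmin)).ker := ⟨_, rfl⟩
  have hKn : K.Normal := by rw [hK]; exact MonoidHom.normal_ker _
  rw [← hK] at hcomp
  have hcm := hcomp.card_mul_card
  rw [hk, h30] at hcm
  rcases hKn.eq_bot_or_eq_top with h | h
  · rw [h, Subgroup.card_bot] at hcm; omega
  · rw [h, Subgroup.card_top, h30] at hcm; omega

/-- In a finite simple group G of even order greater than 2, the number n of involutions satisfies 3n < |G|. -/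
theorem result {G : Type*} [Group G] [Finite G] [IsSimpleGroup G] (heven : Even (Nat.card G)) (hgt : 2 < Nat.card G) : 3 * Nat.card {t : G // orderOf t = 2} < Nat.card G := by
  classical
  haveI : Fintype G := Fintype.ofFinite G
  haveI : Fact (Nat.Prime 2) := ⟨Nat.prime_two⟩
  have hnc := not_comm_of_simple_even heven hgt
  by_contra hcon
  push Not at hcon
  obtain ⟨N, hN⟩ : ∃ N : ℕ, N = Nat.card G := ⟨_, rfl⟩
  obtain ⟨n, hn⟩ : ∃ n : ℕ, n = Nat.card {t : G // orderOf t = 2} := ⟨_, rfl⟩
  rw [← hN, ← hn] at hcon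
  have hevenN : Even N := hN ▸ heven
  have hgtN : 2 < N := hN ▸ hgt
  have hZ : Subgroup.center G = ⊥ := by
    rcases (inferInstance : (Subgroup.center G).Normal).eq_bot_or_eq_top with h | h
    · exact h
    · exfalso
      apply hnc
      intro a b
      have hb : b ∈ Subgroup.center G := by rw [h]; trivial
      exact Subgroup.mem_center_iff.mp hb a
  have hZodd : Odd (Nat.card (Subgroup.center G)) := by
    rw [hZ, Subgroup.card_bot]; exact odd_one
  obtain ⟨H, hH, hcase⟩ := Cfsg.Agent.S0233.result heven hZodd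
  rw [← hN, ← hn] at hcase
  have hker : (MulAction.toPermHom G (G ⧸ H)).ker = ⊥ := by
    rw [← Subgroup.normalCore_eq_ker]
    rcases (Subgroup.normalCore_normal H).eq_bot_or_eq_top with h | h
    · exact h
    · exfalso; apply hH; rw [eq_top_iff, ← h]; exact Subgroup.normalCore_le H
  have hinj : Function.Injective (MulAction.toPermHom G (G ⧸ H)) :=
    (MonoidHom.ker_eq_bot_iff _).mp hker
  have hidx2 : H.index ≠ 2 := by
    intro h2
    have := Nat.card_le_card_of_injective _ hinj
    rw [Nat.card_perm] at this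
    have h3 : Nat.card (G ⧸ H) = 2 := h2
    rw [h3, ← hN, Nat.factorial_two] at this
    omega
  have hlt : 2 * H.index * n ^ 2 < N * (N + n) := by
    rcases hcase with h | h
    · exact absurd h hidx2
    · exact h
  have hidx5 : H.index ≤ 5 := by
    have h1 : N * (N + n) ≤ (3 * n) * (3 * n + n) := Nat.mul_le_mul hcon (by omega)
    have h2 : 2 * H.index * n ^ 2 < 12 * n ^ 2 := by
      calc 2 * H.index * n ^ 2 < N * (N + n) := hlt
        _ ≤ (3 * n) * (3 * n + n) := h1
        _ = 12 * n ^ 2 := by ring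
    have h3 : 2 * H.index < 12 := Nat.lt_of_mul_lt_mul_right h2
    omega
  have hcardQ : Nat.card (G ⧸ H) ≤ 5 := hidx5
  haveI : Fintype (G ⧸ H) := Fintype.ofFinite _
  obtain ⟨e⟩ : Nonempty ((G ⧸ H) ↪ Fin 5) := Function.Embedding.nonempty_of_card_le (by
    rw [Fintype.card_fin, ← Nat.card_eq_fintype_card]; exact hcardQ)
  obtain ⟨φ, hφdef⟩ : ∃ φ : G →* Equiv.Perm (Fin 5),
      φ = (Equiv.Perm.extendDomainHom (Equiv.ofInjective e e.injective)).comp
        (MulAction.toPermHom G (G ⧸ H)) := ⟨_, rfl⟩
  have hφinj : Function.Injective φ := by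
    rw [hφdef]
    exact (Equiv.Perm.extendDomainHom_injective _).comp hinj
  have hsign : ∀ g : G, Equiv.Perm.sign (φ g) = 1 := by
    obtain ⟨ψ, hψ⟩ : ∃ ψ : G →* ℤˣ, ψ = Equiv.Perm.sign.comp φ := ⟨_, rfl⟩
    rcases ψ.normal_ker.eq_bot_or_eq_top with h | h
    · exfalso
      have hψinj : Function.Injective ψ := (MonoidHom.ker_eq_bot_iff _).mp h
      have := Nat.card_le_card_of_injective _ hψinj
      rw [Nat.card_eq_fintype_card (α := ℤˣ), Fintype.card_units_int, ← hN] at this
      omega
    · intro g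
      have hg : g ∈ ψ.ker := by rw [h]; trivial
      rw [MonoidHom.mem_ker, hψ] at hg
      exact hg
  have hn15 : n ≤ 15 := by
    rw [hn, Nat.card_eq_fintype_card, Fintype.card_subtype, ← a5_invol_count]
    apply Finset.card_le_card_of_injOn (fun t => φ t)
    · intro t ht
      have hto : orderOf t = 2 := (Finset.mem_filter.mp (Finset.mem_coe.mp ht)).2
      rw [Finset.mem_coe, Finset.mem_filter]
      refine ⟨Finset.mem_univ _, hsign t, ?_, ?_⟩
      · intro h1
        have h1' : φ t = 1 := h1
        have : t = 1 := hφinj (by rw [h1', map_one])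
        rw [this, orderOf_one] at hto; omega
      · show φ t * φ t = 1
        rw [← map_mul, ← pow_two, ← hto, pow_orderOf_eq_one, map_one]
    · intro x _ y _ hxy
      exact hφinj hxy
  have hdvd : N ∣ 60 := by
    have h1 : φ.range ≤ alternatingGroup (Fin 5) := by
      rintro _ ⟨g, rfl⟩
      exact Equiv.Perm.mem_alternatingGroup.mpr (hsign g)
    have h2 : Nat.card φ.range = N := by
      rw [hN]; exact Nat.card_congr (MonoidHom.ofInjective hφinj).toEquiv.symm
    have h3 := Subgroup.card_dvd_of_le h1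
    rw [h2] at h3
    have h4 : Nat.card (alternatingGroup (Fin 5)) = 60 := by
      rw [nat_card_alternatingGroup, Nat.card_fin]; rfl
    rw [h4] at h3; exact h3
  have hN45 : N ≤ 45 := by omega
  obtain ⟨d, hd⟩ := hdvd
  obtain ⟨k, hk⟩ := hevenN
  have hd2 : 2 ≤ d := by
    by_contra h
    push Not at h
    interval_cases d <;> omega
  have hd15 : d ≤ 15 := by
    by_contra h
    push Not at h
    have : N * 16 ≤ N * d := Nat.mul_le_mul_left N h
    omega
  have hcases : N = 4 ∨ N = 6 ∨ N = 10 ∨ N = 12 ∨ N = 20 ∨ N = 30 := by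
    interval_cases d <;> omega
  rcases hcases with h | h | h | h | h | h
  · exact not_simple_two_primes heven hgt 2 3 2 0 Nat.prime_two Nat.prime_three (by rw [← hN, h]; norm_num)
  · exact not_simple_two_primes heven hgt 2 3 1 1 Nat.prime_two Nat.prime_three (by rw [← hN, h]; norm_num)
  · exact not_simple_two_primes heven hgt 2 5 1 1 Nat.prime_two Nat.prime_five (by rw [← hN, h]; norm_num)
  · exact not_simple_two_primes heven hgt 2 3 2 1 Nat.prime_two Nat.prime_three (by rw [← hN, h]; norm_num)
  · exact not_simple_two_primes heven hgt 2 5 2 1 Nat.prime_two Nat.prime_five (by rw [← hN, h]; norm_num)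
  · exact not_simple_thirty (by rw [← hN, h])


end Cfsg.Agent.S0234
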