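import Cfsg.Statements.S0235
import Mathlib

set_option autoImplicit false
open Cfsg

namespace Cfsg.Agent.S0235

/-- If x² ≠ 1, the ordered pairs (u, v) of involutions with uv = x correspond bijectively to the involutions t with t x t⁻¹ = x⁻¹ (via (u, v) ↦ u), so the two counts agree. -/
theorem result {G : Type*} [Group G] [Finite G] (x : G) (hx : x ^ 2 ≠ 1) : Nat.card {p : G × G // orderOf p.1 = 2 ∧ orderOf p.2 = 2 ∧ p.1 * p.2 = x} = Nat.card {t : G // orderOf t = 2 ∧ t * x * t⁻¹ = x⁻¹} := by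
  have hinv : ∀ u : G, orderOf u = 2 → u⁻¹ = u := fun u hu => by
    have h : u ^ 2 = 1 := by rw [← hu]; exact pow_orderOf_eq_one u
    rw [pow_two] at h
    exact inv_eq_of_mul_eq_one_left h
  have hsq : ∀ u : G, orderOf u = 2 → u * u = 1 := fun u hu => by
    rw [← pow_two, ← hu]; exact pow_orderOf_eq_one u
  apply Nat.card_congr
  refine ⟨fun p => ⟨p.1.1, p.2.1, ?_⟩, fun t => ⟨(t.1, t.1⁻¹ * x), t.2.1, ?_, ?_⟩, ?_, ?_⟩
  · obtain ⟨⟨u, v⟩, hu, hv, huv⟩ := p
    have hu' : orderOf u = 2 := hu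
    have hv' : orderOf v = 2 := hv
    have huv' : u * v = x := huv
    show u * x * u⁻¹ = x⁻¹
    rw [← huv', mul_inv_rev, hinv u hu', hinv v hv', ← mul_assoc, hsq u hu', one_mul]
  · obtain ⟨t, ht2, htx⟩ := t
    show orderOf (t⁻¹ * x) = 2
    have hti := hinv t ht2
    rw [hti] at htx ⊢
    apply orderOf_eq_prime
    · rw [pow_two]
      calc t * x * (t * x) = (t * x * t) * x := by group
        _ = x⁻¹ * x := by rw [htx]
        _ = 1 := inv_mul_cancel x
    · intro h
      apply hx
      have hxt : x = t := by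
        have : t * (t * x) = t * 1 := by rw [h]
        rw [← mul_assoc, hsq t ht2, one_mul, mul_one] at this
        exact this
      rw [hxt, ← ht2]; exact pow_orderOf_eq_one t
  · show t.1 * (t.1⁻¹ * x) = x
    rw [mul_inv_cancel_left]
  · rintro ⟨⟨u, v⟩, hu, hv, huv⟩
    apply Subtype.ext
    have huv' : u * v = x := huv
    show (u, u⁻¹ * x) = (u, v)
    rw [← huv', inv_mul_cancel_left]
  · intro t
    rfl


end Cfsg.Agent.S0235
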