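import Cfsg.Statements.S0236
import Mathlib

set_option autoImplicit false
open Cfsg

namespace Cfsg.Agent.S0236

/-- If x is an involution, the number of ordered pairs (u, v) of involutions with uv = x, plus one, equals the number of involutions in the centralizer of x. -/
theorem result {G : Type*} [Group G] [Finite G] (x : G) (hx : orderOf x = 2) : Nat.card {p : G × G // orderOf p.1 = 2 ∧ orderOf p.2 = 2 ∧ p.1 * p.2 = x} + 1 = Nat.card {t : G // orderOf t = 2 ∧ Commute t x} := by
  classical
  have := Fintype.ofFinite G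
  have hinv : ∀ u : G, orderOf u = 2 → u⁻¹ = u := fun u hu => by
    have h : u ^ 2 = 1 := by rw [← hu]; exact pow_orderOf_eq_one u
    rw [pow_two] at h
    exact inv_eq_of_mul_eq_one_left h
  have hsq : ∀ u : G, orderOf u = 2 → u * u = 1 := fun u hu => by
    rw [← pow_two, ← hu]; exact pow_orderOf_eq_one u
  have e : {p : G × G // orderOf p.1 = 2 ∧ orderOf p.2 = 2 ∧ p.1 * p.2 = x} ≃
      {t : G // (orderOf t = 2 ∧ Commute t x) ∧ t ≠ x} := by
    refine ⟨fun p => ⟨p.1.1, ⟨p.2.1, ?_⟩, ?_⟩, fun t => ⟨(t.1, t.1⁻¹ * x), t.2.1.1, ?_, ?_⟩, ?_, ?_⟩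
    · obtain ⟨⟨u, v⟩, hu, hv, huv⟩ := p
      have huv' : u * v = x := huv
      have hu' : orderOf u = 2 := hu
      have hv' : orderOf v = 2 := hv
      show u * x = x * u
      have hcomm : u * v = v * u := by
        have h1 : (u * v) * (u * v) = 1 := by rw [huv']; exact hsq x hx
        have h2 : u * v = (u * v)⁻¹ := (inv_eq_of_mul_eq_one_left h1).symm
        rw [mul_inv_rev, hinv u hu', hinv v hv'] at h2
        exact h2
      rw [← huv', ← mul_assoc, hsq u hu', one_mul, hcomm, mul_assoc, hsq u hu', mul_one]
    · obtain ⟨⟨u, v⟩, hu, hv, huv⟩ := p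
      have huv' : u * v = x := huv
      have hv' : orderOf v = 2 := hv
      show u ≠ x
      intro h
      rw [h] at huv'
      have hv1 : v = 1 := by simpa using huv'
      rw [hv1, orderOf_one] at hv'
      omega
    · obtain ⟨t, ⟨ht2, htx⟩, htne⟩ := t
      show orderOf (t⁻¹ * x) = 2
      rw [hinv t ht2]
      apply orderOf_eq_prime
      · rw [pow_two]
        have htx' : t * x = x * t := htx
        calc t * x * (t * x) = t * x * (x * t) := by rw [htx']
          _ = t * (x * x) * t := by group
          _ = 1 := by rw [hsq x hx, mul_one, hsq t ht2]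
      · intro h
        apply htne
        have h3 := eq_inv_of_mul_eq_one_left h
        rw [hinv x hx] at h3
        exact h3
    · show t.1 * (t.1⁻¹ * x) = x
      rw [mul_inv_cancel_left]
    · rintro ⟨⟨u, v⟩, hu, hv, huv⟩
      apply Subtype.ext
      have huv' : u * v = x := huv
      show (u, u⁻¹ * x) = (u, v)
      rw [← huv', inv_mul_cancel_left]
    · intro t
      rfl
  rw [Nat.card_congr e, Nat.card_eq_fintype_card, Nat.card_eq_fintype_card, Fintype.card_subtype,
    Fintype.card_subtype]
  have hfil : Finset.univ.filter (fun t : G => orderOf t = 2 ∧ Commute t x) =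
      insert x (Finset.univ.filter (fun t : G => (orderOf t = 2 ∧ Commute t x) ∧ t ≠ x)) := by
    ext t
    simp only [Finset.mem_filter, Finset.mem_univ, true_and, Finset.mem_insert]
    constructor
    · intro h
      by_cases htx : t = x
      · exact Or.inl htx
      · exact Or.inr ⟨h, htx⟩
    · rintro (h | h)
      · rw [h]; exact ⟨hx, Commute.refl _⟩
      · exact h.1
  rw [hfil, Finset.card_insert_of_notMem (by simp)]


end Cfsg.Agent.S0236
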