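import Cfsg.Statements.S0237
import Mathlib

set_option autoImplicit false
open Cfsg

namespace Cfsg.Agent.S0237

/-- If x is real (conjugate to x⁻¹) in a finite group G, the number of g with g x g⁻¹ = x⁻¹ equals |C_G(x)|. -/
theorem result {G : Type*} [Group G] [Finite G] (x : G) (hreal : IsConj x x⁻¹) : Nat.card {g : G // g * x * g⁻¹ = x⁻¹} = Nat.card (Subgroup.centralizer ({x} : Set G)) := by
  obtain ⟨c, hc⟩ := isConj_iff.mp hreal
  have h2 : c * x = x⁻¹ * c := mul_inv_eq_iff_eq_mul.mp hc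
  have h3 : c⁻¹ * x⁻¹ = x * c⁻¹ := by
    calc c⁻¹ * x⁻¹ = c⁻¹ * (x⁻¹ * c) * c⁻¹ := by group
      _ = c⁻¹ * (c * x) * c⁻¹ := by rw [h2]
      _ = x * c⁻¹ := by group
  apply Nat.card_congr
  refine ⟨fun g => ⟨c⁻¹ * g.1, ?_⟩, fun z => ⟨c * z.1, ?_⟩, ?_, ?_⟩
  · rw [Subgroup.mem_centralizer_singleton_iff]
    have h1 : g.1 * x = x⁻¹ * g.1 := mul_inv_eq_iff_eq_mul.mp g.2
    calc c⁻¹ * g.1 * x = c⁻¹ * (g.1 * x) := by group
      _ = c⁻¹ * (x⁻¹ * g.1) := by rw [h1]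
      _ = (c⁻¹ * x⁻¹) * g.1 := by group
      _ = x * c⁻¹ * g.1 := by rw [h3]
      _ = x * (c⁻¹ * g.1) := by group
  · have hz : z.1 * x = x * z.1 := Subgroup.mem_centralizer_singleton_iff.mp z.2
    calc c * z.1 * x * (c * z.1)⁻¹ = c * (z.1 * x) * z.1⁻¹ * c⁻¹ := by group
      _ = c * (x * z.1) * z.1⁻¹ * c⁻¹ := by rw [hz]
      _ = c * x * c⁻¹ := by group
      _ = x⁻¹ := hc
  · intro g; apply Subtype.ext; simp
  · intro z; apply Subtype.ext; simp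


end Cfsg.Agent.S0237
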