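import Cfsg.Statements.S0238
import Mathlib
import Cfsg.Agent.S0236
import Cfsg.Agent.S0237

set_option autoImplicit false
open Cfsg

namespace Cfsg.Agent.S0238

/-- For every x in a finite group G, the number c of ordered pairs (u, v) of involutions with uv = x is at most |C_G(x)|; c = 0 when x is not conjugate to x⁻¹; and c + 2 ≤ |C_G(x)| when x is an involution. -/
theorem result {G : Type*} [Group G] [Finite G] (x : G) : Nat.card {p : G × G // orderOf p.1 = 2 ∧ orderOf p.2 = 2 ∧ p.1 * p.2 = x} ≤ Nat.card (Subgroup.centralizer ({x} : Set G)) ∧ (¬ IsConj x x⁻¹ → Nat.card {p : G × G // orderOf p.1 = 2 ∧ orderOf p.2 = 2 ∧ p.1 * p.2 = x} = 0) ∧ (orderOf x = 2 → Nat.card {p : G × G // orderOf p.1 = 2 ∧ orderOf p.2 = 2 ∧ p.1 * p.2 = x} + 2 ≤ Nat.card (Subgroup.centralizer ({x} : Set G))) := by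
  have hinv : ∀ u : G, orderOf u = 2 → u⁻¹ = u := fun u hu => by
    have h : u ^ 2 = 1 := by rw [← hu]; exact pow_orderOf_eq_one u
    rw [pow_two] at h
    exact inv_eq_of_mul_eq_one_left h
  have hsq : ∀ u : G, orderOf u = 2 → u * u = 1 := fun u hu => by
    rw [← pow_two, ← hu]; exact pow_orderOf_eq_one u
  have hconj : ∀ p : {p : G × G // orderOf p.1 = 2 ∧ orderOf p.2 = 2 ∧ p.1 * p.2 = x},
      p.1.1 * x * p.1.1⁻¹ = x⁻¹ := by
    rintro ⟨⟨u, v⟩, hu, hv, huv⟩
    have hu' : orderOf u = 2 := hu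
    have hv' : orderOf v = 2 := hv
    have huv' : u * v = x := huv
    show u * x * u⁻¹ = x⁻¹
    rw [← huv', mul_inv_rev, hinv u hu', hinv v hv', ← mul_assoc, hsq u hu', one_mul]
  let f : {p : G × G // orderOf p.1 = 2 ∧ orderOf p.2 = 2 ∧ p.1 * p.2 = x} →
      {g : G // g * x * g⁻¹ = x⁻¹} := fun p => ⟨p.1.1, hconj p⟩
  have hf : Function.Injective f := by
    rintro ⟨⟨u, v⟩, hu, hv, huv⟩ ⟨⟨u', v'⟩, hu', hv', huv'⟩ h
    have h1 : u = u' := congrArg Subtype.val h
    have e1 : u * v = x := huv
    have e2 : u' * v' = x := huv'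
    apply Subtype.ext
    show (u, v) = (u', v')
    subst h1
    have h2 : v = v' := mul_left_cancel (e1.trans e2.symm)
    rw [h2]
  have hb : ¬ IsConj x x⁻¹ →
      Nat.card {p : G × G // orderOf p.1 = 2 ∧ orderOf p.2 = 2 ∧ p.1 * p.2 = x} = 0 := by
    intro hnc
    rw [Nat.card_eq_zero]
    left
    constructor
    intro p
    exact hnc (isConj_iff.mpr ⟨p.1.1, hconj p⟩)
  refine ⟨?_, hb, ?_⟩
  · by_cases hc : IsConj x x⁻¹
    · rw [← Cfsg.Agent.S0237.result x hc]
      exact Nat.card_le_card_of_injective f hf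
    · rw [hb hc]; exact Nat.zero_le _
  · intro hx
    rw [show ∀ a : ℕ, a + 2 = (a + 1) + 1 from fun a => rfl, Cfsg.Agent.S0236.result x hx]
    let g : Option {t : G // orderOf t = 2 ∧ Commute t x} → Subgroup.centralizer ({x} : Set G) :=
      fun o => o.elim 1 (fun t => ⟨t.1, Subgroup.mem_centralizer_singleton_iff.mpr t.2.2.eq⟩)
    have hg : Function.Injective g := by
      intro a b hab
      rcases a with _ | a <;> rcases b with _ | b
      · rfl
      · exfalso
        have h0 : (g none).1 = (g (some b)).1 := congrArg Subtype.val hab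
        have h1 : (1 : G) = b.1 := h0
        have h2 := b.2.1
        rw [← h1, orderOf_one] at h2
        omega
      · exfalso
        have h0 : (g (some a)).1 = (g none).1 := congrArg Subtype.val hab
        have h1 : a.1 = (1 : G) := h0
        have h2 := a.2.1
        rw [h1, orderOf_one] at h2
        omega
      · have h0 : (g (some a)).1 = (g (some b)).1 := congrArg Subtype.val hab
        have h1 : a.1 = b.1 := h0
        rw [Subtype.ext h1]
    have hle := Nat.card_le_card_of_injective g hg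
    rwa [Finite.card_option] at hle


end Cfsg.Agent.S0238
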