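import Cfsg.Statements.S0239
import Mathlib

set_option autoImplicit false
open Cfsg

namespace Cfsg.Agent.S0239

/-- If some nontrivial element x of a finite group G is conjugate to x⁻¹, then |G| is even. -/
theorem result {G : Type*} [Group G] [Finite G] (x : G) (hx : x ≠ 1) (hreal : IsConj x x⁻¹) : Even (Nat.card G) := by
  by_contra hne
  have hodd : Odd (Nat.card G) := Nat.not_even_iff_odd.mp hne
  obtain ⟨c, hc⟩ := isConj_iff.mp hreal
  have h1 : c * x = x⁻¹ * c := mul_inv_eq_iff_eq_mul.mp hc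
  have h2 : c * x⁻¹ = x * c := by
    have := congrArg (·⁻¹) h1
    simp only [mul_inv_rev, inv_inv] at this
    calc c * x⁻¹ = c * (x⁻¹ * c⁻¹) * c := by group
      _ = c * (c⁻¹ * x) * c := by rw [this]
      _ = x * c := by group
  have hc2 : Commute (c ^ 2) x := by
    show c ^ 2 * x = x * c ^ 2
    rw [pow_two, mul_assoc, h1, ← mul_assoc, h2, mul_assoc]
  obtain ⟨k, hk⟩ := Odd.of_dvd_nat hodd (orderOf_dvd_natCard c)
  have hck : (c ^ 2) ^ (k + 1) = c := by
    rw [← pow_mul, show 2 * (k + 1) = orderOf c + 1 by omega, pow_succ, pow_orderOf_eq_one, one_mul]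
  have hcx : Commute c x := by
    have := hc2.pow_left (k + 1)
    rwa [hck] at this
  have hxx : x = x⁻¹ := by
    have : x * c = x⁻¹ * c := by rw [← h1]; exact hcx.eq.symm
    exact mul_right_cancel this
  have hx2 : x ^ 2 = 1 := by
    rw [pow_two]; nth_rewrite 2 [hxx]; exact mul_inv_cancel x
  have hd : orderOf x ∣ 2 := orderOf_dvd_of_pow_eq_one hx2
  have hox : Odd (orderOf x) := Odd.of_dvd_nat hodd (orderOf_dvd_natCard x)
  rcases (Nat.dvd_prime Nat.prime_two).mp hd with h | h
  · exact hx (orderOf_eq_one_iff.mp h)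
  · rw [h] at hox; exact absurd hox (by decide)


end Cfsg.Agent.S0239
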