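import Cfsg.Statements.S0240
import Mathlib

set_option autoImplicit false
open Cfsg

namespace Cfsg.Agent.S0240

/-- Let G be a finite group with n involutions and H a subgroup with |H|·(n+1) > |G|. Then some nontrivial h ∈ H is strongly real in G: an involution t of G satisfies t h t⁻¹ = h⁻¹. -/
theorem result {G : Type*} [Group G] [Finite G] (H : Subgroup G) (hH : Nat.card G < Nat.card H * (Nat.card {t : G // orderOf t = 2} + 1)) : ∃ h : G, h ∈ H ∧ h ≠ 1 ∧ ∃ t : G, orderOf t = 2 ∧ t * h * t⁻¹ = h⁻¹ := by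
  classical
  by_contra hcon
  push Not at hcon
  have hinv : ∀ u : G, orderOf u = 2 → u⁻¹ = u := fun u hu => by
    have h : u ^ 2 = 1 := by rw [← hu]; exact pow_orderOf_eq_one u
    rw [pow_two] at h
    exact inv_eq_of_mul_eq_one_left h
  have hne1 : ∀ u : G, orderOf u = 2 → u ≠ 1 := fun u hu h => by
    rw [h, orderOf_one] at hu; omega
  let f : Option {t : G // orderOf t = 2} → G ⧸ H :=
    fun o => o.elim ((1 : G) : G ⧸ H) (fun t => ((t.1 : G) : G ⧸ H))
  have hf : Function.Injective f := by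
    intro a b hab
    rcases a with _ | s <;> rcases b with _ | t
    · rfl
    · exfalso
      have h0 : ((1 : G) : G ⧸ H) = ((t.1 : G) : G ⧸ H) := hab
      have h1 : (1 : G)⁻¹ * t.1 ∈ H := QuotientGroup.eq.mp h0
      rw [inv_one, one_mul] at h1
      exact hcon t.1 h1 (hne1 t.1 t.2) t.1 t.2 (by rw [mul_inv_cancel_right]; exact (hinv t.1 t.2).symm)
    · exfalso
      have h0 : ((s.1 : G) : G ⧸ H) = ((1 : G) : G ⧸ H) := hab
      have h1 : s.1⁻¹ * 1 ∈ H := QuotientGroup.eq.mp h0
      rw [mul_one] at h1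
      have h2 : s.1 ∈ H := H.inv_mem_iff.mp h1
      exact hcon s.1 h2 (hne1 s.1 s.2) s.1 s.2 (by rw [mul_inv_cancel_right]; exact (hinv s.1 s.2).symm)
    · by_cases hst : s = t
      · rw [hst]
      · exfalso
        have h0 : ((s.1 : G) : G ⧸ H) = ((t.1 : G) : G ⧸ H) := hab
        have h1 : s.1⁻¹ * t.1 ∈ H := QuotientGroup.eq.mp h0
        have hne : s.1⁻¹ * t.1 ≠ 1 := fun h => hst (Subtype.ext (inv_mul_eq_one.mp h))
        exact hcon _ h1 hne s.1 s.2 (by
          rw [mul_inv_cancel_left, mul_inv_rev, inv_inv, hinv t.1 t.2, hinv s.1 s.2])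
  have hle := Nat.card_le_card_of_injective f hf
  rw [Finite.card_option] at hle
  have hidx : Nat.card (G ⧸ H) = H.index := rfl
  rw [hidx] at hle
  have h3 : Nat.card H * (Nat.card {t : G // orderOf t = 2} + 1) ≤ Nat.card G := by
    calc Nat.card H * (Nat.card {t : G // orderOf t = 2} + 1) ≤ Nat.card H * H.index :=
          Nat.mul_le_mul_left _ hle
      _ = Nat.card G := Subgroup.card_mul_index H
  omega


end Cfsg.Agent.S0240
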