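import Cfsg.Statements.S0241
import Mathlib

set_option autoImplicit false
open Cfsg

namespace Cfsg.Agent.S0241

/-- If x ≠ 1 is conjugate to x⁻¹ in a finite group G and |C_G(x)| is odd, then some involution t satisfies t x t⁻¹ = x⁻¹. -/
theorem result {G : Type*} [Group G] [Finite G] (x : G) (hx : x ≠ 1) (hreal : IsConj x x⁻¹) (hodd : Odd (Nat.card (Subgroup.centralizer ({x} : Set G)))) : ∃ t : G, orderOf t = 2 ∧ t * x * t⁻¹ = x⁻¹ := by
  obtain ⟨c, hc⟩ := isConj_iff.mp hreal
  set n := Nat.card (Subgroup.centralizer ({x} : Set G)) with hn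
  have hpow : ∀ k : ℕ, c ^ k * x * (c ^ k)⁻¹ = if Even k then x else x⁻¹ := by
    intro k
    induction k with
    | zero => simp
    | succ k ih =>
      have e : c ^ (k + 1) * x * (c ^ (k + 1))⁻¹ = c * (c ^ k * x * (c ^ k)⁻¹) * c⁻¹ := by
        rw [pow_succ']; group
      rw [e, ih]
      by_cases hk : Even k
      · have h' : ¬ Even (k + 1) := by rw [Nat.even_add_one]; exact not_not.mpr hk
        rw [if_pos hk, if_neg h', hc]
      · have h' : Even (k + 1) := by rw [Nat.even_add_one]; exact hk
        rw [if_neg hk, if_pos h']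
        have h := congrArg (·⁻¹) hc
        simp only [mul_inv_rev, inv_inv] at h
        rw [mul_assoc]; exact h
  have hn_odd : Odd n := hodd
  have hc2 : c ^ 2 ∈ Subgroup.centralizer ({x} : Set G) := by
    rw [Subgroup.mem_centralizer_singleton_iff]
    have h2 := hpow 2
    rw [if_pos (by decide)] at h2
    exact mul_inv_eq_iff_eq_mul.mp h2
  have hc2n : (c ^ 2) ^ n = 1 := by
    have h := pow_card_eq_one' (G := Subgroup.centralizer ({x} : Set G)) (x := ⟨c ^ 2, hc2⟩)
    have h' := congrArg Subtype.val h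
    rw [Subgroup.coe_pow] at h'
    exact h'
  refine ⟨c ^ n, ?_, ?_⟩
  · apply orderOf_eq_prime
    · rw [← pow_mul, mul_comm, pow_mul]; exact hc2n
    · intro h1
      have h2 := hpow n
      rw [if_neg (Nat.not_even_iff_odd.mpr hn_odd), h1] at h2
      simp only [one_mul, inv_one, mul_one] at h2
      have hx2 : x ^ 2 = 1 := by
        rw [pow_two]; nth_rewrite 2 [h2]; exact mul_inv_cancel x
      have hd : orderOf x ∣ 2 := orderOf_dvd_of_pow_eq_one hx2
      have hxC : x ∈ Subgroup.centralizer ({x} : Set G) := by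
        rw [Subgroup.mem_centralizer_singleton_iff]
      have hox : Odd (orderOf x) := by
        have h3 : orderOf (⟨x, hxC⟩ : Subgroup.centralizer ({x} : Set G)) ∣ n := orderOf_dvd_natCard _
        rw [Subgroup.orderOf_mk] at h3
        exact Odd.of_dvd_nat hn_odd h3
      rcases (Nat.dvd_prime Nat.prime_two).mp hd with h | h
      · exact hx (orderOf_eq_one_iff.mp h)
      · rw [h] at hox; exact absurd hox (by decide)
  · have h2 := hpow n
    rw [if_neg (Nat.not_even_iff_odd.mpr hn_odd)] at h2
    exact h2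


end Cfsg.Agent.S0241
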