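import Cfsg.Statements.S0244
import Mathlib

set_option autoImplicit false
open Cfsg

namespace Cfsg.Agent.S0244

/-- Sp_2 = SL_2: a matrix on Fin 1 ⊕ Fin 1 lies in Mathlib's symplectic group iff its determinant is 1. -/
theorem result {R : Type*} [CommRing R] (A : Matrix (Fin 1 ⊕ Fin 1) (Fin 1 ⊕ Fin 1) R) : A ∈ Matrix.symplecticGroup (Fin 1) R ↔ A.det = 1 := by
  rw [SymplecticGroup.mem_iff]
  have hdet : A.det = A (Sum.inl 0) (Sum.inl 0) * A (Sum.inr 0) (Sum.inr 0) -
      A (Sum.inl 0) (Sum.inr 0) * A (Sum.inr 0) (Sum.inl 0) := by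
    rw [← Matrix.det_reindex_self finSumFinEquiv A, Matrix.det_fin_two]
    have h0 : (finSumFinEquiv (m := 1) (n := 1)).symm 0 = Sum.inl 0 := by decide
    have h1 : (finSumFinEquiv (m := 1) (n := 1)).symm 1 = Sum.inr 0 := by decide
    simp only [Matrix.reindex_apply, Matrix.submatrix_apply, h0, h1]
  have key : ∀ i j, (A * Matrix.J (Fin 1) R * A.transpose) i j = A.det * Matrix.J (Fin 1) R i j := by
    intro i j
    rw [hdet]
    rcases i with i | i <;> rcases j with j | j <;>
    · fin_cases i; fin_cases j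
      simp [Matrix.J, Matrix.mul_apply, Fintype.sum_sum_type, Matrix.fromBlocks_apply₁₁,
        Matrix.fromBlocks_apply₁₂, Matrix.fromBlocks_apply₂₁, Matrix.fromBlocks_apply₂₂]
      try ring
  constructor
  · intro h
    have h1 := congrFun (congrFun h (Sum.inr 0)) (Sum.inl 0)
    rw [key] at h1
    simpa [Matrix.J, Matrix.fromBlocks_apply₂₁] using h1
  · intro h
    ext i j
    rw [key, h, one_mul]


end Cfsg.Agent.S0244
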