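import Cfsg.Statements.S0246
import Cfsg.Agent.Helper2.Symp
import Mathlib

set_option autoImplicit false
open Cfsg

namespace Cfsg.Agent.S0246

open Matrix

/-- a matrix for which every vector is an eigenvector is scalar -/
lemma scalar_of_all_eigen {F n : Type*} [Field F] [Fintype n] [DecidableEq n] (A : Matrix n n F)
    (h : ∀ v : n → F, ∃ c : F, A *ᵥ v = c • v) : ∃ c : F, A = c • (1 : Matrix n n F) := by
  classical
  choose lam hlam using fun i : n => h (Pi.single i 1)
  have hcol : ∀ i k, A k i = lam i * (if k = i then 1 else 0) := by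
    intro i k
    have h1 := congrFun (hlam i) k
    rw [Matrix.mulVec_single_one] at h1
    simpa [Pi.single_apply] using h1
  have heq : ∀ i j, lam i = lam j := by
    intro i j
    by_cases hij : i = j
    · rw [hij]
    obtain ⟨μ, hμ⟩ := h (Pi.single i 1 + Pi.single j 1)
    rw [Matrix.mulVec_add, hlam i, hlam j] at hμ
    have hi := congrFun hμ i
    have hj := congrFun hμ j
    simp [Pi.single_apply, hij, Ne.symm hij] at hi hj
    rw [hi, hj]
  rcases isEmpty_or_nonempty n with hn | ⟨⟨i₀⟩⟩
  · exact ⟨0, by ext i; exact (hn.false i).elim⟩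
  · refine ⟨lam i₀, ?_⟩
    ext k i
    rw [hcol, heq i i₀, Matrix.smul_apply, Matrix.one_apply, smul_eq_mul]

theorem result {F : Type*} [Field F] [Fintype F] {q : ℕ} (hF : Fintype.card F = q) (m : ℕ) (hm : 1 ≤ m) : Nat.card (Subgroup.center (Matrix.symplecticGroup (Fin m) F)) = Nat.gcd 2 (q - 1) := by
  classical
  have hcentral : ∀ g : Matrix.symplecticGroup (Fin m) F, g ∈ Subgroup.center (Matrix.symplecticGroup (Fin m) F) →
      (g : Matrix (Fin m ⊕ Fin m) (Fin m ⊕ Fin m) F) = 1 ∨ (g : Matrix (Fin m ⊕ Fin m) (Fin m ⊕ Fin m) F) = -1 := by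
    intro g hg
    rw [Subgroup.mem_center_iff] at hg
    have heig : ∀ v : Fin m ⊕ Fin m → F, ∃ c : F, (g : Matrix (Fin m ⊕ Fin m) (Fin m ⊕ Fin m) F) *ᵥ v = c • v := by
      intro v
      by_cases hv : v = 0
      · exact ⟨0, by rw [hv, Matrix.mulVec_zero, smul_zero]⟩
      have hJv : J (Fin m) F *ᵥ v ≠ 0 := by
        intro h0
        apply hv
        have h1 := congrArg (fun w => J (Fin m) F *ᵥ w) h0
        simp only [Matrix.mulVec_mulVec, Matrix.J_squared, Matrix.mulVec_zero] at h1
        simpa [Matrix.neg_mulVec] using h1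
      obtain ⟨j, hj⟩ : ∃ j, (J (Fin m) F *ᵥ v) j ≠ 0 := by
        by_contra hcon
        push Not at hcon
        exact hJv (funext hcon)
      have hcomm := hg ⟨Cfsg.sympTransvection m v 1, Cfsg.Agent.Helper2.sympTransvection_mem m v 1⟩
      have hcomm' : Cfsg.sympTransvection m v 1 * (g : Matrix (Fin m ⊕ Fin m) (Fin m ⊕ Fin m) F) = (g : Matrix (Fin m ⊕ Fin m) (Fin m ⊕ Fin m) F) * Cfsg.sympTransvection m v 1 := congrArg Subtype.val hcomm
      unfold Cfsg.sympTransvection at hcomm'
      rw [one_smul, add_mul, mul_add, one_mul, mul_one, add_right_inj, Matrix.vecMulVec_mul, Matrix.mul_vecMulVec] at hcomm'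
      refine ⟨((J (Fin m) F *ᵥ v) ᵥ* (g : Matrix (Fin m ⊕ Fin m) (Fin m ⊕ Fin m) F)) j / (J (Fin m) F *ᵥ v) j, ?_⟩
      ext i
      have h1 := congrFun (congrFun hcomm' i) j
      rw [Matrix.vecMulVec_apply, Matrix.vecMulVec_apply] at h1
      rw [Pi.smul_apply, smul_eq_mul, div_mul_eq_mul_div, eq_div_iff hj, ← h1]
      ring
    obtain ⟨c, hc⟩ := scalar_of_all_eigen _ heig
    have hmem := g.2
    rw [SymplecticGroup.mem_iff, hc] at hmem
    have h2 : (c * c) • J (Fin m) F = J (Fin m) F := by
      conv_rhs => rw [← hmem]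
      simp [smul_smul]
    have h3 := congrFun (congrFun h2 (Sum.inr ⟨0, hm⟩)) (Sum.inl ⟨0, hm⟩)
    simp [Matrix.J] at h3
    rcases mul_self_eq_one_iff.mp h3 with h | h
    · left; rw [hc, h, one_smul]
    · right; rw [hc, h]; simp
  have hneg_mem : (-1 : Matrix (Fin m ⊕ Fin m) (Fin m ⊕ Fin m) F) ∈ Matrix.symplecticGroup (Fin m) F :=
    SymplecticGroup.neg_mem (Submonoid.one_mem _)
  have hset : (Subgroup.center (Matrix.symplecticGroup (Fin m) F) : Set (Matrix.symplecticGroup (Fin m) F)) = {1, ⟨-1, hneg_mem⟩} := by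
    ext g
    simp only [SetLike.mem_coe, Set.mem_insert_iff, Set.mem_singleton_iff]
    constructor
    · intro hg
      rcases hcentral g hg with h | h
      · left; exact Subtype.ext h
      · right; exact Subtype.ext h
    · rintro (rfl | rfl)
      · exact one_mem _
      · rw [Subgroup.mem_center_iff]
        intro h
        apply Subtype.ext
        show (h : Matrix (Fin m ⊕ Fin m) (Fin m ⊕ Fin m) F) * (-1) = (-1) * (h : Matrix (Fin m ⊕ Fin m) (Fin m ⊕ Fin m) F)
        simp
  have hcard : Nat.card (Subgroup.center (Matrix.symplecticGroup (Fin m) F)) = ((Subgroup.center (Matrix.symplecticGroup (Fin m) F) : Set (Matrix.symplecticGroup (Fin m) F))).ncard := rfl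
  rw [hcard, hset]
  have hq1 : 1 ≤ q := by rw [← hF]; exact Fintype.card_pos
  by_cases h2 : (2 : F) = 0
  · have hchar : ringChar F = 2 := CharP.ringChar_of_prime_eq_zero Nat.prime_two (by exact_mod_cast h2)
    have hq := FiniteField.even_card_of_char_two hchar
    rw [hF] at hq
    have hone : (⟨-1, hneg_mem⟩ : Matrix.symplecticGroup (Fin m) F) = 1 := by
      apply Subtype.ext
      show (-1 : Matrix (Fin m ⊕ Fin m) (Fin m ⊕ Fin m) F) = 1
      have hneg : (-1 : F) = 1 := by
        rw [neg_eq_iff_add_eq_zero, one_add_one_eq_two]; exact h2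
      ext i j
      simp [Matrix.one_apply, Matrix.neg_apply]
      split_ifs
      · exact hneg
      · exact neg_zero
    rw [hone, Set.pair_eq_singleton, Set.ncard_singleton]
    symm
    apply (Nat.Prime.coprime_iff_not_dvd Nat.prime_two).mpr
    omega
  · have hchar : ringChar F ≠ 2 := by
      intro hc
      apply h2
      have := ringChar.Nat.cast_ringChar (R := F)
      rw [hc] at this
      exact_mod_cast this
    have hq := FiniteField.odd_card_of_char_ne_two hchar
    rw [hF] at hq
    have hne : (1 : Matrix.symplecticGroup (Fin m) F) ≠ ⟨-1, hneg_mem⟩ := by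
      intro hc
      have h3 := congrArg Subtype.val hc
      have h4 := congrFun (congrFun h3 (Sum.inl ⟨0, hm⟩)) (Sum.inl ⟨0, hm⟩)
      have h5 : (1 : F) = -1 := by simpa using h4
      apply h2
      rw [← one_add_one_eq_two]
      nth_rewrite 1 [h5]
      exact neg_add_cancel 1
    rw [Set.ncard_pair hne]
    symm
    apply Nat.gcd_eq_left
    omega

end Cfsg.Agent.S0246
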