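import Cfsg.Statements.S0247
import Mathlib
import Cfsg.Agent.Helper7.SympCard

set_option autoImplicit false
open Cfsg

namespace Cfsg.Agent.S0247

open Matrix

/-- lifts of a symplectic basis of (even weight vectors)/(all-ones), columns indexed by the basis -/
def Cm : Matrix (Fin 6) (Fin 2 ⊕ Fin 2) (ZMod 2) := fun k j =>
  Sum.elim ![![1,0,0,0,1,0], ![1,1,1,0,1,0]] ![![0,1,0,0,1,0], ![1,1,0,1,1,0]] j k

/-- coordinate functionals -/
def Bm : Matrix (Fin 2 ⊕ Fin 2) (Fin 6) (ZMod 2) := fun i k =>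
  Sum.elim ![![0,1,0,0,1,0], ![1,1,0,1,1,0]] ![![1,0,0,0,1,0], ![1,1,1,0,1,0]] i k

def Am (σ : Equiv.Perm (Fin 6)) : Matrix (Fin 2 ⊕ Fin 2) (Fin 2 ⊕ Fin 2) (ZMod 2) :=
  Bm * Cm.submatrix σ.symm id

lemma Am_mulVec (σ : Equiv.Perm (Fin 6)) (x : Fin 2 ⊕ Fin 2 → ZMod 2) :
    Am σ *ᵥ x = Bm *ᵥ ((Cm *ᵥ x) ∘ σ.symm) := by
  rw [Am, ← mulVec_mulVec]
  rfl

lemma Bm_one : Bm *ᵥ (fun _ => 1) = 0 := by decide

lemma Cm_sum : ∀ j, ∑ k, Cm k j = 0 := by decide

set_option maxHeartbeats 0 in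
lemma CB : ∀ w : Fin 6 → ZMod 2, ∑ k, w k = 0 →
    ∃ ε : ZMod 2, Cm *ᵥ (Bm *ᵥ w) = w + fun _ => ε := by decide +kernel

set_option maxHeartbeats 0 in
lemma Am_symp : ∀ σ : Equiv.Perm (Fin 6),
    Am σ * J (Fin 2) (ZMod 2) * (Am σ)ᵀ = J (Fin 2) (ZMod 2) := by decide +kernel

set_option maxHeartbeats 0 in
lemma Am_inj : ∀ σ : Equiv.Perm (Fin 6), Am σ = 1 → σ = 1 := by decide +kernel

lemma Am_one : Am 1 = 1 := by decide +kernel

lemma Am_mul (σ τ : Equiv.Perm (Fin 6)) : Am (σ * τ) = Am σ * Am τ := by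
  apply Matrix.mulVec_injective
  funext x
  rw [← mulVec_mulVec, Am_mulVec, Am_mulVec σ, Am_mulVec τ]
  have hsum : ∑ k, ((Cm *ᵥ x) ∘ τ.symm) k = 0 := by
    simp only [Function.comp_apply]
    rw [Equiv.sum_comp τ.symm (Cm *ᵥ x)]
    simp only [mulVec, dotProduct]
    rw [Finset.sum_comm]
    simp only [← Finset.sum_mul, Cm_sum, zero_mul, Finset.sum_const_zero]
  obtain ⟨ε, hε⟩ := CB _ hsum
  rw [hε]
  have h1 : ((((Cm *ᵥ x) ∘ τ.symm) + fun _ => ε) ∘ σ.symm) =
      ((Cm *ᵥ x) ∘ (σ * τ).symm) + ε • (fun _ => (1 : ZMod 2)) := by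
    funext k
    simp [Equiv.Perm.mul_def]
  rw [h1, mulVec_add, mulVec_smul, Bm_one, smul_zero, add_zero]

/-- Sp_4(2) is isomorphic to the symmetric group S_6. -/
theorem result {F : Type*} [Field F] [Fintype F] (hF : Fintype.card F = 2) : Nonempty (Matrix.symplecticGroup (Fin 2) F ≃* Equiv.Perm (Fin 6)) := by
  classical
  have h2 : (2 : F) = 0 := by
    have := Nat.cast_card_eq_zero F
    rw [hF] at this
    exact_mod_cast this
  haveI : CharP F 2 := CharTwo.of_one_ne_zero_of_two_eq_zero one_ne_zero h2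
  let φ : ZMod 2 →+* F := ZMod.castHom (dvd_refl 2) F
  have hJ : (J (Fin 2) (ZMod 2)).map φ = J (Fin 2) F := by
    unfold Matrix.J
    rw [Matrix.fromBlocks_map, Matrix.map_zero _ (map_zero φ), Matrix.map_one _ (map_zero φ) (map_one φ)]
    congr 1
    ext i j
    by_cases h : i = j
    · simp [h, Matrix.one_apply]
      exact (CharTwo.neg_eq (1 : F)).symm
    · simp [h, Matrix.one_apply]
  let g : Equiv.Perm (Fin 6) →* Matrix.symplecticGroup (Fin 2) F :=
    { toFun := fun σ => ⟨(Am σ).map φ, by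
        rw [SymplecticGroup.mem_iff, ← hJ, ← Matrix.transpose_map, ← Matrix.map_mul, ← Matrix.map_mul,
          Am_symp]⟩
      map_one' := by
        apply Subtype.ext
        show (Am 1).map φ = 1
        rw [Am_one]
        exact Matrix.map_one φ (map_zero φ) (map_one φ)
      map_mul' := by
        intro σ τ
        apply Subtype.ext
        show (Am (σ * τ)).map φ = (Am σ).map φ * (Am τ).map φ
        rw [Am_mul, Matrix.map_mul] }
  have hinj : Function.Injective g := by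
    rw [injective_iff_map_eq_one]
    intro σ hσ
    have h1 : (Am σ).map φ = (1 : Matrix (Fin 2 ⊕ Fin 2) (Fin 2 ⊕ Fin 2) (ZMod 2)).map φ := by
      have := congrArg Subtype.val hσ
      rw [Matrix.map_one φ (map_zero φ) (map_one φ)]
      exact this
    exact Am_inj σ (Matrix.map_injective φ.injective h1)
  have hcard1 : Nat.card (Matrix.symplecticGroup (Fin 2) F) = 720 := by
    rw [Cfsg.Agent.Helper7.SympCard.card_symplectic 2, hF]
    norm_num [Finset.prod_range_succ]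
  have hcard2 : Nat.card (Equiv.Perm (Fin 6)) = 720 := by
    rw [Nat.card_eq_fintype_card, Fintype.card_perm, Fintype.card_fin]
    rfl
  have hbij : Function.Bijective g :=
    hinj.bijective_of_nat_card_le (by rw [hcard1, hcard2])
  exact ⟨(MulEquiv.ofBijective g hbij).symm⟩

end Cfsg.Agent.S0247
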