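import Cfsg.Statements.S0250
import Mathlib
import Cfsg.Agent.Helper1.LinearCard
import Cfsg.Agent.Helper1.Dihedral

set_option autoImplicit false
open Cfsg

namespace Cfsg.Agent.S0250

/-- SL_2(2) is isomorphic to S_3. -/
theorem result {F : Type*} [Field F] [Fintype F] (hF : Fintype.card F = 2) : Nonempty (Matrix.SpecialLinearGroup (Fin 2) F ≃* Equiv.Perm (Fin 3)) := by
  have h2 : (2 : F) = 0 := by
    have h := FiniteField.cast_card_eq_zero F
    rw [hF] at h
    exact_mod_cast h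
  have hcard : Nat.card (Matrix.SpecialLinearGroup (Fin 2) F) = 6 := by
    have h1 := Cfsg.Agent.Helper1.card_GL_eq_mul_card_SL (F := F) 2 (by norm_num)
    rw [Matrix.card_GL_field, hF] at h1
    simp [Fin.prod_univ_two] at h1
    omega
  let ρ : Matrix.SpecialLinearGroup (Fin 2) F := ⟨!![0, 1; 1, 1], by
    rw [Matrix.det_fin_two_of]
    linear_combination (-1 : F) * h2⟩
  let d : Matrix.SpecialLinearGroup (Fin 2) F := ⟨!![0, 1; 1, 0], by
    rw [Matrix.det_fin_two_of]
    linear_combination (-1 : F) * h2⟩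
  have m3 : (!![0, 1; 1, 1] : Matrix (Fin 2) (Fin 2) F) ^ 3 = 1 := by
    ext i j
    fin_cases i <;> fin_cases j <;>
      simp [pow_succ, Matrix.mul_apply, Fin.sum_univ_two] <;> grind
  have mdd : (!![0, 1; 1, 0] : Matrix (Fin 2) (Fin 2) F) * !![0, 1; 1, 0] = 1 := by
    ext i j
    fin_cases i <;> fin_cases j <;>
      simp [Matrix.mul_apply, Fin.sum_univ_two]
  have mdρ : (!![0, 1; 1, 0] : Matrix (Fin 2) (Fin 2) F) * !![0, 1; 1, 1] * !![0, 1; 1, 0] *
      !![0, 1; 1, 1] = 1 := by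
    ext i j
    fin_cases i <;> fin_cases j <;>
      simp [Matrix.mul_apply, Fin.sum_univ_two] <;> grind
  have hρ3 : ρ ^ 3 = 1 := Subtype.ext ((Matrix.SpecialLinearGroup.coe_pow ρ 3).trans m3)
  have hdd : d * d = 1 := Subtype.ext mdd
  have hdρ : d * ρ * d * ρ = 1 := Subtype.ext mdρ
  have h3 : d * ρ * d = ρ⁻¹ := eq_inv_of_mul_eq_one_left hdρ
  have hρ1 : ρ ≠ 1 := by
    intro h
    have h' := congrArg (fun M : Matrix.SpecialLinearGroup (Fin 2) F => M.1 0 0) h
    simp [ρ] at h'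
  have hord : orderOf ρ = 3 := orderOf_eq_prime hρ3 hρ1
  have hd : d ∉ Subgroup.zpowers ρ := by
    intro hd
    obtain ⟨k, hk⟩ := Subgroup.mem_zpowers_iff.mp hd
    have hc : Commute d ρ := by
      rw [← hk]
      exact (Commute.refl ρ).zpow_left k
    have e1 : ρ = ρ⁻¹ := by
      calc ρ = ρ * (d * d) := by rw [hdd, mul_one]
        _ = d * ρ * d := by rw [← mul_assoc, hc.eq]
        _ = ρ⁻¹ := h3
    have e2 : ρ * ρ = 1 := by
      nth_rewrite 2 [e1]
      exact mul_inv_cancel ρ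
    apply hρ1
    calc ρ = ρ ^ 3 * (ρ * ρ)⁻¹ := by group
      _ = 1 := by rw [hρ3, e2]; simp
  have hinj := Cfsg.Agent.Helper1.dihedralLift_injective 3 ρ d hρ3 hdd h3 hord hd
  have hbij : Function.Bijective (Cfsg.Agent.Helper1.dihedralLift 3 ρ d hρ3 hdd h3) := by
    apply hinj.bijective_of_nat_card_le
    rw [hcard, DihedralGroup.nat_card]
  obtain ⟨e⟩ := Cfsg.Agent.Helper1.nonempty_dihedral_three_mulEquiv_perm
  exact ⟨(MulEquiv.ofBijective _ hbij).symm.trans e⟩


end Cfsg.Agent.S0250
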