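import Cfsg.Statements.S0251
import Mathlib
import Cfsg.Agent.S0243

set_option autoImplicit false
open Cfsg

namespace Cfsg.Agent.S0251

/-- PSL_2(3) is isomorphic to A_4. -/
theorem result {F : Type*} [Field F] [Fintype F] (hF : Fintype.card F = 3) : Nonempty (Matrix.ProjectiveSpecialLinearGroup (Fin 2) F ≃* alternatingGroup (Fin 4)) := by
  classical
  have hcard := Cfsg.Agent.S0243.result hF 2 (le_refl 2)
  rw [Fin.prod_univ_two] at hcard
  norm_num at hcard
  have h12 : Nat.card (Matrix.ProjectiveSpecialLinearGroup (Fin 2) F) = 12 := by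
    rw [Nat.card_eq_fintype_card]; omega
  have hP : Nat.card (Projectivization F (Fin 2 → F)) = 4 := by
    rw [Projectivization.card_of_finrank_two F (Fin 2 → F) (by simp), Nat.card_eq_fintype_card,
      hF]
  haveI : Finite (Projectivization F (Fin 2 → F)) :=
    Nat.finite_of_card_ne_zero (by rw [hP]; norm_num)
  let e : Projectivization F (Fin 2 → F) ≃ Fin 4 := Finite.equivFinOfCardEq hP
  let φ : Matrix.ProjectiveSpecialLinearGroup (Fin 2) F →* Equiv.Perm (Fin 4) :=
    (e.permCongrHom : Equiv.Perm _ ≃* Equiv.Perm (Fin 4)).toMonoidHom.comp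
      Projectivization.PSLAction.toPermHom
  have hφ : Function.Injective φ := by
    intro a b hab
    apply Matrix.ProjectiveSpecialLinearGroup.toPermHom_injective
    exact (e.permCongrHom).injective hab
  have hrange : Nat.card φ.range = 12 := by
    rw [← h12]
    exact (Nat.card_congr (MonoidHom.ofInjective hφ).toEquiv).symm
  have hidx : φ.range.index = 2 := by
    have h0 := Subgroup.card_mul_index φ.range
    rw [hrange, Nat.card_perm, Nat.card_fin] at h0
    have h24 : (4).factorial = 24 := rfl
    omega
  have heq : φ.range = alternatingGroup (Fin 4) :=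
    Equiv.Perm.eq_alternatingGroup_of_index_eq_two hidx
  exact ⟨(MonoidHom.ofInjective hφ).trans (MulEquiv.subgroupCongr heq)⟩

end Cfsg.Agent.S0251
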