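import Mathlib
import Cfsg.Statements.S0991

set_option autoImplicit false
open Cfsg

namespace Cfsg.Agent.S0991

/-- Embedding Theorem: if a non-abelian finite simple group has a proper subgroup of index n, then it is isomorphic to a subgroup of the alternating group of degree n. -/
theorem result {G : Type*} [Group G] [Finite G] [IsSimpleGroup G] (hG : ¬ IsMulCommutative G) (H : Subgroup G) (hH : H ≠ ⊤) : ∃ f : G →* ↥(alternatingGroup (Fin H.index)), Function.Injective f := by
  classical
  have hidx : H.index ≠ 0 := Subgroup.index_ne_zero_of_finite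
  have hcard : Nat.card (G ⧸ H) = H.index := (Subgroup.index_eq_card H).symm
  let e : G ⧸ H ≃ Fin H.index := Finite.equivFinOfCardEq hcard
  let φ : G →* Equiv.Perm (G ⧸ H) := MulAction.toPermHom G (G ⧸ H)
  let f₀ : G →* Equiv.Perm (Fin H.index) := (e.permCongrHom : Equiv.Perm (G ⧸ H) →* Equiv.Perm (Fin H.index)).comp φ
  have hφker : φ.ker = ⊥ := by
    have hn : φ.ker.Normal := inferInstance
    rcases hn.eq_bot_or_eq_top with h | h
    · exact h
    · exfalso
      apply hH
      have h1 : H.normalCore = ⊤ := by rw [Subgroup.normalCore_eq_ker]; exact h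
      exact top_le_iff.mp (h1 ▸ Subgroup.normalCore_le H)
  have hφinj : Function.Injective φ := (MonoidHom.ker_eq_bot_iff φ).mp hφker
  have hf₀inj : Function.Injective f₀ := by
    intro a b hab
    apply hφinj
    exact e.permCongrHom.injective hab
  let σ : G →* ℤˣ := Equiv.Perm.sign.comp f₀
  have hσker : σ.ker = ⊤ := by
    have hn : σ.ker.Normal := inferInstance
    rcases hn.eq_bot_or_eq_top with h | h
    · exfalso
      apply hG
      have hσinj : Function.Injective σ := (MonoidHom.ker_eq_bot_iff σ).mp h
      refine ⟨⟨fun a b => ?_⟩⟩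
      apply hσinj
      rw [map_mul, map_mul, mul_comm]
    · exact h
  have hmem : ∀ g : G, f₀ g ∈ alternatingGroup (Fin H.index) := by
    intro g
    rw [Equiv.Perm.mem_alternatingGroup]
    have : g ∈ σ.ker := by rw [hσker]; exact Subgroup.mem_top g
    exact MonoidHom.mem_ker.mp this
  refine ⟨f₀.codRestrict (alternatingGroup (Fin H.index)) hmem, ?_⟩
  intro a b hab
  apply hf₀inj
  have := congrArg Subtype.val hab
  simpa using this


end Cfsg.Agent.S0991
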