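import Cfsg.Statements.S0494
import Mathlib
import Cfsg.Agent.S0991

set_option autoImplicit false
open Cfsg

namespace Cfsg.Agent.S0494

/-- A simple group of order 60 is isomorphic to the alternating group of degree 5. -/
theorem result {G : Type*} [Group G] [Finite G] [IsSimpleGroup G]
    (h : Nat.card G = 60) : Nonempty (G ≃* alternatingGroup (Fin 5)) := by
  classical
  haveI : Fact (Nat.Prime 2) := ⟨Nat.prime_two⟩
  obtain ⟨P⟩ := (inferInstance : Nonempty (Sylow 2 G))
  have hPc : Nat.card (P : Subgroup G) = 4 ∧ (P : Subgroup G).index = 15 := by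
    obtain ⟨k, hk⟩ := IsPGroup.iff_card.mp P.2
    have hmul := Subgroup.card_mul_index (P : Subgroup G)
    rw [hk, h] at hmul
    have hnd := P.not_dvd_index
    have hk1 : k ≤ 2 := by
      by_contra hcon
      push Not at hcon
      have h8 : 2 ^ 3 ∣ 60 := (pow_dvd_pow 2 hcon).trans (Dvd.intro _ hmul)
      norm_num at h8
    interval_cases k
    · exfalso
      norm_num at hmul
      omega
    · exfalso
      norm_num at hmul
      omega
    · norm_num at hmul
      refine ⟨by rw [hk]; norm_num, by omega⟩
  have hnc : ¬ IsMulCommutative G := by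
    intro hcomm
    have hn : (P : Subgroup G).Normal :=
      ⟨fun x hx y => by rw [hcomm.is_comm.comm y x, mul_inv_cancel_right]; exact hx⟩
    have h4 := hPc.1
    rcases hn.eq_bot_or_eq_top with h' | h'
    · rw [h', Subgroup.card_bot] at h4; omega
    · rw [h', Subgroup.card_top, h] at h4; omega
  have hidx5 : ∀ H : Subgroup G, H ≠ ⊤ → 5 ≤ H.index := by
    intro H hH
    obtain ⟨f, hf⟩ := Cfsg.Agent.S0991.result hnc H hH
    have h1 : Nat.card G ≤ Nat.card ↥(alternatingGroup (Fin H.index)) :=
      Nat.card_le_card_of_injective f hf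
    have h2 : Nat.card ↥(alternatingGroup (Fin H.index)) ≤
        Nat.card (Equiv.Perm (Fin H.index)) :=
      Nat.card_le_card_of_injective Subtype.val Subtype.val_injective
    rw [Nat.card_perm, Nat.card_fin] at h2
    by_contra hcon
    push Not at hcon
    have h3 : (H.index).factorial ≤ (4).factorial := Nat.factorial_le (by omega)
    have h4 : (4).factorial = 24 := rfl
    omega
  set N := Subgroup.normalizer ((P : Subgroup G) : Set G) with hNdef
  have hidxN : Nat.card (Sylow 2 G) = N.index := P.card_eq_index_normalizer
  have hdiv0 : Nat.card (Sylow 2 G) ∣ 15 := hPc.2 ▸ P.card_dvd_index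
  have hdiv : N.index ∣ 15 := hidxN ▸ hdiv0
  have hle15 : N.index ≤ 15 := Nat.le_of_dvd (by norm_num) hdiv
  have hPN : (P : Subgroup G) ≤ N := Subgroup.le_normalizer
  have hcases : N.index = 1 ∨ N.index = 3 ∨ N.index = 5 ∨ N.index = 15 := by
    obtain ⟨c, hc⟩ := hdiv
    generalize N.index = n at hle15 hc
    interval_cases n <;> omega
  obtain ⟨H, hH5⟩ : ∃ H : Subgroup G, H.index = 5 := by
    rcases hcases with h1 | h3 | h5 | h15
    · exfalso
      have h2 : N = ⊤ := Subgroup.index_eq_one.mp h1
      have hnorm : (P : Subgroup G).Normal := Subgroup.normalizer_eq_top_iff.mp h2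
      have h4 := hPc.1
      rcases hnorm.eq_bot_or_eq_top with h' | h'
      · rw [h', Subgroup.card_bot] at h4; omega
      · rw [h', Subgroup.card_top, h] at h4; omega
    · exfalso
      have hne : N ≠ ⊤ := by
        intro htop
        rw [htop, Subgroup.index_top] at h3
        omega
      have h5 := hidx5 N hne
      omega
    · exact ⟨N, h5⟩
    · exfalso
      have hNcard : Nat.card ↥N = 4 := by
        have h0 := Subgroup.card_mul_index N
        rw [h15, h] at h0
        omega
      have hNP : (P : Subgroup G) = N :=
        Subgroup.eq_of_le_of_card_ge hPN (by rw [hNcard, hPc.1])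
      have hcommP : ∀ a b : ↥(P : Subgroup G), a * b = b * a :=
        IsPGroup.commutative_of_card_eq_prime_sq (p := 2) (hPc.1.trans (by norm_num))
      have hNC0 : N ≤ Subgroup.centralizer ((P : Subgroup G) : Set G) := by
        intro g hg
        have hgP : g ∈ (P : Subgroup G) := by rw [hNP]; exact hg
        rw [Subgroup.mem_centralizer_iff]
        intro y hy
        have h0 := hcommP ⟨y, hy⟩ ⟨g, hgP⟩
        exact congrArg Subtype.val h0
      have hNC : Subgroup.normalizer (P : Set G) ≤ Subgroup.centralizer (P : Set G) := hNC0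
      have hcompl := MonoidHom.ker_transferSylow_isComplement' P hNC
      have hmul := hcompl.card_mul_card
      rw [hPc.1, h] at hmul
      rcases (inferInstance : (MonoidHom.transferSylow P hNC).ker.Normal).eq_bot_or_eq_top
        with h' | h'
      · rw [h', Subgroup.card_bot] at hmul; omega
      · rw [h', Subgroup.card_top, h] at hmul; omega
  have hHtop : H ≠ ⊤ := by
    intro htop
    rw [htop, Subgroup.index_top] at hH5
    omega
  have key : ∀ n, H.index = n →
      ∃ f : G →* ↥(alternatingGroup (Fin n)), Function.Injective f := by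
    intro n hn
    subst hn
    exact Cfsg.Agent.S0991.result hnc H hHtop
  obtain ⟨f, hf⟩ := key 5 hH5
  have hA5 : Nat.card ↥(alternatingGroup (Fin 5)) = 60 := by
    have h0 := two_mul_nat_card_alternatingGroup (α := Fin 5)
    rw [Nat.card_perm, Nat.card_fin] at h0
    have h1 : (5).factorial = 120 := rfl
    omega
  have hbij : Function.Bijective f := hf.bijective_of_nat_card_le (by rw [hA5, h])
  exact ⟨MulEquiv.ofBijective f hbij⟩

end Cfsg.Agent.S0494
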