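import Cfsg.Statements.S2427
import Mathlib

set_option autoImplicit false
open Cfsg

namespace Cfsg.Agent.S2427

abbrev SL23 := Matrix.SpecialLinearGroup (Fin 2) (ZMod 3)

set_option maxRecDepth 100000 in
theorem e1 : ∀ g h : SL23, g ^ 4 = 1 → h ^ 4 = 1 → (g * h) ^ 4 = 1 := by decide

set_option maxRecDepth 100000 in
theorem e2 : ∀ g h : SL23, (g * h * g⁻¹ * h⁻¹) ^ 4 = 1 := by decide

set_option maxRecDepth 100000 in
theorem e3 : ∀ g : SL23, g ^ 4 = 1 → ∃ a b : SL23, a * b * a⁻¹ * b⁻¹ = g := by decide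

set_option maxRecDepth 100000 in
theorem e4 : Fintype.card SL23 = 24 := by decide

set_option maxRecDepth 100000 in
theorem e5 : Fintype.card {g : SL23 // g ^ 4 = 1} = 8 := by decide

set_option maxRecDepth 100000 in
theorem e6 : ∀ g : SL23, (∀ h : SL23, h * g = g * h) ↔ g ^ 2 = 1 := by decide

set_option maxRecDepth 100000 in
theorem e6' : Fintype.card {g : SL23 // g ^ 2 = 1} = 2 := by decide

set_option maxRecDepth 100000 in
theorem e7 : ∀ g : SL23, g ^ 4 ≠ 1 →
    ∃ h : SL23, (g * h * g⁻¹ * h⁻¹) ^ 4 = 1 ∧ (g * h * g⁻¹ * h⁻¹) ^ 2 ≠ 1 := by decide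

set_option maxRecDepth 100000 in
theorem e8 : ∀ q : SL23, q ^ 4 = 1 → q ^ 2 ≠ 1 → ∀ x : SL23, x ^ 4 = 1 →
    (∃ c : SL23, x = c * q * c⁻¹) ∨ x = q ^ 2 ∨ x = 1 := by decide

set_option maxRecDepth 100000 in
theorem e9 : ∀ g : SL23, g ^ 4 ≠ 1 → ∀ x : SL23, ∃ k : Fin 3, (x * g ^ (k : ℕ)) ^ 4 = 1 := by
  decide

set_option maxRecDepth 100000 in
theorem e10 : ∀ g : SL23, g ≠ 1 → g ^ 2 = 1 → ∀ z : SL23, z ^ 2 = 1 → z = 1 ∨ z = g := by decide

def qi : SL23 := ⟨!![0, -1; 1, 0], by decide⟩
def qj : SL23 := ⟨!![1, 1; 1, -1], by decide⟩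

open QuaternionGroup in
def psif : QuaternionGroup 2 → SL23
  | a i => qi ^ i.val
  | xa i => qj * qi ^ i.val

set_option maxRecDepth 100000 in
theorem e11 : ∀ g h : QuaternionGroup 2, psif (g * h) = psif g * psif h := by decide

set_option maxRecDepth 100000 in
theorem e12 : Function.Injective psif := by decide

set_option maxRecDepth 100000 in
theorem e13 : ∀ q : QuaternionGroup 2, (psif q) ^ 4 = 1 := by decide

set_option maxRecDepth 100000 in
theorem e14 : ∀ g : SL23, g ^ 4 = 1 → ∃ q : QuaternionGroup 2, psif q = g := by decide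

def Qs : Subgroup SL23 where
  carrier := {g | g ^ 4 = 1}
  mul_mem' := fun {a b} ha hb => e1 a b ha hb
  one_mem' := one_pow 4
  inv_mem' := fun {a} ha => by
    show (a⁻¹) ^ 4 = 1
    rw [inv_pow, ha, inv_one]

theorem mem_Qs (g : SL23) : g ∈ Qs ↔ g ^ 4 = 1 := Iff.rfl

theorem hcomm : commutator SL23 = Qs := by
  apply le_antisymm
  · rw [commutator_def, Subgroup.commutator_le]
    intro g _ h _
    rw [mem_Qs, commutatorElement_def]
    exact e2 g h
  · intro g hg
    obtain ⟨a, b, rfl⟩ := e3 g ((mem_Qs g).1 hg)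
    rw [commutator_def, ← commutatorElement_def]
    exact Subgroup.commutator_mem_commutator (Subgroup.mem_top a) (Subgroup.mem_top b)

theorem cardG : Nat.card SL23 = 24 := by
  rw [Nat.card_eq_fintype_card]; exact e4

theorem cardQ : Nat.card Qs = 8 := by
  rw [Nat.card_congr (Equiv.subtypeEquivRight (fun g => mem_Qs g)), Nat.card_eq_fintype_card]
  exact e5

theorem cardZ : Nat.card (Subgroup.center SL23) = 2 := by
  have e : (Subgroup.center SL23) ≃ {g : SL23 // g ^ 2 = 1} :=
    Equiv.subtypeEquivRight (fun g => by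
      show g ∈ Subgroup.center SL23 ↔ g ^ 2 = 1
      rw [Subgroup.mem_center_iff]; exact e6 g)
  rw [Nat.card_congr e, Nat.card_eq_fintype_card]
  exact e6'

theorem isoQ : Nonempty (Qs ≃* QuaternionGroup 2) := by
  let ψ : QuaternionGroup 2 →* SL23 := MonoidHom.mk' psif e11
  have hbij : Function.Bijective (ψ.codRestrict Qs (fun q => (mem_Qs _).2 (e13 q))) := by
    constructor
    · intro x y hxy
      exact e12 (congrArg Subtype.val hxy)
    · rintro ⟨g, hg⟩
      obtain ⟨q, hq⟩ := e14 g ((mem_Qs g).1 hg)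
      exact ⟨q, Subtype.ext hq⟩
  exact ⟨(MulEquiv.ofBijective _ hbij).symm⟩

theorem sylC (P : Sylow 3 SL23) : Subgroup.IsComplement' Qs (P : Subgroup SL23) := by
  haveI : Fact (Nat.Prime 3) := ⟨Nat.prime_three⟩
  have hP : Nat.card (P : Subgroup SL23) = 3 := by
    obtain ⟨n, hn⟩ := P.isPGroup'.exists_card_eq
    have hidx := P.not_dvd_index
    have hmul := (P : Subgroup SL23).card_mul_index
    rw [cardG, hn] at hmul
    rcases n with _ | _ | n
    · exfalso; apply hidx
      rw [pow_zero, one_mul] at hmul; rw [hmul]; norm_num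
    · rw [hn]; norm_num
    · exfalso
      have h9 : 9 ∣ 24 := ⟨3 ^ n * (P : Subgroup SL23).index, by rw [← hmul]; ring⟩
      exact absurd h9 (by decide)
  exact Subgroup.isComplement'_of_coprime (by rw [cardQ, hP, cardG]) (by rw [cardQ, hP]; norm_num)

theorem normals (N : Subgroup SL23) (hN : N.Normal) :
    N = ⊥ ∨ N = ⊤ ∨ N = Subgroup.center SL23 ∨ N = Qs := by
  by_cases h1 : ∃ g ∈ N, g ^ 4 ≠ 1
  · right; left
    obtain ⟨g, hg, hg4⟩ := h1
    obtain ⟨h, hq4, hq2⟩ := e7 g hg4
    have hqN : g * h * g⁻¹ * h⁻¹ ∈ N := by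
      have e1' : h * g⁻¹ * h⁻¹ ∈ N := hN.conj_mem _ (N.inv_mem hg) h
      have e2' := N.mul_mem hg e1'
      have e3' : g * (h * g⁻¹ * h⁻¹) = g * h * g⁻¹ * h⁻¹ := by group
      rw [e3'] at e2'
      exact e2'
    have hQN : ∀ x : SL23, x ^ 4 = 1 → x ∈ N := by
      intro x hx
      rcases e8 _ hq4 hq2 x hx with ⟨c, rfl⟩ | rfl | rfl
      · exact hN.conj_mem _ hqN c
      · exact N.pow_mem hqN 2
      · exact N.one_mem
    rw [eq_top_iff]
    intro x _
    obtain ⟨k, hk⟩ := e9 g hg4 x
    have h1 : x * g ^ (k:ℕ) ∈ N := hQN _ hk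
    have h2 : x = (x * g ^ (k:ℕ)) * (g ^ (k:ℕ))⁻¹ := by group
    rw [h2]
    exact N.mul_mem h1 (N.inv_mem (N.pow_mem hg _))
  · push_neg at h1
    by_cases h2 : ∃ g ∈ N, g ^ 2 ≠ 1
    · right; right; right
      obtain ⟨q, hqN, hq2⟩ := h2
      have hq4 := h1 q hqN
      apply le_antisymm
      · intro x hx
        exact (mem_Qs x).2 (h1 x hx)
      · intro x hx
        rcases e8 q hq4 hq2 x ((mem_Qs x).1 hx) with ⟨c, rfl⟩ | rfl | rfl
        · exact hN.conj_mem _ hqN c
        · exact N.pow_mem hqN 2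
        · exact N.one_mem
    · push_neg at h2
      by_cases h3 : ∃ g ∈ N, g ≠ 1
      · right; right; left
        obtain ⟨g, hgN, hg1⟩ := h3
        have hg2 := h2 g hgN
        apply le_antisymm
        · intro x hx
          rw [Subgroup.mem_center_iff]
          exact (e6 x).2 (h2 x hx)
        · intro z hz
          rw [Subgroup.mem_center_iff] at hz
          rcases e10 g hg1 hg2 z ((e6 z).1 hz) with rfl | rfl
          · exact N.one_mem
          · exact hgN
      · left
        push_neg at h3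
        rw [Subgroup.eq_bot_iff_forall]
        exact h3

/-- The group SL₂ over the field with 3 elements has order 24 and centre of order 2; its commutator subgroup has order 8, is isomorphic to the quaternion group of order 8 and is complemented by every Sylow 3-subgroup (so the group is a semidirect product of a quaternion group of order 8 by a cyclic group of order 3); and its only normal subgroups besides the trivial subgroup and the whole group are the centre and the commutator subgroup. -/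
theorem result :
    Nat.card (Matrix.SpecialLinearGroup (Fin 2) (ZMod 3)) = 24 ∧
    Nat.card (Subgroup.center (Matrix.SpecialLinearGroup (Fin 2) (ZMod 3))) = 2 ∧
    Nat.card (commutator (Matrix.SpecialLinearGroup (Fin 2) (ZMod 3))) = 8 ∧
    Nonempty (commutator (Matrix.SpecialLinearGroup (Fin 2) (ZMod 3)) ≃* QuaternionGroup 2) ∧
    (∀ P : Sylow 3 (Matrix.SpecialLinearGroup (Fin 2) (ZMod 3)),
      Subgroup.IsComplement' (commutator (Matrix.SpecialLinearGroup (Fin 2) (ZMod 3)))
        (P : Subgroup (Matrix.SpecialLinearGroup (Fin 2) (ZMod 3)))) ∧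
    ∀ N : Subgroup (Matrix.SpecialLinearGroup (Fin 2) (ZMod 3)), N.Normal →
      N = ⊥ ∨ N = ⊤ ∨ N = Subgroup.center (Matrix.SpecialLinearGroup (Fin 2) (ZMod 3)) ∨
        N = commutator (Matrix.SpecialLinearGroup (Fin 2) (ZMod 3)) := by
  refine ⟨cardG, cardZ, ?_, ?_, ?_, ?_⟩
  · rw [hcomm]; exact cardQ
  · rw [hcomm]; exact isoQ
  · intro P
    rw [hcomm]; exact sylC P
  · intro N hN
    rw [hcomm]; exact normals N hN

end Cfsg.Agent.S2427
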