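import Cfsg.Statements.S0257
import Mathlib
import Cfsg.Agent.S2427

set_option autoImplicit false
open Cfsg

namespace Cfsg.Agent.S0257

theorem slEquiv {F : Type*} [Field F] [Fintype F] (hF : Fintype.card F = 3) :
    Nonempty (Cfsg.Agent.S2427.SL23 ≃* Matrix.SpecialLinearGroup (Fin 2) F) := by
  obtain ⟨φ⟩ : Nonempty (ZMod 3 ≃+* F) := ⟨ZMod.ringEquivOfPrime F Nat.prime_three hF⟩
  have hbij : Function.Bijective
      (Matrix.SpecialLinearGroup.map (n := Fin 2) (φ : ZMod 3 →+* F)) := by
    constructor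
    · intro A B h
      apply Matrix.SpecialLinearGroup.ext
      intro i j
      have h1 := congrArg (fun M : Matrix.SpecialLinearGroup (Fin 2) F =>
        (M : Matrix (Fin 2) (Fin 2) F) i j) h
      simp only [Matrix.SpecialLinearGroup.map_apply_coe, RingHom.mapMatrix_apply,
        Matrix.map_apply] at h1
      exact φ.injective h1
    · intro B
      refine ⟨Matrix.SpecialLinearGroup.map (n := Fin 2) (φ.symm : F →+* ZMod 3) B, ?_⟩
      apply Matrix.SpecialLinearGroup.ext
      intro i j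
      simp only [Matrix.SpecialLinearGroup.map_apply_coe, RingHom.mapMatrix_apply,
        Matrix.map_apply]
      exact φ.apply_symm_apply _
  exact ⟨MulEquiv.ofBijective _ hbij⟩

/-- SL_2(3) has a normal subgroup of index 3 isomorphic to the quaternion group of order 8, and its centre has order 2. -/
theorem result {F : Type*} [Field F] [Fintype F] (hF : Fintype.card F = 3) : (∃ Q : Subgroup (Matrix.SpecialLinearGroup (Fin 2) F), Q.Normal ∧ Q.index = 3 ∧ Nonempty (Q ≃* QuaternionGroup 2)) ∧ Nat.card (Subgroup.center (Matrix.SpecialLinearGroup (Fin 2) F)) = 2 := by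
  obtain ⟨e⟩ := slEquiv hF
  refine ⟨⟨Cfsg.Agent.S2427.Qs.map (e : Cfsg.Agent.S2427.SL23 →* Matrix.SpecialLinearGroup (Fin 2) F),
    ?_, ?_, ?_⟩, ?_⟩
  · have hn : Cfsg.Agent.S2427.Qs.Normal := by
      have h := Subgroup.commutator_normal (⊤ : Subgroup Cfsg.Agent.S2427.SL23) ⊤
      rw [← commutator_def, Cfsg.Agent.S2427.hcomm] at h
      exact h
    exact hn.map _ e.surjective
  · rw [Subgroup.index_map_equiv]
    have h := Cfsg.Agent.S2427.Qs.card_mul_index
    rw [Cfsg.Agent.S2427.cardQ, Cfsg.Agent.S2427.cardG] at h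
    omega
  · obtain ⟨f⟩ := Cfsg.Agent.S2427.isoQ
    exact ⟨(e.subgroupMap Cfsg.Agent.S2427.Qs).symm.trans f⟩
  · rw [← Nat.card_congr (Subgroup.centerCongr e).toEquiv]
    exact Cfsg.Agent.S2427.cardZ

end Cfsg.Agent.S0257
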