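import Cfsg.Statements.S0259
import Mathlib
import Cfsg.Agent.Helper4.GL2

set_option autoImplicit false
open Cfsg

namespace Cfsg.Agent.S0259

/-- Distinct Sylow p-subgroups of GL_2(q), p the characteristic, intersect trivially. -/
theorem result {F : Type*} [Field F] [Fintype F] (p : ℕ) [Fact p.Prime] [CharP F p] (P Q : Sylow p (Matrix.GeneralLinearGroup (Fin 2) F)) (h : P ≠ Q) : (P : Subgroup (Matrix.GeneralLinearGroup (Fin 2) F)) ⊓ (Q : Subgroup (Matrix.GeneralLinearGroup (Fin 2) F)) = ⊥ := by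
  classical
  rw [Subgroup.eq_bot_iff_forall]
  intro x hx
  by_contra hx1
  apply h
  obtain ⟨g, hg⟩ := Cfsg.Agent.Helper4.GL2.exists_conj p P
  obtain ⟨k, hk⟩ := Cfsg.Agent.Helper4.GL2.exists_conj p Q
  obtain ⟨b, hb⟩ := (hg x).1 hx.1
  obtain ⟨b', hb'⟩ := (hk x).1 hx.2
  have hb0 : b ≠ 0 := by
    rintro rfl
    rw [Cfsg.Agent.Helper4.GL2.T_zero] at hb
    apply hx1
    have : x = g * (g⁻¹ * x * g) * g⁻¹ := by group
    rw [this, hb]
    group
  have hcomm : (k⁻¹ * g) * Cfsg.Agent.Helper4.GL2.T b =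
      Cfsg.Agent.Helper4.GL2.T b' * (k⁻¹ * g) := by
    rw [← hb, ← hb']
    group
  have h0 := Cfsg.Agent.Helper4.GL2.entry_of_mul_T hcomm
  have hc : ((k⁻¹ * g : Matrix.GeneralLinearGroup (Fin 2) F) : Matrix (Fin 2) (Fin 2) F) 1 0 = 0 := by
    rcases mul_eq_zero.1 h0 with h | h
    · exact h
    · exact absurd h hb0
  exact Cfsg.Agent.Helper4.GL2.eq_of_conj p hg hk hc

end Cfsg.Agent.S0259
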