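import Cfsg.Statements.S0260
import Mathlib
import Cfsg.Agent.Helper4.SL2Syl

set_option autoImplicit false
open Cfsg

namespace Cfsg.Agent.S0260

/-- Any two distinct Sylow p-subgroups of SL_2(q), p the characteristic, generate SL_2(q). -/
theorem result {F : Type*} [Field F] [Fintype F] (p : ℕ) [Fact p.Prime] [CharP F p] (P Q : Sylow p (Matrix.SpecialLinearGroup (Fin 2) F)) (h : P ≠ Q) : (P : Subgroup (Matrix.SpecialLinearGroup (Fin 2) F)) ⊔ (Q : Subgroup (Matrix.SpecialLinearGroup (Fin 2) F)) = ⊤ := by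
  classical
  obtain ⟨g, hg⟩ := Cfsg.Agent.Helper4.GL2.sl2_sylow_conj p P
  obtain ⟨h', hh⟩ := Cfsg.Agent.Helper4.GL2.sl2_sylow_conj p Q
  have h01 : (0 : Fin 2) ≠ 1 := by decide
  have h10 : (1 : Fin 2) ≠ 0 := by decide
  have hc : ((g⁻¹ * h' : Matrix.GeneralLinearGroup (Fin 2) F) : Matrix (Fin 2) (Fin 2) F) 1 0 ≠ 0 := by
    intro hc0
    apply h
    have hN := Cfsg.Agent.Helper4.GL2.mem_normalizer_U.2 hc0
    have hN' := inv_mem hN
    apply Sylow.ext
    ext x
    rw [hg, hh, ← Cfsg.Agent.Helper4.GL2.mem_U, ← Cfsg.Agent.Helper4.GL2.mem_U,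
      Subgroup.mem_normalizer_iff.1 hN' (g⁻¹ * Matrix.SpecialLinearGroup.toGL x * g)]
    have e : (g⁻¹ * h')⁻¹ * (g⁻¹ * Matrix.SpecialLinearGroup.toGL x * g) * (g⁻¹ * h')⁻¹⁻¹ =
        h'⁻¹ * Matrix.SpecialLinearGroup.toGL x * h' := by group
    rw [e]
  have hT : ∀ c : F, g * Cfsg.Agent.Helper4.GL2.T c * g⁻¹ ∈
      ((P : Subgroup (Matrix.SpecialLinearGroup (Fin 2) F)) ⊔
        (Q : Subgroup (Matrix.SpecialLinearGroup (Fin 2) F))).map
          (Matrix.SpecialLinearGroup.toGL : Matrix.SpecialLinearGroup (Fin 2) F →*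
            Matrix.GeneralLinearGroup (Fin 2) F) := by
    intro c
    obtain ⟨B, hB⟩ := Cfsg.Agent.Helper4.GL2.exists_conj_toGL g
      (Matrix.SpecialLinearGroup.transvection h01 c)
    rw [Cfsg.Agent.Helper4.GL2.T_eq_toGL c h01, ← hB]
    refine Subgroup.mem_map_of_mem _ ?_
    have hBP : B ∈ (P : Subgroup (Matrix.SpecialLinearGroup (Fin 2) F)) := by
      rw [hg]
      refine ⟨c, ?_⟩
      rw [hB, Cfsg.Agent.Helper4.GL2.T_eq_toGL c h01]
      group
    exact (le_sup_left : (P : Subgroup (Matrix.SpecialLinearGroup (Fin 2) F)) ≤ _) hBP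
  have hT' : ∀ c : F, h' * Cfsg.Agent.Helper4.GL2.T c * h'⁻¹ ∈
      ((P : Subgroup (Matrix.SpecialLinearGroup (Fin 2) F)) ⊔
        (Q : Subgroup (Matrix.SpecialLinearGroup (Fin 2) F))).map
          (Matrix.SpecialLinearGroup.toGL : Matrix.SpecialLinearGroup (Fin 2) F →*
            Matrix.GeneralLinearGroup (Fin 2) F) := by
    intro c
    obtain ⟨B, hB⟩ := Cfsg.Agent.Helper4.GL2.exists_conj_toGL h'
      (Matrix.SpecialLinearGroup.transvection h01 c)
    rw [Cfsg.Agent.Helper4.GL2.T_eq_toGL c h01, ← hB]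
    refine Subgroup.mem_map_of_mem _ ?_
    have hBQ : B ∈ (Q : Subgroup (Matrix.SpecialLinearGroup (Fin 2) F)) := by
      rw [hh]
      refine ⟨c, ?_⟩
      rw [hB, Cfsg.Agent.Helper4.GL2.T_eq_toGL c h01]
      group
    exact (le_sup_right : (Q : Subgroup (Matrix.SpecialLinearGroup (Fin 2) F)) ≤ _) hBQ
  have hL : ∀ s' : F, g * Matrix.SpecialLinearGroup.toGL
      (Matrix.SpecialLinearGroup.transvection h10 s' : Matrix.SpecialLinearGroup (Fin 2) F) * g⁻¹ ∈
      ((P : Subgroup (Matrix.SpecialLinearGroup (Fin 2) F)) ⊔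
        (Q : Subgroup (Matrix.SpecialLinearGroup (Fin 2) F))).map
          (Matrix.SpecialLinearGroup.toGL : Matrix.SpecialLinearGroup (Fin 2) F →*
            Matrix.GeneralLinearGroup (Fin 2) F) := by
    intro s'
    obtain ⟨t, s, e⟩ := Cfsg.Agent.Helper4.GL2.exists_lower (g⁻¹ * h') hc s' h10
    have e2 : g * Matrix.SpecialLinearGroup.toGL
        (Matrix.SpecialLinearGroup.transvection h10 s' : Matrix.SpecialLinearGroup (Fin 2) F) * g⁻¹ =
        (g * Cfsg.Agent.Helper4.GL2.T t * g⁻¹) * (h' * Cfsg.Agent.Helper4.GL2.T s * h'⁻¹) *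
          (g * Cfsg.Agent.Helper4.GL2.T t * g⁻¹)⁻¹ := by
      rw [eq_mul_inv_of_mul_eq e.symm]
      group
    rw [e2]
    exact mul_mem (mul_mem (hT t) (hT' s)) (inv_mem (hT t))
  have hall : ∀ A : Matrix.SpecialLinearGroup (Fin 2) F,
      g * Matrix.SpecialLinearGroup.toGL A * g⁻¹ ∈
      ((P : Subgroup (Matrix.SpecialLinearGroup (Fin 2) F)) ⊔
        (Q : Subgroup (Matrix.SpecialLinearGroup (Fin 2) F))).map
          (Matrix.SpecialLinearGroup.toGL : Matrix.SpecialLinearGroup (Fin 2) F →*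
            Matrix.GeneralLinearGroup (Fin 2) F) := by
    intro A
    refine Matrix.SL2.transvection_induction (fun A => g * Matrix.SpecialLinearGroup.toGL A * g⁻¹ ∈
      ((P : Subgroup (Matrix.SpecialLinearGroup (Fin 2) F)) ⊔
        (Q : Subgroup (Matrix.SpecialLinearGroup (Fin 2) F))).map
          (Matrix.SpecialLinearGroup.toGL : Matrix.SpecialLinearGroup (Fin 2) F →*
            Matrix.GeneralLinearGroup (Fin 2) F)) ?_ ?_ A
    · intro i j hij c
      fin_cases i
      · obtain rfl : j = 1 := by fin_cases j <;> tauto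
        have := hT c
        rw [Cfsg.Agent.Helper4.GL2.T_eq_toGL c h01] at this
        exact this
      · obtain rfl : j = 0 := by fin_cases j <;> tauto
        exact hL c
    · intro A B hA hB
      have e3 : g * Matrix.SpecialLinearGroup.toGL (A * B) * g⁻¹ =
          (g * Matrix.SpecialLinearGroup.toGL A * g⁻¹) *
            (g * Matrix.SpecialLinearGroup.toGL B * g⁻¹) := by
        rw [map_mul]
        group
      show g * Matrix.SpecialLinearGroup.toGL (A * B) * g⁻¹ ∈ _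
      rw [e3]
      exact mul_mem hA hB
  rw [eq_top_iff]
  intro A _
  obtain ⟨A', hA'⟩ := Cfsg.Agent.Helper4.GL2.exists_conj_toGL g⁻¹ A
  have h5 := hall A'
  rw [hA'] at h5
  have e4 : g * (g⁻¹ * Matrix.SpecialLinearGroup.toGL A * g⁻¹⁻¹) * g⁻¹ =
      Matrix.SpecialLinearGroup.toGL A := by group
  rw [e4] at h5
  obtain ⟨y, hy, hyA⟩ := Subgroup.mem_map.1 h5
  have := Matrix.SpecialLinearGroup.toGL_injective hyA
  rw [← this]
  exact hy

end Cfsg.Agent.S0260
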