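import Cfsg.Statements.S0268
import Mathlib

set_option autoImplicit false
open Cfsg

namespace Cfsg.Agent.S0268

theorem alg {F : Type*} [Field F] (a b c d : F) (h2ne : (2 : F) ≠ 0) (e00 : a * a + b * c = 1)
    (e01 : a * b + b * d = 0) (e10 : c * a + d * c = 0) (e11 : c * b + d * d = 1)
    (hdet : a * d - b * c = 1) :
    (a = 1 ∧ b = 0 ∧ c = 0 ∧ d = 1) ∨ (a = -1 ∧ b = 0 ∧ c = 0 ∧ d = -1) := by
  by_cases hs : a + d = 0
  · exfalso
    apply h2ne
    have hd' : d = -a := by linear_combination hs
    subst hd'
    linear_combination (-1 : F) * e00 - hdet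
  · have hb0 : b = 0 := by
      have : b * (a + d) = 0 := by linear_combination e01
      rcases mul_eq_zero.mp this with h | h
      · exact h
      · exact absurd h hs
    have hc0 : c = 0 := by
      have : c * (a + d) = 0 := by linear_combination e10
      rcases mul_eq_zero.mp this with h | h
      · exact h
      · exact absurd h hs
    subst hb0 hc0
    have haa : a * a = 1 := by linear_combination e00
    have had : a * d = 1 := by linear_combination hdet
    have hda : a = d := by
      have hdd : d * d = 1 := by linear_combination e11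
      calc a = a * (d * d) := by rw [hdd, mul_one]
        _ = (a * d) * d := by ring
        _ = d := by rw [had, one_mul]
    have hfac : (a - 1) * (a + 1) = 0 := by linear_combination haa
    rcases mul_eq_zero.mp hfac with h | h
    · left
      have ha1 : a = 1 := by linear_combination h
      exact ⟨ha1, rfl, rfl, by rw [← hda, ha1]⟩
    · right
      have ha1 : a = -1 := by linear_combination h
      exact ⟨ha1, rfl, rfl, by rw [← hda, ha1]⟩

/-- For q odd, -1 is the unique involution of SL_2(q). -/
theorem result {F : Type*} [Field F] [Fintype F] (hF : Odd (Fintype.card F)) (g : Matrix.SpecialLinearGroup (Fin 2) F) (h1 : g ≠ 1) (h2 : g * g = 1) : (g : Matrix (Fin 2) (Fin 2) F) = -1 := by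
  classical
  have h2ne : (2 : F) ≠ 0 := by
    intro h0
    have h11 : (1 : F) + 1 = 0 := by rw [one_add_one_eq_two]; exact h0
    have hord : addOrderOf (1 : F) = 2 := by
      haveI : Fact (Nat.Prime 2) := ⟨Nat.prime_two⟩
      apply addOrderOf_eq_prime
      · rw [two_nsmul]; exact h11
      · exact one_ne_zero
    have hdvd : addOrderOf (1 : F) ∣ Fintype.card F := addOrderOf_dvd_card
    rw [hord] at hdvd
    exact (Nat.not_even_iff_odd.mpr hF) (even_iff_two_dvd.mpr hdvd)
  have hA : (g : Matrix (Fin 2) (Fin 2) F) * (g : Matrix (Fin 2) (Fin 2) F) = 1 := by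
    have := congrArg (fun x : Matrix.SpecialLinearGroup (Fin 2) F => (x : Matrix (Fin 2) (Fin 2) F)) h2
    simpa using this
  have hdet : (g : Matrix (Fin 2) (Fin 2) F) 0 0 * (g : Matrix (Fin 2) (Fin 2) F) 1 1 -
      (g : Matrix (Fin 2) (Fin 2) F) 0 1 * (g : Matrix (Fin 2) (Fin 2) F) 1 0 = 1 := by
    rw [← Matrix.det_fin_two]; exact g.det_coe
  have e00 := congrFun (congrFun hA 0) 0
  have e01 := congrFun (congrFun hA 0) 1
  have e10 := congrFun (congrFun hA 1) 0
  have e11 := congrFun (congrFun hA 1) 1
  simp only [Matrix.mul_apply, Fin.sum_univ_two, Matrix.one_apply_eq, Matrix.one_apply_ne,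
    ne_eq, Fin.zero_eq_one_iff, Fin.one_eq_zero_iff, OfNat.ofNat_ne_one, not_false_eq_true] at e00 e01 e10 e11
  rcases alg _ _ _ _ h2ne e00 e01 e10 e11 hdet with ⟨ha, hb, hc, hd⟩ | ⟨ha, hb, hc, hd⟩
  · exfalso
    apply h1
    apply Matrix.SpecialLinearGroup.ext
    intro i j
    fin_cases i <;> fin_cases j
    · simpa using ha
    · simpa using hb
    · simpa using hc
    · simpa using hd
  · ext i j
    fin_cases i <;> fin_cases j
    · simpa using ha
    · simpa using hb
    · simpa using hc
    · simpa using hd


end Cfsg.Agent.S0268
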