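import Cfsg.Statements.S0276
import Mathlib
import Cfsg.Agent.S0243

set_option autoImplicit false
open Cfsg

namespace Cfsg.Agent.S0276

theorem sylow_card_four {G : Type*} [Group G] [Finite G] (P : Sylow 2 G) (M : ℕ) (hM : Odd M)
    (h : Nat.card G = 4 * M) : Nat.card P = 4 := by
  rw [Sylow.card_eq_multiplicity, h, show (4 : ℕ) = 2 ^ 2 by norm_num,
    Nat.factorization_mul (by norm_num) hM.pos.ne', Finsupp.add_apply,
    Nat.Prime.factorization_pow Nat.prime_two,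
    Nat.factorization_eq_zero_of_not_dvd hM.not_two_dvd_nat]
  simp

theorem cayley_two {F : Type*} [Field F] (A : Matrix (Fin 2) (Fin 2) F) (hdet : A.det = 1) :
    A * A = (A 0 0 + A 1 1) • A - 1 := by
  rw [Matrix.det_fin_two] at hdet
  ext i j
  fin_cases i <;> fin_cases j <;> simp [Matrix.mul_apply, Fin.sum_univ_two] <;>
    first | ring1 | linear_combination (-1 : F) * hdet

theorem sq_scalar {F : Type*} [Field F] (A : Matrix (Fin 2) (Fin 2) F) (hdet : A.det = 1) (r : F)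
    (h4 : A * A * (A * A) = r • (1 : Matrix (Fin 2) (Fin 2) F)) (h2 : ¬ IsSquare (2 : F)) :
    ∃ s : F, s ^ 2 = 1 ∧ A * A = s • (1 : Matrix (Fin 2) (Fin 2) F) := by
  have hCH := cayley_two A hdet
  set t : F := A 0 0 + A 1 1 with ht
  by_cases ht0 : t = 0
  · refine ⟨-1, by ring, ?_⟩
    rw [hCH, ht0]
    simp
  · have ht2 : t ^ 2 - 2 ≠ 0 := by
      intro h0
      apply h2
      exact ⟨t, by linear_combination (-1 : F) * h0⟩
    have e : (t • A - 1) * (t • A - 1) = (t * t) • (A * A) - (2 * t) • A + 1 := by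
      simp only [sub_mul, mul_sub, smul_mul_smul_comm, mul_one, one_mul]
      module
    have h6 : A * A * (A * A) =
        (t ^ 3 - 2 * t) • A + (1 - t ^ 2) • (1 : Matrix (Fin 2) (Fin 2) F) := by
      rw [hCH, e, hCH]
      module
    have h5 : (t ^ 3 - 2 * t) • A = (r + t ^ 2 - 1) • (1 : Matrix (Fin 2) (Fin 2) F) := by
      have h7 := h6.symm.trans h4
      calc (t ^ 3 - 2 * t) • A = ((t ^ 3 - 2 * t) • A + (1 - t ^ 2) • (1 : Matrix (Fin 2) (Fin 2) F))
            - (1 - t ^ 2) • (1 : Matrix (Fin 2) (Fin 2) F) := by module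
        _ = r • (1 : Matrix (Fin 2) (Fin 2) F) - (1 - t ^ 2) • (1 : Matrix (Fin 2) (Fin 2) F) := by
            rw [h7]
        _ = (r + t ^ 2 - 1) • (1 : Matrix (Fin 2) (Fin 2) F) := by module
    have hne : t ^ 3 - 2 * t ≠ 0 := by
      have : t ^ 3 - 2 * t = t * (t ^ 2 - 2) := by ring
      rw [this]
      exact mul_ne_zero ht0 ht2
    have hA : A = ((t ^ 3 - 2 * t)⁻¹ * (r + t ^ 2 - 1)) • (1 : Matrix (Fin 2) (Fin 2) F) := by
      rw [← smul_smul, ← h5, smul_smul, inv_mul_cancel₀ hne, one_smul]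
    set u : F := (t ^ 3 - 2 * t)⁻¹ * (r + t ^ 2 - 1) with hu
    have hu2 : u ^ 2 = 1 := by
      rw [hA] at hdet
      simpa [Matrix.det_smul] using hdet
    refine ⟨1, by ring, ?_⟩
    rw [hA, smul_mul_smul_comm, Matrix.one_mul, ← pow_two, hu2]

theorem sq_eq_one_of_pow_four {F : Type*} [Field F] [Fintype F] (h2 : ¬ IsSquare (2 : F))
    (x : Matrix.ProjectiveSpecialLinearGroup (Fin 2) F) (hx : x ^ 4 = 1) : x ^ 2 = 1 := by
  obtain ⟨g, rfl⟩ := QuotientGroup.mk_surjective x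
  rw [← QuotientGroup.mk_pow, QuotientGroup.eq_one_iff, Matrix.SpecialLinearGroup.mem_center_iff]
    at hx ⊢
  obtain ⟨r, -, hr⟩ := hx
  have h4 : (g : Matrix (Fin 2) (Fin 2) F) * (g : Matrix (Fin 2) (Fin 2) F) *
      ((g : Matrix (Fin 2) (Fin 2) F) * (g : Matrix (Fin 2) (Fin 2) F)) =
      r • (1 : Matrix (Fin 2) (Fin 2) F) := by
    rw [Matrix.SpecialLinearGroup.coe_pow, Matrix.scalar_apply, ← Matrix.smul_one_eq_diagonal] at hr
    rw [hr, show (4 : ℕ) = 2 + 2 from rfl, pow_add, pow_two]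
  obtain ⟨s, hs, hs2⟩ := sq_scalar (g : Matrix (Fin 2) (Fin 2) F) g.2 r h4 h2
  refine ⟨s, by simpa using hs, ?_⟩
  rw [Matrix.SpecialLinearGroup.coe_pow, Matrix.scalar_apply, ← Matrix.smul_one_eq_diagonal,
    pow_two, hs2]

/-- For q = 3 or 5 mod 8 the Sylow 2-subgroups of PSL_2(q) are elementary abelian of order 4. -/
theorem result {F : Type*} [Field F] [Fintype F] {q : ℕ} (hF : Fintype.card F = q) (hq : q % 8 = 3 ∨ q % 8 = 5) (P : Sylow 2 (Matrix.ProjectiveSpecialLinearGroup (Fin 2) F)) : IsKleinFour (P : Subgroup (Matrix.ProjectiveSpecialLinearGroup (Fin 2) F)) := by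
  subst hF
  classical
  have h2sq : ¬ IsSquare (2 : F) := by
    rw [FiniteField.isSquare_two_iff]
    omega
  have hS := Cfsg.Agent.S0243.result (F := F) rfl 2 (le_refl 2)
  simp only [Fin.prod_univ_two, Fin.val_zero, Fin.val_one, pow_zero, pow_one] at hS
  have hcard : ∃ M : ℕ, Odd M ∧
      Nat.card (Matrix.ProjectiveSpecialLinearGroup (Fin 2) F) = 4 * M := by
    rcases hq with hq | hq
    · obtain ⟨m, hm⟩ : ∃ m, Fintype.card F = 8 * m + 3 := ⟨Fintype.card F / 8, by omega⟩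
      rw [hm] at hS
      have e1 : 8 * m + 3 - 1 = 8 * m + 2 := by omega
      have e2 : (8 * m + 3) ^ 2 - 1 = (8 * m + 2) * (8 * m + 4) := by
        have : (8 * m + 3) ^ 2 = (8 * m + 2) * (8 * m + 4) + 1 := by ring
        omega
      have e3 : (8 * m + 3) ^ 2 - (8 * m + 3) = (8 * m + 3) * (8 * m + 2) := by
        have : (8 * m + 3) ^ 2 = (8 * m + 3) * (8 * m + 2) + (8 * m + 3) := by ring
        omega
      have e4 : Nat.gcd 2 (8 * m + 2) = 2 := Nat.gcd_eq_left ⟨4 * m + 1, by ring⟩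
      rw [e1, e2, e3, e4] at hS
      refine ⟨(2 * m + 1) * (8 * m + 3) * (4 * m + 1),
        Odd.mul (Odd.mul ⟨m, by ring⟩ ⟨4 * m + 1, by ring⟩) ⟨2 * m, by ring⟩, ?_⟩
      apply Nat.eq_of_mul_eq_mul_left (show 0 < 2 * (8 * m + 2) by positivity)
      rw [mul_assoc, hS]
      ring
    · obtain ⟨m, hm⟩ : ∃ m, Fintype.card F = 8 * m + 5 := ⟨Fintype.card F / 8, by omega⟩
      rw [hm] at hS
      have e1 : 8 * m + 5 - 1 = 8 * m + 4 := by omega
      have e2 : (8 * m + 5) ^ 2 - 1 = (8 * m + 4) * (8 * m + 6) := by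
        have : (8 * m + 5) ^ 2 = (8 * m + 4) * (8 * m + 6) + 1 := by ring
        omega
      have e3 : (8 * m + 5) ^ 2 - (8 * m + 5) = (8 * m + 5) * (8 * m + 4) := by
        have : (8 * m + 5) ^ 2 = (8 * m + 5) * (8 * m + 4) + (8 * m + 5) := by ring
        omega
      have e4 : Nat.gcd 2 (8 * m + 4) = 2 := Nat.gcd_eq_left ⟨4 * m + 2, by ring⟩
      rw [e1, e2, e3, e4] at hS
      refine ⟨(4 * m + 3) * (8 * m + 5) * (2 * m + 1),
        Odd.mul (Odd.mul ⟨2 * m + 1, by ring⟩ ⟨4 * m + 2, by ring⟩) ⟨m, by ring⟩, ?_⟩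
      apply Nat.eq_of_mul_eq_mul_left (show 0 < 2 * (8 * m + 4) by positivity)
      rw [mul_assoc, hS]
      ring
  obtain ⟨M, hM, hG⟩ := hcard
  have hP4 : Nat.card (P : Subgroup (Matrix.ProjectiveSpecialLinearGroup (Fin 2) F)) = 4 :=
    sylow_card_four P M hM hG
  refine ⟨hP4, ?_⟩
  haveI : Nontrivial (P : Subgroup (Matrix.ProjectiveSpecialLinearGroup (Fin 2) F)) :=
    Finite.one_lt_card_iff_nontrivial.1 (by rw [hP4]; norm_num)
  rw [Monoid.exponent_eq_prime_iff Nat.prime_two]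
  intro x hx1
  have h4 : x ^ 4 = 1 := by
    rw [← hP4]
    exact pow_card_eq_one'
  have h4' : (x : Matrix.ProjectiveSpecialLinearGroup (Fin 2) F) ^ 4 = 1 := by
    have := congrArg Subtype.val h4
    simpa using this
  have h2' := sq_eq_one_of_pow_four h2sq _ h4'
  have h2 : x ^ 2 = 1 := Subtype.ext (by simpa using h2')
  rcases (Nat.dvd_prime Nat.prime_two).1 (orderOf_dvd_of_pow_eq_one h2) with h | h
  · exact absurd (orderOf_eq_one_iff.1 h) hx1
  · exact h

end Cfsg.Agent.S0276
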