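import Cfsg.Statements.S0800
import Mathlib
import Cfsg.Agent.S0276

set_option autoImplicit false
open Cfsg

namespace Cfsg.Agent.S0800

theorem coe_pow' {F : Type*} [Field F] (g : Matrix.SpecialLinearGroup (Fin 2) F) (k : ℕ) :
    (g ^ k).1 = g.1 ^ k := by
  induction k with
  | zero => rfl
  | succ k ih =>
    rw [pow_succ, pow_succ, ← ih]
    rfl

theorem pow_span {F : Type*} [Field F] (A : Matrix (Fin 2) (Fin 2) F) (t : F)
    (hCH : A * A = t • A - 1) (k : ℕ) :
    ∃ u v : F, A ^ k = u • (1 : Matrix (Fin 2) (Fin 2) F) + v • A := by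
  induction k with
  | zero => exact ⟨1, 0, by simp⟩
  | succ k ih =>
    obtain ⟨u, v, h⟩ := ih
    refine ⟨-v, u + v * t, ?_⟩
    rw [pow_succ, h, add_mul, Matrix.smul_mul, Matrix.smul_mul, Matrix.one_mul, hCH]
    module

theorem indep {F : Type*} [Field F] (A : Matrix (Fin 2) (Fin 2) F)
    (hns : ¬ ∃ a : F, A = a • (1 : Matrix (Fin 2) (Fin 2) F)) (x y : F)
    (h : x • (1 : Matrix (Fin 2) (Fin 2) F) + y • A = 0) : x = 0 ∧ y = 0 := by
  have hy : y = 0 := by
    by_contra hy
    apply hns
    refine ⟨-x / y, ?_⟩
    have h1 : y • A = (-x) • (1 : Matrix (Fin 2) (Fin 2) F) := by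
      rw [neg_smul]
      exact eq_neg_of_add_eq_zero_right h
    calc A = y⁻¹ • (y • A) := by rw [smul_smul, inv_mul_cancel₀ hy, one_smul]
      _ = (-x / y) • (1 : Matrix (Fin 2) (Fin 2) F) := by
        rw [h1, smul_smul]
        congr 1
        field_simp
  subst hy
  rw [zero_smul, add_zero] at h
  have h2 := congrFun (congrFun h 0) 0
  exact ⟨by simpa using h2, rfl⟩

/-- Tori of SL_2(q): if g ∈ SL_2(q) has order coprime to the characteristic p, then the order of g divides q − 1 or q + 1. -/
theorem result {F : Type*} [Field F] [Fintype F] {q : ℕ} (hF : Fintype.card F = q) (p : ℕ) [Fact p.Prime] [CharP F p] (g : Matrix.SpecialLinearGroup (Fin 2) F) (hg : Nat.Coprime (orderOf g) p) : orderOf g ∣ q - 1 ∨ orderOf g ∣ q + 1 := by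
  subst hF
  classical
  have hp := (Fact.out : p.Prime)
  obtain ⟨f, -, hf⟩ := FiniteField.card F p
  have hCH := Cfsg.Agent.S0276.cayley_two g.1 g.2
  obtain ⟨A, hA⟩ : ∃ A : Matrix (Fin 2) (Fin 2) F, A = g.1 := ⟨_, rfl⟩
  rw [← hA] at hCH
  obtain ⟨t, ht⟩ : ∃ t : F, t = A 0 0 + A 1 1 := ⟨_, rfl⟩
  rw [← ht] at hCH
  have hdet : A.det = 1 := by rw [hA]; exact g.2
  have hdvd : ∀ m : ℕ, A ^ m = 1 → orderOf g ∣ m := by
    intro m hm
    apply orderOf_dvd_of_pow_eq_one
    apply Subtype.ext
    rw [coe_pow', ← hA]
    exact hm
  have hinv : A * (t • (1 : Matrix (Fin 2) (Fin 2) F) - A) = 1 := by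
    rw [mul_sub, Matrix.mul_smul, Matrix.mul_one, hCH]
    abel
  by_cases hsc : ∃ a : F, A = a • (1 : Matrix (Fin 2) (Fin 2) F)
  · obtain ⟨a, ha⟩ := hsc
    left
    apply hdvd
    have ha0 : a ≠ 0 := by
      rintro rfl
      rw [ha] at hdet
      simp at hdet
    rw [ha, smul_pow, one_pow, FiniteField.pow_card_sub_one_eq_one a ha0, one_smul]
  · obtain ⟨u, v, huv⟩ := pow_span A t hCH (Fintype.card F)
    have hB : A ^ Fintype.card F * A ^ Fintype.card F = t • A ^ Fintype.card F - 1 := by
      have h1 : (A * A) ^ Fintype.card F = A ^ Fintype.card F * A ^ Fintype.card F :=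
        (Commute.refl A).mul_pow _
      rw [← h1, hCH, hf]
      haveI : CharP (Matrix (Fin 2) (Fin 2) F) p := Matrix.charP p
      rw [sub_pow_char_pow_of_commute p _ (Commute.one_right _), one_pow, smul_pow, ← hf,
        FiniteField.pow_card]
    rw [huv] at hB
    have hexp : (u ^ 2 - v ^ 2 - t * u + 1) • (1 : Matrix (Fin 2) (Fin 2) F) +
        (v * (2 * u + v * t - t)) • A = 0 := by
      have e1 : (u • (1 : Matrix (Fin 2) (Fin 2) F) + v • A) *
          (u • (1 : Matrix (Fin 2) (Fin 2) F) + v • A) =
          (u ^ 2) • (1 : Matrix (Fin 2) (Fin 2) F) + (2 * u * v) • A + (v ^ 2) • (A * A) := by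
        simp only [add_mul, mul_add, smul_mul_smul_comm, Matrix.one_mul, Matrix.mul_one]
        module
      rw [e1, hCH] at hB
      have h0 := sub_eq_zero.2 hB
      rw [← h0]
      module
    obtain ⟨hE1, hE2⟩ := indep A hsc _ _ hexp
    by_cases hv : v = 0
    · subst hv
      rw [zero_smul, add_zero] at huv
      have hu0 : u ≠ 0 := by
        rintro rfl
        have hd : (A ^ Fintype.card F).det = 1 := by rw [Matrix.det_pow, hdet, one_pow]
        rw [huv] at hd
        simp at hd
      have h1 : orderOf g ∣ Fintype.card F * (Fintype.card F - 1) := by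
        apply hdvd
        rw [pow_mul, huv, smul_pow, one_pow, FiniteField.pow_card_sub_one_eq_one u hu0, one_smul]
      left
      have hcop : Nat.Coprime (orderOf g) (Fintype.card F) := by
        rw [hf]
        exact Nat.Coprime.pow_right _ hg
      exact hcop.dvd_of_dvd_mul_left h1
    · have hE2' : 2 * u + v * t - t = 0 := (mul_eq_zero.1 hE2).resolve_left hv
      by_cases ht4 : t * t = 4
      · obtain ⟨ε, hε1, hε2⟩ : ∃ ε : F, ε * ε = 1 ∧ 2 * ε = t := by
          by_cases h2 : (2 : F) = 0
          · refine ⟨1, by ring, ?_⟩
            have h4 : (4 : F) = 0 := by linear_combination (2 : F) * h2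
            rw [h4] at ht4
            rw [h2, zero_mul]
            exact (mul_self_eq_zero.1 ht4).symm
          · refine ⟨t / 2, ?_, by field_simp⟩
            field_simp
            linear_combination ht4
        have hN : (A - ε • (1 : Matrix (Fin 2) (Fin 2) F)) * (A - ε • (1 : Matrix (Fin 2) (Fin 2) F)) = 0 := by
          have e2 : (A - ε • (1 : Matrix (Fin 2) (Fin 2) F)) * (A - ε • (1 : Matrix (Fin 2) (Fin 2) F)) =
              A * A - (2 * ε) • A + (ε * ε) • (1 : Matrix (Fin 2) (Fin 2) F) := by
            simp only [sub_mul, mul_sub, smul_mul_smul_comm, Matrix.one_mul, Matrix.mul_one,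
              Matrix.smul_mul, Matrix.mul_smul]
            module
          rw [e2, hCH, hε1, hε2]
          module
        have hAp : A ^ p = (ε ^ p) • (1 : Matrix (Fin 2) (Fin 2) F) := by
          have e3 : A = ε • (1 : Matrix (Fin 2) (Fin 2) F) + (A - ε • (1 : Matrix (Fin 2) (Fin 2) F)) := by
            abel
          haveI : CharP (Matrix (Fin 2) (Fin 2) F) p := Matrix.charP p
          have hc : Commute (ε • (1 : Matrix (Fin 2) (Fin 2) F)) (A - ε • (1 : Matrix (Fin 2) (Fin 2) F)) :=
            (Commute.one_left _).smul_left ε
          have hNp : (A - ε • (1 : Matrix (Fin 2) (Fin 2) F)) ^ p = 0 :=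
            pow_eq_zero_of_le hp.two_le (by rw [pow_two]; exact hN)
          have e4 := add_pow_char_of_commute p hc
          rw [← e3, smul_pow, one_pow, hNp, add_zero] at e4
          exact e4
        have h2p : orderOf g ∣ 2 * p := by
          apply hdvd
          rw [mul_comm, pow_mul, hAp, smul_pow, one_pow, ← pow_mul, mul_comm p 2, pow_mul, pow_two,
            hε1, one_pow, one_smul]
        have h2 : orderOf g ∣ 2 := hg.dvd_of_dvd_mul_right h2p
        rcases (Nat.dvd_prime Nat.prime_two).1 h2 with h | h
        · left
          rw [h]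
          exact one_dvd _
        · right
          have hp2 : p ≠ 2 := by
            rintro rfl
            rw [h] at hg
            norm_num at hg
          have hodd : Odd (Fintype.card F) := by
            rw [hf]
            exact (hp.odd_of_ne_two hp2).pow
          rw [h]
          exact hodd.add_one.two_dvd
      · have hfin : (u = 0 ∧ v = 1) ∨ (u = t ∧ v = -1) := by
          by_cases h2 : (2 : F) = 0
          · have ht0 : t ≠ 0 := by
              intro h0
              apply ht4
              rw [h0]
              linear_combination (-2 : F) * h2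
            have hv1 : v = 1 := by
              have h3 : t * (v - 1) = 0 := by linear_combination hE2' - u * h2
              exact sub_eq_zero.1 ((mul_eq_zero.1 h3).resolve_left ht0)
            subst hv1
            have h3 : u * (u - t) = 0 := by linear_combination hE1
            rcases mul_eq_zero.1 h3 with h | h
            · left
              exact ⟨h, rfl⟩
            · right
              exact ⟨sub_eq_zero.1 h, by linear_combination h2⟩
          · have h4 : (1 - v ^ 2) * (4 - t * t) = 0 := by
              linear_combination 4 * hE1 - (2 * u + v * t - t - 2 * t * v) * hE2'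
            have h4t : (4 - t * t) ≠ 0 := sub_ne_zero.2 (Ne.symm ht4)
            have hv2 : (1 - v) * (1 + v) = 0 := by
              have h5 := (mul_eq_zero.1 h4).resolve_right h4t
              linear_combination h5
            rcases mul_eq_zero.1 hv2 with h | h
            · have hv1 : v = 1 := by linear_combination -h
              left
              refine ⟨?_, hv1⟩
              have h6 : 2 * u = 0 := by
                rw [hv1] at hE2'
                linear_combination hE2'
              exact (mul_eq_zero.1 h6).resolve_left h2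
            · have hv1 : v = -1 := by linear_combination h
              right
              refine ⟨?_, hv1⟩
              have h6 : 2 * (u - t) = 0 := by
                rw [hv1] at hE2'
                linear_combination hE2'
              exact sub_eq_zero.1 ((mul_eq_zero.1 h6).resolve_left h2)
        rcases hfin with ⟨hu, hv1⟩ | ⟨hu, hv1⟩
        · left
          apply hdvd
          rw [hu, hv1, zero_smul, zero_add, one_smul] at huv
          have hq : Fintype.card F - 1 + 1 = Fintype.card F :=
            Nat.succ_pred_eq_of_pos Fintype.card_pos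
          calc A ^ (Fintype.card F - 1)
              = A ^ (Fintype.card F - 1) * (A * (t • (1 : Matrix (Fin 2) (Fin 2) F) - A)) := by
                rw [hinv, mul_one]
            _ = A ^ Fintype.card F * (t • (1 : Matrix (Fin 2) (Fin 2) F) - A) := by
                rw [← mul_assoc, ← pow_succ, hq]
            _ = 1 := by rw [huv, hinv]
        · right
          apply hdvd
          rw [hu, hv1, neg_smul, one_smul] at huv
          rw [pow_succ', huv, ← sub_eq_add_neg, hinv]

end Cfsg.Agent.S0800
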