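import Cfsg.Statements.S0261
import Mathlib
import Cfsg.Agent.S0016
import Cfsg.Agent.S0268
import Cfsg.Agent.S0800
import Cfsg.Agent.S0262

set_option autoImplicit false
open Cfsg

namespace Cfsg.Agent.S0261

/-- For q odd, the Sylow 2-subgroups of SL_2(q) are generalised quaternion. -/
theorem result {F : Type*} [Field F] [Fintype F] (hF : Odd (Fintype.card F)) (P : Sylow 2 (Matrix.SpecialLinearGroup (Fin 2) F)) : ∃ k : ℕ, 1 ≤ k ∧ Nonempty ((P : Subgroup (Matrix.SpecialLinearGroup (Fin 2) F)) ≃* QuaternionGroup (2 ^ k)) := by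
  classical
  have hp : (ringChar F).Prime := CharP.char_is_prime F (ringChar F)
  haveI : Fact (ringChar F).Prime := ⟨hp⟩
  obtain ⟨f, -, hf⟩ := FiniteField.card F (ringChar F)
  have hp2 : ringChar F ≠ 2 := by
    intro h2
    rw [hf, h2] at hF
    have : Even (2 ^ (f : ℕ)) := (Nat.even_pow.2 ⟨even_two, f.ne_zero⟩)
    exact (Nat.not_even_iff_odd.2 hF) this
  -- uniqueness of the involution
  have hinv : ∀ a b : (P : Subgroup (Matrix.SpecialLinearGroup (Fin 2) F)),
      a ≠ 1 → a * a = 1 → b ≠ 1 → b * b = 1 → a = b := by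
    intro a b ha1 ha2 hb1 hb2
    have h1 := Cfsg.Agent.S0268.result hF a.1 (fun h => ha1 (Subtype.ext h))
      (congrArg Subtype.val ha2)
    have h2 := Cfsg.Agent.S0268.result hF b.1 (fun h => hb1 (Subtype.ext h))
      (congrArg Subtype.val hb2)
    exact Subtype.ext (Subtype.ext (h1.trans h2.symm))
  have hsub : ∀ H K : Subgroup (P : Subgroup (Matrix.SpecialLinearGroup (Fin 2) F)),
      Nat.card H = 2 → Nat.card K = 2 → H ≤ K := by
    intro H K hH hK
    have hKne : K ≠ ⊥ := by
      intro h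
      rw [h, Subgroup.card_bot] at hK
      norm_num at hK
    obtain ⟨⟨k, hkK⟩, hk1'⟩ := (Subgroup.ne_bot_iff_exists_ne_one).1 hKne
    have hk1 : k ≠ 1 := fun h => hk1' (Subtype.ext h)
    have hk2 : (k : (P : Subgroup (Matrix.SpecialLinearGroup (Fin 2) F))) *
        (k : (P : Subgroup (Matrix.SpecialLinearGroup (Fin 2) F))) = 1 := by
      have h3 : (⟨k, hkK⟩ : K) ^ Nat.card K = 1 := pow_card_eq_one'
      rw [hK, pow_two] at h3
      exact congrArg Subtype.val h3
    intro x hx
    by_cases hx1 : x = 1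
    · rw [hx1]
      exact one_mem K
    · have hx2 : x * x = 1 := by
        have h3 : (⟨x, hx⟩ : H) ^ Nat.card H = 1 := pow_card_eq_one'
        rw [hH, pow_two] at h3
        exact congrArg Subtype.val h3
      rw [hinv x k hx1 hx2 hk1 hk2]
      exact hkK
  have huniq : ∀ H K : Subgroup (P : Subgroup (Matrix.SpecialLinearGroup (Fin 2) F)),
      Nat.card H = 2 → Nat.card K = 2 → H = K :=
    fun H K hH hK => le_antisymm (hsub H K hH hK) (hsub K H hK hH)
  -- not cyclic
  have hnc : ¬ IsCyclic (P : Subgroup (Matrix.SpecialLinearGroup (Fin 2) F)) := by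
    intro hc
    obtain ⟨x, hx⟩ := hc.exists_generator
    have hox : orderOf x = Nat.card (P : Subgroup (Matrix.SpecialLinearGroup (Fin 2) F)) :=
      orderOf_eq_card_of_forall_mem_zpowers hx
    obtain ⟨k, hk⟩ := IsPGroup.iff_card.1 P.isPGroup'
    have hox' : orderOf (x : Matrix.SpecialLinearGroup (Fin 2) F) = 2 ^ k := by
      rw [Subgroup.orderOf_coe, hox, hk]
    have hcop : Nat.Coprime (orderOf (x : Matrix.SpecialLinearGroup (Fin 2) F)) (ringChar F) := by
      rw [hox']
      exact Nat.Coprime.pow_left k ((Nat.coprime_primes Nat.prime_two hp).2 (Ne.symm hp2))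
    have h800 := Cfsg.Agent.S0800.result (F := F) rfl (ringChar F)
      (x : Matrix.SpecialLinearGroup (Fin 2) F) hcop
    rw [hox'] at h800
    have hidx := Subgroup.index_mul_card (P : Subgroup (Matrix.SpecialLinearGroup (Fin 2) F))
    rw [hk, Cfsg.Agent.S0262.card_SL2] at hidx
    have hnd := P.not_dvd_index
    obtain ⟨m, hm⟩ := hF
    rw [hm] at hidx h800
    have e1 : (2 * m + 1) ^ 2 - 1 = (2 * m + 1 - 1) * (2 * m + 1 + 1) := by
      have h3 : 2 * m + 1 - 1 = 2 * m := by omega
      rw [h3]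
      have : (2 * m + 1) ^ 2 = 2 * m * (2 * m + 1 + 1) + 1 := by ring
      omega
    rw [e1] at hidx
    apply hnd
    rcases h800 with ⟨c, hc⟩ | ⟨c, hc⟩
    · rw [hc] at hidx
      have h5 : (P : Subgroup (Matrix.SpecialLinearGroup (Fin 2) F)).index =
          (2 * m + 1) * c * (2 * m + 1 + 1) := by
        apply Nat.eq_of_mul_eq_mul_right (show 0 < 2 ^ k by positivity)
        rw [hidx]
        ring
      rw [h5]
      exact ⟨(2 * m + 1) * c * (m + 1), by ring⟩
    · rw [hc] at hidx
      have h5 : (P : Subgroup (Matrix.SpecialLinearGroup (Fin 2) F)).index =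
          (2 * m + 1) * (2 * m + 1 - 1) * c := by
        apply Nat.eq_of_mul_eq_mul_right (show 0 < 2 ^ k by positivity)
        rw [hidx]
        ring
      rw [h5]
      have h3 : 2 * m + 1 - 1 = 2 * m := by omega
      rw [h3]
      exact ⟨(2 * m + 1) * m * c, by ring⟩
  rcases Cfsg.Agent.S0016.result 2 P.isPGroup' huniq with h | ⟨-, n, ⟨e⟩⟩
  · exact absurd h hnc
  · refine ⟨n, ?_, ⟨e⟩⟩
    by_contra hn
    have hn0 : n = 0 := by omega
    subst hn0
    apply hnc
    haveI : IsCyclic (QuaternionGroup (2 ^ 0)) := QuaternionGroup.quaternionGroup_one_isCyclic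
    exact isCyclic_of_injective e.toMonoidHom e.injective

end Cfsg.Agent.S0261
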