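import Cfsg.Statements.S0264
import Mathlib
import Cfsg.Agent.Helper4.SLn

set_option autoImplicit false
open Cfsg

namespace Cfsg.Agent.S0264

open Matrix Matrix.SpecialLinearGroup in
open scoped commutatorElement in
theorem gl2_comm {F : Type*} [Field F] (a : F) (ha0 : a ≠ 0) (b : F)
    (h01 : (0 : Fin 2) ≠ 1) (h10 : (1 : Fin 2) ≠ 0) :
    ∃ D : GeneralLinearGroup (Fin 2) F,
      ⁅D, toGL (transvection h01 b)⁆ = toGL (transvection h01 ((a - 1) * b)) ∧
      ⁅D, toGL (transvection h10 b)⁆ = toGL (transvection h10 ((a⁻¹ - 1) * b)) := by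
  refine ⟨⟨!![a, 0; 0, 1], !![a⁻¹, 0; 0, 1], ?_, ?_⟩, ?_, ?_⟩
  · ext i j
    fin_cases i <;> fin_cases j <;> simp [Matrix.mul_apply, Fin.sum_univ_two, ha0]
  · ext i j
    fin_cases i <;> fin_cases j <;> simp [Matrix.mul_apply, Fin.sum_univ_two, ha0]
  · rw [commutatorElement_def, ← map_inv, transvection_inv]
    apply Units.ext
    show (!![a, 0; 0, 1] : Matrix (Fin 2) (Fin 2) F) * (transvection h01 b).1 * !![a⁻¹, 0; 0, 1] *
      (transvection h01 (-b)).1 = (transvection h01 ((a - 1) * b)).1
    simp only [transvection_coe]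
    ext i j
    fin_cases i <;> fin_cases j <;> simp only [Matrix.mul_apply, Fin.sum_univ_two] <;>
      simp [Matrix.single_apply, Matrix.one_apply, ha0] <;> ring
  · rw [commutatorElement_def, ← map_inv, transvection_inv]
    apply Units.ext
    show (!![a, 0; 0, 1] : Matrix (Fin 2) (Fin 2) F) * (transvection h10 b).1 * !![a⁻¹, 0; 0, 1] *
      (transvection h10 (-b)).1 = (transvection h10 ((a⁻¹ - 1) * b)).1
    simp only [transvection_coe]
    ext i j
    fin_cases i <;> fin_cases j <;> simp only [Matrix.mul_apply, Fin.sum_univ_two] <;>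
      simp [Matrix.single_apply, Matrix.one_apply, ha0] <;> ring

/-- GL_n(F)' = SL_n(F) (as the kernel of det), for every field F and every n, except n = 2 over the field of two elements. -/
theorem result {F : Type*} [Field F] (n : ℕ) (h : n = 2 → ∃ a : F, a ≠ 0 ∧ a ≠ 1) : commutator (Matrix.GeneralLinearGroup (Fin n) F) = (Matrix.GeneralLinearGroup.det : Matrix.GeneralLinearGroup (Fin n) F →* Fˣ).ker := by
  classical
  refine le_antisymm (Abelianization.commutator_subset_ker _) ?_
  intro g hg
  rw [MonoidHom.mem_ker] at hg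
  have hdet : (g : Matrix (Fin n) (Fin n) F).det = 1 := by
    have := congrArg Units.val hg
    simpa using this
  rcases Nat.lt_or_ge n 2 with hn | hn
  · have hsub : Subsingleton (Fin n) := Fin.subsingleton_iff_le_one.2 (by omega)
    have hg1 : g = 1 := by
      apply Units.ext
      ext i j
      have hij : i = j := Subsingleton.elim i j
      subst hij
      rw [Matrix.det_eq_elem_of_subsingleton _ i] at hdet
      simp [hdet]
    rw [hg1]
    exact one_mem _
  · haveI : Nontrivial (Fin n) := Fin.nontrivial_iff_two_le.2 hn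
    have hg' : g = Matrix.SpecialLinearGroup.toGL ⟨(g : Matrix (Fin n) (Fin n) F), hdet⟩ := by
      apply Units.ext
      rfl
    rw [hg']
    have ht : ∀ {i j : Fin n} (hij : i ≠ j) (c : F),
        Matrix.SpecialLinearGroup.toGL
          (Matrix.SpecialLinearGroup.transvection hij c : Matrix.SpecialLinearGroup (Fin n) F) ∈
          commutator (Matrix.GeneralLinearGroup (Fin n) F) := by
      intro i j hij c
      rcases Nat.lt_or_ge n 3 with h3 | h3
      · have hn2 : n = 2 := by omega
        subst hn2
        obtain ⟨a, ha0, ha1⟩ := h rfl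
        fin_cases i
        · obtain rfl : j = 1 := by fin_cases j <;> tauto
          obtain ⟨D, hD, -⟩ := gl2_comm a ha0 (c / (a - 1)) (by decide) (by decide)
          rw [mul_div_cancel₀ c (sub_ne_zero_of_ne ha1)] at hD
          rw [← hD]
          exact Subgroup.commutator_mem_commutator (Subgroup.mem_top _) (Subgroup.mem_top _)
        · obtain rfl : j = 0 := by fin_cases j <;> tauto
          have ha1' : a⁻¹ - 1 ≠ 0 := by
            intro h0
            apply ha1
            have : a⁻¹ = 1 := sub_eq_zero.1 h0
            exact inv_eq_one.1 this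
          obtain ⟨D, -, hD⟩ := gl2_comm a ha0 (c / (a⁻¹ - 1)) (by decide) (by decide)
          rw [mul_div_cancel₀ c ha1'] at hD
          rw [← hD]
          exact Subgroup.commutator_mem_commutator (Subgroup.mem_top _) (Subgroup.mem_top _)
      · obtain ⟨t1, t2, ht12⟩ := Cfsg.Agent.Helper4.transvection_mem_commutatorSet_of_third
          (F := F) (fun i j _ => Cfsg.Agent.Helper4.exists_third h3 i j) hij c
        rw [← ht12, map_commutatorElement]
        exact Subgroup.commutator_mem_commutator (Subgroup.mem_top _) (Subgroup.mem_top _)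
    refine Matrix.SpecialLinearGroup.diagonal_transvection_induction'
      (fun M => Matrix.SpecialLinearGroup.toGL M ∈
        commutator (Matrix.GeneralLinearGroup (Fin n) F)) _ ?_ ?_ ?_
    · intro i j hij c hc
      show Matrix.SpecialLinearGroup.toGL (Matrix.SpecialLinearGroup.diag2n hij c hc) ∈ _
      rw [Cfsg.Agent.Helper4.diag2n_eq_transvections hij c hc]
      simp only [map_mul]
      exact mul_mem (mul_mem (mul_mem (ht _ _) (ht _ _)) (ht _ _))
        (mul_mem (mul_mem (ht _ _) (ht _ _)) (ht _ _))
    · intro i j hij a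
      exact ht hij a
    · intro A B hA hB
      show Matrix.SpecialLinearGroup.toGL (A * B) ∈ _
      rw [map_mul]
      exact mul_mem hA hB

end Cfsg.Agent.S0264
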