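import Cfsg.Statements.S0265
import Mathlib
import Cfsg.Agent.Helper1.LinearCard

set_option autoImplicit false
open Cfsg

namespace Cfsg.Agent.S0265

/-- |PGL_n(q)| = |SL_n(q)|: GL_n modulo its centre (the q-1 non-zero scalars) has the same order as the kernel of det. -/
theorem result {F : Type*} [Field F] [Fintype F] (n : ℕ) : Nat.card (Matrix.ProjGenLinGroup (Fin n) F) = Nat.card (Matrix.SpecialLinearGroup (Fin n) F) := by
  rcases Nat.eq_zero_or_pos n with rfl | hn
  · have h1 : Subsingleton (Matrix.GeneralLinearGroup (Fin 0) F) :=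
      ⟨fun a b => Units.ext (Subsingleton.elim _ _)⟩
    have h2 : Subsingleton (Matrix.SpecialLinearGroup (Fin 0) F) :=
      ⟨fun a b => Subtype.ext (Subsingleton.elim _ _)⟩
    have h3 : Subsingleton (Matrix.ProjGenLinGroup (Fin 0) F) := by
      constructor
      intro a b
      obtain ⟨a', rfl⟩ := Matrix.ProjGenLinGroup.mk_surjective a
      obtain ⟨b', rfl⟩ := Matrix.ProjGenLinGroup.mk_surjective b
      rw [Subsingleton.elim a' b']
    rw [Nat.card_of_subsingleton (1 : Matrix.ProjGenLinGroup (Fin 0) F),
      Nat.card_of_subsingleton (1 : Matrix.SpecialLinearGroup (Fin 0) F)]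
  · have h1 := Subgroup.card_eq_card_quotient_mul_card_subgroup
      (Subgroup.center (Matrix.GeneralLinearGroup (Fin n) F))
    rw [Cfsg.Agent.Helper1.card_center_GL n hn, Cfsg.Agent.Helper1.card_GL_eq_mul_card_SL n hn]
      at h1
    have hq : 0 < Fintype.card F - 1 := by
      have := Fintype.one_lt_card (α := F)
      omega
    have e : Nat.card (Matrix.ProjGenLinGroup (Fin n) F) =
        Nat.card (Matrix.GeneralLinearGroup (Fin n) F ⧸
          Subgroup.center (Matrix.GeneralLinearGroup (Fin n) F)) := rfl
    rw [e]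
    apply Nat.eq_of_mul_eq_mul_left hq
    rw [h1, mul_comm]


end Cfsg.Agent.S0265
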