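import Cfsg.Statements.S0266
import Mathlib

set_option autoImplicit false
open scoped MatrixGroups
open Cfsg

namespace Cfsg.Agent.S0266

open Matrix

section pgl2

variable {F : Type*} [Field F]

/-- The `2 × 2` determinant of two vectors. -/
def dd (x y : Fin 2 → F) : F := x 0 * y 1 - x 1 * y 0

lemma dd_ne (x y : Fin 2 → F) (hx : x ≠ 0) (hy : y ≠ 0)
    (h : Projectivization.mk F x hx ≠ Projectivization.mk F y hy) : dd x y ≠ 0 := by
  intro h0
  apply h
  rw [Projectivization.mk_eq_mk_iff']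
  unfold dd at h0
  by_cases hy0 : y 0 = 0
  · have hy1 : y 1 ≠ 0 := by
      intro h1; apply hy; ext i; fin_cases i
      · exact hy0
      · exact h1
    have hx0 : x 0 = 0 := by
      have h2 : x 0 * y 1 = 0 := by rw [hy0] at h0; linear_combination h0
      rcases mul_eq_zero.mp h2 with h3 | h3
      · exact h3
      · exact absurd h3 hy1
    refine ⟨x 1 / y 1, ?_⟩
    ext i; fin_cases i
    · show x 1 / y 1 * y 0 = x 0
      rw [hx0, hy0, mul_zero]
    · show x 1 / y 1 * y 1 = x 1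
      field_simp
  · refine ⟨x 0 / y 0, ?_⟩
    ext i; fin_cases i
    · show x 0 / y 0 * y 0 = x 0
      field_simp
    · show x 0 / y 0 * y 1 = x 1
      field_simp
      linear_combination h0

lemma cramer (x y z : Fin 2 → F) : dd x y • z = dd z y • x + dd x z • y := by
  ext i; fin_cases i
  · show dd x y * z 0 = dd z y * x 0 + dd x z * y 0
    unfold dd; ring
  · show dd x y * z 1 = dd z y * x 1 + dd x z * y 1
    unfold dd; ring

lemma e0_ne : (![1, 0] : Fin 2 → F) ≠ 0 := by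
  intro h; have := congrFun h 0; simp at this

lemma e1_ne : (![0, 1] : Fin 2 → F) ≠ 0 := by
  intro h; have := congrFun h 1; simp at this

lemma e2_ne : (![1, 1] : Fin 2 → F) ≠ 0 := by
  intro h; have := congrFun h 0; simp at this

lemma gl_smul (g : GL (Fin 2) F) (v : Fin 2 → F) :
    g • v = (g : Matrix (Fin 2) (Fin 2) F) *ᵥ v := rfl

lemma exists_std (p0 p1 p2 : Projectivization F (Fin 2 → F)) (h01 : p0 ≠ p1) (h02 : p0 ≠ p2)
    (h12 : p1 ≠ p2) :
    ∃ h : Matrix.ProjGenLinGroup (Fin 2) F,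
      h • Projectivization.mk F (![1, 0] : Fin 2 → F) e0_ne = p0 ∧
      h • Projectivization.mk F (![0, 1] : Fin 2 → F) e1_ne = p1 ∧
      h • Projectivization.mk F (![1, 1] : Fin 2 → F) e2_ne = p2 := by
  induction p0 using Projectivization.ind with | _ u0 hu0 =>
  induction p1 using Projectivization.ind with | _ u1 hu1 =>
  induction p2 using Projectivization.ind with | _ u2 hu2 =>
  have hD := dd_ne u0 u1 hu0 hu1 h01
  have hα := dd_ne u2 u1 hu2 hu1 (Ne.symm h12)
  have hβ := dd_ne u0 u2 hu0 hu2 h02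
  have hdet : (!![dd u2 u1 * u0 0, dd u0 u2 * u1 0; dd u2 u1 * u0 1, dd u0 u2 * u1 1] :
      Matrix (Fin 2) (Fin 2) F).det ≠ 0 := by
    rw [Matrix.det_fin_two_of]
    have : dd u2 u1 * u0 0 * (dd u0 u2 * u1 1) - dd u0 u2 * u1 0 * (dd u2 u1 * u0 1) =
        dd u2 u1 * dd u0 u2 * dd u0 u1 := by unfold dd; ring
    rw [this]
    exact mul_ne_zero (mul_ne_zero hα hβ) hD
  have hval : ((Matrix.GeneralLinearGroup.mkOfDetNeZero _ hdet : GL (Fin 2) F) :
      Matrix (Fin 2) (Fin 2) F) =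
      !![dd u2 u1 * u0 0, dd u0 u2 * u1 0; dd u2 u1 * u0 1, dd u0 u2 * u1 1] := rfl
  refine ⟨Matrix.ProjGenLinGroup.mk (Matrix.GeneralLinearGroup.mkOfDetNeZero _ hdet), ?_, ?_, ?_⟩
  · rw [Projectivization.PGL.mk_smul_mk, Projectivization.mk_eq_mk_iff']
    refine ⟨dd u2 u1, ?_⟩
    rw [gl_smul, hval]
    ext i; fin_cases i <;> simp [Matrix.mulVec, dotProduct, Fin.sum_univ_two]
  · rw [Projectivization.PGL.mk_smul_mk, Projectivization.mk_eq_mk_iff']
    refine ⟨dd u0 u2, ?_⟩
    rw [gl_smul, hval]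
    ext i; fin_cases i <;> simp [Matrix.mulVec, dotProduct, Fin.sum_univ_two]
  · rw [Projectivization.PGL.mk_smul_mk, Projectivization.mk_eq_mk_iff']
    refine ⟨dd u0 u1, ?_⟩
    rw [gl_smul, hval, cramer u0 u1 u2]
    ext i; fin_cases i <;> simp [Matrix.mulVec, dotProduct, Fin.sum_univ_two]

lemma fix_std (g : Matrix.ProjGenLinGroup (Fin 2) F)
    (h0 : g • Projectivization.mk F (![1, 0] : Fin 2 → F) e0_ne = Projectivization.mk F (![1, 0] : Fin 2 → F) e0_ne)
    (h1 : g • Projectivization.mk F (![0, 1] : Fin 2 → F) e1_ne = Projectivization.mk F (![0, 1] : Fin 2 → F) e1_ne)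
    (h2 : g • Projectivization.mk F (![1, 1] : Fin 2 → F) e2_ne = Projectivization.mk F (![1, 1] : Fin 2 → F) e2_ne) :
    g = 1 := by
  induction g using Matrix.ProjGenLinGroup.induction_on with | mk M =>
  rw [Projectivization.PGL.mk_smul_mk, Projectivization.mk_eq_mk_iff'] at h0 h1 h2
  obtain ⟨a0, ha0⟩ := h0
  obtain ⟨a1, ha1⟩ := h1
  obtain ⟨a2, ha2⟩ := h2
  rw [gl_smul] at ha0 ha1 ha2
  have e00 : a0 = (M : Matrix (Fin 2) (Fin 2) F) 0 0 := by
    have := congrFun ha0 0
    simpa [Matrix.mulVec, dotProduct, Fin.sum_univ_two] using this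
  have e10 : 0 = (M : Matrix (Fin 2) (Fin 2) F) 1 0 := by
    have := congrFun ha0 1
    simpa [Matrix.mulVec, dotProduct, Fin.sum_univ_two] using this
  have e01 : 0 = (M : Matrix (Fin 2) (Fin 2) F) 0 1 := by
    have := congrFun ha1 0
    simpa [Matrix.mulVec, dotProduct, Fin.sum_univ_two] using this
  have e11 : a1 = (M : Matrix (Fin 2) (Fin 2) F) 1 1 := by
    have := congrFun ha1 1
    simpa [Matrix.mulVec, dotProduct, Fin.sum_univ_two] using this
  have e2a : a2 = (M : Matrix (Fin 2) (Fin 2) F) 0 0 + (M : Matrix (Fin 2) (Fin 2) F) 0 1 := by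
    have := congrFun ha2 0
    simpa [Matrix.mulVec, dotProduct, Fin.sum_univ_two] using this
  have e2b : a2 = (M : Matrix (Fin 2) (Fin 2) F) 1 0 + (M : Matrix (Fin 2) (Fin 2) F) 1 1 := by
    have := congrFun ha2 1
    simpa [Matrix.mulVec, dotProduct, Fin.sum_univ_two] using this
  rw [Matrix.ProjGenLinGroup.mk_eq_one,
    Matrix.GeneralLinearGroup.mem_center_iff_val_mem_range_scalar]
  refine ⟨a0, ?_⟩
  ext i j
  fin_cases i <;> fin_cases j
  · show Matrix.scalar (Fin 2) a0 0 0 = (M : Matrix (Fin 2) (Fin 2) F) 0 0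
    simp [e00]
  · show Matrix.scalar (Fin 2) a0 0 1 = (M : Matrix (Fin 2) (Fin 2) F) 0 1
    simp [← e01]
  · show Matrix.scalar (Fin 2) a0 1 0 = (M : Matrix (Fin 2) (Fin 2) F) 1 0
    simp [← e10]
  · show Matrix.scalar (Fin 2) a0 1 1 = (M : Matrix (Fin 2) (Fin 2) F) 1 1
    have : a0 = (M : Matrix (Fin 2) (Fin 2) F) 1 1 := by
      rw [e00]; linear_combination e2b - e2a + e01 - e10
    simp [← this]

end pgl2

/-- PGL_2(F) is sharply 3-transitive on the projective line: it is 3-transitive and the stabiliser of three distinct points is trivial. -/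
theorem result {F : Type*} [Field F] : MulAction.IsMultiplyPretransitive (Matrix.ProjGenLinGroup (Fin 2) F) (Projectivization F (Fin 2 → F)) 3 ∧ ∀ (g : Matrix.ProjGenLinGroup (Fin 2) F) (a b c : Projectivization F (Fin 2 → F)), a ≠ b → a ≠ c → b ≠ c → g • a = a → g • b = b → g • c = c → g = 1 := by
  classical
  refine ⟨?_, ?_⟩
  · rw [MulAction.isMultiplyPretransitive_iff]
    intro x y
    have hx : ∀ i j : Fin 3, i ≠ j → x i ≠ x j := fun i j hij h => hij (x.injective h)
    have hy : ∀ i j : Fin 3, i ≠ j → y i ≠ y j := fun i j hij h => hij (y.injective h)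
    obtain ⟨hX, hX0, hX1, hX2⟩ := exists_std (x 0) (x 1) (x 2) (hx 0 1 (by decide))
      (hx 0 2 (by decide)) (hx 1 2 (by decide))
    obtain ⟨hY, hY0, hY1, hY2⟩ := exists_std (y 0) (y 1) (y 2) (hy 0 1 (by decide))
      (hy 0 2 (by decide)) (hy 1 2 (by decide))
    refine ⟨hY * hX⁻¹, ?_⟩
    ext i
    show (hY * hX⁻¹) • x i = y i
    fin_cases i
    · show (hY * hX⁻¹) • x 0 = y 0
      rw [mul_smul, ← hX0, inv_smul_smul, hY0]
    · show (hY * hX⁻¹) • x 1 = y 1
      rw [mul_smul, ← hX1, inv_smul_smul, hY1]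
    · show (hY * hX⁻¹) • x 2 = y 2
      rw [mul_smul, ← hX2, inv_smul_smul, hY2]
  · intro g a b c hab hac hbc ha hb hc
    obtain ⟨h, h0, h1, h2⟩ := exists_std a b c hab hac hbc
    have key : h⁻¹ * g * h = 1 := by
      apply fix_std
      · rw [mul_smul, mul_smul, h0, ha, ← h0, inv_smul_smul]
      · rw [mul_smul, mul_smul, h1, hb, ← h1, inv_smul_smul]
      · rw [mul_smul, mul_smul, h2, hc, ← h2, inv_smul_smul]
    have : g = h * (h⁻¹ * g * h) * h⁻¹ := by group
    rw [this, key]; group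

end Cfsg.Agent.S0266
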