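import Cfsg.Statements.S0267
import Mathlib
import Cfsg.Agent.S0266

set_option autoImplicit false
open Cfsg

namespace Cfsg.Agent.S0267

open Matrix

section sl2

variable {F : Type*} [Field F]

lemma mk_ne_of_dd (v w : Fin 2 → F) (hv : v ≠ 0) (hw : w ≠ 0)
    (hd : Cfsg.Agent.S0266.dd v w ≠ 0) :
    Projectivization.mk F v hv ≠ Projectivization.mk F w hw := by
  intro h
  rw [Projectivization.mk_eq_mk_iff'] at h
  obtain ⟨a, ha⟩ := h
  apply hd
  rw [← ha]
  show a * w 0 * w 1 - a * w 1 * w 0 = 0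
  ring

lemma inj3 {α : Type*} (f : Fin 3 → α) (h01 : f 0 ≠ f 1) (h02 : f 0 ≠ f 2) (h12 : f 1 ≠ f 2) :
    Function.Injective f := by
  intro i j hij
  fin_cases i <;> fin_cases j <;>
    first
    | rfl
    | (exfalso; exact h01 hij)
    | (exfalso; exact h02 hij)
    | (exfalso; exact h12 hij)
    | (exfalso; exact h01 hij.symm)
    | (exfalso; exact h02 hij.symm)
    | (exfalso; exact h12 hij.symm)

lemma sl_smul (g : Matrix.SpecialLinearGroup (Fin 2) F) (v : Fin 2 → F) :
    g • v = (g : Matrix (Fin 2) (Fin 2) F) *ᵥ v := rfl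

end sl2

/-- SL_2(q) is 3-transitive on the q+1 points of the projective line if and only if q is even. -/
theorem result {F : Type*} [Field F] [Fintype F] : MulAction.IsMultiplyPretransitive (Matrix.SpecialLinearGroup (Fin 2) F) (Projectivization F (Fin 2 → F)) 3 ↔ ringChar F = 2 := by
  classical
  constructor
  · intro h3
    by_contra hchar
    obtain ⟨δ, hδ⟩ := FiniteField.exists_nonsquare hchar
    have hδ0 : δ ≠ 0 := by
      rintro rfl; exact hδ ⟨0, by simp⟩
    rw [MulAction.isMultiplyPretransitive_iff] at h3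
    have hd_ne : (![1, δ] : Fin 2 → F) ≠ 0 := by
      intro h; have := congrFun h 0; simp at this
    have hfx : Function.Injective (![Projectivization.mk F (![1, 0] : Fin 2 → F) Cfsg.Agent.S0266.e0_ne,
        Projectivization.mk F (![0, 1] : Fin 2 → F) Cfsg.Agent.S0266.e1_ne,
        Projectivization.mk F (![1, 1] : Fin 2 → F) Cfsg.Agent.S0266.e2_ne] :
        Fin 3 → Projectivization F (Fin 2 → F)) := by
      apply inj3
      · exact mk_ne_of_dd _ _ _ _ (by simp [Cfsg.Agent.S0266.dd])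
      · exact mk_ne_of_dd _ _ _ _ (by simp [Cfsg.Agent.S0266.dd])
      · exact mk_ne_of_dd _ _ _ _ (by simp [Cfsg.Agent.S0266.dd])
    have hfy : Function.Injective (![Projectivization.mk F (![1, 0] : Fin 2 → F) Cfsg.Agent.S0266.e0_ne,
        Projectivization.mk F (![0, 1] : Fin 2 → F) Cfsg.Agent.S0266.e1_ne,
        Projectivization.mk F (![1, δ] : Fin 2 → F) hd_ne] :
        Fin 3 → Projectivization F (Fin 2 → F)) := by
      apply inj3
      · exact mk_ne_of_dd _ _ _ _ (by simp [Cfsg.Agent.S0266.dd])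
      · exact mk_ne_of_dd _ _ _ _ (by simp [Cfsg.Agent.S0266.dd, hδ0])
      · exact mk_ne_of_dd _ _ _ _ (by simp [Cfsg.Agent.S0266.dd])
    obtain ⟨S, hS⟩ := h3 ⟨_, hfx⟩ ⟨_, hfy⟩
    have h0 : S • Projectivization.mk F (![1, 0] : Fin 2 → F) Cfsg.Agent.S0266.e0_ne =
        Projectivization.mk F (![1, 0] : Fin 2 → F) Cfsg.Agent.S0266.e0_ne :=
      DFunLike.congr_fun hS 0
    have h1 : S • Projectivization.mk F (![0, 1] : Fin 2 → F) Cfsg.Agent.S0266.e1_ne =
        Projectivization.mk F (![0, 1] : Fin 2 → F) Cfsg.Agent.S0266.e1_ne :=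
      DFunLike.congr_fun hS 1
    have h2 : S • Projectivization.mk F (![1, 1] : Fin 2 → F) Cfsg.Agent.S0266.e2_ne =
        Projectivization.mk F (![1, δ] : Fin 2 → F) hd_ne :=
      DFunLike.congr_fun hS 2
    rw [Projectivization.smul_mk, Projectivization.mk_eq_mk_iff'] at h0 h1 h2
    obtain ⟨a0, ha0⟩ := h0
    obtain ⟨a1, ha1⟩ := h1
    obtain ⟨a2, ha2⟩ := h2
    rw [sl_smul] at ha0 ha1 ha2
    have e00 : a0 = (S : Matrix (Fin 2) (Fin 2) F) 0 0 := by
      have := congrFun ha0 0
      simpa [Matrix.mulVec, dotProduct, Fin.sum_univ_two] using this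
    have e10 : 0 = (S : Matrix (Fin 2) (Fin 2) F) 1 0 := by
      have := congrFun ha0 1
      simpa [Matrix.mulVec, dotProduct, Fin.sum_univ_two] using this
    have e01 : 0 = (S : Matrix (Fin 2) (Fin 2) F) 0 1 := by
      have := congrFun ha1 0
      simpa [Matrix.mulVec, dotProduct, Fin.sum_univ_two] using this
    have e11 : a1 = (S : Matrix (Fin 2) (Fin 2) F) 1 1 := by
      have := congrFun ha1 1
      simpa [Matrix.mulVec, dotProduct, Fin.sum_univ_two] using this
    have e2a : a2 = (S : Matrix (Fin 2) (Fin 2) F) 0 0 + (S : Matrix (Fin 2) (Fin 2) F) 0 1 := by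
      have := congrFun ha2 0
      simpa [Matrix.mulVec, dotProduct, Fin.sum_univ_two] using this
    have e2b : a2 * δ = (S : Matrix (Fin 2) (Fin 2) F) 1 0 + (S : Matrix (Fin 2) (Fin 2) F) 1 1 := by
      have := congrFun ha2 1
      simpa [Matrix.mulVec, dotProduct, Fin.sum_univ_two] using this
    have hdet : (S : Matrix (Fin 2) (Fin 2) F) 0 0 * (S : Matrix (Fin 2) (Fin 2) F) 1 1 -
        (S : Matrix (Fin 2) (Fin 2) F) 0 1 * (S : Matrix (Fin 2) (Fin 2) F) 1 0 = 1 := by
      rw [← Matrix.det_fin_two]; exact S.2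
    have hS01 : (S : Matrix (Fin 2) (Fin 2) F) 0 1 = 0 := e01.symm
    have hS10 : (S : Matrix (Fin 2) (Fin 2) F) 1 0 = 0 := e10.symm
    have ha2' : a2 = a0 := by rw [e2a, hS01, add_zero, e00]
    have h5 : a0 * δ = (S : Matrix (Fin 2) (Fin 2) F) 1 1 := by
      rw [← ha2', e2b, hS10, zero_add]
    have hkey : a0 * (a0 * δ) = 1 := by
      rw [h5, e00]
      rw [hS01, zero_mul, sub_zero] at hdet
      exact hdet
    have ha0ne : a0 ≠ 0 := by
      intro h; rw [h, zero_mul] at hkey; exact zero_ne_one hkey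
    apply hδ
    refine ⟨a0⁻¹, ?_⟩
    field_simp
    linear_combination hkey
  · intro hchar
    rw [MulAction.isMultiplyPretransitive_iff]
    intro x y
    have hP := (Cfsg.Agent.S0266.result (F := F)).1
    rw [MulAction.isMultiplyPretransitive_iff] at hP
    obtain ⟨g, hg⟩ := hP x y
    obtain ⟨M, rfl⟩ := Matrix.ProjGenLinGroup.mk_surjective g
    obtain ⟨r, hr⟩ := FiniteField.isSquare_of_char_two hchar (M : Matrix (Fin 2) (Fin 2) F).det
    have hdet0 : (M : Matrix (Fin 2) (Fin 2) F).det ≠ 0 := by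
      have := M.isUnit.map (Matrix.detMonoidHom (n := Fin 2) (R := F))
      exact this.ne_zero
    have hr0 : r ≠ 0 := by
      rintro rfl; rw [mul_zero] at hr; exact hdet0 hr
    have hSdet : (r⁻¹ • (M : Matrix (Fin 2) (Fin 2) F)).det = 1 := by
      rw [Matrix.det_smul, Fintype.card_fin, hr]
      field_simp
    obtain ⟨S, hSdef⟩ : ∃ S : Matrix.SpecialLinearGroup (Fin 2) F,
        (S : Matrix (Fin 2) (Fin 2) F) = r⁻¹ • (M : Matrix (Fin 2) (Fin 2) F) :=
      ⟨⟨_, hSdet⟩, rfl⟩
    refine ⟨S, ?_⟩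
    apply DFunLike.ext
    intro i
    have hgi : Matrix.ProjGenLinGroup.mk M • x i = y i := DFunLike.congr_fun hg i
    show S • x i = y i
    rw [← hgi]
    generalize x i = p
    induction p using Projectivization.ind with | _ v hv =>
    rw [Projectivization.smul_mk, Projectivization.PGL.mk_smul_mk, Projectivization.mk_eq_mk_iff']
    refine ⟨r⁻¹, ?_⟩
    rw [sl_smul, Cfsg.Agent.S0266.gl_smul, hSdef, Matrix.smul_mulVec]

end Cfsg.Agent.S0267
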