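import Cfsg.Statements.S0269
import Mathlib
import Cfsg.Agent.S0440

set_option autoImplicit false
open Cfsg

namespace Cfsg.Agent.S0269

open Matrix
open scoped commutatorElement
open Cfsg.Agent.S0271 (TS Tg T_apply sf_add_left sf_add_right sf_sub_right sf_swap sf_self
  sf_zero_left sf_nondeg sf_mulVec)
open Cfsg.Agent.S0440 (eL eR eL_inl eL_inr eR_inl eR_inr sf_eL sf_eR sf_smul_left sf_smul_right
  T_zero T_zero_vec t_conj gen_top)

variable {F : Type*} [Field F] (m : ℕ)

theorem sf_sub_left (x y z : Fin m ⊕ Fin m → F) :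
    Cfsg.sympForm m F (x - y) z = Cfsg.sympForm m F x z - Cfsg.sympForm m F y z := by
  unfold Cfsg.sympForm; rw [sub_dotProduct]

theorem Tg_mul (u : Fin m ⊕ Fin m → F) (c d : F) : Tg m u c * Tg m u d = Tg m u (c + d) := by
  apply Subtype.ext
  exact Cfsg.Agent.Helper2.sympTransvection_mul m u c d

theorem Tg_zero (u : Fin m ⊕ Fin m → F) : Tg m u (0 : F) = 1 := Subtype.ext (T_zero m u)

theorem Tg_zero_vec (c : F) : Tg m (0 : Fin m ⊕ Fin m → F) c = 1 := Subtype.ext (T_zero_vec m c)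

theorem Tg_inv (u : Fin m ⊕ Fin m → F) (c : F) : (Tg m u c)⁻¹ = Tg m u (-c) :=
  inv_eq_of_mul_eq_one_right (by rw [Tg_mul, add_neg_cancel, Tg_zero])

theorem Tg_smul (a : F) (u : Fin m ⊕ Fin m → F) (c : F) :
    Tg m (a • u) c = Tg m u (c * a * a) := by
  apply Subtype.ext
  show Cfsg.sympTransvection m (a • u) c = Cfsg.sympTransvection m u (c * a * a)
  apply Matrix.mulVec_injective
  funext x
  rw [T_apply, T_apply, sf_smul_right, smul_smul]
  congr 2
  ring

theorem comm_mem (g : Matrix.symplecticGroup (Fin m) F) (a : Fin m ⊕ Fin m → F) (c : F) :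
    Tg m ((g : Matrix (Fin m ⊕ Fin m) (Fin m ⊕ Fin m) F) *ᵥ a) c * (Tg m a c)⁻¹ ∈
      commutator (Matrix.symplecticGroup (Fin m) F) := by
  have h1 : ⁅g, Tg m a c⁆ =
      Tg m ((g : Matrix (Fin m ⊕ Fin m) (Fin m ⊕ Fin m) F) *ᵥ a) c * (Tg m a c)⁻¹ := by
    rw [commutatorElement_def, t_conj m g a c, mul_inv_cancel_right]
  rw [← h1]
  exact Subgroup.commutator_mem_commutator (Subgroup.mem_top _) (Subgroup.mem_top _)

theorem comm_mem' (a a' : Fin m ⊕ Fin m → F) (ha : a ≠ 0) (ha' : a' ≠ 0) (c : F) :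
    Tg m a' c * (Tg m a c)⁻¹ ∈ commutator (Matrix.symplecticGroup (Fin m) F) := by
  obtain ⟨g, hg⟩ := Cfsg.Agent.S0271.result m a a' ha ha'
  have h1 := comm_mem m g a c
  rw [hg] at h1
  exact h1

theorem caseA (a : F) (ha0 : a ≠ 0) (ha2 : a ^ 2 ≠ 1) (w : Fin m ⊕ Fin m → F) (c : F) :
    Tg m w c ∈ commutator (Matrix.symplecticGroup (Fin m) F) := by
  by_cases hw : w = 0
  · rw [hw, Tg_zero_vec]; exact Subgroup.one_mem _
  · have hne : a ^ 2 - 1 ≠ 0 := sub_ne_zero.2 ha2
    have h1 := comm_mem' m w (a • w) hw (smul_ne_zero ha0 hw) (c / (a ^ 2 - 1))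
    rw [Tg_smul, Tg_inv, Tg_mul] at h1
    have h2 : c / (a ^ 2 - 1) * a * a + -(c / (a ^ 2 - 1)) = c := by
      field_simp
      ring
    rw [h2] at h1
    exact h1

theorem caseB (h2 : (2 : F) ≠ 0) (hm : 2 ≤ m) (w : Fin m ⊕ Fin m → F) (c : F) :
    Tg m w c ∈ commutator (Matrix.symplecticGroup (Fin m) F) := by
  by_cases hw : w = 0
  · rw [hw, Tg_zero_vec]; exact Subgroup.one_mem _
  · obtain ⟨k₀, hk₀⟩ : ∃ k, w k ≠ 0 := by
      by_contra hcon; push Not at hcon; exact hw (funext hcon)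
    obtain ⟨i, hi⟩ : ∃ i : Fin m, k₀ = Sum.inl i ∨ k₀ = Sum.inr i := by
      rcases k₀ with i | i
      · exact ⟨i, Or.inl rfl⟩
      · exact ⟨i, Or.inr rfl⟩
    haveI : Nontrivial (Fin m) := Fin.nontrivial_iff_two_le.2 hm
    obtain ⟨j, hj⟩ := exists_ne i
    obtain ⟨u, hu1, hu2, hu3⟩ : ∃ u : Fin m ⊕ Fin m → F,
        Cfsg.sympForm m F u w = 0 ∧ u k₀ = 0 ∧ u ≠ 0 := by
      by_cases h0 : Cfsg.sympForm m F (eL F m j) w = 0
      · refine ⟨eL F m j, h0, ?_, ?_⟩
        · rcases hi with rfl | rfl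
          · rw [eL_inl, if_neg (fun h => hj h.symm)]
          · rw [eL_inr]
        · intro h
          have h1 := congrFun h (Sum.inl j)
          rw [eL_inl, if_pos rfl] at h1
          exact one_ne_zero h1
      · refine ⟨Cfsg.sympForm m F (eR F m j) w • eL F m j -
          Cfsg.sympForm m F (eL F m j) w • eR F m j, ?_, ?_, ?_⟩
        · rw [sf_sub_left, sf_smul_left, sf_smul_left]; ring
        · rcases hi with rfl | rfl
          · simp only [Pi.sub_apply, Pi.smul_apply, smul_eq_mul]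
            rw [eL_inl, if_neg (fun h => hj h.symm), eR_inl, mul_zero, mul_zero, sub_zero]
          · simp only [Pi.sub_apply, Pi.smul_apply, smul_eq_mul]
            rw [eL_inr, eR_inr, if_neg (fun h => hj h.symm), mul_zero, mul_zero, sub_zero]
        · intro h
          have h1 := congrFun h (Sum.inr j)
          simp only [Pi.sub_apply, Pi.smul_apply, smul_eq_mul, Pi.zero_apply] at h1
          rw [eL_inr, eR_inr, if_pos rfl, mul_zero, zero_sub, mul_one, neg_eq_zero] at h1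
          exact h0 h1
    have huw : u + w ≠ 0 := by
      intro h
      have h1 := congrFun h k₀
      rw [Pi.add_apply, hu2, zero_add] at h1
      exact hk₀ h1
    have huw' : u - w ≠ 0 := by
      intro h
      have h1 := congrFun h k₀
      rw [Pi.sub_apply, hu2, zero_sub] at h1
      exact hk₀ (neg_eq_zero.1 h1)
    have hwu : Cfsg.sympForm m F w u = 0 := by rw [sf_swap, hu1, neg_zero]
    have k1 := comm_mem' m u (u + w) hu3 huw (c / 2)
    have k2 := comm_mem' m u (u - w) hu3 huw' (c / 2)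
    have k3 := Subgroup.mul_mem _ k1 k2
    have key : Tg m (u + w) (c / 2) * (Tg m u (c / 2))⁻¹ *
        (Tg m (u - w) (c / 2) * (Tg m u (c / 2))⁻¹) = Tg m w c := by
      rw [Tg_inv]
      apply Subtype.ext
      show Cfsg.sympTransvection m (u + w) (c / 2) * Cfsg.sympTransvection m u (-(c / 2)) *
        (Cfsg.sympTransvection m (u - w) (c / 2) * Cfsg.sympTransvection m u (-(c / 2))) =
        Cfsg.sympTransvection m w c
      apply Matrix.mulVec_injective
      funext x
      simp only [← Matrix.mulVec_mulVec]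
      simp only [T_apply, sf_add_left, sf_add_right, sf_sub_left, sf_sub_right, sf_smul_left,
        sf_self, hu1, hwu, mul_zero, add_zero, sub_zero, zero_add, sub_self]
      ext k
      simp only [Pi.add_apply, Pi.sub_apply, Pi.smul_apply, smul_eq_mul]
      field_simp
      ring
    rw [key] at k3
    exact k3

theorem ne_zero_of_apply (v : Fin m ⊕ Fin m → F) (k : Fin m ⊕ Fin m) (h : v k = 1) : v ≠ 0 :=
  fun h0 => one_ne_zero (h.symm.trans (congrFun h0 k))

theorem iso3 (hm : 3 ≤ m) : ∃ e₁ e₂ e₃ : Fin m ⊕ Fin m → F,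
    Cfsg.sympForm m F e₁ e₁ = 0 ∧ Cfsg.sympForm m F e₁ e₂ = 0 ∧ Cfsg.sympForm m F e₁ e₃ = 0 ∧
    Cfsg.sympForm m F e₂ e₁ = 0 ∧ Cfsg.sympForm m F e₂ e₂ = 0 ∧ Cfsg.sympForm m F e₂ e₃ = 0 ∧
    Cfsg.sympForm m F e₃ e₁ = 0 ∧ Cfsg.sympForm m F e₃ e₂ = 0 ∧ Cfsg.sympForm m F e₃ e₃ = 0 ∧
    e₁ ≠ 0 ∧ e₂ ≠ 0 ∧ e₃ ≠ 0 ∧ e₁ + e₂ ≠ 0 ∧ e₁ + e₃ ≠ 0 ∧ e₂ + e₃ ≠ 0 ∧ e₁ + e₂ + e₃ ≠ 0 := by
  refine ⟨eL F m ⟨0, by omega⟩, eL F m ⟨1, by omega⟩, eL F m ⟨2, by omega⟩,
    by rw [sf_eL, eL_inr], by rw [sf_eL, eL_inr], by rw [sf_eL, eL_inr],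
    by rw [sf_eL, eL_inr], by rw [sf_eL, eL_inr], by rw [sf_eL, eL_inr],
    by rw [sf_eL, eL_inr], by rw [sf_eL, eL_inr], by rw [sf_eL, eL_inr],
    ne_zero_of_apply m _ (Sum.inl ⟨0, by omega⟩) (by simp [eL_inl]),
    ne_zero_of_apply m _ (Sum.inl ⟨1, by omega⟩) (by simp [eL_inl]),
    ne_zero_of_apply m _ (Sum.inl ⟨2, by omega⟩) (by simp [eL_inl]),
    ne_zero_of_apply m _ (Sum.inl ⟨0, by omega⟩) (by simp [eL_inl]),
    ne_zero_of_apply m _ (Sum.inl ⟨0, by omega⟩) (by simp [eL_inl]),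
    ne_zero_of_apply m _ (Sum.inl ⟨1, by omega⟩) (by simp [eL_inl]),
    ne_zero_of_apply m _ (Sum.inl ⟨0, by omega⟩) (by simp [eL_inl])⟩

theorem caseC (h2 : (2 : F) = 0) (hm : 3 ≤ m) (w : Fin m ⊕ Fin m → F) (c : F) :
    Tg m w c ∈ commutator (Matrix.symplecticGroup (Fin m) F) := by
  by_cases hw : w = 0
  · rw [hw, Tg_zero_vec]; exact Subgroup.one_mem _
  · obtain ⟨e₁, e₂, e₃, h11, h12, h13, h21, h22, h23, h31, h32, h33, n1, n2, n3, n12, n13, n23,
      n123⟩ := iso3 (F := F) m hm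
    obtain ⟨π, hπ⟩ : ∃ π : Matrix.symplecticGroup (Fin m) F →*
        Matrix.symplecticGroup (Fin m) F ⧸ commutator (Matrix.symplecticGroup (Fin m) F),
        ∀ x, π x = 1 ↔ x ∈ commutator (Matrix.symplecticGroup (Fin m) F) :=
      ⟨QuotientGroup.mk' _, fun x => QuotientGroup.eq_one_iff x⟩
    obtain ⟨τ, hτdef⟩ : ∃ τ, τ = π (Tg m e₁ c) := ⟨_, rfl⟩
    have hτ : ∀ a : Fin m ⊕ Fin m → F, a ≠ 0 → π (Tg m a c) = τ := by
      intro a ha
      have h1 := (hπ _).2 (comm_mem' m e₁ a n1 ha c)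
      rw [map_mul, map_inv, mul_inv_eq_one] at h1
      rw [h1, hτdef]
    have hsq : τ ^ 2 = 1 := by
      rw [hτdef, ← map_pow, pow_two, Tg_mul]
      have h3 : c + c = 0 := by linear_combination c * h2
      rw [h3, Tg_zero, map_one]
    have hP1 : Tg m e₁ c * Tg m e₂ c * Tg m e₃ c * Tg m (e₁ + e₂) c * Tg m (e₁ + e₃) c *
        Tg m (e₂ + e₃) c * Tg m (e₁ + e₂ + e₃) c = 1 := by
      apply Subtype.ext
      show Cfsg.sympTransvection m e₁ c * Cfsg.sympTransvection m e₂ c *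
        Cfsg.sympTransvection m e₃ c * Cfsg.sympTransvection m (e₁ + e₂) c *
        Cfsg.sympTransvection m (e₁ + e₃) c * Cfsg.sympTransvection m (e₂ + e₃) c *
        Cfsg.sympTransvection m (e₁ + e₂ + e₃) c = 1
      apply Matrix.mulVec_injective
      funext x
      simp only [← Matrix.mulVec_mulVec]
      simp only [T_apply, sf_add_left, sf_add_right, sf_smul_left, h11, h12, h13, h21, h22, h23,
        h31, h32, h33, mul_zero, add_zero, zero_add, Matrix.one_mulVec]
      ext k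
      simp only [Pi.add_apply, Pi.smul_apply, smul_eq_mul]
      linear_combination (c * ((2 * Cfsg.sympForm m F x e₁ + Cfsg.sympForm m F x e₂ +
        Cfsg.sympForm m F x e₃) * e₁ k + (Cfsg.sympForm m F x e₁ + 2 * Cfsg.sympForm m F x e₂ +
        Cfsg.sympForm m F x e₃) * e₂ k + (Cfsg.sympForm m F x e₁ + Cfsg.sympForm m F x e₂ +
        2 * Cfsg.sympForm m F x e₃) * e₃ k)) * h2
    have h7 : τ ^ 7 = 1 := by
      have h1 := congrArg π hP1
      simp only [map_mul, map_one] at h1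
      rw [hτ e₂ n2, hτ e₃ n3, hτ _ n12, hτ _ n13, hτ _ n23, hτ _ n123, ← hτdef] at h1
      rw [← h1]; simp only [pow_succ, pow_zero, one_mul]
    have hτ1 : τ = 1 := by
      have h1 : τ = τ ^ 7 * (τ ^ 2)⁻¹ * (τ ^ 2)⁻¹ * (τ ^ 2)⁻¹ := by group
      rw [h7, hsq] at h1
      simpa using h1
    have h1 := hτ w hw
    rw [hτ1] at h1
    exact (hπ _).1 h1

/-- Sp_{2m}(q) is perfect except for Sp_2(2), Sp_2(3) and Sp_4(2): stated as m at least 3, or m = 2 and q at least 3, or q at least 4. -/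
theorem result {F : Type*} [Field F] [Fintype F] (m : ℕ) (h : 3 ≤ m ∨ (m = 2 ∧ 3 ≤ Fintype.card F) ∨ 4 ≤ Fintype.card F) : commutator (Matrix.symplecticGroup (Fin m) F) = ⊤ := by
  classical
  have key : ∀ (w : Fin m ⊕ Fin m → F) (c : F),
      Cfsg.Agent.S0271.Tg m w c ∈ commutator (Matrix.symplecticGroup (Fin m) F) := by
    by_cases h4 : 4 ≤ Fintype.card F
    · obtain ⟨a, ha0, ha2⟩ : ∃ a : F, a ≠ 0 ∧ a ^ 2 ≠ 1 := by
        by_contra hcon
        push Not at hcon
        have hsub : (Finset.univ : Finset F) ⊆ {0, 1, -1} := by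
          intro a _
          by_cases ha : a = 0
          · simp [ha]
          · have h2 := hcon a ha
            have h3 : (a - 1) * (a + 1) = 0 := by linear_combination h2
            rcases mul_eq_zero.1 h3 with h5 | h5
            · have h6 : a = 1 := sub_eq_zero.1 h5
              simp [h6]
            · have h6 : a = -1 := eq_neg_of_add_eq_zero_left h5
              simp [h6]
        have h1 := Finset.card_le_card hsub
        have h2 : ({0, 1, -1} : Finset F).card ≤ 3 := Finset.card_le_three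
        rw [Finset.card_univ] at h1
        omega
      exact fun w c => caseA m a ha0 ha2 w c
    · by_cases h2 : (2 : F) = 0
      · have hm : 3 ≤ m := by
          rcases h with h | ⟨_, h3⟩ | h
          · exact h
          · exfalso
            have hc : Fintype.card F = 3 := by omega
            have h3' : ((Fintype.card F : ℕ) : F) = 0 := Nat.cast_card_eq_zero F
            rw [hc] at h3'
            have h5 : (1 : F) = 0 := by
              have e : ((3 : ℕ) : F) = 2 + 1 := by norm_num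
              rw [e, h2, zero_add] at h3'
              exact h3'
            exact one_ne_zero h5
          · exact absurd h h4
        exact fun w c => caseC m h2 hm w c
      · have hm : 2 ≤ m := by
          rcases h with h | ⟨h, _⟩ | h
          · omega
          · omega
          · exact absurd h h4
        exact fun w c => caseB m h2 hm w c
  rw [eq_top_iff, ← Cfsg.Agent.S0440.gen_top (F := F) m, Subgroup.closure_le]
  rintro A ⟨w, c, hA⟩
  have hA' : A = Cfsg.Agent.S0271.Tg m w c := Subtype.ext hA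
  rw [hA']
  exact key w c

end Cfsg.Agent.S0269
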