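import Cfsg.Statements.S0766
import Mathlib
import Cfsg.Agent.S0271

set_option autoImplicit false
open Cfsg

namespace Cfsg.Agent.S0766

open Matrix

/-- The subgroup generated by the symplectic transvections acts transitively on ordered pairs (u, v) with f(u, v) = 1. -/
theorem result {F : Type*} [Field F] (m : ℕ) (u v u' v' : Fin m ⊕ Fin m → F) (h : Cfsg.sympForm m F u v = 1) (h' : Cfsg.sympForm m F u' v' = 1) : ∃ A ∈ Subgroup.closure {A : Matrix.symplecticGroup (Fin m) F | ∃ (w : Fin m ⊕ Fin m → F) (c : F), (A : Matrix (Fin m ⊕ Fin m) (Fin m ⊕ Fin m) F) = Cfsg.sympTransvection m w c}, (A : Matrix (Fin m ⊕ Fin m) (Fin m ⊕ Fin m) F).mulVec u = u' ∧ (A : Matrix (Fin m ⊕ Fin m) (Fin m ⊕ Fin m) F).mulVec v = v' := by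
  have hu : u ≠ 0 := by
    rintro rfl; rw [Cfsg.Agent.S0271.sf_zero_left] at h; exact zero_ne_one h
  have hu' : u' ≠ 0 := by
    rintro rfl; rw [Cfsg.Agent.S0271.sf_zero_left] at h'; exact zero_ne_one h'
  obtain ⟨A, hA, hAu⟩ := Cfsg.Agent.S0271.trans_closure m u u' hu hu'
  obtain ⟨v₁, hv₁⟩ : ∃ v₁, v₁ = (A : Matrix (Fin m ⊕ Fin m) (Fin m ⊕ Fin m) F) *ᵥ v := ⟨_, rfl⟩
  have h1 : Cfsg.sympForm m F u' v₁ = 1 := by
    rw [hv₁, ← hAu, Cfsg.Agent.S0271.sf_mulVec, h]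
  have hfin : ∃ B ∈ Subgroup.closure (Cfsg.Agent.S0271.TS F m),
      (B : Matrix (Fin m ⊕ Fin m) (Fin m ⊕ Fin m) F) *ᵥ v₁ = v' ∧
      (B : Matrix (Fin m ⊕ Fin m) (Fin m ⊕ Fin m) F) *ᵥ u' = u' := by
    by_cases h0 : Cfsg.sympForm m F v₁ v' = 0
    · have hz1 : Cfsg.sympForm m F v₁ (v₁ + u') ≠ 0 := by
        rw [Cfsg.Agent.S0271.sf_add_right, Cfsg.Agent.S0271.sf_self, zero_add,
          Cfsg.Agent.S0271.sf_swap, h1]
        exact neg_ne_zero.2 one_ne_zero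
      have hz2 : Cfsg.sympForm m F (v₁ + u') v' ≠ 0 := by
        rw [Cfsg.Agent.S0271.sf_add_left, h0, zero_add, h']; exact one_ne_zero
      obtain ⟨B₁, hB₁, e1, e1'⟩ := Cfsg.Agent.S0271.move m u' v₁ (v₁ + u') hz1
        (by rw [Cfsg.Agent.S0271.sf_add_right, Cfsg.Agent.S0271.sf_self, add_zero])
      obtain ⟨B₂, hB₂, e2, e2'⟩ := Cfsg.Agent.S0271.move m u' (v₁ + u') v' hz2
        (by rw [Cfsg.Agent.S0271.sf_add_right, Cfsg.Agent.S0271.sf_self, add_zero, h1, h'])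
      refine ⟨B₂ * B₁, Subgroup.mul_mem _ hB₂ hB₁, ?_, ?_⟩
      · show ((B₂ : Matrix (Fin m ⊕ Fin m) (Fin m ⊕ Fin m) F) *
          (B₁ : Matrix (Fin m ⊕ Fin m) (Fin m ⊕ Fin m) F)) *ᵥ v₁ = v'
        rw [← Matrix.mulVec_mulVec, e1, e2]
      · show ((B₂ : Matrix (Fin m ⊕ Fin m) (Fin m ⊕ Fin m) F) *
          (B₁ : Matrix (Fin m ⊕ Fin m) (Fin m ⊕ Fin m) F)) *ᵥ u' = u'
        rw [← Matrix.mulVec_mulVec, e1', e2']
    · exact Cfsg.Agent.S0271.move m u' v₁ v' h0 (by rw [h1, h'])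
  obtain ⟨B, hB, hB1, hB2⟩ := hfin
  refine ⟨B * A, Subgroup.mul_mem _ hB hA, ?_, ?_⟩
  · show ((B : Matrix (Fin m ⊕ Fin m) (Fin m ⊕ Fin m) F) *
      (A : Matrix (Fin m ⊕ Fin m) (Fin m ⊕ Fin m) F)) *ᵥ u = u'
    rw [← Matrix.mulVec_mulVec, hAu, hB2]
  · show ((B : Matrix (Fin m ⊕ Fin m) (Fin m ⊕ Fin m) F) *
      (A : Matrix (Fin m ⊕ Fin m) (Fin m ⊕ Fin m) F)) *ᵥ v = v'
    rw [← Matrix.mulVec_mulVec, ← hv₁, hB1]

end Cfsg.Agent.S0766
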