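import Cfsg.Statements.S0768
import Mathlib
import Cfsg.Agent.S0766
import Cfsg.Agent.S0269

set_option autoImplicit false
open scoped LinearAlgebra.Projectivization
open Cfsg

namespace Cfsg.Agent.S0768

open Matrix
open Cfsg.Agent.S0271 (Tg T_apply sf_add_left sf_add_right sf_sub_right sf_swap sf_self
  sf_zero_left sf_nondeg sf_mulVec)
open Cfsg.Agent.S0440 (sf_smul_left sf_smul_right)
open Cfsg.Agent.S0269 (sf_sub_left)

variable {F : Type*} [Field F] (m : ℕ)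

/-- a symplectic matrix as an element of `spGL`. -/
noncomputable def toSp (A : Matrix.symplecticGroup (Fin m) F) : ↥(Cfsg.spGL m F) :=
  ⟨⟨A.1, (A⁻¹).1, congrArg Subtype.val (mul_inv_cancel A),
    congrArg Subtype.val (inv_mul_cancel A)⟩, by
    intro u v
    exact sf_mulVec m A u v⟩

theorem toSp_smul (A : Matrix.symplecticGroup (Fin m) F) (v : Fin m ⊕ Fin m → F) :
    toSp m A • v = (A : Matrix (Fin m ⊕ Fin m) (Fin m ⊕ Fin m) F) *ᵥ v := rfl

theorem toSp_mk (A : Matrix.symplecticGroup (Fin m) F) (v w : Fin m ⊕ Fin m → F) (hv : v ≠ 0)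
    (hw : w ≠ 0) (c : F)
    (h : (A : Matrix (Fin m ⊕ Fin m) (Fin m ⊕ Fin m) F) *ᵥ v = c • w) :
    toSp m A • Projectivization.mk F v hv = Projectivization.mk F w hw := by
  have h1 : toSp m A • Projectivization.mk F v hv =
      ((toSp m A : ↥(Cfsg.spGL m F)) : Matrix.GeneralLinearGroup (Fin m ⊕ Fin m) F) •
        Projectivization.mk F v hv := rfl
  rw [h1, Projectivization.smul_mk]
  apply (Projectivization.mk_eq_mk_iff' F _ _ _ _).2
  exact ⟨c, by rw [← h]; rfl⟩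

theorem pretrans : MulAction.IsPretransitive ↥(Cfsg.spGL m F) (ℙ F (Fin m ⊕ Fin m → F)) := by
  rw [MulAction.isPretransitive_iff]
  intro p p'
  obtain ⟨v, hv, rfl⟩ : ∃ v hv, p = Projectivization.mk F v hv :=
    ⟨p.rep, p.rep_nonzero, (Projectivization.mk_rep p).symm⟩
  obtain ⟨w, hw, rfl⟩ : ∃ w hw, p' = Projectivization.mk F w hw :=
    ⟨p'.rep, p'.rep_nonzero, (Projectivization.mk_rep p').symm⟩
  obtain ⟨A, hA⟩ := Cfsg.Agent.S0271.result m v w hv hw
  exact ⟨toSp m A, toSp_mk m A v w hv hw 1 (by rw [one_smul]; exact hA)⟩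

/-- Primitivity: for m ≥ 1 and F finite, the symplectic group of the form sympForm (as a subgroup of the general linear group) acts primitively on the projective space of F^(2m). -/
theorem result {F : Type*} [Field F] [Finite F] (m : ℕ) (hm : 1 ≤ m) : MulAction.IsPreprimitive ↥(Cfsg.spGL m F) (ℙ F (Fin m ⊕ Fin m → F)) := by
  classical
  haveI := pretrans (F := F) m
  obtain ⟨e, he⟩ : ∃ e : Fin m ⊕ Fin m → F, e ≠ 0 :=
    ⟨Pi.single (Sum.inl ⟨0, hm⟩) 1, Pi.single_ne_zero_iff.2 one_ne_zero⟩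
  apply MulAction.IsPreprimitive.of_isTrivialBlock_base (Projectivization.mk F e he)
  intro B haB hB
  rw [MulAction.isBlock_iff_smul_eq_of_mem] at hB
  have K1 : ∀ (g : ↥(Cfsg.spGL m F)) (p q : ℙ F (Fin m ⊕ Fin m → F)), p ∈ B → g • p ∈ B →
      q ∈ B → g • q ∈ B := by
    intro g p q hp hgp hq
    have h1 := hB hp hgp
    rw [← h1]
    exact Set.smul_mem_smul_set hq
  have K2 : ∀ (u w x : Fin m ⊕ Fin m → F) (hu : u ≠ 0) (hw : w ≠ 0) (hx : x ≠ 0),
      Projectivization.mk F u hu ∈ B → Projectivization.mk F w hw ∈ B →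
      Cfsg.sympForm m F u w ≠ 0 → Cfsg.sympForm m F u x ≠ 0 →
      Projectivization.mk F x hx ∈ B := by
    intro u w x hu hw hx hUB hWB huw hux
    have h1 : Cfsg.sympForm m F u ((Cfsg.sympForm m F u w)⁻¹ • w) = 1 := by
      rw [Cfsg.Agent.S0440.sf_smul_right, inv_mul_cancel₀ huw]
    have h2 : Cfsg.sympForm m F u ((Cfsg.sympForm m F u x)⁻¹ • x) = 1 := by
      rw [Cfsg.Agent.S0440.sf_smul_right, inv_mul_cancel₀ hux]
    obtain ⟨A, _, hA1, hA2⟩ := Cfsg.Agent.S0766.result m u _ u _ h1 h2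
    have hfix : toSp m A • Projectivization.mk F u hu = Projectivization.mk F u hu :=
      toSp_mk m A u u hu hu 1 (by rw [one_smul]; exact hA1)
    have h3 := K1 (toSp m A) _ _ hUB (by rw [hfix]; exact hUB) hWB
    have h5 : (A : Matrix (Fin m ⊕ Fin m) (Fin m ⊕ Fin m) F) *ᵥ w =
        (Cfsg.sympForm m F u w * (Cfsg.sympForm m F u x)⁻¹) • x := by
      have h6 : (A : Matrix (Fin m ⊕ Fin m) (Fin m ⊕ Fin m) F) *ᵥ w = Cfsg.sympForm m F u w •
          ((A : Matrix (Fin m ⊕ Fin m) (Fin m ⊕ Fin m) F) *ᵥ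
            ((Cfsg.sympForm m F u w)⁻¹ • w)) := by
        rw [Matrix.mulVec_smul, smul_smul, mul_inv_cancel₀ huw, one_smul]
      rw [h6]
      have hA2' : (A : Matrix (Fin m ⊕ Fin m) (Fin m ⊕ Fin m) F) *ᵥ
          ((Cfsg.sympForm m F u w)⁻¹ • w) = (Cfsg.sympForm m F u x)⁻¹ • x := hA2
      rw [hA2', smul_smul]
    have h4 : toSp m A • Projectivization.mk F w hw = Projectivization.mk F x hx :=
      toSp_mk m A w x hw hx _ h5
    rw [← h4]; exact h3
  have K3 : ∀ (u w : Fin m ⊕ Fin m → F) (hu : u ≠ 0) (hw : w ≠ 0),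
      Projectivization.mk F u hu ∈ B → Projectivization.mk F w hw ∈ B →
      Projectivization.mk F u hu ≠ Projectivization.mk F w hw →
      Cfsg.sympForm m F u w = 0 →
      ∃ (w' : Fin m ⊕ Fin m → F) (hw' : w' ≠ 0), Projectivization.mk F w' hw' ∈ B ∧
        Cfsg.sympForm m F w w' ≠ 0 := by
    intro u w hu hw hUB hWB hne huw
    obtain ⟨z, hz1, hz2⟩ : ∃ z, Cfsg.sympForm m F z u = 0 ∧ Cfsg.sympForm m F z w ≠ 0 := by
      by_contra hcon
      push Not at hcon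
      obtain ⟨z₀, hz₀⟩ := Cfsg.Agent.S0271.sf_nondeg m u hu
      have hz₀' : Cfsg.sympForm m F z₀ u ≠ 0 := by
        rw [Cfsg.Agent.S0271.sf_swap]; exact neg_ne_zero.2 hz₀
      obtain ⟨c, hc⟩ : ∃ c : F, c = (Cfsg.sympForm m F z₀ u)⁻¹ * Cfsg.sympForm m F z₀ w :=
        ⟨_, rfl⟩
      have hall : ∀ x, Cfsg.sympForm m F x w = Cfsg.sympForm m F x u * c := by
        intro x
        have h1 : Cfsg.sympForm m F
            (x - (Cfsg.sympForm m F x u * (Cfsg.sympForm m F z₀ u)⁻¹) • z₀) u = 0 := by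
          rw [Cfsg.Agent.S0269.sf_sub_left, Cfsg.Agent.S0440.sf_smul_left, mul_assoc,
            inv_mul_cancel₀ hz₀', mul_one, sub_self]
        have h2 := hcon _ h1
        rw [Cfsg.Agent.S0269.sf_sub_left, Cfsg.Agent.S0440.sf_smul_left, sub_eq_zero] at h2
        rw [h2, hc]; ring
      have hwc : w - c • u = 0 := by
        by_contra hne0
        obtain ⟨y, hy⟩ := Cfsg.Agent.S0271.sf_nondeg m _ hne0
        apply hy
        rw [Cfsg.Agent.S0271.sf_swap, Cfsg.Agent.S0271.sf_sub_right,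
          Cfsg.Agent.S0440.sf_smul_right, hall y]
        ring
      apply hne
      apply (Projectivization.mk_eq_mk_iff' F _ _ _ _).2
      have hw2 : w = c • u := sub_eq_zero.1 hwc
      have hc0 : c ≠ 0 := by
        intro h0; rw [h0, zero_smul] at hw2; exact hw hw2
      exact ⟨c⁻¹, by rw [hw2, smul_smul, inv_mul_cancel₀ hc0, one_smul]⟩
    have hTu : (Tg m z (1 : F) : Matrix (Fin m ⊕ Fin m) (Fin m ⊕ Fin m) F) *ᵥ u = u := by
      show Cfsg.sympTransvection m z 1 *ᵥ u = u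
      rw [Cfsg.Agent.S0271.T_apply, Cfsg.Agent.S0271.sf_swap, hz1, neg_zero, mul_zero,
        zero_smul, add_zero]
    have hTw : (Tg m z (1 : F) : Matrix (Fin m ⊕ Fin m) (Fin m ⊕ Fin m) F) *ᵥ w =
        w + Cfsg.sympForm m F w z • z := by
      show Cfsg.sympTransvection m z 1 *ᵥ w = _
      rw [Cfsg.Agent.S0271.T_apply, one_mul]
    have hfwz : Cfsg.sympForm m F w z ≠ 0 := by
      rw [Cfsg.Agent.S0271.sf_swap]; exact neg_ne_zero.2 hz2
    have hw'f : Cfsg.sympForm m F w (w + Cfsg.sympForm m F w z • z) ≠ 0 := by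
      rw [Cfsg.Agent.S0271.sf_add_right, Cfsg.Agent.S0271.sf_self, zero_add,
        Cfsg.Agent.S0440.sf_smul_right]
      exact mul_ne_zero hfwz hfwz
    have hw'0 : w + Cfsg.sympForm m F w z • z ≠ 0 := by
      intro h0; apply hw'f; rw [h0]
      rw [Cfsg.Agent.S0271.sf_swap, Cfsg.Agent.S0271.sf_zero_left, neg_zero]
    refine ⟨w + Cfsg.sympForm m F w z • z, hw'0, ?_, hw'f⟩
    have hfix : toSp m (Tg m z 1) • Projectivization.mk F u hu = Projectivization.mk F u hu :=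
      toSp_mk m _ u u hu hu 1 (by rw [one_smul]; exact hTu)
    have h3 := K1 (toSp m (Tg m z 1)) _ _ hUB (by rw [hfix]; exact hUB) hWB
    have h4 : toSp m (Tg m z 1) • Projectivization.mk F w hw =
        Projectivization.mk F (w + Cfsg.sympForm m F w z • z) hw'0 :=
      toSp_mk m _ w _ hw hw'0 1 (by rw [one_smul]; exact hTw)
    rw [← h4]; exact h3
  by_cases hsub : B.Subsingleton
  · exact Or.inl hsub
  right
  rw [Set.not_subsingleton_iff] at hsub
  obtain ⟨p, hp, p', hp', hne⟩ := hsub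
  obtain ⟨u, hu, rfl⟩ : ∃ u hu, p = Projectivization.mk F u hu :=
    ⟨p.rep, p.rep_nonzero, (Projectivization.mk_rep p).symm⟩
  obtain ⟨w, hw, rfl⟩ : ∃ w hw, p' = Projectivization.mk F w hw :=
    ⟨p'.rep, p'.rep_nonzero, (Projectivization.mk_rep p').symm⟩
  obtain ⟨u₁, w₁, hu₁, hw₁, hU, hW, huw⟩ : ∃ (u₁ w₁ : Fin m ⊕ Fin m → F) (hu₁ : u₁ ≠ 0)
      (hw₁ : w₁ ≠ 0), Projectivization.mk F u₁ hu₁ ∈ B ∧ Projectivization.mk F w₁ hw₁ ∈ B ∧
      Cfsg.sympForm m F u₁ w₁ ≠ 0 := by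
    by_cases h0 : Cfsg.sympForm m F u w = 0
    · obtain ⟨w', hw', hW', hf⟩ := K3 u w hu hw hp hp' hne h0
      exact ⟨w, w', hw, hw', hp', hW', hf⟩
    · exact ⟨u, w, hu, hw, hp, hp', h0⟩
  have hwu : Cfsg.sympForm m F w₁ u₁ ≠ 0 := by
    rw [Cfsg.Agent.S0271.sf_swap]; exact neg_ne_zero.2 huw
  rw [Set.eq_univ_iff_forall]
  intro q
  obtain ⟨x, hx, rfl⟩ : ∃ x hx, q = Projectivization.mk F x hx :=
    ⟨q.rep, q.rep_nonzero, (Projectivization.mk_rep q).symm⟩
  by_cases h1 : Cfsg.sympForm m F u₁ x = 0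
  · by_cases h2 : Cfsg.sympForm m F w₁ x = 0
    · obtain ⟨x', hx'⟩ := Cfsg.Agent.S0271.sf_nondeg m x hx
      obtain ⟨y, hy1, hy2⟩ : ∃ y, Cfsg.sympForm m F u₁ y ≠ 0 ∧ Cfsg.sympForm m F y x ≠ 0 := by
        by_cases h3 : Cfsg.sympForm m F u₁ x' = 0
        · refine ⟨x' + w₁, ?_, ?_⟩
          · rw [Cfsg.Agent.S0271.sf_add_right, h3, zero_add]; exact huw
          · rw [Cfsg.Agent.S0271.sf_add_left, h2, add_zero, Cfsg.Agent.S0271.sf_swap]
            exact neg_ne_zero.2 hx'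
        · refine ⟨x', h3, ?_⟩
          rw [Cfsg.Agent.S0271.sf_swap]; exact neg_ne_zero.2 hx'
      have hy0 : y ≠ 0 := by
        intro h0; apply hy2; rw [h0, Cfsg.Agent.S0271.sf_zero_left]
      have hY : Projectivization.mk F y hy0 ∈ B := K2 u₁ w₁ y hu₁ hw₁ hy0 hU hW huw hy1
      have hyu : Cfsg.sympForm m F y u₁ ≠ 0 := by
        rw [Cfsg.Agent.S0271.sf_swap]; exact neg_ne_zero.2 hy1
      exact K2 y u₁ x hy0 hu₁ hx hY hU hyu hy2
    · exact K2 w₁ u₁ x hw₁ hu₁ hx hW hU hwu h2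
  · exact K2 u₁ w₁ x hu₁ hw₁ hx hU hW huw h1

end Cfsg.Agent.S0768
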