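import Cfsg.Statements.S0270
import Mathlib
import Cfsg.Agent.S0768

set_option autoImplicit false
open Cfsg

namespace Cfsg.Agent.S0270

open Matrix
open scoped LinearAlgebra.Projectivization
open scoped Pointwise
open Cfsg.Agent.S0271 (TS Tg T_apply sf_add_left sf_add_right sf_sub_right sf_swap sf_self
  sf_zero_left sf_nondeg sf_mulVec)
open Cfsg.Agent.S0440 (sf_smul_left sf_smul_right t_conj gen_top)
open Cfsg.Agent.S0269 (Tg_mul Tg_zero Tg_zero_vec Tg_inv Tg_smul)
open Cfsg.Agent.S0768 (toSp toSp_mk)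

variable {F : Type*} [Field F] (m : ℕ)

/-- `toSp` as a monoid hom. -/
noncomputable def toSpHom : Matrix.symplecticGroup (Fin m) F →* ↥(Cfsg.spGL m F) where
  toFun := toSp m
  map_one' := by apply Subtype.ext; apply Units.ext; rfl
  map_mul' := by intro a b; apply Subtype.ext; apply Units.ext; rfl

theorem toSp_surj : Function.Surjective (toSpHom (F := F) m) := by
  intro g
  have hg : ∀ u v : Fin m ⊕ Fin m → F,
      Cfsg.sympForm m F ((g.1 : Matrix (Fin m ⊕ Fin m) (Fin m ⊕ Fin m) F) *ᵥ u)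
        ((g.1 : Matrix (Fin m ⊕ Fin m) (Fin m ⊕ Fin m) F) *ᵥ v) = Cfsg.sympForm m F u v := g.2
  have hmem : (g.1 : Matrix (Fin m ⊕ Fin m) (Fin m ⊕ Fin m) F) ∈
      Matrix.symplecticGroup (Fin m) F := by
    rw [SymplecticGroup.mem_iff']
    ext a b
    have h1 := hg (Pi.single a 1) (Pi.single b 1)
    unfold Cfsg.sympForm at h1
    rw [← Matrix.vecMul_transpose (g.1 : Matrix (Fin m ⊕ Fin m) (Fin m ⊕ Fin m) F)
      (Pi.single a 1), ← Matrix.dotProduct_mulVec] at h1
    simp only [Matrix.mulVec_mulVec] at h1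
    rw [Matrix.mulVec_single_one, Matrix.mulVec_single_one, single_one_dotProduct,
      single_one_dotProduct] at h1
    rw [Matrix.mul_assoc]
    exact h1
  exact ⟨⟨g.1, hmem⟩, by apply Subtype.ext; apply Units.ext; rfl⟩

/-- The transvection subgroup attached to a vector. -/
def Tsub (w : Fin m ⊕ Fin m → F) : Subgroup (Matrix.symplecticGroup (Fin m) F) where
  carrier := {A | ∃ c : F, A = Tg m w c}
  mul_mem' := by
    rintro _ _ ⟨c, rfl⟩ ⟨d, rfl⟩
    exact ⟨c + d, Tg_mul m w c d⟩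
  one_mem' := ⟨0, (Tg_zero m w).symm⟩
  inv_mem' := by
    rintro _ ⟨c, rfl⟩
    exact ⟨-c, Tg_inv m w c⟩

theorem Tsub_comm (w : Fin m ⊕ Fin m → F) : IsMulCommutative (Tsub m w) := by
  refine ⟨⟨?_⟩⟩
  rintro ⟨_, c, rfl⟩ ⟨_, d, rfl⟩
  apply Subtype.ext
  show Tg m w c * Tg m w d = Tg m w d * Tg m w c
  rw [Tg_mul, Tg_mul, add_comm]

theorem Tsub_smul (a : F) (ha : a ≠ 0) (w : Fin m ⊕ Fin m → F) :
    Tsub m (a • w) = Tsub m w := by
  ext A
  constructor
  · rintro ⟨c, rfl⟩
    exact ⟨c * a * a, Tg_smul m a w c⟩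
  · rintro ⟨c, rfl⟩
    refine ⟨c * a⁻¹ * a⁻¹, ?_⟩
    rw [Tg_smul]
    congr 1
    field_simp

theorem Tsub_conj (g : Matrix.symplecticGroup (Fin m) F) (w : Fin m ⊕ Fin m → F) :
    Tsub m ((g : Matrix (Fin m ⊕ Fin m) (Fin m ⊕ Fin m) F) *ᵥ w) =
      MulAut.conj g • Tsub m w := by
  ext A
  rw [Subgroup.mem_smul_pointwise_iff_exists]
  constructor
  · rintro ⟨c, rfl⟩
    refine ⟨Tg m w c, ⟨c, rfl⟩, ?_⟩
    show g * Tg m w c * g⁻¹ = Tg m ((g : Matrix (Fin m ⊕ Fin m) (Fin m ⊕ Fin m) F) *ᵥ w) c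
    rw [t_conj, mul_inv_cancel_right]
  · rintro ⟨_, ⟨c, rfl⟩, rfl⟩
    refine ⟨c, ?_⟩
    show g * Tg m w c * g⁻¹ = Tg m ((g : Matrix (Fin m ⊕ Fin m) (Fin m ⊕ Fin m) F) *ᵥ w) c
    rw [t_conj, mul_inv_cancel_right]

theorem mulVec_ne (A : Matrix.symplecticGroup (Fin m) F) (w : Fin m ⊕ Fin m → F) (hw : w ≠ 0) :
    (A : Matrix (Fin m ⊕ Fin m) (Fin m ⊕ Fin m) F) *ᵥ w ≠ 0 := by
  obtain ⟨z, hz⟩ := sf_nondeg m w hw
  intro h0
  apply hz
  rw [← sf_mulVec m A w z, h0, sf_zero_left]

theorem rep_smul (A : Matrix.symplecticGroup (Fin m) F) (p : ℙ F (Fin m ⊕ Fin m → F)) :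
    ∃ a : F, a ≠ 0 ∧ (toSp m A • p).rep =
      a • ((A : Matrix (Fin m ⊕ Fin m) (Fin m ⊕ Fin m) F) *ᵥ p.rep) := by
  have hne := mulVec_ne m A p.rep p.rep_nonzero
  have h0 : toSp m A • Projectivization.mk F p.rep p.rep_nonzero =
      Projectivization.mk F ((A : Matrix (Fin m ⊕ Fin m) (Fin m ⊕ Fin m) F) *ᵥ p.rep) hne :=
    toSp_mk m A p.rep _ p.rep_nonzero hne 1 (by rw [one_smul])
  have h1 : toSp m A • p =
      Projectivization.mk F ((A : Matrix (Fin m ⊕ Fin m) (Fin m ⊕ Fin m) F) *ᵥ p.rep) hne := by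
    rw [← h0, Projectivization.mk_rep]
  have h3 : Projectivization.mk F (toSp m A • p).rep (Projectivization.rep_nonzero _) =
      Projectivization.mk F ((A : Matrix (Fin m ⊕ Fin m) (Fin m ⊕ Fin m) F) *ᵥ p.rep) hne :=
    (Projectivization.mk_rep _).trans h1
  obtain ⟨a, ha⟩ := (Projectivization.mk_eq_mk_iff' F _ _ _ _).1 h3
  refine ⟨a, ?_, ha.symm⟩
  intro h0'
  rw [h0', zero_smul] at ha
  exact (Projectivization.rep_nonzero _) ha.symm

theorem Tg_ne_one (e : Fin m ⊕ Fin m → F) (he : e ≠ 0) : Tg m e (1 : F) ≠ 1 := by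
  intro h
  obtain ⟨x, hx⟩ := sf_nondeg m e he
  have h1 : ((Tg m e (1 : F) : Matrix.symplecticGroup (Fin m) F) :
      Matrix (Fin m ⊕ Fin m) (Fin m ⊕ Fin m) F) *ᵥ x = x := by
    rw [h]; exact Matrix.one_mulVec x
  have h2 : Cfsg.sympTransvection m e 1 *ᵥ x = x := h1
  rw [T_apply, one_mul] at h2
  have h3 : Cfsg.sympForm m F x e • e = 0 :=
    add_left_cancel (a := x) (by rw [add_zero]; exact h2)
  rcases smul_eq_zero.1 h3 with h4 | h4
  · apply hx; rw [sf_swap, h4, neg_zero]
  · exact he h4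

theorem central_of_fix (n : Matrix.symplecticGroup (Fin m) F)
    (hfix : ∀ p : ℙ F (Fin m ⊕ Fin m → F), toSp m n • p = p) :
    n ∈ Subgroup.center (Matrix.symplecticGroup (Fin m) F) := by
  have heig : ∀ w : Fin m ⊕ Fin m → F, w ≠ 0 →
      ∃ a : F, (n : Matrix (Fin m ⊕ Fin m) (Fin m ⊕ Fin m) F) *ᵥ w = a • w := by
    intro w hw
    have hne := mulVec_ne m n w hw
    have h1 : toSp m n • Projectivization.mk F w hw = Projectivization.mk F _ hne :=
      toSp_mk m n w _ hw hne 1 (by rw [one_smul])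
    have h2 := (hfix (Projectivization.mk F w hw)).symm.trans h1
    obtain ⟨a, ha⟩ := (Projectivization.mk_eq_mk_iff' F _ _ _ _).1 h2
    have ha0 : a ≠ 0 := by
      intro h0; rw [h0, zero_smul] at ha; exact hw ha.symm
    have h3 : (n : Matrix (Fin m ⊕ Fin m) (Fin m ⊕ Fin m) F) *ᵥ w =
        a⁻¹ • (a • ((n : Matrix (Fin m ⊕ Fin m) (Fin m ⊕ Fin m) F) *ᵥ w)) := by
      rw [smul_smul, inv_mul_cancel₀ ha0, one_smul]
    rw [ha] at h3
    exact ⟨a⁻¹, h3⟩
  have hsq : ∀ (w : Fin m ⊕ Fin m → F) (a : F), w ≠ 0 →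
      (n : Matrix (Fin m ⊕ Fin m) (Fin m ⊕ Fin m) F) *ᵥ w = a • w → a * a = 1 := by
    intro w a hw ha
    obtain ⟨x, hx⟩ := sf_nondeg m w hw
    have hx0 : x ≠ 0 := by
      intro h0; apply hx; rw [h0, sf_swap, sf_zero_left, neg_zero]
    have hfx : Cfsg.sympForm m F w (x + w) ≠ 0 := by
      rw [sf_add_right, sf_self, add_zero]; exact hx
    have hxw0 : x + w ≠ 0 := by
      intro h0; apply hfx; rw [h0, sf_swap, sf_zero_left, neg_zero]
    obtain ⟨b, hb⟩ := heig x hx0
    obtain ⟨c, hc⟩ := heig (x + w) hxw0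
    have e1 : a * b = 1 := by
      have h := sf_mulVec m n w x
      rw [ha, hb, sf_smul_left, sf_smul_right] at h
      have h' : (a * b - 1) * Cfsg.sympForm m F w x = 0 := by linear_combination h
      rcases mul_eq_zero.1 h' with h0 | h0
      · exact sub_eq_zero.1 h0
      · exact absurd h0 hx
    have e2 : a * c = 1 := by
      have h := sf_mulVec m n w (x + w)
      rw [ha, hc, sf_smul_left, sf_smul_right] at h
      have h' : (a * c - 1) * Cfsg.sympForm m F w (x + w) = 0 := by linear_combination h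
      rcases mul_eq_zero.1 h' with h0 | h0
      · exact sub_eq_zero.1 h0
      · exact absurd h0 hfx
    have ha0 : a ≠ 0 := by
      intro h0; rw [h0, zero_mul] at e1; exact zero_ne_one e1
    have hbc : b = c := mul_left_cancel₀ ha0 (e1.trans e2.symm)
    have e3 : a • w = b • w := by
      have h := hc
      rw [Matrix.mulVec_add, hb, ha, ← hbc, smul_add] at h
      exact add_left_cancel h
    have hab : a = b := by
      have h : (a - b) • w = 0 := by rw [sub_smul, e3, sub_self]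
      rcases smul_eq_zero.1 h with h0 | h0
      · exact sub_eq_zero.1 h0
      · exact absurd h0 hw
    rw [← hab] at e1
    exact e1
  have hcomm : ∀ (w : Fin m ⊕ Fin m → F) (c : F), n * Tg m w c = Tg m w c * n := by
    intro w c
    by_cases hw : w = 0
    · rw [hw, Tg_zero_vec, mul_one, one_mul]
    · obtain ⟨a, ha⟩ := heig w hw
      have haa := hsq w a hw ha
      have h1 := t_conj m n w c
      rw [ha, Tg_smul, mul_assoc, haa, mul_one] at h1
      exact h1
  have hle : Subgroup.closure (TS F m) ≤ Subgroup.centralizer {n} := by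
    rw [Subgroup.closure_le]
    rintro A ⟨w, c, hA⟩
    have hA' : A = Tg m w c := Subtype.ext hA
    rw [hA']
    show Tg m w c ∈ Subgroup.centralizer {n}
    rw [Subgroup.mem_centralizer_iff]
    intro h hh
    rw [Set.mem_singleton_iff] at hh
    rw [hh]
    exact hcomm w c
  rw [gen_top] at hle
  rw [Subgroup.mem_center_iff]
  intro g
  have hg := hle (Subgroup.mem_top g)
  rw [Subgroup.mem_centralizer_iff] at hg
  exact (hg n rfl).symm

/-- PSp_{2m}(q) is simple for m at least 2 and (m, q) other than (2, 2). -/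
theorem result {F : Type*} [Field F] [Fintype F] (m : ℕ) (hm : 2 ≤ m) (h : m = 2 → 3 ≤ Fintype.card F) : IsSimpleGroup (Cfsg.PSp m F) := by
  classical
  letI act : MulAction (Matrix.symplecticGroup (Fin m) F) (ℙ F (Fin m ⊕ Fin m → F)) :=
    MulAction.compHom _ (toSpHom m)
  haveI hprim : MulAction.IsPreprimitive (Matrix.symplecticGroup (Fin m) F)
      (ℙ F (Fin m ⊕ Fin m → F)) := by
    let f : (ℙ F (Fin m ⊕ Fin m → F)) →ₑ[(toSpHom (F := F) m :
        Matrix.symplecticGroup (Fin m) F → ↥(Cfsg.spGL m F))] (ℙ F (Fin m ⊕ Fin m → F)) :=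
      { toFun := id, map_smul' := fun _ _ => rfl }
    exact (MulAction.isPreprimitive_congr (toSp_surj m) (f := f) Function.bijective_id).2
      (Cfsg.Agent.S0768.result m (by omega))
  let IwaS : MulAction.IwasawaStructure (Matrix.symplecticGroup (Fin m) F)
      (ℙ F (Fin m ⊕ Fin m → F)) :=
    { T := fun p => Tsub m p.rep
      is_comm := fun p => Tsub_comm m p.rep
      is_conj := by
        intro g p
        show Tsub m (Cfsg.Agent.S0768.toSp m g • p).rep = MulAut.conj g • Tsub m p.rep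
        obtain ⟨a, ha0, ha⟩ := rep_smul m g p
        rw [ha, Tsub_smul m a ha0, Tsub_conj]
      is_generator := by
        rw [eq_top_iff, ← Cfsg.Agent.S0440.gen_top (F := F) m, Subgroup.closure_le]
        rintro A ⟨w, c, hA⟩
        have hA' : A = Cfsg.Agent.S0271.Tg m w c := Subtype.ext hA
        rw [hA']
        by_cases hw : w = 0
        · rw [hw, Cfsg.Agent.S0269.Tg_zero_vec]; exact Subgroup.one_mem _
        · have h1 : Tsub m (Projectivization.mk F w hw).rep = Tsub m w := by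
            obtain ⟨a, ha⟩ := (Projectivization.mk_eq_mk_iff' F _ _ _ _).1
              (Projectivization.mk_rep (Projectivization.mk F w hw))
            have ha0 : a ≠ 0 := by
              intro h0; rw [h0, zero_smul] at ha
              exact (Projectivization.rep_nonzero _) ha.symm
            rw [← ha, Tsub_smul m a ha0]
          have h2 : Cfsg.Agent.S0271.Tg m w c ∈ Tsub m (Projectivization.mk F w hw).rep := by
            rw [h1]; exact ⟨c, rfl⟩
          exact Subgroup.mem_iSup_of_mem (Projectivization.mk F w hw) h2 }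
  have hperf : commutator (Matrix.symplecticGroup (Fin m) F) = ⊤ :=
    Cfsg.Agent.S0269.result m (by
      by_cases h2 : m = 2
      · exact Or.inr (Or.inl ⟨h2, h h2⟩)
      · exact Or.inl (by omega))
  have key : ∀ N : Subgroup (Matrix.symplecticGroup (Fin m) F), N.Normal →
      N ≤ Subgroup.center (Matrix.symplecticGroup (Fin m) F) ∨ N = ⊤ := by
    intro N hN
    by_cases hfix : MulAction.fixedPoints N (ℙ F (Fin m ⊕ Fin m → F)) = Set.univ
    · left
      intro n hn
      apply central_of_fix m n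
      intro p
      have h1 : p ∈ MulAction.fixedPoints N (ℙ F (Fin m ⊕ Fin m → F)) := by
        rw [hfix]; trivial
      exact (MulAction.mem_fixedPoints.1 h1) ⟨n, hn⟩
    · right
      haveI := hN
      have h1 := IwaS.commutator_le N hfix
      rw [hperf] at h1
      exact top_le_iff.1 h1
  obtain ⟨e, he⟩ : ∃ e : Fin m ⊕ Fin m → F, e ≠ 0 :=
    ⟨Pi.single (Sum.inl ⟨0, by omega⟩) 1, Pi.single_ne_zero_iff.2 one_ne_zero⟩
  have hZ : ∃ g : Matrix.symplecticGroup (Fin m) F,
      g ∉ Subgroup.center (Matrix.symplecticGroup (Fin m) F) := by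
    by_contra hcon
    push Not at hcon
    have h1 : Subgroup.center (Matrix.symplecticGroup (Fin m) F) = ⊤ :=
      eq_top_iff.2 (fun g _ => hcon g)
    have h2 : commutator (Matrix.symplecticGroup (Fin m) F) = ⊥ := by
      rw [commutator_eq_closure, Subgroup.closure_eq_bot_iff]
      rintro _ ⟨a, b, rfl⟩
      have hb := Subgroup.mem_center_iff.1 (hcon b) a
      rw [Set.mem_singleton_iff, commutatorElement_def, hb, mul_inv_cancel_right,
        mul_inv_cancel]
    rw [hperf] at h2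
    have h3 : Cfsg.Agent.S0271.Tg m e (1 : F) ∈
        (⊤ : Subgroup (Matrix.symplecticGroup (Fin m) F)) := Subgroup.mem_top _
    rw [h2, Subgroup.mem_bot] at h3
    exact Tg_ne_one m e he h3
  obtain ⟨g₀, hg₀⟩ := hZ
  haveI hnt : Nontrivial (Cfsg.PSp m F) :=
    ⟨⟨QuotientGroup.mk g₀, 1, fun h => hg₀ ((QuotientGroup.eq_one_iff g₀).1 h)⟩⟩
  refine IsSimpleGroup.mk ?_
  intro K hK
  have hN : (K.comap (QuotientGroup.mk'
      (Subgroup.center (Matrix.symplecticGroup (Fin m) F)))).Normal := hK.comap _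
  rcases key _ hN with h1 | h1
  · left
    rw [Subgroup.eq_bot_iff_forall]
    intro x hx
    obtain ⟨g, rfl⟩ := QuotientGroup.mk_surjective x
    have h2 : g ∈ K.comap (QuotientGroup.mk'
        (Subgroup.center (Matrix.symplecticGroup (Fin m) F))) := hx
    exact (QuotientGroup.eq_one_iff g).2 (h1 h2)
  · right
    rw [eq_top_iff]
    intro x _
    obtain ⟨g, rfl⟩ := QuotientGroup.mk_surjective x
    have h2 : g ∈ K.comap (QuotientGroup.mk'
        (Subgroup.center (Matrix.symplecticGroup (Fin m) F))) := by rw [h1]; trivial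
    exact h2

end Cfsg.Agent.S0270
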