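import Cfsg.Statements.S0272
import Mathlib
import Cfsg.Agent.Helper4.GL2
import Cfsg.Agent.S0258

set_option autoImplicit false
open Cfsg

namespace Cfsg.Agent.S0272

/-- The normaliser in GL_2(q) of a Sylow p-subgroup, p the characteristic, has order q (q-1)^2. -/
theorem result {F : Type*} [Field F] [Fintype F] {q : ℕ} (hF : Fintype.card F = q) (p : ℕ) [Fact p.Prime] [CharP F p] (P : Sylow p (Matrix.GeneralLinearGroup (Fin 2) F)) : Nat.card (Subgroup.normalizer ((P : Subgroup (Matrix.GeneralLinearGroup (Fin 2) F)) : Set (Matrix.GeneralLinearGroup (Fin 2) F))) = q * (q - 1) ^ 2 := by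
  subst hF
  classical
  have h0 := Cfsg.Agent.S0258.result (F := F) rfl p
  rw [Sylow.card_eq_index_normalizer P] at h0
  change (Subgroup.normalizer ((P : Subgroup (Matrix.GeneralLinearGroup (Fin 2) F)) :
      Set (Matrix.GeneralLinearGroup (Fin 2) F))).index = _ at h0
  have h1 := Subgroup.card_mul_index (Subgroup.normalizer
    ((P : Subgroup (Matrix.GeneralLinearGroup (Fin 2) F)) :
      Set (Matrix.GeneralLinearGroup (Fin 2) F)))
  rw [h0, Matrix.card_GL_field, Fin.prod_univ_two] at h1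
  simp only [Fin.val_zero, Fin.val_one, pow_zero, pow_one] at h1
  have hq : 2 ≤ Fintype.card F := Fintype.one_lt_card
  obtain ⟨r, hr⟩ : ∃ r, Fintype.card F = r + 2 := ⟨Fintype.card F - 2, by omega⟩
  rw [hr] at h1 ⊢
  have e1 : (r + 2) ^ 2 - 1 = (r + 1) * (r + 3) := by
    have : (r + 2) ^ 2 = (r + 1) * (r + 3) + 1 := by ring
    omega
  have e2 : (r + 2) ^ 2 - (r + 2) = (r + 2) * (r + 1) := by
    have : (r + 2) ^ 2 = (r + 2) * (r + 1) + (r + 2) := by ring
    omega
  have e3 : r + 2 - 1 = r + 1 := by omega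
  rw [e1, e2] at h1
  rw [e3]
  refine Nat.eq_of_mul_eq_mul_right (show 0 < r + 2 + 1 by positivity) ?_
  rw [h1]
  ring

end Cfsg.Agent.S0272
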