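import Cfsg.Statements.S0273
import Mathlib
import Cfsg.Agent.Helper4.GL2

set_option autoImplicit false
open Cfsg

namespace Cfsg.Agent.S0273

/-- In GL_2(q) the centraliser of a non-trivial element of a Sylow p-subgroup (p the characteristic) has order q (q-1): the Sylow subgroup times the scalars. -/
theorem result {F : Type*} [Field F] [Fintype F] {q : ℕ} (hF : Fintype.card F = q) (p : ℕ) [Fact p.Prime] [CharP F p] (P : Sylow p (Matrix.GeneralLinearGroup (Fin 2) F)) (a : Matrix.GeneralLinearGroup (Fin 2) F) (ha : a ∈ P) (ha1 : a ≠ 1) : Nat.card (Subgroup.centralizer ({a} : Set (Matrix.GeneralLinearGroup (Fin 2) F))) = q * (q - 1) := by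
  subst hF
  classical
  obtain ⟨g, hg⟩ := Cfsg.Agent.Helper4.GL2.exists_conj p P
  obtain ⟨b, hb⟩ := (hg a).1 ha
  have hb0 : b ≠ 0 := by
    rintro rfl
    rw [Cfsg.Agent.Helper4.GL2.T_zero] at hb
    apply ha1
    have : a = g * (g⁻¹ * a * g) * g⁻¹ := by group
    rw [this, hb]
    group
  rw [← Cfsg.Agent.Helper4.GL2.card_centralizer_conj a g, hb,
    Cfsg.Agent.Helper4.GL2.card_centralizer_T hb0, Nat.card_eq_fintype_card]

end Cfsg.Agent.S0273
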