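import Cfsg.Statements.S0280
import Mathlib
import Cfsg.Agent.S0278
import Cfsg.Agent.S0281

set_option autoImplicit false
open Cfsg

namespace Cfsg.Agent.S0280

/-- Order of PSU_n(q): gcd(n, q+1) (q+1) |PSU_n(q)| = q^(n(n-1)/2) * prod_{i=1}^{n} (q^i - (-1)^i), n at least 2. -/
theorem result {F : Type*} [Field F] [Fintype F] {q : ℕ} (hF : Fintype.card F = q ^ 2) (n : ℕ) (hn : 2 ≤ n) : Nat.gcd n (q + 1) * ((q + 1) * Nat.card (Cfsg.PSU n F q)) = q ^ (n * (n - 1) / 2) * ∏ i ∈ Finset.range n, (if Even i then q ^ (i + 1) + 1 else q ^ (i + 1) - 1) := by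
  classical
  have hq := Cfsg.Agent.S0279.q_ge_two hF
  have hZ : Nat.card (Subgroup.center (Cfsg.SU n F q)) = Nat.gcd n (q + 1) := by
    rcases Nat.lt_or_ge n 3 with h3 | h3
    · have hn2 : n = 2 := by omega
      subst hn2
      obtain ⟨p, hp⟩ := CharP.exists F
      haveI := hp
      haveI : Fact p.Prime := ⟨CharP.char_is_prime F p⟩
      obtain ⟨m, -, hm⟩ := FiniteField.card F p
      have hdvd : q ∣ p ^ (m : ℕ) := by
        rw [← hm, hF]; exact Dvd.intro_left q (by ring)
      obtain ⟨j, -, hj⟩ := (Nat.dvd_prime_pow (Fact.out : p.Prime)).1 hdvd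
      have hj0 : j ≠ 0 := by
        rintro rfl
        rw [pow_zero] at hj
        omega
      letI : Fintype (GaloisField p j) := Fintype.ofFinite _
      have hK : Fintype.card (GaloisField p j) = q := by
        rw [← Nat.card_eq_fintype_card, GaloisField.card p j hj0, hj]
      obtain ⟨e⟩ := Cfsg.Agent.S0281.result (K := GaloisField p j) hF hK
      rw [Nat.card_congr (Subgroup.centerCongr e).toEquiv,
        Nat.card_congr (Matrix.SpecialLinearGroup.center_equiv_rootsOfUnity' (0 : Fin 2)).toEquiv,
        Fintype.card_fin]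
      rcases Nat.even_or_odd q with he | ho
      · have h2 : ringChar (GaloisField p j) = 2 := by
          rw [FiniteField.even_card_iff_char_two, hK]
          exact Nat.even_iff.mp he
        haveI : CharP (GaloisField p j) 2 := ringChar.of_eq h2
        have hbot : rootsOfUnity 2 (GaloisField p j) = ⊥ := by
          rw [eq_bot_iff]
          intro x hx
          rw [Subgroup.mem_bot]
          rw [mem_rootsOfUnity] at hx
          have h4 : (x : GaloisField p j) ^ 2 = 1 := by
            rw [← Units.val_pow_eq_pow_val, hx]; rfl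
          have h22 : (2 : GaloisField p j) = 0 := CharTwo.two_eq_zero
          have h3 : ((x : GaloisField p j) - 1) ^ 2 = 0 := by
            linear_combination h4 - ((x : GaloisField p j) - 1) * h22
          have h5 : (x : GaloisField p j) - 1 = 0 := by
            exact pow_eq_zero_iff (two_ne_zero) |>.mp h3
          exact Units.ext (sub_eq_zero.mp h5)
        rw [hbot, Subgroup.card_bot]
        have hcop : Nat.gcd 2 (q + 1) = 1 := Nat.coprime_two_left.mpr he.add_one
        rw [hcop]
      · have h2 : ringChar (GaloisField p j) ≠ 2 := by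
          intro h
          rw [FiniteField.even_card_iff_char_two, hK] at h
          rcases ho with ⟨t, ht⟩
          omega
        haveI : CharP (GaloisField p j) (ringChar (GaloisField p j)) := ringChar.charP _
        have hprim : IsPrimitiveRoot (-1 : GaloisField p j) 2 :=
          IsPrimitiveRoot.neg_one (ringChar (GaloisField p j)) h2
        rw [hprim.card_rootsOfUnity]
        exact (Nat.gcd_eq_left (even_iff_two_dvd.mp ho.add_one)).symm
    · exact Cfsg.Agent.S0279.result hF n h3
  have h1 := Cfsg.Agent.S0278.result hF n (by omega)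
  have h2 : Nat.card (Cfsg.SU n F q) =
      Nat.card (Cfsg.PSU n F q) * Nat.card (Subgroup.center (Cfsg.SU n F q)) :=
    Subgroup.card_eq_card_quotient_mul_card_subgroup _
  rw [← h1, h2, hZ]
  ring

end Cfsg.Agent.S0280
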