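import Cfsg.Statements.S0282
import Mathlib
import Cfsg.Agent.S0280
import Cfsg.Agent.S0144

set_option autoImplicit false
open Cfsg

namespace Cfsg.Agent.S0282

/-- PSU_3(2) is a solvable group of order 72. -/
theorem result {F : Type*} [Field F] [Fintype F] (hF : Fintype.card F = 4) : Nat.card (Cfsg.PSU 3 F 2) = 72 ∧ Group.IsSolvable (Cfsg.PSU 3 F 2) := by
  have hF' : Fintype.card F = 2 ^ 2 := by rw [hF]; norm_num
  have h := Cfsg.Agent.S0280.result hF' 3 (by norm_num)
  have hcard : Nat.card (Cfsg.PSU 3 F 2) = 72 := by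
    have h1 : Nat.gcd 3 (2 + 1) = 3 := by decide
    rw [h1] at h
    have h2 : (2 : ℕ) ^ (3 * (3 - 1) / 2) * ∏ i ∈ Finset.range 3, (if Even i then 2 ^ (i + 1) + 1 else 2 ^ (i + 1) - 1) = 648 := by
      decide
    rw [h2] at h
    omega
  refine ⟨hcard, ?_⟩
  exact Cfsg.Agent.S0144.result 2 3 3 2 Nat.prime_two Nat.prime_three (by rw [hcard]; norm_num)

end Cfsg.Agent.S0282
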