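import Cfsg.Statements.S0291
import Cfsg.Agent.Helper7.QuadCount

set_option autoImplicit false
open Cfsg

namespace Cfsg.Agent.S0291

/-- For q odd, the form x_0^2 + sum_{i<m} x_i y_i on F^(2m+1) has exactly q^(2m) zeros. -/
theorem result {F : Type*} [Field F] [Fintype F] {q : ℕ} (hF : Fintype.card F = q) (hodd : Odd q) (m : ℕ) : Nat.card {v : Unit ⊕ (Fin m ⊕ Fin m) → F // Cfsg.quadFormOdd m F v = 0} = q ^ (2 * m) := by
  classical
  let e : {v : Unit ⊕ (Fin m ⊕ Fin m) → F // Cfsg.quadFormOdd m F v = 0} ≃
      (Σ x : Fin m → F, Σ t : F, {y : Fin m → F // t ^ 2 + ∑ i, x i * y i = 0}) :=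
    { toFun := fun v => ⟨fun i => v.1 (Sum.inr (Sum.inl i)), ⟨v.1 (Sum.inl ()),
        ⟨fun i => v.1 (Sum.inr (Sum.inr i)), v.2⟩⟩⟩
      invFun := fun p => ⟨Sum.elim (fun _ => p.2.1) (Sum.elim p.1 p.2.2.1), p.2.2.2⟩
      left_inv := by
        intro v
        apply Subtype.ext
        funext i
        rcases i with ⟨⟩ | i | i <;> rfl
      right_inv := by
        intro p
        rfl }
  rw [Nat.card_congr e, Nat.card_sigma]
  have hq : 0 < q := by rw [← hF]; exact Fintype.card_pos
  have hterm : ∀ x : Fin m → F,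
      Nat.card (Σ t : F, {y : Fin m → F // t ^ 2 + ∑ i, x i * y i = 0}) = q ^ m := by
    intro x
    rw [Nat.card_sigma]
    by_cases hx : x = 0
    · subst hx
      have h1 : ∀ t : F, Nat.card {y : Fin m → F // t ^ 2 + ∑ i, (0 : Fin m → F) i * y i = 0} =
          if t = 0 then q ^ m else 0 := by
        intro t
        split_ifs with ht
        · subst ht
          have : ∀ y : Fin m → F, (0 : F) ^ 2 + ∑ i, (0 : Fin m → F) i * y i = 0 := by
            intro y; simp
          rw [Nat.card_congr (Equiv.subtypeUnivEquiv this), Nat.card_fun, Nat.card_fin,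
            Nat.card_eq_fintype_card, hF]
        · haveI : IsEmpty {y : Fin m → F // t ^ 2 + ∑ i, (0 : Fin m → F) i * y i = 0} := by
            refine ⟨fun y => ?_⟩
            have h2 := y.2
            simp at h2
            exact ht h2
          exact Nat.card_of_isEmpty
      simp_rw [h1]
      rw [Finset.sum_ite_eq' Finset.univ (0 : F) (fun _ => q ^ m), if_pos (Finset.mem_univ _)]
    · have h1 : ∀ t : F, Nat.card {y : Fin m → F // t ^ 2 + ∑ i, x i * y i = 0} = q ^ (m - 1) := by
        intro t
        rw [← Cfsg.Agent.Helper7.card_dot hF x hx (-(t ^ 2))]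
        refine Nat.card_congr (Equiv.subtypeEquivRight (fun y => ?_))
        constructor
        · intro h; exact eq_neg_of_add_eq_zero_right h
        · intro h; rw [h]; ring
      simp_rw [h1]
      have hm : 1 ≤ m := by
        by_contra h0
        have : m = 0 := by omega
        subst this
        exact hx (Subsingleton.elim _ _)
      rw [Finset.sum_const, Finset.card_univ, hF, smul_eq_mul, ← pow_succ', Nat.sub_add_cancel hm]
  simp_rw [hterm]
  rw [Finset.sum_const, Finset.card_univ, Fintype.card_fun, Fintype.card_fin, hF, smul_eq_mul,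
    ← pow_add, two_mul]

end Cfsg.Agent.S0291
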