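import Cfsg.Statements.S0286
import Mathlib
import Cfsg.Agent.Helper7.OrthCore
import Cfsg.Agent.S0291

set_option autoImplicit false
open Cfsg

namespace Cfsg.Agent.S0286

open Matrix Cfsg.Agent.Helper7.OrthChain Cfsg.Agent.Helper7.OrthCore Cfsg.Agent.Helper7.SympGen

/-- the one-dimensional core `x ^ 2` -/
def Q0 (F : Type*) [Field F] (w : Unit → F) : F := w () ^ 2

def B0 (F : Type*) [Field F] (u v : Unit → F) : F := 2 * u () * v ()

lemma qdata0 (F : Type*) [Field F] : QData (Q0 F) (B0 F) where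
  polar u v := by
    simp only [Q0, B0, Pi.add_apply]
    ring
  smul c v := by
    simp only [Q0, Pi.smul_apply, smul_eq_mul]
    ring
  add_left u u' v := by
    simp only [B0, Pi.add_apply]
    ring
  smul_left c u v := by
    simp only [B0, Pi.smul_apply, smul_eq_mul]
    ring
  symm u v := by
    simp only [B0]
    ring

lemma quadFormOdd_eq {F : Type*} [Field F] (m : ℕ) : Cfsg.quadFormOdd m F = Qc (Q0 F) m := by
  funext v
  rfl

lemma hnd0 {F : Type*} [Field F] (h2 : (2 : F) ≠ 0) :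
    ∀ w : Unit → F, w ≠ 0 → ∃ z, B0 F w z ≠ 0 := by
  intro w hw
  refine ⟨fun _ => 1, ?_⟩
  have hw0 : w () ≠ 0 := fun h0 => hw (funext fun _ => h0)
  show 2 * w () * 1 ≠ 0
  rw [mul_one]
  exact mul_ne_zero h2 hw0

lemma card_base {F : Type*} [Field F] (h2 : (2 : F) ≠ 0) (m : ℕ) :
    Nat.card (fixG (Qc (Q0 F) m) (Sk Unit m 0)) = 2 := by
  classical
  have h := qdata (F := F) m (qdata0 F)
  obtain ⟨E0, hE0⟩ : ∃ E0 : Unit ⊕ (Fin m ⊕ Fin m) → F, E0 = Sum.elim (fun _ => 1) 0 := ⟨_, rfl⟩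
  have hE0s : E0 = Pi.single (Sum.inl ()) 1 := by
    rw [hE0]
    funext j
    rcases j with ⟨⟩ | j
    · simp
    · simp
  have hQE0 : Qc (Q0 F) m E0 = 1 := by
    rw [hE0]
    unfold Qc
    have e1 : (Sum.elim (fun _ : Unit => (1 : F)) (0 : Fin m ⊕ Fin m → F)) ∘ Sum.inl =
        fun _ => 1 := rfl
    have e2 : (Sum.elim (fun _ : Unit => (1 : F)) (0 : Fin m ⊕ Fin m → F)) ∘ Sum.inr = 0 := rfl
    rw [e1, e2, (Cfsg.Agent.Helper7.OrthPlus.qdata m).Q_zero]
    simp [Q0]
  have hE0perp : E0 ∈ h.perp (Sk Unit m 0) := by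
    rw [mem_perp_Sk m (qdata0 F), hE0]
    exact (Uk (F := F) m 0).zero_mem
  have hperp : ∀ w, w ∈ h.perp (Sk Unit m 0) → w = w (Sum.inl ()) • E0 := by
    intro w hw
    rw [mem_perp_Sk m (qdata0 F)] at hw
    funext j
    rcases j with ⟨⟩ | i | i
    · rw [hE0]
      simp
    · rw [hE0]
      simp only [Pi.smul_apply, Sum.elim_inr, Pi.zero_apply, smul_eq_mul, mul_zero]
      exact (hw i (Nat.zero_le _)).1
    · rw [hE0]
      simp only [Pi.smul_apply, Sum.elim_inr, Pi.zero_apply, smul_eq_mul, mul_zero]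
      exact (hw i (Nat.zero_le _)).2
  have hmaps : ∀ g ∈ fixG (Qc (Q0 F) m) (Sk Unit m 0),
      (g : Matrix _ _ F) *ᵥ E0 ∈ ({E0, -E0} : Set (Unit ⊕ (Fin m ⊕ Fin m) → F)) := by
    intro g hg
    have hw : (g : Matrix _ _ F) *ᵥ E0 ∈ h.perp (Sk Unit m 0) := by
      intro s hs
      have h1 := h.B_gl g hg.1 E0 s
      rw [hg.2 s hs] at h1
      rw [h1]
      exact hE0perp s hs
    have hc := hperp _ hw
    obtain ⟨c, hc'⟩ : ∃ c, c = (g.1 *ᵥ E0) (Sum.inl ()) := ⟨_, rfl⟩
    rw [← hc'] at hc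
    have hQ : Qc (Q0 F) m ((g : Matrix _ _ F) *ᵥ E0) = 1 := by
      rw [(mem_isom _ g).mp hg.1, hQE0]
    rw [hc, h.smul, hQE0, mul_one] at hQ
    have h3 : (c - 1) * (c + 1) = 0 := by linear_combination hQ
    rcases mul_eq_zero.mp h3 with h4 | h4
    · left
      rw [hc, sub_eq_zero.mp h4, one_smul]
    · right
      rw [hc, eq_neg_of_add_eq_zero_left h4, neg_one_smul]
      rfl
  have hsurj : ∀ a ∈ ({E0, -E0} : Set (Unit ⊕ (Fin m ⊕ Fin m) → F)),
      ∃ g ∈ fixG (Qc (Q0 F) m) (Sk Unit m 0), (g : Matrix _ _ F) *ᵥ E0 = a := by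
    intro a ha
    rcases Set.mem_insert_iff.mp ha with h1 | h1
    · exact ⟨1, one_mem _, by rw [h1]; simp⟩
    · have h1' : a = -E0 := Set.mem_singleton_iff.mp h1
      have hT : ∀ v, Qc (Q0 F) m (h.refl E0 v) = Qc (Q0 F) m v :=
        h.Q_refl E0 (by rw [hQE0]; exact one_ne_zero)
      obtain ⟨g, hg, hgv⟩ := h.exists_gl (hns m (qdata0 F) (hnd0 h2)) (h.refl E0) hT
      refine ⟨g, ⟨hg, fun s hs => ?_⟩, ?_⟩
      · rw [hgv, h.refl_apply, h.symm s E0, hE0perp s hs, zero_div, zero_smul, sub_zero]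
      · rw [hgv, h.refl_apply, h.B_self, hQE0, h1']
        have e : (2 * 1 / 1 : F) = 2 := by norm_num
        rw [e]
        module
  rw [card_fixG_step (Qc (Q0 F) m) (Sk Unit m 0) E0 {E0, -E0} hmaps hsurj]
  have hbot : fixG (Qc (Q0 F) m) (insert E0 (Sk Unit m 0)) = ⊥ := by
    rw [eq_bot_iff]
    intro A hA
    rw [Subgroup.mem_bot]
    apply Units.ext
    ext r j
    rcases j with ⟨⟩ | i | i
    · have := congrFun (hA.2 E0 (Set.mem_insert _ _)) r
      rw [hE0s, Matrix.mulVec_single_one] at this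
      rw [Units.val_one, Matrix.one_apply]
      simpa [Pi.single_apply] using this
    · have := congrFun (hA.2 (Pi.single (Sum.inr (Sum.inl i)) 1)
        (Set.mem_insert_of_mem _ ⟨i, Nat.zero_le _, Or.inl rfl⟩)) r
      rw [Matrix.mulVec_single_one] at this
      rw [Units.val_one, Matrix.one_apply]
      simpa [Pi.single_apply] using this
    · have := congrFun (hA.2 (Pi.single (Sum.inr (Sum.inr i)) 1)
        (Set.mem_insert_of_mem _ ⟨i, Nat.zero_le _, Or.inr rfl⟩)) r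
      rw [Matrix.mulVec_single_one] at this
      rw [Units.val_one, Matrix.one_apply]
      simpa [Pi.single_apply] using this
  have hne : E0 ≠ -E0 := by
    intro heq
    have h5 := congrFun heq (Sum.inl ())
    rw [hE0] at h5
    simp only [Sum.elim_inl, Pi.neg_apply] at h5
    exact h2 (by linear_combination h5)
  rw [hbot, Subgroup.card_bot, mul_one, Nat.card_coe_set_eq, Set.ncard_pair hne]

/-- |GO_{2m+1}(q)| = 2 q^(m^2) prod_{i=1}^{m} (q^(2i) - 1) for q odd. -/
theorem result {F : Type*} [Field F] [Fintype F] {q : ℕ} (hF : Fintype.card F = q) (hodd : Odd q) (m : ℕ) : Nat.card (Cfsg.isometryGroup F (Cfsg.quadFormOdd m F)) = 2 * q ^ (m ^ 2) * ∏ i ∈ Finset.range m, (q ^ (2 * (i + 1)) - 1) := by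
  classical
  subst hF
  have h2 : (2 : F) ≠ 0 := Ring.two_ne_zero (fun hc => by
    have := FiniteField.even_card_iff_char_two.mp hc
    obtain ⟨k, hk⟩ := hodd
    omega)
  rw [quadFormOdd_eq, card_core m (qdata0 F) (hnd0 h2), card_base h2 m]
  have hN : ∀ k, Nat.card {w : Unit ⊕ (Fin (k + 1) ⊕ Fin (k + 1)) → F //
      Qc (Q0 F) (k + 1) w = 0} = Fintype.card F ^ (2 * (k + 1)) :=
    fun k => Cfsg.Agent.S0291.result rfl hodd (k + 1)
  simp only [hN, Fintype.card_unit]
  induction m with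
  | zero => simp
  | succ n ih =>
    rw [Finset.prod_range_succ, Finset.prod_range_succ,
      show Fintype.card F ^ ((n + 1) ^ 2) = Fintype.card F ^ (n ^ 2) *
        Fintype.card F ^ (1 + 2 * n) by rw [← pow_add]; congr 1; ring]
    calc (∏ x ∈ Finset.range n, (Fintype.card F ^ (2 * (x + 1)) - 1) *
            Fintype.card F ^ (1 + 2 * x)) *
          ((Fintype.card F ^ (2 * (n + 1)) - 1) * Fintype.card F ^ (1 + 2 * n)) * 2
        = ((∏ x ∈ Finset.range n, (Fintype.card F ^ (2 * (x + 1)) - 1) *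
            Fintype.card F ^ (1 + 2 * x)) * 2) *
          ((Fintype.card F ^ (2 * (n + 1)) - 1) * Fintype.card F ^ (1 + 2 * n)) := by ring
      _ = _ := by
        rw [ih]
        ring

end Cfsg.Agent.S0286
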