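import Cfsg.Statements.S0304
import Mathlib
import Cfsg.Agent.S0271
import Cfsg.Agent.Helper5.SpEmbed

set_option autoImplicit false
open Cfsg

namespace Cfsg.Agent.S0304

open Matrix

variable {F : Type*} [Field F]

/-- the hyperbolic part -/
def q0 (m : ℕ) (w : Fin m ⊕ Fin m → F) : F := ∑ i : Fin m, w (Sum.inl i) * w (Sum.inr i)

theorem Q_eq (m : ℕ) (v : Unit ⊕ (Fin m ⊕ Fin m) → F) :
    Cfsg.quadFormOdd m F v = v (Sum.inl ()) ^ 2 + q0 m (v ∘ Sum.inr) := rfl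

theorem two_eq [CharP F 2] : (2 : F) = 0 := by
  have h := CharP.cast_eq_zero F 2
  exact_mod_cast h

theorem sq_inj2 [CharP F 2] {x y : F} (h : x ^ 2 = y ^ 2) : x = y := by
  have h2 : (2 : F) = 0 := two_eq
  have h3 : (x - y) ^ 2 = 0 := by linear_combination h + (y ^ 2 - x * y) * h2
  exact sub_eq_zero.1 ((pow_eq_zero_iff (by norm_num : (2:ℕ) ≠ 0)).1 h3)

theorem q0_add [CharP F 2] (m : ℕ) (w w' : Fin m ⊕ Fin m → F) :
    q0 m (w + w') = q0 m w + q0 m w' + Cfsg.sympForm m F w w' := by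
  have h2 : (2 : F) = 0 := two_eq
  rw [Cfsg.Agent.Helper5.sf5_eq]
  unfold q0
  rw [← Finset.sum_add_distrib, ← Finset.sum_add_distrib]
  apply Finset.sum_congr rfl
  intro i _
  simp only [Pi.add_apply]
  linear_combination (w (Sum.inl i) * w' (Sum.inr i)) * h2

theorem q0_smul (m : ℕ) (c : F) (w : Fin m ⊕ Fin m → F) : q0 m (c • w) = c ^ 2 * q0 m w := by
  unfold q0
  rw [Finset.mul_sum]
  apply Finset.sum_congr rfl
  intro i _
  simp only [Pi.smul_apply, smul_eq_mul]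
  ring

theorem q0_zero (m : ℕ) : q0 m (0 : Fin m ⊕ Fin m → F) = 0 := by
  unfold q0; simp

theorem q0_single (m : ℕ) (j : Fin m ⊕ Fin m) : q0 m (Pi.single j (1 : F)) = 0 := by
  classical
  unfold q0
  apply Finset.sum_eq_zero
  intro i _
  rcases j with j | j
  · rw [show (Pi.single (Sum.inl j) (1 : F) : Fin m ⊕ Fin m → F) (Sum.inr i) = 0 from by simp,
      mul_zero]
  · rw [show (Pi.single (Sum.inr j) (1 : F) : Fin m ⊕ Fin m → F) (Sum.inl i) = 0 from by simp,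
      zero_mul]

theorem Q_blk (m : ℕ) (B : Matrix Unit (Fin m ⊕ Fin m) F)
    (D : Matrix (Fin m ⊕ Fin m) (Fin m ⊕ Fin m) F) (v : Unit ⊕ (Fin m ⊕ Fin m) → F) :
    Cfsg.quadFormOdd m F (Matrix.fromBlocks 1 B 0 D *ᵥ v) =
      (v (Sum.inl ()) + (B *ᵥ (v ∘ Sum.inr)) ()) ^ 2 + q0 m (D *ᵥ (v ∘ Sum.inr)) := by
  have e0 : (Matrix.fromBlocks 1 B 0 D *ᵥ v) (Sum.inl ()) =
      v (Sum.inl ()) + (B *ᵥ (v ∘ Sum.inr)) () := by
    rw [Matrix.fromBlocks_mulVec]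
    show ((1 : Matrix Unit Unit F) *ᵥ (v ∘ Sum.inl) + B *ᵥ (v ∘ Sum.inr)) () = _
    rw [Pi.add_apply, Matrix.one_mulVec]; rfl
  have e1 : (Matrix.fromBlocks 1 B 0 D *ᵥ v) ∘ Sum.inr = D *ᵥ (v ∘ Sum.inr) := by
    rw [Matrix.fromBlocks_mulVec]
    show (0 : Matrix (Fin m ⊕ Fin m) Unit F) *ᵥ (v ∘ Sum.inl) + D *ᵥ (v ∘ Sum.inr) = _
    rw [Matrix.zero_mulVec, zero_add]
  rw [Q_eq, e0, e1]

theorem shape [CharP F 2] (m : ℕ) (g : ↥(Cfsg.isometryGroup F (Cfsg.quadFormOdd m F))) :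
    g.1.1 = Matrix.fromBlocks 1 g.1.1.toBlocks₁₂ 0 g.1.1.toBlocks₂₂ := by
  classical
  have h2 : (2 : F) = 0 := two_eq
  have hg : ∀ v, Cfsg.quadFormOdd m F (g.1.1 *ᵥ v) = Cfsg.quadFormOdd m F v := fun v => g.2 v v
  have hinv : g.1.1 * (g.1⁻¹).1 = 1 := by
    rw [← Units.val_mul, mul_inv_cancel]; rfl
  obtain ⟨c, hc⟩ : ∃ c : Unit ⊕ (Fin m ⊕ Fin m) → F,
      c = g.1.1 *ᵥ Pi.single (Sum.inl ()) 1 := ⟨_, rfl⟩
  have hQe : ∀ u' : Unit ⊕ (Fin m ⊕ Fin m) → F,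
      Cfsg.quadFormOdd m F (Pi.single (Sum.inl ()) 1 + u') = 1 + Cfsg.quadFormOdd m F u' := by
    intro u'
    rw [Q_eq, Q_eq]
    have e1 : ((Pi.single (Sum.inl ()) 1 + u' : Unit ⊕ (Fin m ⊕ Fin m) → F)) ∘ Sum.inr =
        u' ∘ Sum.inr := by
      funext j; simp
    rw [e1, Pi.add_apply, Pi.single_eq_same, CharTwo.add_sq, one_pow, add_assoc]
  have hQc : ∀ u, Cfsg.quadFormOdd m F (c + u) = 1 + Cfsg.quadFormOdd m F u := by
    intro u
    have e1 : c + u = g.1.1 *ᵥ (Pi.single (Sum.inl ()) 1 + (g.1⁻¹).1 *ᵥ u) := by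
      rw [Matrix.mulVec_add, ← hc, Matrix.mulVec_mulVec, hinv, Matrix.one_mulVec]
    rw [e1, hg, hQe]
    have e2 := hg ((g.1⁻¹).1 *ᵥ u)
    rw [Matrix.mulVec_mulVec, hinv, Matrix.one_mulVec] at e2
    rw [e2]
  have hc1 : Cfsg.quadFormOdd m F c = 1 := by
    rw [hc, hg, Q_eq]
    have e1 : (Pi.single (Sum.inl ()) 1 : Unit ⊕ (Fin m ⊕ Fin m) → F) ∘ Sum.inr = 0 := by
      funext j; simp
    rw [e1, Pi.single_eq_same, one_pow, q0_zero, add_zero]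
  have hc1' : c (Sum.inl ()) ^ 2 + q0 m (c ∘ Sum.inr) = 1 := hc1
  have hf : ∀ w, Cfsg.sympForm m F (c ∘ Sum.inr) w = 0 := by
    intro w
    have h1 := hQc (Sum.elim (0 : Unit → F) w)
    rw [Q_eq, Q_eq] at h1
    have e1 : (c + Sum.elim (0 : Unit → F) w) ∘ Sum.inr = c ∘ Sum.inr + w := by funext j; simp
    have e2 : (Sum.elim (0 : Unit → F) w) ∘ Sum.inr = w := rfl
    rw [e1, e2, q0_add] at h1
    simp only [Pi.add_apply, Sum.elim_inl, Pi.zero_apply, add_zero] at h1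
    linear_combination h1 - hc1'
  have hcw : c ∘ Sum.inr = 0 := by
    by_contra hne
    obtain ⟨z, hz⟩ := Cfsg.Agent.S0271.sf_nondeg m _ hne
    exact hz (hf z)
  have hc0 : c (Sum.inl ()) = 1 := by
    rw [hcw, q0_zero, add_zero] at hc1'
    apply sq_inj2
    rw [hc1', one_pow]
  have h11 : g.1.1.toBlocks₁₁ = 1 := by
    ext i j
    have h1 : g.1.1 (Sum.inl ()) (Sum.inl ()) = 1 := by
      have h3 := hc0
      rw [hc, Matrix.mulVec_single_one] at h3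
      exact h3
    cases i; cases j
    rw [Matrix.one_apply_eq]
    exact h1
  have h21 : g.1.1.toBlocks₂₁ = 0 := by
    ext j i
    have h1 := congrFun hcw j
    rw [hc] at h1
    simp only [Function.comp_apply, Matrix.mulVec_single_one, Pi.zero_apply] at h1
    cases i
    exact h1
  have h := Matrix.fromBlocks_toBlocks g.1.1
  rw [h11, h21] at h
  exact h.symm

theorem Kid [CharP F 2] (m : ℕ) (g : ↥(Cfsg.isometryGroup F (Cfsg.quadFormOdd m F)))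
    (w : Fin m ⊕ Fin m → F) :
    ((g.1.1.toBlocks₁₂ *ᵥ w) ()) ^ 2 + q0 m (g.1.1.toBlocks₂₂ *ᵥ w) = q0 m w := by
  have h1 : Cfsg.quadFormOdd m F (g.1.1 *ᵥ Sum.elim 0 w) =
      Cfsg.quadFormOdd m F (Sum.elim 0 w) := g.2 _ (Sum.elim 0 w)
  rw [shape m g, Q_blk, Q_eq] at h1
  have e2 : (Sum.elim (0 : Unit → F) w) ∘ Sum.inr = w := rfl
  rw [e2] at h1
  simp only [Sum.elim_inl, Pi.zero_apply, zero_add] at h1
  linear_combination h1

theorem D_mem [CharP F 2] (m : ℕ) (g : ↥(Cfsg.isometryGroup F (Cfsg.quadFormOdd m F))) :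
    g.1.1.toBlocks₂₂ ∈ Matrix.symplecticGroup (Fin m) F := by
  apply Cfsg.Agent.Helper5.symp_mem_of_form
  intro w w'
  have k1 := Kid m g w
  have k2 := Kid m g w'
  have k3 := Kid m g (w + w')
  rw [Matrix.mulVec_add, Matrix.mulVec_add, Pi.add_apply, CharTwo.add_sq, q0_add, q0_add] at k3
  linear_combination k3 - k1 - k2

/-- the lower right block -/
noncomputable def Theta [CharP F 2] (m : ℕ) :
    ↥(Cfsg.isometryGroup F (Cfsg.quadFormOdd m F)) →* Matrix.symplecticGroup (Fin m) F where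
  toFun g := ⟨g.1.1.toBlocks₂₂, D_mem m g⟩
  map_one' := by
    apply Subtype.ext
    show (1 : Matrix (Unit ⊕ (Fin m ⊕ Fin m)) (Unit ⊕ (Fin m ⊕ Fin m)) F).toBlocks₂₂ = 1
    rw [← Matrix.fromBlocks_one, Matrix.toBlocks_fromBlocks₂₂]
  map_mul' g g' := by
    apply Subtype.ext
    show (g.1.1 * g'.1.1).toBlocks₂₂ = g.1.1.toBlocks₂₂ * g'.1.1.toBlocks₂₂
    conv_lhs => rw [shape m g, shape m g', Matrix.fromBlocks_multiply,
      Matrix.toBlocks_fromBlocks₂₂]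
    rw [Matrix.zero_mul, zero_add]

theorem Theta_inj [CharP F 2] (m : ℕ) : Function.Injective (Theta (F := F) m) := by
  intro g g' h
  have hD : g.1.1.toBlocks₂₂ = g'.1.1.toBlocks₂₂ := congrArg Subtype.val h
  have hB : g.1.1.toBlocks₁₂ = g'.1.1.toBlocks₁₂ := by
    ext i j
    cases i
    have k1 := Kid m g (Pi.single j 1)
    have k2 := Kid m g' (Pi.single j 1)
    rw [hD] at k1
    simp only [Matrix.mulVec_single_one, Matrix.col_apply] at k1 k2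
    apply sq_inj2
    linear_combination k1 - k2
  apply Subtype.ext; apply Units.ext
  rw [shape m g, shape m g', hD, hB]

theorem add_sq_ext [CharP F 2] {I : Type*} [Fintype I] [DecidableEq I] (A₁ A₂ : (I → F) → F)
    (h1 : ∀ x y, A₁ (x + y) = A₁ x + A₁ y) (h2 : ∀ x y, A₂ (x + y) = A₂ x + A₂ y)
    (s1 : ∀ (c : F) x, A₁ (c • x) = c ^ 2 * A₁ x) (s2 : ∀ (c : F) x, A₂ (c • x) = c ^ 2 * A₂ x)
    (hb : ∀ j, A₁ (Pi.single j 1) = A₂ (Pi.single j 1)) (w : I → F) : A₁ w = A₂ w := by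
  have hw : w = ∑ j, w j • (Pi.single j (1 : F) : I → F) := by
    funext i
    simp [Finset.sum_apply, Pi.single_apply]
  have e1 : A₁ (∑ j, w j • (Pi.single j (1 : F) : I → F)) =
      ∑ j, A₁ (w j • (Pi.single j (1 : F) : I → F)) := map_sum (AddMonoidHom.mk' A₁ h1) _ _
  have e2 : A₂ (∑ j, w j • (Pi.single j (1 : F) : I → F)) =
      ∑ j, A₂ (w j • (Pi.single j (1 : F) : I → F)) := map_sum (AddMonoidHom.mk' A₂ h2) _ _
  rw [hw, e1, e2]
  apply Finset.sum_congr rfl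
  intro j _
  rw [s1, s2, hb]

theorem Theta_surj [Fintype F] [CharP F 2] (m : ℕ) : Function.Surjective (Theta (F := F) m) := by
  classical
  intro s
  have h2 : (2 : F) = 0 := two_eq
  have hsq : ∀ x : F, ∃ y, y ^ 2 = x := by
    have hinj : Function.Injective (fun y : F => y ^ 2) := fun x y hxy => sq_inj2 hxy
    exact Finite.surjective_of_injective hinj
  choose r hr using hsq
  obtain ⟨B₀, hB₀⟩ : ∃ B₀ : Matrix Unit (Fin m ⊕ Fin m) F,
      ∀ j, B₀ () j = r (q0 m (s.1 *ᵥ Pi.single j 1)) :=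
    ⟨Matrix.of fun _ j => r (q0 m (s.1 *ᵥ Pi.single j 1)), fun j => rfl⟩
  have K' : ∀ w, ((B₀ *ᵥ w) ()) ^ 2 = q0 m w + q0 m (s.1 *ᵥ w) := by
    intro w
    refine add_sq_ext (fun w => ((B₀ *ᵥ w) ()) ^ 2) (fun w => q0 m w + q0 m (s.1 *ᵥ w))
      ?_ ?_ ?_ ?_ ?_ w
    · intro x y
      show ((B₀ *ᵥ (x + y)) ()) ^ 2 = ((B₀ *ᵥ x) ()) ^ 2 + ((B₀ *ᵥ y) ()) ^ 2
      rw [Matrix.mulVec_add, Pi.add_apply, CharTwo.add_sq]
    · intro x y
      show q0 m (x + y) + q0 m (s.1 *ᵥ (x + y)) =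
        (q0 m x + q0 m (s.1 *ᵥ x)) + (q0 m y + q0 m (s.1 *ᵥ y))
      rw [Matrix.mulVec_add, q0_add, q0_add, Cfsg.Agent.S0271.sf_mulVec]
      linear_combination (Cfsg.sympForm m F x y) * h2
    · intro c x
      show ((B₀ *ᵥ (c • x)) ()) ^ 2 = c ^ 2 * ((B₀ *ᵥ x) ()) ^ 2
      rw [Matrix.mulVec_smul, Pi.smul_apply, smul_eq_mul, mul_pow]
    · intro c x
      show q0 m (c • x) + q0 m (s.1 *ᵥ (c • x)) = c ^ 2 * (q0 m x + q0 m (s.1 *ᵥ x))
      rw [Matrix.mulVec_smul, q0_smul, q0_smul, mul_add]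
    · intro j
      show ((B₀ *ᵥ Pi.single j 1) ()) ^ 2 =
        q0 m (Pi.single j 1) + q0 m (s.1 *ᵥ Pi.single j 1)
      have e : (B₀ *ᵥ Pi.single j 1) () = B₀ () j := by
        rw [Matrix.mulVec_single_one]; rfl
      rw [e, hB₀, hr, q0_single, zero_add]
  have hu : IsUnit (Matrix.fromBlocks (1 : Matrix Unit Unit F) B₀ 0 s.1) := by
    rw [Matrix.isUnit_iff_isUnit_det, Matrix.det_fromBlocks_zero₂₁, Matrix.det_one, one_mul]
    exact SymplecticGroup.symplectic_det s.2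
  have hQ : ∀ v, Cfsg.quadFormOdd m F
      (Matrix.fromBlocks (1 : Matrix Unit Unit F) B₀ 0 s.1 *ᵥ v) = Cfsg.quadFormOdd m F v := by
    intro v
    rw [Q_blk, Q_eq, CharTwo.add_sq, K']
    linear_combination (q0 m (s.1 *ᵥ (v ∘ Sum.inr))) * h2
  have hmem : hu.unit ∈ Cfsg.isometryGroup F (Cfsg.quadFormOdd m F) := by
    intro u _
    show Cfsg.quadFormOdd m F (hu.unit.1 *ᵥ u) = Cfsg.quadFormOdd m F u
    rw [IsUnit.unit_spec]; exact hQ u
  refine ⟨⟨hu.unit, hmem⟩, ?_⟩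
  apply Subtype.ext
  show hu.unit.1.toBlocks₂₂ = s.1
  rw [IsUnit.unit_spec, Matrix.toBlocks_fromBlocks₂₂]

/-- In characteristic 2, O_{2m+1}(q) is isomorphic to Sp_{2m}(q). -/
theorem result {F : Type*} [Field F] [Fintype F] [CharP F 2] (m : ℕ) : Nonempty (Cfsg.isometryGroup F (Cfsg.quadFormOdd m F) ≃* Matrix.symplecticGroup (Fin m) F) := by
  exact ⟨MulEquiv.ofBijective (Theta m) ⟨Theta_inj m, Theta_surj m⟩⟩

end Cfsg.Agent.S0304
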