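import Cfsg.Statements.S0307
import Mathlib
import Cfsg.Agent.S0783

set_option autoImplicit false
open Cfsg

namespace Cfsg.Agent.S0307

open Matrix


/-- PSL_n(q) is normal in PGL_n(q) with cyclic quotient of order gcd(n, q-1): the image of the natural map PSL_n → PGL_n is the kernel of a surjective homomorphism onto the cyclic group of that order. -/
theorem result {F : Type*} [Field F] [Fintype F] {q : ℕ} (hF : Fintype.card F = q) (n : ℕ) (hn : 1 ≤ n) : ∃ g : Matrix.ProjGenLinGroup (Fin n) F →* Multiplicative (ZMod (Nat.gcd n (q - 1))), Function.Surjective g ∧ g.ker = (Matrix.ProjectiveSpecialLinearGroup.toPGL : Matrix.ProjectiveSpecialLinearGroup (Fin n) F →* Matrix.ProjGenLinGroup (Fin n) F).range := by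
  classical
  subst hF
  have hcard : Nat.card Fˣ = Fintype.card F - 1 := by
    rw [Nat.card_eq_fintype_card, Fintype.card_units]
  obtain ⟨χ, hχs, hχk⟩ := Cfsg.Agent.S0783.cyc_hom (C := Fˣ) inferInstance n
    (Fintype.card F - 1) hcard
  have hscdet : ∀ u : Fˣ, Matrix.GeneralLinearGroup.det
      (Matrix.GeneralLinearGroup.scalar (Fin n) u : GL (Fin n) F) = u ^ n := by
    intro u
    apply Units.ext
    rw [Matrix.GeneralLinearGroup.val_det_apply]
    have hsc : ((Matrix.GeneralLinearGroup.scalar (Fin n) u : GL (Fin n) F) :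
        Matrix (Fin n) (Fin n) F) = Matrix.diagonal (fun _ => (u : F)) := rfl
    rw [hsc, Matrix.det_diagonal, Finset.prod_const, Finset.card_univ, Fintype.card_fin,
      Units.val_pow_eq_pow_val]
  have hle : Subgroup.center (GL (Fin n) F) ≤ (χ.comp Matrix.GeneralLinearGroup.det).ker := by
    rw [Matrix.GeneralLinearGroup.center_eq_range_scalar]
    rintro _ ⟨u, rfl⟩
    rw [MonoidHom.mem_ker]
    show χ (Matrix.GeneralLinearGroup.det (Matrix.GeneralLinearGroup.scalar (Fin n) u)) = 1
    rw [hχk]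
    exact ⟨u, hscdet u⟩
  have hn0 : 0 < n := by omega
  obtain ⟨i0, -⟩ : ∃ i0 : Fin n, i0 = ⟨0, hn0⟩ := ⟨_, rfl⟩
  refine ⟨QuotientGroup.lift (Subgroup.center (GL (Fin n) F))
    (χ.comp Matrix.GeneralLinearGroup.det) hle, ?_, ?_⟩
  · intro z
    obtain ⟨a, ha⟩ := hχs z
    obtain ⟨d, hddef⟩ : ∃ d : Fin n → F, d = fun i => if i = i0 then (a : F) else 1 :=
      ⟨_, rfl⟩
    have hd0 : ∀ i, d i ≠ 0 := by
      intro i
      rw [hddef]
      show (if i = i0 then (a : F) else 1) ≠ 0
      split_ifs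
      · exact Units.ne_zero _
      · exact one_ne_zero
    refine ⟨Matrix.ProjGenLinGroup.mk (Cfsg.Agent.S0783.diagG d hd0), ?_⟩
    show χ (Matrix.GeneralLinearGroup.det (Cfsg.Agent.S0783.diagG d hd0)) = z
    rw [← ha]
    congr 1
    apply Units.ext
    rw [Matrix.GeneralLinearGroup.val_det_apply, Cfsg.Agent.S0783.diagG_val,
      Matrix.det_diagonal, hddef, Finset.prod_ite_eq' Finset.univ i0 (fun _ => (a : F))]
    simp
  · ext x
    obtain ⟨A, rfl⟩ := Matrix.ProjGenLinGroup.mk_surjective x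
    constructor
    · intro hx
      have h1 : χ (Matrix.GeneralLinearGroup.det A) = 1 := hx
      obtain ⟨y, hy⟩ := (hχk _).1 h1
      have hdetB : ((A * Matrix.GeneralLinearGroup.scalar (Fin n) y⁻¹ : GL (Fin n) F) :
          Matrix (Fin n) (Fin n) F).det = 1 := by
        rw [← Matrix.GeneralLinearGroup.val_det_apply, map_mul, hscdet, hy, inv_pow,
          mul_inv_cancel]
        rfl
      refine ⟨QuotientGroup.mk (⟨_, hdetB⟩ : Matrix.SpecialLinearGroup (Fin n) F), ?_⟩
      show Matrix.ProjGenLinGroup.mk (Matrix.SpecialLinearGroup.toGL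
        (⟨_, hdetB⟩ : Matrix.SpecialLinearGroup (Fin n) F)) = Matrix.ProjGenLinGroup.mk A
      rw [Matrix.ProjGenLinGroup.mk_eq_mk_iff]
      refine ⟨y, ?_⟩
      have e : Matrix.SpecialLinearGroup.toGL (⟨_, hdetB⟩ : Matrix.SpecialLinearGroup (Fin n) F) =
          A * Matrix.GeneralLinearGroup.scalar (Fin n) y⁻¹ := Units.ext rfl
      rw [e, mul_assoc, ← map_mul, inv_mul_cancel, map_one, mul_one]
    · rintro ⟨s, hs⟩
      obtain ⟨S, rfl⟩ := QuotientGroup.mk_surjective s
      have hs' : Matrix.ProjGenLinGroup.mk (Matrix.SpecialLinearGroup.toGL S) =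
          Matrix.ProjGenLinGroup.mk A := hs
      rw [← hs']
      show χ (Matrix.GeneralLinearGroup.det (Matrix.SpecialLinearGroup.toGL S)) = 1
      rw [hχk]
      refine ⟨1, ?_⟩
      rw [one_pow]
      apply Units.ext
      rw [Matrix.GeneralLinearGroup.val_det_apply]
      exact S.2

end Cfsg.Agent.S0307
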