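import Cfsg.Statements.S0313
import Cfsg.Agent.Helper8.BNMore

set_option autoImplicit false
open Cfsg

namespace Cfsg.Agent.S0313

/-- Two standard parabolic subgroups of a group with a (B,N)-pair which are conjugate in `G` coincide. -/
theorem result {G : Type*} [Group G] (P : Cfsg.BNPair G) {J K : Set G}
    (hJ : J ⊆ P.S) (hK : K ⊆ P.S) (g : G)
    (h : (P.parabolic J).map (MulAut.conj g).toMonoidHom = P.parabolic K) :
    P.parabolic J = P.parabolic K := by
  have hconj : ∀ x ∈ P.parabolic J, g * x * g⁻¹ ∈ P.parabolic K := by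
    intro x hx
    rw [← h]
    exact Subgroup.mem_map.2 ⟨x, hx, by simp [MulAut.conj_apply]⟩
  have hg : g ∈ P.parabolic K :=
    Cfsg.Agent.Helper8.BN.mem_of_conj_B_le (P := P) le_sup_left
      (fun x hx => hconj x (Subgroup.mem_sup_left hx))
  apply le_antisymm
  · intro x hx
    have e : x = g⁻¹ * (g * x * g⁻¹) * g := by group
    rw [e]
    exact Subgroup.mul_mem _ (Subgroup.mul_mem _ (Subgroup.inv_mem _ hg) (hconj x hx)) hg
  · intro y hy
    have hy' : g * y * g⁻¹ ∈ P.parabolic K :=
      Subgroup.mul_mem _ (Subgroup.mul_mem _ hg hy) (Subgroup.inv_mem _ hg)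
    rw [← h] at hy'
    obtain ⟨x, hx, hxe⟩ := Subgroup.mem_map.1 hy'
    have e : (MulAut.conj g).toMonoidHom x = g * x * g⁻¹ := by simp [MulAut.conj_apply]
    rw [e] at hxe
    have e2 : x = y := by
      have e3 : x = g⁻¹ * (g * x * g⁻¹) * g := by group
      rw [e3, hxe]
      group
    rw [← e2]
    exact hx

end Cfsg.Agent.S0313
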