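import Cfsg.Statements.S0319
import Cfsg.Agent.Helper8.BNSimple

set_option autoImplicit false
open Cfsg

namespace Cfsg.Agent.S0319

/-- Simplicity criterion for groups with a (B,N)-pair: if the distinguished generators admit no
splitting into two non-empty mutually commuting parts, `B` is solvable, `G` is perfect and the intersection
of all conjugates of `B` is trivial, then `G` is simple. -/
theorem result {G : Type*} [Group G] [Nontrivial G]
    (P : Cfsg.BNPair G) (hirr : P.Irreducible) (hsolv : Group.IsSolvable P.B) (hperf : commutator G = ⊤)
    (hcore : P.B.normalCore = ⊥) : IsSimpleGroup G := by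
  refine ⟨fun H hH => ?_⟩
  rcases Cfsg.Agent.Helper8.BN.normal_cases hirr hH with h | h
  · left
    have h1 : H ≤ P.B.normalCore := Subgroup.normal_le_normalCore.2 h
    rw [hcore] at h1
    exact le_bot_iff.1 h1
  · right
    have hsurj : Function.Surjective ((QuotientGroup.mk' H).comp P.B.subtype) := by
      intro q
      obtain ⟨g, rfl⟩ := QuotientGroup.mk'_surjective H q
      have hg : g ∈ ((P.B ⊔ H : Subgroup G) : Set G) := by
        rw [h]
        trivial
      rw [Subgroup.mul_normal] at hg
      obtain ⟨b, hb, k, hk, rfl⟩ := Set.mem_mul.1 hg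
      refine ⟨⟨b, hb⟩, ?_⟩
      show (QuotientGroup.mk' H) b = (QuotientGroup.mk' H) (b * k)
      rw [QuotientGroup.mk'_apply, QuotientGroup.mk'_apply, QuotientGroup.eq]
      have e : b⁻¹ * (b * k) = k := by group
      rw [e]
      exact hk
    have hsol : Group.IsSolvable (G ⧸ H) := Group.isSolvable_of_surjective hsurj
    by_contra hne
    have hnt : Nontrivial (G ⧸ H) := by
      by_contra hns
      rw [not_nontrivial_iff_subsingleton] at hns
      exact hne (QuotientGroup.subgroup_eq_top_of_subsingleton H hns)
    have hlt := Group.IsSolvable.commutator_lt_top_of_nontrivial (G ⧸ H)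
    have hperf' : commutator (G ⧸ H) = ⊤ := by
      have h1 : Subgroup.map (QuotientGroup.mk' H) (commutator G) = commutator (G ⧸ H) := by
        rw [commutator_def, commutator_def, Subgroup.map_commutator,
          Subgroup.map_top_of_surjective _ (QuotientGroup.mk'_surjective H)]
      rw [← h1, hperf, Subgroup.map_top_of_surjective _ (QuotientGroup.mk'_surjective H)]
    exact (ne_of_lt hlt) hperf'

end Cfsg.Agent.S0319
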