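import Cfsg.Statements.S0321
import Cfsg.Agent.Helper8.BNMore

set_option autoImplicit false
open Cfsg

namespace Cfsg.Agent.S0321

/-- For `n ∈ N` not in `B`, the union `B ∪ B n B` is (the underlying set of) a subgroup exactly when `n` agrees
modulo `B ⊓ N` with one of the distinguished representatives; thus the distinguished involutions are
determined by `B` and `N`. -/
theorem result {G : Type*} [Group G] (P : Cfsg.BNPair G) {n : G}
    (hn : n ∈ P.N) (hnB : n ∉ P.B) :
    (∃ H : Subgroup G, (H : Set G) = (P.B : Set G) ∪ DoubleCoset.doubleCoset n (P.B : Set G) P.B) ↔ ∃ s ∈ P.S, s⁻¹ * n ∈ P.B := by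
  constructor
  · rintro ⟨H, hH⟩
    have hBH : P.B ≤ H := by
      intro b hb
      have h1 : b ∈ (H : Set G) := by
        rw [hH]
        exact Or.inl hb
      exact h1
    have hnH : n ∈ H := by
      have h1 : n ∈ (H : Set G) := by
        rw [hH]
        exact Or.inr (DoubleCoset.mem_doubleCoset_self _ _ _)
      exact h1
    have e := Cfsg.Agent.Helper8.BN.eq_parabolic_of_le hBH
    have hne : (P.S ∩ (H : Set G)).Nonempty := by
      by_contra hcon
      rw [Set.not_nonempty_iff_eq_empty] at hcon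
      rw [hcon, Cfsg.Agent.Helper8.BN.parabolic_empty] at e
      rw [e] at hnH
      exact hnB hnH
    obtain ⟨s, hs, hsH⟩ := hne
    refine ⟨s, hs, ?_⟩
    have hsH' : s ∈ (P.B : Set G) ∪ DoubleCoset.doubleCoset n (P.B : Set G) P.B := by
      rw [← hH]
      exact hsH
    rcases hsH' with h | h
    · exact absurd h (Cfsg.Agent.Helper8.BN.S_not_mem_B hs)
    · exact Cfsg.Agent.Helper8.BN.eqv_symm (Cfsg.Agent.Helper8.BN.dc_unique hn
        (Cfsg.Agent.Helper8.BN.S_mem_N hs) ((Cfsg.Agent.Helper8.BN.inDC_iff P n s).2 h))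
  · rintro ⟨s, hs, h⟩
    refine ⟨P.parabolic {s}, ?_⟩
    ext g
    rw [SetLike.mem_coe, Cfsg.Agent.Helper8.BN.mem_parabolic_singleton hs]
    constructor
    · rintro (hg | hg)
      · exact Or.inl hg
      · exact Or.inr ((Cfsg.Agent.Helper8.BN.inDC_iff P n g).1
          (Cfsg.Agent.Helper8.BN.inDC_congr h hg))
    · rintro (hg | hg)
      · exact Or.inl hg
      · exact Or.inr (Cfsg.Agent.Helper8.BN.inDC_congr' h
          ((Cfsg.Agent.Helper8.BN.inDC_iff P n g).2 hg))

end Cfsg.Agent.S0321
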