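import Cfsg.Statements.S0322
import Cfsg.Agent.Helper8.BNMore

set_option autoImplicit false
open Cfsg

namespace Cfsg.Agent.S0322

/-- A group with a (B,N)-pair of rank one acts doubly transitively on the left cosets of `B`. -/
theorem result {G : Type*} [Group G] (P : Cfsg.BNPair G) (h : P.rank = 1) : MulAction.IsMultiplyPretransitive G (G ⧸ P.B) 2 := by
  have h1 : Nat.card P.S = 1 := h
  obtain ⟨hsub, ⟨s⟩⟩ := Nat.card_eq_one_iff_unique.1 h1
  have hS : P.S = {(s : G)} := by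
    ext x
    constructor
    · intro hx
      have e : (⟨x, hx⟩ : P.S) = s := Subsingleton.elim _ _
      rw [Set.mem_singleton_iff, ← e]
    · intro hx
      rw [Set.mem_singleton_iff] at hx
      rw [hx]
      exact s.2
  have key : ∀ g : G, g ∉ P.B → Cfsg.Agent.Helper8.BN.InDC P (s : G) g := by
    intro g hg
    have hmem : g ∈ P.parabolic {(s : G)} := by
      rw [← hS, Cfsg.Agent.Helper8.BN.parabolic_S]
      trivial
    rcases (Cfsg.Agent.Helper8.BN.mem_parabolic_singleton s.2).1 hmem with h | h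
    · exact absurd h hg
    · exact h
  rw [MulAction.is_two_pretransitive_iff]
  intro a b c d hab hcd
  obtain ⟨a, rfl⟩ := QuotientGroup.mk_surjective a
  obtain ⟨b, rfl⟩ := QuotientGroup.mk_surjective b
  obtain ⟨c, rfl⟩ := QuotientGroup.mk_surjective c
  obtain ⟨d, rfl⟩ := QuotientGroup.mk_surjective d
  obtain ⟨b₁, hb₁, b₂, hb₂, e₁⟩ := key (a⁻¹ * b) (fun h => hab (QuotientGroup.eq.2 h))
  obtain ⟨b₃, hb₃, b₄, hb₄, e₂⟩ := key (c⁻¹ * d) (fun h => hcd (QuotientGroup.eq.2 h))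
  refine ⟨c * b₃ * b₁⁻¹ * a⁻¹, ?_, ?_⟩
  · rw [MulAction.Quotient.smul_mk, QuotientGroup.eq, smul_eq_mul]
    have e3 : (c * b₃ * b₁⁻¹ * a⁻¹ * a)⁻¹ * c = b₁ * b₃⁻¹ := by group
    rw [e3]
    exact P.B.mul_mem hb₁ (P.B.inv_mem hb₃)
  · rw [MulAction.Quotient.smul_mk, QuotientGroup.eq, smul_eq_mul]
    have e3 : (c * b₃ * b₁⁻¹ * a⁻¹ * b)⁻¹ * d = (a⁻¹ * b)⁻¹ * b₁ * b₃⁻¹ * (c⁻¹ * d) := by group
    rw [e3, e₁, e₂]
    have e4 : (b₁ * (s : G) * b₂)⁻¹ * b₁ * b₃⁻¹ * (b₃ * (s : G) * b₄) = b₂⁻¹ * b₄ := by group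
    rw [e4]
    exact P.B.mul_mem (P.B.inv_mem hb₂) hb₄

end Cfsg.Agent.S0322
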