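import Cfsg.Statements.S0323


set_option autoImplicit false
open scoped Pointwise
open Cfsg

namespace Cfsg.Agent.S0323

/-- A doubly transitive action on a set with at least three points yields a (B,N)-pair of rank one:
`B` is the stabiliser of a point `x`, `N` the setwise stabiliser of a pair `{x, y}`. -/
theorem result {G Ω : Type*} [Group G] [MulAction G Ω]
    (h2 : MulAction.IsMultiplyPretransitive G Ω 2) {x y z : Ω} (hxy : x ≠ y) (hyz : y ≠ z) (hxz : x ≠ z) :
    ∃ P : Cfsg.BNPair G, P.B = MulAction.stabilizer G x ∧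
      P.N = MulAction.stabilizer G ({x, y} : Set Ω) ∧ P.rank = 1 := by
  rw [MulAction.is_two_pretransitive_iff] at h2
  obtain ⟨s, hsx, hsy⟩ := h2 hxy hxy.symm
  obtain ⟨b₀, hb₀x, hb₀y⟩ := h2 hxy hxz
  have hN_iff : ∀ n : G, n ∈ MulAction.stabilizer G ({x, y} : Set Ω) ↔
      (n • x = x ∧ n • y = y) ∨ (n • x = y ∧ n • y = x) := by
    intro n
    rw [MulAction.mem_stabilizer_iff]
    have e : n • ({x, y} : Set Ω) = {n • x, n • y} := by
      rw [Set.smul_set_insert, Set.smul_set_singleton]
    rw [e]
    have hne : n • x ≠ n • y := fun h => hxy (MulAction.injective n h)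
    constructor
    · intro h
      have h1 : n • x ∈ ({x, y} : Set Ω) := by
        rw [← h]
        exact Set.mem_insert _ _
      have h2' : n • y ∈ ({x, y} : Set Ω) := by
        rw [← h]
        exact Set.mem_insert_of_mem _ rfl
      rcases h1 with h1 | h1
      · left
        refine ⟨h1, ?_⟩
        rcases h2' with h2' | h2'
        · exact absurd (h1.trans h2'.symm) hne
        · exact h2'
      · right
        rw [Set.mem_singleton_iff] at h1
        refine ⟨h1, ?_⟩
        rcases h2' with h2' | h2'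
        · exact h2'
        · rw [Set.mem_singleton_iff] at h2'
          exact absurd (h1.trans h2'.symm) hne
    · rintro (⟨h1, h2'⟩ | ⟨h1, h2'⟩)
      · rw [h1, h2']
      · rw [h1, h2', Set.pair_comm]
  have hsN : s ∈ MulAction.stabilizer G ({x, y} : Set Ω) := (hN_iff s).2 (Or.inr ⟨hsx, hsy⟩)
  have hsinv : s⁻¹ • y = x := by
    rw [inv_smul_eq_iff, hsx]
  have hdc : ∀ g : G, g • x ≠ x → ∃ b ∈ MulAction.stabilizer G x,
      ∃ b' ∈ MulAction.stabilizer G x, g = b * s * b' := by
    intro g hg
    obtain ⟨b, hbx, hby⟩ := h2 hxy (Ne.symm hg)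
    refine ⟨b, hbx, (b * s)⁻¹ * g, ?_, by group⟩
    show ((b * s)⁻¹ * g) • x = x
    rw [mul_smul, inv_smul_eq_iff, mul_smul, hsx, hby]
  refine ⟨{ B := MulAction.stabilizer G x
            N := MulAction.stabilizer G ({x, y} : Set Ω)
            S := {s}
            sup_eq_top := ?_
            conj_mem := ?_
            subset := ?_
            sq_mem := ?_
            inj := ?_
            closure_sup := ?_
            mul_mem_union := ?_
            conj_ne := ?_ }, rfl, rfl, ?_⟩
  · rw [eq_top_iff]
    intro g _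
    by_cases hg : g • x = x
    · exact Subgroup.mem_sup_left hg
    · obtain ⟨b, hb, b', hb', rfl⟩ := hdc g hg
      exact Subgroup.mul_mem _ (Subgroup.mul_mem _ (Subgroup.mem_sup_left hb)
        (Subgroup.mem_sup_right hsN)) (Subgroup.mem_sup_left hb')
  · rintro n hn t ⟨htB, htN⟩
    have htx : t • x = x := htB
    have hty : t • y = y := by
      rcases (hN_iff t).1 htN with h | h
      · exact h.2
      · exact absurd (htx.symm.trans h.1) hxy
    show (n * t * n⁻¹) • x = x
    rcases (hN_iff n).1 hn with h | h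
    · have h3 : n⁻¹ • x = x := by
        rw [inv_smul_eq_iff, h.1]
      rw [mul_smul, mul_smul, h3, htx, h.1]
    · have h3 : n⁻¹ • x = y := by
        rw [inv_smul_eq_iff, h.2]
      rw [mul_smul, mul_smul, h3, hty, h.2]
  · intro s' hs'
    rw [Set.mem_singleton_iff] at hs'
    rw [hs']
    exact hsN
  · intro s' hs'
    rw [Set.mem_singleton_iff] at hs'
    rw [hs']
    show (s * s) • x = x
    rw [mul_smul, hsx, hsy]
  · intro s₁ hs₁ s₂ hs₂ _
    rw [Set.mem_singleton_iff] at hs₁ hs₂
    rw [hs₁, hs₂]
  · apply le_antisymm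
    · refine sup_le ((Subgroup.closure_le _).2 ?_) inf_le_right
      intro s' hs'
      rw [Set.mem_singleton_iff] at hs'
      rw [hs']
      exact hsN
    · intro n hn
      rcases (hN_iff n).1 hn with h | h
      · exact Subgroup.mem_sup_right ⟨h.1, hn⟩
      · have e : n = s * (s⁻¹ * n) := by group
        rw [e]
        refine Subgroup.mul_mem _ (Subgroup.mem_sup_left (Subgroup.subset_closure rfl))
          (Subgroup.mem_sup_right ⟨?_, Subgroup.mul_mem _ (Subgroup.inv_mem _ hsN) hn⟩)
        show (s⁻¹ * n) • x = x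
        rw [mul_smul, h.1, hsinv]
  · intro s' hs' n hn b hb
    rw [Set.mem_singleton_iff] at hs'
    subst hs'
    have hbx : b • x = x := hb
    rcases (hN_iff n).1 hn with h | h
    · left
      refine DoubleCoset.mem_doubleCoset.2 ⟨1, Subgroup.one_mem _, n⁻¹ * b * n, ?_, by group⟩
      show (n⁻¹ * b * n) • x = x
      rw [mul_smul, mul_smul, h.1, hbx, inv_smul_eq_iff, h.1]
    · have ht : (s'⁻¹ * n) • x = x := by
        rw [mul_smul, h.1, hsinv]
      by_cases hc : (s' * b * s') • x = x
      · left
        have h1 : (s' * b * n) • x = x := by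
          have e : s' * b * n = (s' * b * s') * (s'⁻¹ * n) := by group
          rw [e, mul_smul, ht, hc]
        have h2' : (s' * n) • x = x := by
          rw [mul_smul, h.1, hsy]
        refine DoubleCoset.mem_doubleCoset.2 ⟨(s' * b * n) * (s' * n)⁻¹, ?_, 1,
          Subgroup.one_mem _, by group⟩
        show ((s' * b * n) * (s' * n)⁻¹) • x = x
        rw [mul_smul, inv_smul_eq_iff.2 h2'.symm, h1]
      · right
        obtain ⟨b₁, hb₁, b₂, hb₂, e⟩ := hdc _ hc
        have hb₂x : b₂ • x = x := hb₂
        refine DoubleCoset.mem_doubleCoset.2 ⟨b₁, hb₁, (s'⁻¹ * n)⁻¹ * b₂ * (s'⁻¹ * n), ?_, ?_⟩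
        · show ((s'⁻¹ * n)⁻¹ * b₂ * (s'⁻¹ * n)) • x = x
          rw [mul_smul, mul_smul, ht, hb₂x, inv_smul_eq_iff, ht]
        · have e2 : s' * b * n = (s' * b * s') * (s'⁻¹ * n) := by group
          rw [e2, e]
          group
  · intro s' hs'
    rw [Set.mem_singleton_iff] at hs'
    subst hs'
    intro heq
    have h1 : s' * b₀ * s' ∈ ((MulAction.stabilizer G x : Subgroup G) : Set G) := by
      rw [← heq]
      exact ⟨b₀, hb₀x, rfl⟩
    have h3 : (s' * b₀ * s') • x = x := h1
    rw [mul_smul, mul_smul, hsx, hb₀y] at h3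
    have h4 : s' • z = s' • y := h3.trans hsy.symm
    exact hyz (MulAction.injective s' h4).symm
  · show Nat.card (({s} : Set G)) = 1
    simp

end Cfsg.Agent.S0323
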