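import Cfsg.Statements.S0326
import Mathlib

set_option autoImplicit false
open Cfsg

namespace Cfsg.Agent.S0326

/-- The Suzuki–Tits ovoid over a finite field with `q` elements has `q² + 1` points. -/
theorem result {F : Type*} [Field F] [Fintype F] (m : ℕ) :
    Nat.card (Cfsg.suzukiOvoid F m) = Fintype.card F ^ 2 + 1 := by
  classical
  have h0 : (![1, 0, 0, 0] : Fin 4 → F) ≠ 0 := by
    intro h
    have := congrFun h 0
    simp at this
  have hxy : ∀ x y : F, (![x * y + x ^ (2 ^ (m + 1) + 2) + y ^ (2 ^ (m + 1)), y, x, 1] : Fin 4 → F) ≠ 0 := by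
    intro x y h
    have := congrFun h 3
    simp at this
  let f : Option (F × F) → Cfsg.suzukiOvoid F m := fun o =>
    match o with
    | none => ⟨Projectivization.mk F _ h0, ⟨_, h0, rfl, Or.inl rfl⟩⟩
    | some (x, y) => ⟨Projectivization.mk F _ (hxy x y), ⟨_, hxy x y, rfl, Or.inr ⟨x, y, rfl⟩⟩⟩
  have hf : Function.Bijective f := by
    constructor
    · intro o₁ o₂ h
      have h' := congrArg Subtype.val h
      rcases o₁ with _ | ⟨x₁, y₁⟩ <;> rcases o₂ with _ | ⟨x₂, y₂⟩
      · rfl
      · exfalso
        have h2 : Projectivization.mk F _ h0 = Projectivization.mk F _ (hxy x₂ y₂) := h'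
        rw [Projectivization.mk_eq_mk_iff'] at h2
        obtain ⟨a, ha⟩ := h2
        have h3 := congrFun ha 3
        have h4 := congrFun ha 0
        simp at h3 h4
        rw [h3] at h4
        simp at h4
      · exfalso
        have h2 : Projectivization.mk F _ (hxy x₁ y₁) = Projectivization.mk F _ h0 := h'
        rw [Projectivization.mk_eq_mk_iff'] at h2
        obtain ⟨a, ha⟩ := h2
        have h3 := congrFun ha 3
        simp at h3
      · have h2 : Projectivization.mk F _ (hxy x₁ y₁) = Projectivization.mk F _ (hxy x₂ y₂) := h'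
        rw [Projectivization.mk_eq_mk_iff'] at h2
        obtain ⟨a, ha⟩ := h2
        have h3 := congrFun ha 3
        have h4 := congrFun ha 2
        have h5 := congrFun ha 1
        simp at h3 h4 h5
        rw [h3] at h4 h5
        simp at h4 h5
        rw [h4, h5]
    · rintro ⟨p, v, hv, rfl, hv' | ⟨x, y, hv'⟩⟩
      · refine ⟨none, ?_⟩
        apply Subtype.ext
        show Projectivization.mk F _ h0 = Projectivization.mk F v hv
        congr 1
        exact hv'.symm
      · refine ⟨some (x, y), ?_⟩
        apply Subtype.ext
        show Projectivization.mk F _ (hxy x y) = Projectivization.mk F v hv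
        congr 1
        exact hv'.symm
  rw [← Nat.card_congr (Equiv.ofBijective f hf), Nat.card_eq_fintype_card, Fintype.card_option,
    Fintype.card_prod, sq]

end Cfsg.Agent.S0326
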