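import Cfsg.Statements.S0352
import Cfsg.Agent.Helper1.Steiner

set_option autoImplicit false
open Cfsg

namespace Cfsg.Agent.S0352

/-- In a Steiner system S(5, 8, 24), two distinct blocks intersect in 0, 2 or 4 points. -/
theorem result {α : Type*} [Fintype α] [DecidableEq α] (hα : Fintype.card α = 24) {B : Set (Finset α)} (hB : Cfsg.IsSteinerSystem 5 8 B) {b c : Finset α} (hb : b ∈ B) (hc : c ∈ B) (hbc : b ≠ c) : (b ∩ c).card = 0 ∨ (b ∩ c).card = 2 ∨ (b ∩ c).card = 4 := by
  have hm := fun j hj => Cfsg.Agent.Helper1.steiner_moment hB hb j hj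
  have h8 := Cfsg.Agent.Helper1.interNum_self hB hb
  have h5 := Cfsg.Agent.Helper1.interNum_eq_zero hB hb (i := 5) (by norm_num) (by norm_num)
  have h6 := Cfsg.Agent.Helper1.interNum_eq_zero hB hb (i := 6) (by norm_num) (by norm_num)
  have h7 := Cfsg.Agent.Helper1.interNum_eq_zero hB hb (i := 7) (by norm_num) (by norm_num)
  have m4 := hm 4 (by norm_num)
  have m3 := hm 3 (by norm_num)
  have m2 := hm 2 (by norm_num)
  have m1 := hm 1 (by norm_num)
  have m0 := hm 0 (by norm_num)
  simp only [Finset.sum_range_succ, Finset.sum_range_zero, h5, h6, h7, h8, hα] at m4 m3 m2 m1 m0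
  norm_num [Nat.choose] at m4 m3 m2 m1 m0
  have n3 : Cfsg.Agent.Helper1.interNum B b 3 = 0 := by omega
  have n1 : Cfsg.Agent.Helper1.interNum B b 1 = 0 := by omega
  have c3 := Cfsg.Agent.Helper1.card_inter_ne_of_interNum_eq_zero n3 hc
  have c1 := Cfsg.Agent.Helper1.card_inter_ne_of_interNum_eq_zero n1 hc
  have hlt : (b ∩ c).card < 5 := by
    by_contra hh
    push Not at hh
    exact hbc (Cfsg.Agent.Helper1.steiner_eq_of_le_card_inter hB hb hc hh)
  omega


end Cfsg.Agent.S0352
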