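import Cfsg.Statements.S0353
import Cfsg.Agent.S0352

set_option autoImplicit false
open Cfsg

namespace Cfsg.Agent.S0353

theorem inter_eq_of_subset {α : Type*} [Fintype α] [DecidableEq α] (hα : Fintype.card α = 24)
    {B : Set (Finset α)} (hB : Cfsg.IsSteinerSystem 5 8 B) {x y : Finset α} (hx : x ∈ B)
    (hy : y ∈ B) (hxy : x ≠ y) {S : Finset α} (hS : S.card = 4) (hSx : S ⊆ x) (hSy : S ⊆ y) :
    x ∩ y = S := by
  have h := Cfsg.Agent.S0352.result hα hB hx hy hxy
  have hsub : S ⊆ x ∩ y := Finset.subset_inter hSx hSy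
  have hle := Finset.card_le_card hsub
  symm
  apply Finset.eq_of_subset_of_card_le hsub
  omega

/-- In an S(5, 8, 24), the symmetric difference of two blocks meeting in four points is a block. -/
theorem result {α : Type*} [Fintype α] [DecidableEq α] (hα : Fintype.card α = 24) {B : Set (Finset α)} (hB : Cfsg.IsSteinerSystem 5 8 B) {b c : Finset α} (hb : b ∈ B) (hc : c ∈ B) (h4 : (b ∩ c).card = 4) : symmDiff b c ∈ B := by
  classical
  have hbcard := hB.1 b hb
  have hccard := hB.1 c hc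
  have hbc : b ≠ c := by
    rintro rfl
    rw [Finset.inter_self] at h4
    omega
  have hYc : (b \ c).card = 4 := by
    have := Finset.card_sdiff_add_card_inter b c
    omega
  have hZc : (c \ b).card = 4 := by
    have := Finset.card_sdiff_add_card_inter c b
    rw [Finset.inter_comm] at this
    omega
  have hsd : symmDiff b c = (b \ c) ∪ (c \ b) := rfl
  have hdisj : Disjoint (b \ c) (c \ b) := by
    rw [Finset.disjoint_left]
    intro x hx hx'
    rw [Finset.mem_sdiff] at hx hx'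
    exact hx.2 hx'.1
  have key : ∀ z ∈ c \ b, ∀ d ∈ B, insert z (b \ c) ⊆ d →
      d ∩ b = b \ c ∧ d ∩ c ⊆ c \ b ∧ z ∈ d ∩ c ∧ ((d ∩ c).card = 2 ∨ (d ∩ c).card = 4) := by
    intro z hz d hd hsub
    have hzd : z ∈ d := hsub (Finset.mem_insert_self _ _)
    have hYd : b \ c ⊆ d := (Finset.subset_insert _ _).trans hsub
    rw [Finset.mem_sdiff] at hz
    have hdb : d ≠ b := by
      rintro rfl
      exact hz.2 hzd
    have h1 : d ∩ b = b \ c := inter_eq_of_subset hα hB hd hb hdb hYc hYd Finset.sdiff_subset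
    have h2 : d ∩ c ⊆ c \ b := by
      intro x hx
      rw [Finset.mem_inter] at hx
      rw [Finset.mem_sdiff]
      refine ⟨hx.2, fun hxb => ?_⟩
      have hx2 : x ∈ d ∩ b := Finset.mem_inter.mpr ⟨hx.1, hxb⟩
      rw [h1, Finset.mem_sdiff] at hx2
      exact hx2.2 hx.2
    have h3 : z ∈ d ∩ c := Finset.mem_inter.mpr ⟨hzd, hz.1⟩
    have hdc : d ≠ c := by
      intro hdc
      obtain ⟨y, hy⟩ := Finset.card_pos.mp (by rw [hYc]; norm_num : 0 < (b \ c).card)
      have hy2 := hYd hy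
      rw [hdc] at hy2
      rw [Finset.mem_sdiff] at hy
      exact hy.2 hy2
    have h5 := Cfsg.Agent.S0352.result hα hB hd hc hdc
    have h6 : 0 < (d ∩ c).card := Finset.card_pos.mpr ⟨z, h3⟩
    refine ⟨h1, h2, h3, ?_⟩
    omega
  obtain ⟨z1, hz1⟩ := Finset.card_pos.mp (by rw [hZc]; norm_num : 0 < (c \ b).card)
  have hz1Y : z1 ∉ b \ c := fun h => (Finset.mem_sdiff.mp hz1).2 (Finset.mem_sdiff.mp h).1
  obtain ⟨d, ⟨hd, hS1d⟩, -⟩ := hB.2 (insert z1 (b \ c))
    (by rw [Finset.card_insert_of_notMem hz1Y, hYc])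
  obtain ⟨hd1, hd2, hd3, hd4⟩ := key z1 hz1 d hd hS1d
  have hYd : b \ c ⊆ d := (Finset.subset_insert _ _).trans hS1d
  rcases hd4 with hd4 | hd4
  swap
  · have hZ : d ∩ c = c \ b := Finset.eq_of_subset_of_card_le hd2 (by rw [hd4, hZc])
    have hZd : c \ b ⊆ d := by
      rw [← hZ]
      exact Finset.inter_subset_left
    have hfin : (b \ c) ∪ (c \ b) = d := by
      apply Finset.eq_of_subset_of_card_le (Finset.union_subset hYd hZd)
      rw [Finset.card_union_of_disjoint hdisj, hYc, hZc, hB.1 d hd]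
    rw [hsd, hfin]
    exact hd
  exfalso
  have hZnd : ¬ (c \ b ⊆ d) := by
    intro h
    have h1 : c \ b ⊆ d ∩ c := Finset.subset_inter h Finset.sdiff_subset
    have h2 := Finset.card_le_card h1
    omega
  obtain ⟨z3, hz3, hz3d⟩ := Finset.not_subset.mp hZnd
  have hz3Y : z3 ∉ b \ c := fun h => (Finset.mem_sdiff.mp hz3).2 (Finset.mem_sdiff.mp h).1
  obtain ⟨d', ⟨hd', hS3d'⟩, -⟩ := hB.2 (insert z3 (b \ c))
    (by rw [Finset.card_insert_of_notMem hz3Y, hYc])
  obtain ⟨hd'1, hd'2, hd'3, hd'4⟩ := key z3 hz3 d' hd' hS3d'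
  have hYd' : b \ c ⊆ d' := (Finset.subset_insert _ _).trans hS3d'
  have hz3d' : z3 ∈ d' := hS3d' (Finset.mem_insert_self _ _)
  have hz1d : z1 ∈ d := hS1d (Finset.mem_insert_self _ _)
  have hdd' : d ≠ d' := by
    rintro rfl
    exact hz3d hz3d'
  have hdd'Y : d ∩ d' = b \ c := inter_eq_of_subset hα hB hd hd' hdd' hYc hYd hYd'
  have hz1d' : z1 ∉ d' := by
    intro h
    have h1 : z1 ∈ d ∩ d' := Finset.mem_inter.mpr ⟨hz1d, h⟩
    rw [hdd'Y] at h1
    exact hz1Y h1
  have hd'c2 : (d' ∩ c).card = 2 := by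
    rcases hd'4 with h | h
    · exact h
    · exfalso
      have hZ : d' ∩ c = c \ b := Finset.eq_of_subset_of_card_le hd'2 (by rw [h, hZc])
      have h1 : z1 ∈ d' ∩ c := by
        rw [hZ]
        exact hz1
      exact hz1d' (Finset.mem_inter.mp h1).1
  have hdisj2 : Disjoint (d ∩ c) (d' ∩ c) := by
    rw [Finset.disjoint_left]
    intro x hx hx'
    rw [Finset.mem_inter] at hx hx'
    have h1 : x ∈ d ∩ d' := Finset.mem_inter.mpr ⟨hx.1, hx'.1⟩
    rw [hdd'Y, Finset.mem_sdiff] at h1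
    exact h1.2 hx.2
  have hZu : (d ∩ c) ∪ (d' ∩ c) = c \ b := by
    apply Finset.eq_of_subset_of_card_le (Finset.union_subset hd2 hd'2)
    rw [Finset.card_union_of_disjoint hdisj2, hd4, hd'c2, hZc]
  obtain ⟨y4, hy4⟩ := Finset.card_pos.mp (by rw [hYc]; norm_num : 0 < (b \ c).card)
  have hz13 : z1 ≠ z3 := by
    rintro rfl
    exact hz3d hz1d
  have hY'c : ((b \ c).erase y4).card = 3 := by rw [Finset.card_erase_of_mem hy4, hYc]
  have hY'sub : (b \ c).erase y4 ⊆ b \ c := Finset.erase_subset _ _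
  have hz3Y' : z3 ∉ (b \ c).erase y4 := fun h => hz3Y (hY'sub h)
  have hz1Y' : z1 ∉ insert z3 ((b \ c).erase y4) := by
    rw [Finset.mem_insert]
    rintro (h | h)
    · exact hz13 h
    · exact hz1Y (hY'sub h)
  obtain ⟨e, ⟨he, hSe⟩, -⟩ := hB.2 (insert z1 (insert z3 ((b \ c).erase y4)))
    (by rw [Finset.card_insert_of_notMem hz1Y', Finset.card_insert_of_notMem hz3Y', hY'c])
  have hz1e : z1 ∈ e := hSe (Finset.mem_insert_self _ _)
  have hz3e : z3 ∈ e := hSe (Finset.mem_insert_of_mem (Finset.mem_insert_self _ _))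
  have hY'e : (b \ c).erase y4 ⊆ e :=
    fun x hx => hSe (Finset.mem_insert_of_mem (Finset.mem_insert_of_mem hx))
  have hed : e ≠ d := by
    rintro rfl
    exact hz3d hz3e
  have hed' : e ≠ d' := by
    rintro rfl
    exact hz1d' hz1e
  have hz1Y'' : z1 ∉ (b \ c).erase y4 := fun h => hz1Y (hY'sub h)
  have hed1 : e ∩ d = insert z1 ((b \ c).erase y4) := by
    apply inter_eq_of_subset hα hB he hd hed
    · rw [Finset.card_insert_of_notMem hz1Y'', hY'c]
    · exact Finset.insert_subset hz1e hY'e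
    · exact Finset.insert_subset hz1d (hY'sub.trans hYd)
  have hed'1 : e ∩ d' = insert z3 ((b \ c).erase y4) := by
    apply inter_eq_of_subset hα hB he hd' hed'
    · rw [Finset.card_insert_of_notMem hz3Y', hY'c]
    · exact Finset.insert_subset hz3e hY'e
    · exact Finset.insert_subset hz3d' (hY'sub.trans hYd')
  have hy4e : y4 ∉ e := by
    intro h
    have h1 : y4 ∈ e ∩ d := Finset.mem_inter.mpr ⟨h, hYd hy4⟩
    rw [hed1, Finset.mem_insert] at h1
    rcases h1 with h1 | h1
    · rw [← h1] at hz1Y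
      exact hz1Y hy4
    · exact Finset.notMem_erase y4 _ h1
  have hz1b : z1 ∉ b := (Finset.mem_sdiff.mp hz1).2
  have heb : e ≠ b := by
    rintro rfl
    exact hz1b hz1e
  have hec : e ≠ c := by
    intro hec
    obtain ⟨y, hy⟩ := Finset.card_pos.mp
      (by rw [hY'c]; norm_num : 0 < ((b \ c).erase y4).card)
    have h1 := hY'e hy
    rw [hec] at h1
    have h2 := hY'sub hy
    rw [Finset.mem_sdiff] at h2
    exact h2.2 h1
  have hebc := Cfsg.Agent.S0352.result hα hB he hb heb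
  have hecc := Cfsg.Agent.S0352.result hα hB he hc hec
  have heb_eq : e ∩ b = (b \ c).erase y4 ∪ (e ∩ (b ∩ c)) := by
    ext x
    simp only [Finset.mem_inter, Finset.mem_union, Finset.mem_erase, Finset.mem_sdiff]
    constructor
    · rintro ⟨hxe, hxb⟩
      by_cases hxc : x ∈ c
      · right
        exact ⟨hxe, hxb, hxc⟩
      · left
        refine ⟨?_, hxb, hxc⟩
        rintro rfl
        exact hy4e hxe
    · rintro (⟨hne, hxb, hxc⟩ | ⟨hxe, hxb, hxc⟩)
      · exact ⟨hY'e (Finset.mem_erase.mpr ⟨hne, Finset.mem_sdiff.mpr ⟨hxb, hxc⟩⟩), hxb⟩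
      · exact ⟨hxe, hxb⟩
  have hdisj3 : Disjoint ((b \ c).erase y4) (e ∩ (b ∩ c)) := by
    rw [Finset.disjoint_left]
    intro x hx hx'
    have h1 := hY'sub hx
    rw [Finset.mem_sdiff] at h1
    rw [Finset.mem_inter, Finset.mem_inter] at hx'
    exact h1.2 hx'.2.2
  have hebcard : (e ∩ b).card = 3 + (e ∩ (b ∩ c)).card := by
    rw [heb_eq, Finset.card_union_of_disjoint hdisj3, hY'c]
  have hec_eq : e ∩ c = (e ∩ (b ∩ c)) ∪ {z1, z3} := by
    ext x
    simp only [Finset.mem_inter, Finset.mem_union, Finset.mem_insert, Finset.mem_singleton]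
    constructor
    · rintro ⟨hxe, hxc⟩
      by_cases hxb : x ∈ b
      · left
        exact ⟨hxe, hxb, hxc⟩
      · right
        have hxZ : x ∈ c \ b := Finset.mem_sdiff.mpr ⟨hxc, hxb⟩
        rw [← hZu, Finset.mem_union] at hxZ
        rcases hxZ with h | h
        · have h1 : x ∈ e ∩ d := Finset.mem_inter.mpr ⟨hxe, (Finset.mem_inter.mp h).1⟩
          rw [hed1, Finset.mem_insert] at h1
          rcases h1 with h' | h'
          · left
            exact h'
          · exact absurd (Finset.mem_sdiff.mp (hY'sub h')).1 hxb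
        · have h1 : x ∈ e ∩ d' := Finset.mem_inter.mpr ⟨hxe, (Finset.mem_inter.mp h).1⟩
          rw [hed'1, Finset.mem_insert] at h1
          rcases h1 with h' | h'
          · right
            exact h'
          · exact absurd (Finset.mem_sdiff.mp (hY'sub h')).1 hxb
    · rintro (⟨hxe, hxb, hxc⟩ | rfl | rfl)
      · exact ⟨hxe, hxc⟩
      · exact ⟨hz1e, (Finset.mem_sdiff.mp hz1).1⟩
      · exact ⟨hz3e, (Finset.mem_sdiff.mp hz3).1⟩
  have hdisj4 : Disjoint (e ∩ (b ∩ c)) {z1, z3} := by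
    rw [Finset.disjoint_left]
    intro x hx hx'
    rw [Finset.mem_inter, Finset.mem_inter] at hx
    rw [Finset.mem_insert, Finset.mem_singleton] at hx'
    rcases hx' with rfl | rfl
    · exact hz1b hx.2.1
    · exact (Finset.mem_sdiff.mp hz3).2 hx.2.1
  have heccard : (e ∩ c).card = (e ∩ (b ∩ c)).card + 2 := by
    rw [hec_eq, Finset.card_union_of_disjoint hdisj4, Finset.card_pair hz13]
  omega


end Cfsg.Agent.S0353
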