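import Cfsg.Statements.S0357
import Cfsg.Agent.Helper1.Steiner

set_option autoImplicit false
open Cfsg

namespace Cfsg.Agent.S0357

/-- In a Steiner system S(5, 6, 12), the complement of every block is again a block. -/
theorem result {α : Type*} [Fintype α] [DecidableEq α] (hα : Fintype.card α = 12) {B : Set (Finset α)} (hB : Cfsg.IsSteinerSystem 5 6 B) {b : Finset α} (hb : b ∈ B) : bᶜ ∈ B := by
  have hm := fun j hj => Cfsg.Agent.Helper1.steiner_moment hB hb j hj
  have h6 := Cfsg.Agent.Helper1.interNum_self hB hb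
  have h5 := Cfsg.Agent.Helper1.interNum_eq_zero hB hb (i := 5) (by norm_num) (by norm_num)
  have m4 := hm 4 (by norm_num)
  have m3 := hm 3 (by norm_num)
  have m2 := hm 2 (by norm_num)
  have m1 := hm 1 (by norm_num)
  have m0 := hm 0 (by norm_num)
  simp only [Finset.sum_range_succ, Finset.sum_range_zero, h5, h6, hα] at m4 m3 m2 m1 m0
  norm_num [Nat.choose] at m4 m3 m2 m1 m0
  have n0 : Cfsg.Agent.Helper1.interNum B b 0 = 1 := by omega
  rw [Cfsg.Agent.Helper1.interNum, Finset.card_eq_one] at n0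
  obtain ⟨c, hc⟩ := n0
  have hcm : c ∈ (Cfsg.Agent.Helper1.blocks B).filter (fun c => (b ∩ c).card = 0) := by
    rw [hc]
    exact Finset.mem_singleton_self c
  rw [Finset.mem_filter, Cfsg.Agent.Helper1.mem_blocks, Finset.card_eq_zero,
    ← Finset.disjoint_iff_inter_eq_empty] at hcm
  have hsub : c ⊆ bᶜ := by
    intro x hx
    rw [Finset.mem_compl]
    exact fun hxb => Finset.disjoint_left.mp hcm.2 hxb hx
  have hce : c = bᶜ := by
    apply Finset.eq_of_subset_of_card_le hsub
    rw [Finset.card_compl, hα, hB.1 b hb, hB.1 c hcm.1]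
  rw [← hce]
  exact hcm.1


end Cfsg.Agent.S0357
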