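import Cfsg.Statements.S0358
import Cfsg.Agent.Helper1.Golay

set_option autoImplicit false
open Cfsg

namespace Cfsg.Agent.S0358

/-- The length-24 code built from the squares modulo 23 has dimension 12 over the field with two elements. -/
theorem result : Module.finrank (ZMod 2) Cfsg.golayCode = 12 := by
  classical
  haveI : Fintype Cfsg.golayCode := Fintype.ofFinite _
  have h2 := Module.card_eq_pow_finrank (K := ZMod 2) (V := Cfsg.golayCode)
  rw [← Nat.card_eq_fintype_card, Cfsg.Agent.Helper1.Golay.card_golayCode, ZMod.card] at h2
  exact (Nat.pow_right_injective (le_refl 2) ((by norm_num : 2 ^ 12 = 4096).trans h2)).symm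


end Cfsg.Agent.S0358
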