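import Cfsg.Statements.S0370
import Cfsg.Agent.Helper1.Golay2

set_option autoImplicit false
open Cfsg

namespace Cfsg.Agent.S0370

/-- The permutation x ↦ x + 1 of the residues modulo 23, fixing the extra point, lies in the group of the length-24 code. -/
theorem result : Equiv.optionCongr (Equiv.addRight (1 : ZMod 23)) ∈ Cfsg.M24 := by
  apply Cfsg.Agent.Helper1.Golay.mem_M24_of_comp
  intro t
  have h : ∀ (t : ZMod 23) (p : Cfsg.GolayPt),
      Cfsg.qrWord t (Equiv.optionCongr (Equiv.addRight (1 : ZMod 23)) p)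
        = Cfsg.qrWord (t - 1) p := by
    decide +kernel
  have h2 : Cfsg.qrWord t ∘ (Equiv.optionCongr (Equiv.addRight (1 : ZMod 23)))
      = Cfsg.qrWord (t - 1) := funext (h t)
  rw [h2]
  exact Submodule.subset_span (Or.inl ⟨t - 1, rfl⟩)


end Cfsg.Agent.S0370
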