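import Cfsg.Statements.S0371
import Cfsg.Agent.Helper1.Golay2

set_option autoImplicit false
open Cfsg

namespace Cfsg.Agent.S0371

/-- Multiplication by a nonzero square residue modulo 23, fixing the extra point, lies in the group of the length-24 code. -/
theorem result (u : (ZMod 23)ˣ) (hu : IsSquare u) : Equiv.optionCongr (Units.mulLeft u) ∈ Cfsg.M24 := by
  apply Cfsg.Agent.Helper1.Golay.mem_M24_of_comp
  intro t
  obtain ⟨s, hs⟩ := hu
  have hab : (s : ZMod 23) * ((s⁻¹ : (ZMod 23)ˣ) : ZMod 23) = 1 := by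
    rw [← Units.val_mul, mul_inv_cancel, Units.val_one]
  have hua : (u : ZMod 23) = (s : ZMod 23) * (s : ZMod 23) := by
    rw [hs, Units.val_mul]
  have key : ∀ x : ZMod 23, (∃ r : ZMod 23, (u : ZMod 23) * x = r ^ 2 + t) ↔
      ∃ r : ZMod 23, x = r ^ 2
        + ((s⁻¹ : (ZMod 23)ˣ) : ZMod 23) * ((s⁻¹ : (ZMod 23)ˣ) : ZMod 23) * t := by
    intro x
    constructor
    · rintro ⟨r, hr⟩
      refine ⟨r * ((s⁻¹ : (ZMod 23)ˣ) : ZMod 23), ?_⟩
      rw [hua] at hr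
      linear_combination (((s⁻¹ : (ZMod 23)ˣ) : ZMod 23) ^ 2) * hr
        - x * ((s : ZMod 23) * ((s⁻¹ : (ZMod 23)ˣ) : ZMod 23) + 1) * hab
    · rintro ⟨r, hr⟩
      refine ⟨(s : ZMod 23) * r, ?_⟩
      rw [hua]
      linear_combination ((s : ZMod 23) ^ 2) * hr
        + t * ((s : ZMod 23) * ((s⁻¹ : (ZMod 23)ˣ) : ZMod 23) + 1) * hab
  have h2 : Cfsg.qrWord t ∘ (Equiv.optionCongr (Units.mulLeft u))
      = Cfsg.qrWord (((s⁻¹ : (ZMod 23)ˣ) : ZMod 23) * ((s⁻¹ : (ZMod 23)ˣ) : ZMod 23) * t) := by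
    funext p
    cases p with
    | none => rfl
    | some x =>
      show (if ∃ r : ZMod 23, (u : ZMod 23) * x = r ^ 2 + t then (1 : ZMod 2) else 0)
        = if ∃ r : ZMod 23, x = r ^ 2
          + ((s⁻¹ : (ZMod 23)ˣ) : ZMod 23) * ((s⁻¹ : (ZMod 23)ˣ) : ZMod 23) * t then 1 else 0
      by_cases hex : ∃ r : ZMod 23, (u : ZMod 23) * x = r ^ 2 + t
      · rw [if_pos hex, if_pos ((key x).mp hex)]
      · rw [if_neg hex, if_neg (fun h => hex ((key x).mpr h))]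
  rw [h2]
  exact Submodule.subset_span (Or.inl ⟨_, rfl⟩)


end Cfsg.Agent.S0371
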