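import Cfsg.Statements.S0372
import Cfsg.Agent.Helper1.Golay2

set_option autoImplicit false
open Cfsg

namespace Cfsg.Agent.S0372

/-- Coefficients of the images of the generators. -/
def ptab (t : ℕ) : ℕ :=
  [2049, 1392, 738, 1469, 823, 2561, 1594, 2414, 1684, 33, 2458, 2053, 1992, 129, 3693, 2057,
    1025, 2065, 735, 2113, 2305, 3527, 2051].getD t 0

theorem projInv_table : ∀ (t : ZMod 23) (p : Cfsg.GolayPt),
    Cfsg.qrWord t (Cfsg.projInvFun p)
      = Cfsg.Agent.Helper1.Golay.ofBits (Cfsg.Agent.Helper1.Golay.comb (ptab t.val)) p := by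
  decide +kernel

/-- The involution x ↦ -1/x of the projective line over ZMod 23 lies in the group of the length-24 code. -/
theorem result : Cfsg.projInv ∈ Cfsg.M24 := by
  exact Cfsg.Agent.Helper1.Golay.mem_M24_of_table Cfsg.projInv Cfsg.projInvFun (fun _ => rfl)
    ptab projInv_table


end Cfsg.Agent.S0372
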