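import Cfsg.Statements.S0373
import Cfsg.Agent.Helper1.Golay2

set_option autoImplicit false
open Cfsg

namespace Cfsg.Agent.S0373

/-- Coefficients of the images of the generators. -/
def ctwtab (t : ℕ) : ℕ :=
  [1, 409, 403, 1222, 12, 1292, 111, 1302, 516, 80, 1562, 445, 365, 938, 489, 349, 576, 1886,
    1660, 1556, 706, 1520, 368].getD t 0

theorem cubeTwist_table : ∀ (t : ZMod 23) (p : Cfsg.GolayPt),
    Cfsg.qrWord t (Cfsg.cubeTwistFun p)
      = Cfsg.Agent.Helper1.Golay.ofBits (Cfsg.Agent.Helper1.Golay.comb (ctwtab t.val)) p := by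
  decide +kernel

/-- The cube-twist permutation (squares t ↦ t^3/9, non-squares t ↦ 9t^3, extra point fixed) lies in the group of the length-24 code. -/
theorem result : Cfsg.cubeTwist ∈ Cfsg.M24 := by
  exact Cfsg.Agent.Helper1.Golay.mem_M24_of_table Cfsg.cubeTwist Cfsg.cubeTwistFun (fun _ => rfl)
    ctwtab cubeTwist_table


end Cfsg.Agent.S0373
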