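import Cfsg.Statements.S0374
import Cfsg.Agent.Helper1.Golay7

set_option autoImplicit false
open Cfsg

namespace Cfsg.Agent.S0374

/-- The group of the length-24 code is generated by x ↦ x+1, x ↦ -1/x and the cube-twist permutation. -/
theorem result : Subgroup.closure {Equiv.optionCongr (Equiv.addRight (1 : ZMod 23)), Cfsg.projInv, Cfsg.cubeTwist} = Cfsg.M24 := by
  have h1 := Cfsg.Agent.Helper1.Golay.card_between Cfsg.M24
    Cfsg.Agent.Helper1.Golay.genGroup_le le_rfl
  have h2 := Cfsg.Agent.Helper1.Golay.card_between Cfsg.Agent.Helper1.Golay.genGroup le_rfl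
    Cfsg.Agent.Helper1.Golay.genGroup_le
  exact Subgroup.eq_of_le_of_card_ge Cfsg.Agent.Helper1.Golay.genGroup_le
    (le_of_eq (h1.trans h2.symm))


end Cfsg.Agent.S0374
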