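import Cfsg.Statements.S0382
import Cfsg.Agent.Helper1.Golay8
import Cfsg.Agent.S0368
import Cfsg.Agent.S0361

set_option autoImplicit false
open scoped Pointwise
open Cfsg

namespace Cfsg.Agent.S0382

/-- A dodecad stabiliser in the group of the length-24 code has order 95040 = 2^6·3^3·5·11. -/
theorem result (d : Finset Cfsg.GolayPt) (hd : d ∈ Cfsg.dodecads) : Nat.card (MulAction.stabilizer Cfsg.M24 d) = 95040 := by
  have horb : MulAction.orbit Cfsg.M24 d = Cfsg.dodecads := by
    ext d'
    constructor
    · rintro ⟨g, rfl⟩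
      exact Cfsg.Agent.Helper1.Golay.smul_mem_wordsOfWeight g.2 hd
    · intro hd'
      obtain ⟨g, hg⟩ := Cfsg.Agent.S0368.result d d' hd hd'
      exact ⟨g, hg⟩
  have h := Subgroup.card_mul_index (MulAction.stabilizer Cfsg.M24 d)
  rw [MulAction.index_stabilizer, horb, Cfsg.Agent.S0361.result,
    Cfsg.Agent.Helper1.Golay.card_M24] at h
  omega


end Cfsg.Agent.S0382
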