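import Cfsg.Statements.S0384
import Cfsg.Agent.Helper1.Golay12

set_option autoImplicit false
open scoped Pointwise
open Cfsg

namespace Cfsg.Agent.S0384

/-- A dodecad stabiliser is sharply 5-transitive on the dodecad. -/
theorem result (d : Finset Cfsg.GolayPt) (hd : d ∈ Cfsg.dodecads) (x y : Fin 5 ↪ Cfsg.GolayPt) (hx : ∀ i, x i ∈ d) (hy : ∀ i, y i ∈ d) : ∃! g : MulAction.stabilizer Cfsg.M24 d, ∀ i, ((g : Cfsg.M24) : Equiv.Perm Cfsg.GolayPt) (x i) = y i := by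
  obtain ⟨g, hg, h1, h2⟩ := Cfsg.Agent.Helper1.Golay.m12_exists d hd x y hx hy
  have hgs : (⟨g, hg⟩ : Cfsg.M24) ∈ MulAction.stabilizer Cfsg.M24 d :=
    MulAction.mem_stabilizer_iff.mpr h1
  refine ⟨⟨⟨g, hg⟩, hgs⟩, h2, ?_⟩
  intro g' hg'
  have hbot := Cfsg.Agent.Helper1.Golay.m12_stab_trivial d hd x hx
  have hk : (⟨g, hg⟩ : Cfsg.M24)⁻¹ * g'.1
      ∈ MulAction.stabilizer Cfsg.M24 d ⊓ MulAction.stabilizer Cfsg.M24 x := by
    rw [Subgroup.mem_inf]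
    refine ⟨mul_mem (inv_mem hgs) g'.2, ?_⟩
    rw [MulAction.mem_stabilizer_iff]
    refine Function.Embedding.ext (fun i => ?_)
    show g⁻¹ (((g' : Cfsg.M24) : Equiv.Perm Cfsg.GolayPt) (x i)) = x i
    rw [hg' i, ← h2 i]
    exact g.symm_apply_apply _
  rw [hbot, Subgroup.mem_bot] at hk
  exact Subtype.ext (inv_mul_eq_one.mp hk).symm


end Cfsg.Agent.S0384
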