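import Cfsg.Statements.S0385
import Cfsg.Agent.Helper1.Golay3

set_option autoImplicit false
open Cfsg

namespace Cfsg.Agent.S0385

/-- The 6-point intersections of octads with a fixed dodecad form a Steiner system S(5, 6, 12) on the dodecad. -/
theorem result (d : Finset Cfsg.GolayPt) (hd : d ∈ Cfsg.dodecads) : Cfsg.IsSteinerSystem 5 6 {h : Finset {p : Cfsg.GolayPt // p ∈ d} | ∃ o ∈ Cfsg.octads, (o ∩ d).card = 6 ∧ h = Finset.subtype (fun p => p ∈ d) o} := by
  constructor
  · rintro h ⟨o, ho, hcard, rfl⟩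
    rw [Finset.card_subtype]
    have hfe : o.filter (fun p => p ∈ d) = o ∩ d := by
      ext x
      simp [Finset.mem_inter]
    rw [hfe, hcard]
  · intro s hs
    have hs' : (s.map (Function.Embedding.subtype (fun p => p ∈ d))).card = 5 := by
      rw [Finset.card_map, hs]
    obtain ⟨o, ⟨ho, hso⟩, huniq⟩ := Cfsg.Agent.Helper1.Golay.octads_steiner.2 _ hs'
    have hsd : s.map (Function.Embedding.subtype (fun p => p ∈ d)) ⊆ d := by
      intro x hx
      rw [Finset.mem_map] at hx
      obtain ⟨y, _, rfl⟩ := hx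
      exact y.2
    have h6 : (o ∩ d).card = 6 := by
      have h1 := Cfsg.Agent.Helper1.Golay.octad_dodecad_inter ho hd
      have h2 : 5 ≤ (o ∩ d).card := by
        rw [← hs']
        exact Finset.card_le_card (Finset.subset_inter hso hsd)
      omega
    refine ⟨Finset.subtype _ o, ⟨⟨o, ho, h6, rfl⟩, ?_⟩, ?_⟩
    · intro x hx
      rw [Finset.mem_subtype]
      exact hso (Finset.mem_map.mpr ⟨x, hx, rfl⟩)
    · rintro h' ⟨⟨o', ho', -, rfl⟩, hsub⟩
      have hoo : o' = o := by
        apply huniq
        refine ⟨ho', ?_⟩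
        intro x hx
        rw [Finset.mem_map] at hx
        obtain ⟨y, hy, rfl⟩ := hx
        have h3 := hsub hy
        rwa [Finset.mem_subtype] at h3
      rw [hoo]


end Cfsg.Agent.S0385
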