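import Cfsg.Statements.S0432
import Cfsg.Agent.Helper1.Leech

set_option autoImplicit false
open Cfsg
open scoped Pointwise

namespace Cfsg.Agent.S0432

/-- Coordinate permutations from the code's group preserve the lattice. -/
theorem result (σ : Equiv.Perm Cfsg.GolayPt) (hσ : σ ∈ Cfsg.M24) (x : Cfsg.GolayPt → ℤ) (hx : x ∈ Cfsg.leechLattice) : (fun i => x (σ i)) ∈ Cfsg.leechLattice := by
  rw [Cfsg.Agent.Helper1.Golay.mem_leechLattice_iff] at hx ⊢
  obtain ⟨m, ha, hb, hc⟩ := hx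
  refine ⟨m, fun i => ha (σ i), ?_, ?_⟩
  · rw [Equiv.sum_comp σ x]
    exact hb
  · intro k
    have hinv : σ⁻¹ ∈ Cfsg.M24 := inv_mem hσ
    rw [Cfsg.M24, Cfsg.setSystemAut, MulAction.mem_stabilizer_set' (Set.toFinite _)] at hinv
    have h1 := hinv (hc k)
    have e : (Finset.univ.filter fun i : Cfsg.GolayPt => x (σ i) ≡ k [ZMOD 4])
        = σ⁻¹ • (Finset.univ.filter fun i : Cfsg.GolayPt => x i ≡ k [ZMOD 4]) := by
      ext i
      rw [Finset.mem_inv_smul_finset_iff]
      simp only [Finset.mem_filter, Finset.mem_univ, true_and, Equiv.Perm.smul_def]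
    rw [e]
    exact h1


end Cfsg.Agent.S0432
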