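import Cfsg.Statements.S0433
import Mathlib
import Cfsg.Agent.Helper1.Leech2

set_option autoImplicit false
open Cfsg

namespace Cfsg.Agent.S0433

/-- Sign changes on the support of a codeword preserve the lattice. -/
theorem result (c : Finset Cfsg.GolayPt) (hc : c ∈ Cfsg.supports (Cfsg.golayCode : Set (Cfsg.GolayPt → ZMod 2))) (x : Cfsg.GolayPt → ℤ) (hx : x ∈ Cfsg.leechLattice) : (fun i => if i ∈ c then -x i else x i) ∈ Cfsg.leechLattice := by
  rw [Cfsg.Agent.Helper1.Golay.mem_leechLattice_iff] at hx ⊢
  obtain ⟨m, ha, hb, hk⟩ := hx
  refine ⟨m, ?_, ?_, ?_⟩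
  · intro i
    have h := ha i
    show (if i ∈ c then -x i else x i) ≡ m [ZMOD 2]
    split_ifs
    · unfold Int.ModEq at *
      omega
    · exact h
  · have hs := Cfsg.Agent.Helper1.Golay.sum_supports_modEq ha (hk (m + 2)) hc
    have e : ∑ i, (if i ∈ c then -x i else x i) = ∑ i, x i - 2 * ∑ i ∈ c, x i := by
      have h1 : ∀ i, (if i ∈ c then -x i else x i) = x i - 2 * (if i ∈ c then x i else 0) := by
        intro i
        split_ifs <;> ring
      simp only [h1, Finset.sum_sub_distrib, ← Finset.mul_sum]
      rw [Finset.sum_ite_mem, Finset.univ_inter]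
    rw [e]
    unfold Int.ModEq at *
    omega
  · intro k
    by_cases hkm : k ≡ m [ZMOD 2]
    · by_cases hm : m ≡ 0 [ZMOD 2]
      · have e : (Finset.univ.filter fun i : Cfsg.GolayPt =>
            (if i ∈ c then -x i else x i) ≡ k [ZMOD 4])
            = Finset.univ.filter fun i : Cfsg.GolayPt => x i ≡ k [ZMOD 4] := by
          ext i
          have h := ha i
          simp only [Finset.mem_filter, Finset.mem_univ, true_and]
          split_ifs
          · unfold Int.ModEq at *
            omega
          · rfl
        rw [e]
        exact hk k
      · have e : (Finset.univ.filter fun i : Cfsg.GolayPt =>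
            (if i ∈ c then -x i else x i) ≡ k [ZMOD 4])
            = symmDiff c (Finset.univ.filter fun i : Cfsg.GolayPt => x i ≡ k [ZMOD 4]) := by
          ext i
          have h := ha i
          simp only [Finset.mem_filter, Finset.mem_univ, true_and, Finset.mem_symmDiff]
          by_cases hi : i ∈ c
          · simp only [hi, if_true, true_and, not_true, and_false, or_false]
            unfold Int.ModEq at *
            omega
          · simp only [hi, if_false, false_and, not_false_eq_true, and_true, false_or]
        rw [e]
        exact Cfsg.Agent.Helper1.Golay.symmDiff_mem_supports hc (hk k)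
    · have e : (Finset.univ.filter fun i : Cfsg.GolayPt =>
          (if i ∈ c then -x i else x i) ≡ k [ZMOD 4]) = ∅ := by
        ext i
        have h := ha i
        simp only [Finset.mem_filter, Finset.mem_univ, true_and, Finset.notMem_empty, iff_false]
        split_ifs <;> unfold Int.ModEq at * <;> omega
      rw [e]
      exact Cfsg.Agent.Helper1.Golay.supports_empty


end Cfsg.Agent.S0433
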