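import Cfsg.Statements.S0439


set_option autoImplicit false
open Cfsg

namespace Cfsg.Agent.S0439

/-- In the symmetric group of degree n ≥ 2, the set of transpositions is a conjugacy class of 3-transpositions which generates the group. -/
theorem result (n : ℕ) (hn : 2 ≤ n) : Cfsg.IsThreeTranspositionClass {σ : Equiv.Perm (Fin n) | σ.IsSwap} := by
  classical
  have h0 : (⟨0, by omega⟩ : Fin n) ≠ ⟨1, by omega⟩ := by
    intro h
    simp [Fin.ext_iff] at h
  refine ⟨⟨?_, ?_⟩, ⟨Equiv.swap (⟨0, by omega⟩ : Fin n) ⟨1, by omega⟩, ⟨_, _, h0, rfl⟩, ?_⟩, ?_⟩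
  · intro d hd
    exact Equiv.Perm.IsSwap.orderOf hd
  · rintro d ⟨a, b, hab, rfl⟩ e ⟨c, f, hcf, rfl⟩
    have key : ∀ x y z : Fin n, x ≠ y → x ≠ z → y ≠ z →
        (Equiv.swap x y * Equiv.swap x z) ^ 3 = 1 := by
      intro x y z hxy hxz hyz
      have h3 := (Equiv.Perm.isThreeCycle_swap_mul_swap_same hxy hxz hyz).orderOf
      rw [← h3]
      exact pow_orderOf_eq_one _
    by_cases h1 : a = c
    · subst h1
      by_cases h2 : b = f
      · subst h2
        left
        simp
      · right
        exact key a b f hab hcf h2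
    by_cases h2 : a = f
    · subst h2
      by_cases h3 : b = c
      · subst h3
        left
        rw [Equiv.swap_comm b a]
        simp
      · right
        rw [Equiv.swap_comm c a]
        exact key a b c hab (Ne.symm hcf) h3
    by_cases h3 : b = c
    · subst h3
      right
      rw [Equiv.swap_comm a b]
      exact key b a f (Ne.symm hab) hcf h2
    by_cases h4 : b = f
    · subst h4
      right
      rw [Equiv.swap_comm a b, Equiv.swap_comm c b]
      exact key b a c (Ne.symm hab) (Ne.symm hcf) h1
    left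
    have hd : Equiv.Perm.Disjoint (Equiv.swap a b) (Equiv.swap c f) := by
      apply Equiv.Perm.disjoint_swap_swap
      simp [hab, hcf, h1, h2, h3, h4]
    rw [hd.commute.mul_pow]
    simp [pow_two]
  · ext σ
    simp only [Set.mem_setOf_eq, conjugatesOf]
    constructor
    · rintro ⟨x, y, hxy, rfl⟩
      exact Equiv.Perm.isConj_swap h0 hxy
    · intro h
      obtain ⟨c, hc⟩ := isConj_iff.mp h
      rw [← hc]
      refine ⟨c ⟨0, by omega⟩, c ⟨1, by omega⟩, fun h => h0 (c.injective h), ?_⟩
      rw [Equiv.swap_apply_apply]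
  · exact Equiv.Perm.closure_isSwap

end Cfsg.Agent.S0439
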