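import Cfsg.Statements.S0442
import Mathlib.Tactic

set_option autoImplicit false
open Cfsg

namespace Cfsg.Agent.S0442

theorem key {G : Type*} [Group G] (a b : G) (ha : a * a = 1) (hb : b * b = 1) (n : ℕ) :
    (a * b) ^ n * a = a * ((a * b)⁻¹) ^ n := by
  have hinv : (a * b)⁻¹ = b * a := by
    rw [mul_inv_rev, inv_eq_of_mul_eq_one_left ha, inv_eq_of_mul_eq_one_left hb]
  rw [hinv]
  have h : SemiconjBy a (b * a) (a * b) := by
    unfold SemiconjBy; rw [mul_assoc]
  exact ((h.pow_right n).eq).symm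

theorem key2 {G : Type*} [Group G] (a b : G) (ha : a * a = 1) (hb : b * b = 1) (m : ℕ)
    (h : (a * b) ^ (2 * m) = 1) : Commute ((a * b) ^ m) a := by
  unfold Commute SemiconjBy
  rw [key a b ha hb m]
  congr 1
  rw [inv_pow]
  apply inv_eq_of_mul_eq_one_left
  rw [← pow_add, ← two_mul, h]

/-- A standard trick for producing elements of an involution centraliser: for an involution a and an element g, let b be the conjugate g⁻¹ * a * g. If a * b has odd order 2m + 1 then g * (a * b) ^ m commutes with a; if a * b has even order 2m then (a * b) ^ m and (a * (g * a * g⁻¹)) ^ m commute with a. -/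
theorem result {G : Type*} [Group G] (a g : G) (ha : orderOf a = 2) : (∀ m : ℕ, orderOf (a * (g⁻¹ * a * g)) = 2 * m + 1 → Commute (g * (a * (g⁻¹ * a * g)) ^ m) a) ∧ (∀ m : ℕ, orderOf (a * (g⁻¹ * a * g)) = 2 * m → Commute ((a * (g⁻¹ * a * g)) ^ m) a ∧ Commute ((a * (g * a * g⁻¹)) ^ m) a) := by
  have ha2 : a * a = 1 := by rw [← pow_two, ← ha, pow_orderOf_eq_one]
  have hb2 : (g⁻¹ * a * g) * (g⁻¹ * a * g) = 1 := by
    have : (g⁻¹ * a * g) * (g⁻¹ * a * g) = g⁻¹ * (a * a) * g := by group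
    rw [this, ha2]; group
  have hb2' : (g * a * g⁻¹) * (g * a * g⁻¹) = 1 := by
    have : (g * a * g⁻¹) * (g * a * g⁻¹) = g * (a * a) * g⁻¹ := by group
    rw [this, ha2]; group
  refine ⟨fun m hm => ?_, fun m hm => ⟨?_, ?_⟩⟩
  · have hc : (a * (g⁻¹ * a * g)) ^ (2 * m + 1) = 1 := by rw [← hm, pow_orderOf_eq_one]
    have hgb : a * g = g * (g⁻¹ * a * g) := by group
    obtain ⟨b, hb⟩ : ∃ b, b = g⁻¹ * a * g := ⟨_, rfl⟩
    rw [← hb] at hc hb2 hgb ⊢
    unfold Commute SemiconjBy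
    rw [mul_assoc, key a _ ha2 hb2 m]
    have h3 : b = a * (a * b) := by rw [← mul_assoc a a, ha2, one_mul]
    have h1 : a * (g * (a * b) ^ m) = g * (a * (a * b) ^ (m + 1)) := by
      calc a * (g * (a * b) ^ m) = g * b * (a * b) ^ m := by rw [← mul_assoc, hgb]
        _ = g * (a * (a * b)) * (a * b) ^ m := by rw [← h3]
        _ = g * (a * (a * b) ^ (m + 1)) := by rw [pow_succ']; simp only [mul_assoc]
    rw [h1]
    congr 2
    rw [inv_pow]
    apply inv_eq_of_mul_eq_one_left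
    rw [← pow_add]
    have : m + 1 + m = 2 * m + 1 := by ring
    rw [this, hc]
  · apply key2 a _ ha2 hb2
    rw [← hm, pow_orderOf_eq_one]
  · apply key2 a _ ha2 hb2'
    have hconj : a * (g * a * g⁻¹) = g * (a * (g⁻¹ * a * g))⁻¹ * g⁻¹ := by
      rw [mul_inv_rev, inv_eq_of_mul_eq_one_left ha2, inv_eq_of_mul_eq_one_left hb2]
      have h5 : g * (g⁻¹ * a * g * a) * g⁻¹ = a * (g * a * g⁻¹) := by group
      exact h5.symm
    rw [hconj, conj_pow, inv_pow, ← hm, pow_orderOf_eq_one]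
    group


end Cfsg.Agent.S0442
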