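import Cfsg.Statements.S0443

set_option autoImplicit false
open Cfsg

namespace Cfsg.Agent.S0443

/-- Two definitions of a 2-central involution agree: an element t of order 2 of a finite group lies in the centre of some Sylow 2-subgroup if and only if its centraliser contains some Sylow 2-subgroup. -/
theorem result {G : Type*} [Group G] [Finite G] (t : G) (ht : orderOf t = 2) : Cfsg.IsTwoCentralInvolution t ↔ ∃ P : Sylow 2 G, (P : Subgroup G) ≤ Subgroup.centralizer ({t} : Set G) := by
  classical
  haveI : Fact (Nat.Prime 2) := ⟨Nat.prime_two⟩
  constructor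
  · rintro ⟨-, P, htP, hcomm⟩
    refine ⟨P, fun x hx => ?_⟩
    rw [Subgroup.mem_centralizer_iff]
    intro y hy
    rw [Set.mem_singleton_iff] at hy
    subst hy
    exact (hcomm x hx).symm
  · rintro ⟨P, hP⟩
    refine ⟨ht, P, ?_, fun x hx => ?_⟩
    · have hz : IsPGroup 2 (Subgroup.zpowers t) := by
        apply IsPGroup.of_card (n := 1)
        rw [Nat.card_zpowers, ht]; rfl
      have hnorm : (P : Subgroup G) ≤ Subgroup.normalizer (Subgroup.zpowers t : Set G) := by
        intro x hx
        have hxt := Subgroup.mem_centralizer_iff.mp (hP hx) t (Set.mem_singleton t)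
        rw [Subgroup.mem_normalizer_iff]
        intro y
        constructor
        · rintro ⟨k, rfl⟩
          refine ⟨k, ?_⟩
          have : x * t ^ k * x⁻¹ = t ^ k := by
            have h1 : Commute x t := hxt.symm
            have h2 : Commute x (t ^ k) := h1.zpow_right k
            rw [h2.eq, mul_inv_cancel_right]
          simp [this]
        · rintro ⟨k, hk⟩
          refine ⟨k, ?_⟩
          have h1 : Commute x t := hxt.symm
          have h2 : Commute x (t ^ k) := h1.zpow_right k
          have : x * y * x⁻¹ = x * t ^ k * x⁻¹ := by
            rw [h2.eq, mul_inv_cancel_right]; exact hk.symm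
          have := mul_left_cancel (mul_right_cancel this)
          simpa using this.symm
      have hsup : IsPGroup 2 ((P : Subgroup G) ⊔ Subgroup.zpowers t : Subgroup G) :=
        IsPGroup.to_sup_of_normal_right' P.isPGroup' hz hnorm
      have := P.is_maximal' hsup le_sup_left
      have h2 : Subgroup.zpowers t ≤ (P : Subgroup G) := by
        rw [← this]; exact le_sup_right
      exact h2 (Subgroup.mem_zpowers t)
    · exact (Subgroup.mem_centralizer_iff.mp (hP hx) t (Set.mem_singleton t)).symm


end Cfsg.Agent.S0443
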