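import Cfsg.Statements.S0445
import Mathlib
import Cfsg.Agent.Helper1.LinearCard

set_option autoImplicit false
open Cfsg

namespace Cfsg.Agent.S0445

/-- The last three indices of `Fin 5`. -/
def f (i : Fin 3) : Fin 5 := i.succ.succ

theorem det5 {R : Type*} [CommRing R] (g : Matrix (Fin 5) (Fin 5) R)
    (hcol : ∀ i, i ≠ 0 → g i 0 = 0) (hrow : ∀ j, j ≠ 1 → g 1 j = 0) :
    g.det = g 0 0 * (g 1 1 * (g.submatrix f f).det) := by
  rw [Matrix.det_succ_column_zero, Finset.sum_eq_single 0]
  · rw [Matrix.det_succ_row_zero, Finset.sum_eq_single 0]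
    · simp only [Fin.val_zero, pow_zero, one_mul, Fin.succAbove_zero, Matrix.submatrix_apply,
        Fin.succ_zero_eq_one]
      rfl
    · intro j _ hj
      obtain ⟨j', rfl⟩ := Fin.exists_succ_eq.2 hj
      have h1 : g 1 j'.succ.succ = 0 := hrow _ (by
        intro h
        have := congrArg Fin.val h
        simp at this)
      simp [h1]
    · simp
  · intro i _ hi
    rw [hcol i hi]
    simp
  · simp

theorem mem_cent (s g : Matrix.SpecialLinearGroup (Fin 5) (ZMod 2))
    (hs : (s : Matrix (Fin 5) (Fin 5) (ZMod 2)) = Matrix.transvection 0 1 1) :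
    g ∈ Subgroup.centralizer ({s} : Set (Matrix.SpecialLinearGroup (Fin 5) (ZMod 2))) ↔
      (∀ i, i ≠ 0 → g.1 i 0 = 0) ∧ (∀ j, j ≠ 1 → g.1 1 j = 0) ∧ g.1 0 0 = g.1 1 1 := by
  rw [Subgroup.mem_centralizer_singleton_iff]
  have key : g * s = s * g ↔
      g.1 * Matrix.single (0 : Fin 5) (1 : Fin 5) (1 : ZMod 2) =
        Matrix.single (0 : Fin 5) (1 : Fin 5) (1 : ZMod 2) * g.1 := by
    constructor
    · intro h
      have h1 : g.1 * s.1 = s.1 * g.1 := congrArg Subtype.val h
      rw [hs, Matrix.transvection, mul_add, add_mul, mul_one, one_mul] at h1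
      exact add_left_cancel h1
    · intro h
      apply Subtype.ext
      show g.1 * s.1 = s.1 * g.1
      rw [hs, Matrix.transvection, mul_add, add_mul, mul_one, one_mul, h]
  rw [key]
  constructor
  · intro h
    refine ⟨fun i hi => ?_, fun j hj => ?_, ?_⟩
    · have h1 := congrFun (congrFun h i) 1
      rw [Matrix.mul_single_apply_same, Matrix.single_mul_apply_of_ne (h := hi)] at h1
      simpa using h1
    · have h1 := congrFun (congrFun h 0) j
      rw [Matrix.mul_single_apply_of_ne (hbj := hj), Matrix.single_mul_apply_same] at h1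
      simpa using h1.symm
    · have h1 := congrFun (congrFun h 0) 1
      rw [Matrix.mul_single_apply_same, Matrix.single_mul_apply_same] at h1
      simpa using h1
  · rintro ⟨hcol, hrow, h01⟩
    ext i j
    by_cases hj : j = 1
    · subst hj
      rw [Matrix.mul_single_apply_same]
      by_cases hi : i = 0
      · subst hi
        rw [Matrix.single_mul_apply_same]
        simp [h01]
      · rw [Matrix.single_mul_apply_of_ne (h := hi), hcol i hi]
        simp
    · rw [Matrix.mul_single_apply_of_ne (hbj := hj)]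
      by_cases hi : i = 0
      · subst hi
        rw [Matrix.single_mul_apply_same, hrow j hj]
        simp
      · rw [Matrix.single_mul_apply_of_ne (h := hi)]

/-- The matrix with prescribed blocks. -/
def mk5 (a : ZMod 2) (x b : Fin 3 → ZMod 2) (A : Matrix (Fin 3) (Fin 3) (ZMod 2)) :
    Matrix (Fin 5) (Fin 5) (ZMod 2) :=
  Matrix.of (Fin.cons (Fin.cons 1 (Fin.cons a x))
    (Fin.cons (Fin.cons 0 (Fin.cons 1 (fun _ => 0)))
      (fun i => Fin.cons 0 (Fin.cons (b i) (A i)))))

theorem mk5_col (a : ZMod 2) (x b : Fin 3 → ZMod 2) (A : Matrix (Fin 3) (Fin 3) (ZMod 2)) :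
    ∀ i, i ≠ 0 → mk5 a x b A i 0 = 0 := by
  intro i hi
  obtain ⟨i₁, rfl⟩ := Fin.exists_succ_eq.2 hi
  refine Fin.cases ?_ (fun i' => ?_) i₁ <;> simp [mk5]

theorem mk5_row (a : ZMod 2) (x b : Fin 3 → ZMod 2) (A : Matrix (Fin 3) (Fin 3) (ZMod 2)) :
    ∀ j, j ≠ 1 → mk5 a x b A 1 j = 0 := by
  intro j
  refine Fin.cases ?_ (fun j₁ => ?_) j
  · intro _
    simp [mk5]
  · refine Fin.cases ?_ (fun j' => ?_) j₁
    · intro h
      exact absurd rfl h
    · intro _
      simp [mk5]

theorem mk5_sub (a : ZMod 2) (x b : Fin 3 → ZMod 2) (A : Matrix (Fin 3) (Fin 3) (ZMod 2)) :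
    (mk5 a x b A).submatrix f f = A := by
  ext i j
  simp [mk5, f]

theorem mk5_det (a : ZMod 2) (x b : Fin 3 → ZMod 2) (A : Matrix (Fin 3) (Fin 3) (ZMod 2))
    (hA : A.det = 1) : (mk5 a x b A).det = 1 := by
  rw [det5 _ (mk5_col a x b A) (mk5_row a x b A), mk5_sub, hA]
  simp [mk5]

theorem zmod2_eq_one {x : ZMod 2} (hx : x ≠ 0) : x = 1 := by
  revert x
  decide

/-- The centraliser of the transvection, parametrised. -/
noncomputable def centEquiv (s : Matrix.SpecialLinearGroup (Fin 5) (ZMod 2))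
    (hs : (s : Matrix (Fin 5) (Fin 5) (ZMod 2)) = Matrix.transvection 0 1 1) :
    (Subgroup.centralizer ({s} : Set (Matrix.SpecialLinearGroup (Fin 5) (ZMod 2)))) ≃
      ZMod 2 × (Fin 3 → ZMod 2) × (Fin 3 → ZMod 2) × Matrix.SpecialLinearGroup (Fin 3) (ZMod 2) where
  toFun g := (g.1.1 0 1, fun j => g.1.1 0 (f j), fun i => g.1.1 (f i) 1,
    ⟨g.1.1.submatrix f f, by
      obtain ⟨hcol, hrow, h01⟩ := (mem_cent s g.1 hs).1 g.2
      have hd := g.1.2
      rw [det5 _ hcol hrow] at hd
      have h0 : g.1.1 0 0 = 1 := zmod2_eq_one (fun h => by rw [h, zero_mul] at hd; exact zero_ne_one hd)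
      rw [h0, ← h01, h0, one_mul, one_mul] at hd
      exact hd⟩)
  invFun t := ⟨⟨mk5 t.1 t.2.1 t.2.2.1 t.2.2.2.1, mk5_det _ _ _ _ t.2.2.2.2⟩,
    (mem_cent s ⟨mk5 t.1 t.2.1 t.2.2.1 t.2.2.2.1, mk5_det _ _ _ _ t.2.2.2.2⟩ hs).2
      ⟨mk5_col _ _ _ _, mk5_row _ _ _ _, by simp [mk5]⟩⟩
  left_inv g := by
    obtain ⟨hcol, hrow, h01⟩ := (mem_cent s g.1 hs).1 g.2
    have hd := g.1.2
    rw [det5 _ hcol hrow] at hd
    have h0 : g.1.1 0 0 = 1 := zmod2_eq_one (fun h => by rw [h, zero_mul] at hd; exact zero_ne_one hd)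
    have h1 : g.1.1 1 1 = 1 := h01 ▸ h0
    apply Subtype.ext
    apply Subtype.ext
    ext i j
    refine Fin.cases ?_ (fun i₁ => Fin.cases ?_ (fun i' => ?_) i₁) i <;>
      refine Fin.cases ?_ (fun j₁ => Fin.cases ?_ (fun j' => ?_) j₁) j
    · simp [mk5, h0]
    · simp [mk5]
    · simp [mk5, f]
    · have := hcol 1 (by decide)
      simp [mk5] at this ⊢
      exact this.symm
    · simp [mk5] at h1 ⊢
      exact h1.symm
    · have := hrow j'.succ.succ (by
        intro h
        have := congrArg Fin.val h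
        simp at this)
      simp [mk5] at this ⊢
      exact this.symm
    · have := hcol i'.succ.succ (by
        intro h
        have := congrArg Fin.val h
        simp at this)
      simp [mk5] at this ⊢
      exact this.symm
    · simp [mk5, f]
    · simp [mk5, f]
  right_inv t := by
    obtain ⟨a, x, b, A⟩ := t
    refine Prod.ext ?_ (Prod.ext ?_ (Prod.ext ?_ ?_))
    · simp [mk5]
    · funext j
      simp [mk5, f]
    · funext i
      simp [mk5, f]
    · apply Subtype.ext
      exact mk5_sub a x b A.1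

theorem card_SL3 : Nat.card (Matrix.SpecialLinearGroup (Fin 3) (ZMod 2)) = 168 := by
  have h1 := Cfsg.Agent.Helper1.card_GL_eq_mul_card_SL (F := ZMod 2) 3 (by norm_num)
  rw [Matrix.card_GL_field, Fin.prod_univ_three, ZMod.card] at h1
  simp only [Fin.val_zero, Fin.val_one, Fin.val_two] at h1
  norm_num at h1
  rw [Nat.card_eq_fintype_card]
  exact h1.symm

/-- In the special linear group of dimension 5 over the field with two elements, the centraliser of a transvection has order 21504 = 2 ^ 7 · 168 (it is an extension of an extraspecial group of order 2 ^ 7 by the simple group of order 168). -/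
theorem result (s : Matrix.SpecialLinearGroup (Fin 5) (ZMod 2)) (hs : (s : Matrix (Fin 5) (Fin 5) (ZMod 2)) = Matrix.transvection 0 1 1) : Nat.card (Subgroup.centralizer ({s} : Set (Matrix.SpecialLinearGroup (Fin 5) (ZMod 2)))) = 21504 := by
  rw [Nat.card_congr (centEquiv s hs), Nat.card_prod, Nat.card_prod, Nat.card_prod, card_SL3,
    Nat.card_eq_fintype_card, Nat.card_eq_fintype_card]
  simp

end Cfsg.Agent.S0445
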