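import Cfsg.Statements.S0481
import Mathlib

set_option autoImplicit false
open Cfsg

namespace Cfsg.Agent.S0481

/-- Large extraspecial subgroups: let z be an involution of a finite group G whose centraliser C contains a normal 2-subgroup Q with centre of order 2 and all squares central, such that every element of G centralising Q lies in Q. Then C contains a Sylow 2-subgroup of G, and any involution of G whose centraliser contains a Sylow 2-subgroup of G is conjugate to z. -/
theorem result {G : Type*} [Group G] [Finite G] (z : G) (hz : orderOf z = 2) (Q : Subgroup G) (hQC : Q ≤ Subgroup.centralizer ({z} : Set G)) (hQn : ∀ g ∈ Subgroup.centralizer ({z} : Set G), ∀ q ∈ Q, g * q * g⁻¹ ∈ Q) (hQ2 : IsPGroup 2 Q) (hZ : Nat.card (Subgroup.center Q) = 2) (hsq : ∀ x : Q, x ^ 2 ∈ Subgroup.center Q) (hlarge : Subgroup.centralizer (Q : Set G) ≤ Q) : (∃ P : Sylow 2 G, (P : Subgroup G) ≤ Subgroup.centralizer ({z} : Set G)) ∧ ∀ u : G, orderOf u = 2 → (∃ P : Sylow 2 G, (P : Subgroup G) ≤ Subgroup.centralizer ({u} : Set G)) → IsConj z u := by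
  classical
  have hz1 : z ≠ 1 := by
    intro h
    rw [h, orderOf_one] at hz
    omega
  -- z ∈ Q
  have hzQ : z ∈ Q := by
    apply hlarge
    rw [Subgroup.mem_centralizer_iff]
    intro q hq
    have := hQC hq
    rw [Subgroup.mem_centralizer_iff] at this
    exact (this z (Set.mem_singleton z)).symm
  -- the key: anything in Q centralizing Q is 1 or z
  have hcen : ∀ y : G, y ∈ Subgroup.centralizer (Q : Set G) → y = 1 ∨ y = z := by
    intro y hy
    have hyQ : y ∈ Q := hlarge hy
    have hyZ : (⟨y, hyQ⟩ : Q) ∈ Subgroup.center Q := by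
      rw [Subgroup.mem_center_iff]
      intro q
      apply Subtype.ext
      rw [Subgroup.mem_centralizer_iff] at hy
      exact hy q q.2
    have hzZ : (⟨z, hzQ⟩ : Q) ∈ Subgroup.center Q := by
      rw [Subgroup.mem_center_iff]
      intro q
      apply Subtype.ext
      have := hQC q.2
      rw [Subgroup.mem_centralizer_iff] at this
      exact (this z (Set.mem_singleton z)).symm
    obtain ⟨w, -, hw⟩ := (Nat.card_eq_two_iff' (1 : Subgroup.center Q)).mp hZ
    by_cases hy1 : y = 1
    · left; exact hy1
    · right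
      have h1 : (⟨⟨y, hyQ⟩, hyZ⟩ : Subgroup.center Q) = w := by
        apply hw
        intro h
        apply hy1
        exact congrArg (fun t : Subgroup.center Q => ((t : Q) : G)) h
      have h2 : (⟨⟨z, hzQ⟩, hzZ⟩ : Subgroup.center Q) = w := by
        apply hw
        intro h
        apply hz1
        exact congrArg (fun t : Subgroup.center Q => ((t : Q) : G)) h
      exact congrArg (fun t : Subgroup.center Q => ((t : Q) : G)) (h1.trans h2.symm)
  obtain ⟨S, hQS⟩ := hQ2.exists_le_sylow
  have hSz : (S : Subgroup G) ≤ Subgroup.centralizer ({z} : Set G) := by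
    haveI : Nontrivial ↥(S : Subgroup G) := ⟨⟨⟨z, hQS hzQ⟩, 1, fun h => hz1 (congrArg Subtype.val h)⟩⟩
    haveI := IsPGroup.center_nontrivial S.isPGroup'
    obtain ⟨x, hx⟩ := exists_ne (1 : Subgroup.center ↥(S : Subgroup G))
    have hxc : ((x : ↥(S : Subgroup G)) : G) ∈ Subgroup.centralizer (Q : Set G) := by
      rw [Subgroup.mem_centralizer_iff]
      intro q hq
      have := Subgroup.mem_center_iff.mp x.2 ⟨q, hQS hq⟩
      exact congrArg Subtype.val this
    have hxz : ((x : ↥(S : Subgroup G)) : G) = z := by
      rcases hcen _ hxc with h | h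
      · exfalso
        apply hx
        apply Subtype.ext
        apply Subtype.ext
        exact h
      · exact h
    intro s hs
    rw [Subgroup.mem_centralizer_iff]
    intro t ht
    rw [Set.mem_singleton_iff] at ht
    rw [ht, ← hxz]
    have := Subgroup.mem_center_iff.mp x.2 ⟨s, hs⟩
    exact (congrArg Subtype.val this).symm
  refine ⟨⟨S, hSz⟩, ?_⟩
  intro u hu hP
  obtain ⟨P, hPu⟩ := hP
  have hu1 : u ≠ 1 := by
    intro h
    rw [h, orderOf_one] at hu
    omega
  obtain ⟨g, hg⟩ := MulAction.exists_smul_eq G S P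
  have hy : g⁻¹ * u * g ∈ Subgroup.centralizer (Q : Set G) := by
    rw [Subgroup.mem_centralizer_iff]
    intro q hq
    have h1 : g * q * g⁻¹ ∈ (P : Subgroup G) := by
      rw [← hg, Sylow.coe_subgroup_smul]
      have := Subgroup.smul_mem_pointwise_smul q (MulAut.conj g) (S : Subgroup G) (hQS hq)
      rwa [MulAut.smul_def, MulAut.conj_apply] at this
    have h2 := hPu h1
    rw [Subgroup.mem_centralizer_iff] at h2
    have h3 := h2 u (Set.mem_singleton u)
    calc q * (g⁻¹ * u * g) = g⁻¹ * ((g * q * g⁻¹) * u) * g := by group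
      _ = g⁻¹ * (u * (g * q * g⁻¹)) * g := by rw [← h3]
      _ = g⁻¹ * u * g * q := by group
  rw [isConj_iff]
  refine ⟨g, ?_⟩
  rcases hcen _ hy with h | h
  · exfalso
    apply hu1
    calc u = g * (g⁻¹ * u * g) * g⁻¹ := by group
      _ = 1 := by rw [h]; group
  · rw [← h]
    group

end Cfsg.Agent.S0481
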