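import Cfsg.Statements.S0493
import Cfsg.Agent.S0144

set_option autoImplicit false
open Cfsg

namespace Cfsg.Agent.S0493

/-- A finite simple group of order at most 100 that is not cyclic has order 60. -/
theorem result {G : Type*} [Group G] [Finite G] [IsSimpleGroup G]
    (hG : ¬ IsCyclic G) (h : Nat.card G ≤ 100) : Nat.card G = 60 := by
  classical
  have hcyc_of_solv : Group.IsSolvable G → False := by
    intro hs
    have hcomm : ∀ a b : G, a * b = b * a := IsSimpleGroup.comm_iff_isSolvable.mpr hs
    obtain ⟨g, hg⟩ := exists_ne (1 : G)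
    have hn : (Subgroup.zpowers g).Normal :=
      ⟨fun x hx y => by rw [hcomm y x, mul_inv_cancel_right]; exact hx⟩
    rcases hn.eq_bot_or_eq_top with h | h
    · exact hg (Subgroup.zpowers_eq_bot.mp h)
    · apply hG
      refine ⟨⟨g, fun x => ?_⟩⟩
      have hx : x ∈ Subgroup.zpowers g := by rw [h]; exact Subgroup.mem_top x
      exact Subgroup.mem_zpowers_iff.mp hx
  have hsolv : ∀ p q a b : ℕ, p.Prime → q.Prime → Nat.card G = p ^ a * q ^ b → False :=
    fun p q a b hp hq hcard => hcyc_of_solv (Cfsg.Agent.S0144.result p q a b hp hq hcard)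
  have h2m : ∀ m : ℕ, Odd m → 1 < m → Nat.card G = 2 * m → False := by
    intro m hm hm1 hcard
    haveI : Fact (Nat.Prime 2) := ⟨Nat.prime_two⟩
    obtain ⟨P⟩ := (inferInstance : Nonempty (Sylow 2 G))
    obtain ⟨k, hk⟩ := IsPGroup.iff_card.mp P.2
    have hdvd : 2 ^ k ∣ 2 * m := by
      rw [← hk, ← hcard]; exact Subgroup.card_subgroup_dvd_card _
    have hk1 : k ≤ 1 := by
      by_contra hcon
      push Not at hcon
      have h4 : 2 ^ 2 ∣ 2 * m := (pow_dvd_pow 2 hcon).trans hdvd
      obtain ⟨c, hc⟩ := hm
      obtain ⟨d, hd⟩ := h4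
      omega
    have hk0 : k ≠ 0 := by
      intro h0
      rw [h0, pow_zero] at hk
      exact P.ne_bot_of_dvd_card (by rw [hcard]; exact dvd_mul_right 2 m)
        (Subgroup.card_eq_one.mp hk)
    have hPcard : Nat.card (P : Subgroup G) = 2 := by
      have : k = 1 := by omega
      rw [hk, this, pow_one]
    have hNC : Subgroup.normalizer (P : Set G) ≤ Subgroup.centralizer (P : Set G) := by
      intro g hg
      rw [Subgroup.mem_centralizer_iff]
      intro x hx
      by_cases hx1 : x = 1
      · rw [hx1]; simp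
      have hgx : g * x * g⁻¹ ∈ (P : Subgroup G) := ((Subgroup.mem_normalizer_iff).mp hg x).mp hx
      have hgx1 : g * x * g⁻¹ ≠ 1 := by
        intro h
        apply hx1
        have : x = g⁻¹ * (g * x * g⁻¹) * g := by group
        rw [this, h]; group
      obtain ⟨t, ht, htu⟩ := (Nat.card_eq_two_iff' (1 : ↥(P : Subgroup G))).mp hPcard
      have e1 := htu ⟨x, hx⟩ (fun h => hx1 (congrArg Subtype.val h))
      have e2 := htu ⟨g * x * g⁻¹, hgx⟩ (fun h => hgx1 (congrArg Subtype.val h))
      have e3 : g * x * g⁻¹ = x := congrArg Subtype.val (e2.trans e1.symm)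
      calc x * g = (g * x * g⁻¹) * g := by rw [e3]
        _ = g * x := by group
    have hcompl := MonoidHom.ker_transferSylow_isComplement' P hNC
    have hmul := hcompl.card_mul_card
    rw [hPcard, hcard] at hmul
    have hKcard : Nat.card (MonoidHom.transferSylow P hNC).ker = m := by omega
    rcases (inferInstance : (MonoidHom.transferSylow P hNC).ker.Normal).eq_bot_or_eq_top with h | h
    · rw [h, Subgroup.card_bot] at hKcard; omega
    · rw [h, Subgroup.card_top, hcard] at hKcard; omega
  have h84 : Nat.card G = 84 → False := by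
    intro hc
    haveI : Fact (Nat.Prime 7) := ⟨by norm_num⟩
    obtain ⟨P⟩ := (inferInstance : Nonempty (Sylow 7 G))
    obtain ⟨k, hk⟩ := IsPGroup.iff_card.mp P.2
    have hdvd : 7 ^ k ∣ 84 := by
      rw [← hk, ← hc]; exact Subgroup.card_subgroup_dvd_card _
    have hk1 : k ≤ 1 := by
      by_contra hcon
      push Not at hcon
      have h49 : 7 ^ 2 ∣ 84 := (pow_dvd_pow 7 hcon).trans hdvd
      norm_num at h49
    have hk0 : k ≠ 0 := by
      intro h0
      rw [h0, pow_zero] at hk
      exact P.ne_bot_of_dvd_card (by rw [hc]; norm_num) (Subgroup.card_eq_one.mp hk)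
    have hPcard : Nat.card (P : Subgroup G) = 7 := by
      have : k = 1 := by omega
      rw [hk, this, pow_one]
    have hidx : (P : Subgroup G).index = 12 := by
      have := Subgroup.card_mul_index (P : Subgroup G)
      rw [hPcard, hc] at this
      omega
    have hn1 : Nat.card (Sylow 7 G) = 1 := by
      have hmod : Nat.card (Sylow 7 G) % 7 = 1 := card_sylow_modEq_one 7 G
      have hdiv : Nat.card (Sylow 7 G) ∣ 12 := hidx ▸ P.card_dvd_index
      have hle : Nat.card (Sylow 7 G) ≤ 12 := Nat.le_of_dvd (by norm_num) hdiv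
      obtain ⟨c, hc'⟩ := hdiv
      generalize Nat.card (Sylow 7 G) = n at hle hmod hc'
      interval_cases n <;> omega
    have hnorm : (P : Subgroup G).Normal := by
      have h1 := P.card_eq_index_normalizer
      rw [hn1] at h1
      have h2 : Subgroup.normalizer ((P : Subgroup G) : Set G) = ⊤ :=
        Subgroup.index_eq_one.mp h1.symm
      exact Subgroup.normalizer_eq_top_iff.mp h2
    rcases hnorm.eq_bot_or_eq_top with h | h
    · rw [h, Subgroup.card_bot] at hPcard; omega
    · rw [h, Subgroup.card_top, hc] at hPcard; omega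
  obtain ⟨n, hn⟩ : ∃ n, Nat.card G = n := ⟨_, rfl⟩
  rw [hn] at h ⊢
  interval_cases n
  · exact absurd hn (Nat.card_pos (α := G)).ne'
  · exact (hsolv 2 2 0 0 (by norm_num) (by norm_num) (hn.trans (by norm_num))).elim
  · exact (hsolv 2 2 1 0 (by norm_num) (by norm_num) (hn.trans (by norm_num))).elim
  · exact (hsolv 3 2 1 0 (by norm_num) (by norm_num) (hn.trans (by norm_num))).elim
  · exact (hsolv 2 2 2 0 (by norm_num) (by norm_num) (hn.trans (by norm_num))).elim
  · exact (hsolv 5 2 1 0 (by norm_num) (by norm_num) (hn.trans (by norm_num))).elim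
  · exact (hsolv 2 3 1 1 (by norm_num) (by norm_num) (hn.trans (by norm_num))).elim
  · exact (hsolv 7 2 1 0 (by norm_num) (by norm_num) (hn.trans (by norm_num))).elim
  · exact (hsolv 2 2 3 0 (by norm_num) (by norm_num) (hn.trans (by norm_num))).elim
  · exact (hsolv 3 2 2 0 (by norm_num) (by norm_num) (hn.trans (by norm_num))).elim
  · exact (hsolv 2 5 1 1 (by norm_num) (by norm_num) (hn.trans (by norm_num))).elim
  · exact (hsolv 11 2 1 0 (by norm_num) (by norm_num) (hn.trans (by norm_num))).elim
  · exact (hsolv 2 3 2 1 (by norm_num) (by norm_num) (hn.trans (by norm_num))).elim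
  · exact (hsolv 13 2 1 0 (by norm_num) (by norm_num) (hn.trans (by norm_num))).elim
  · exact (hsolv 2 7 1 1 (by norm_num) (by norm_num) (hn.trans (by norm_num))).elim
  · exact (hsolv 3 5 1 1 (by norm_num) (by norm_num) (hn.trans (by norm_num))).elim
  · exact (hsolv 2 2 4 0 (by norm_num) (by norm_num) (hn.trans (by norm_num))).elim
  · exact (hsolv 17 2 1 0 (by norm_num) (by norm_num) (hn.trans (by norm_num))).elim
  · exact (hsolv 2 3 1 2 (by norm_num) (by norm_num) (hn.trans (by norm_num))).elim
  · exact (hsolv 19 2 1 0 (by norm_num) (by norm_num) (hn.trans (by norm_num))).elim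
  · exact (hsolv 2 5 2 1 (by norm_num) (by norm_num) (hn.trans (by norm_num))).elim
  · exact (hsolv 3 7 1 1 (by norm_num) (by norm_num) (hn.trans (by norm_num))).elim
  · exact (hsolv 2 11 1 1 (by norm_num) (by norm_num) (hn.trans (by norm_num))).elim
  · exact (hsolv 23 2 1 0 (by norm_num) (by norm_num) (hn.trans (by norm_num))).elim
  · exact (hsolv 2 3 3 1 (by norm_num) (by norm_num) (hn.trans (by norm_num))).elim
  · exact (hsolv 5 2 2 0 (by norm_num) (by norm_num) (hn.trans (by norm_num))).elim
  · exact (hsolv 2 13 1 1 (by norm_num) (by norm_num) (hn.trans (by norm_num))).elim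
  · exact (hsolv 3 2 3 0 (by norm_num) (by norm_num) (hn.trans (by norm_num))).elim
  · exact (hsolv 2 7 2 1 (by norm_num) (by norm_num) (hn.trans (by norm_num))).elim
  · exact (hsolv 29 2 1 0 (by norm_num) (by norm_num) (hn.trans (by norm_num))).elim
  · exact (h2m 15 (by decide) (by norm_num) (hn.trans (by norm_num))).elim
  · exact (hsolv 31 2 1 0 (by norm_num) (by norm_num) (hn.trans (by norm_num))).elim
  · exact (hsolv 2 2 5 0 (by norm_num) (by norm_num) (hn.trans (by norm_num))).elim
  · exact (hsolv 3 11 1 1 (by norm_num) (by norm_num) (hn.trans (by norm_num))).elim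
  · exact (hsolv 2 17 1 1 (by norm_num) (by norm_num) (hn.trans (by norm_num))).elim
  · exact (hsolv 5 7 1 1 (by norm_num) (by norm_num) (hn.trans (by norm_num))).elim
  · exact (hsolv 2 3 2 2 (by norm_num) (by norm_num) (hn.trans (by norm_num))).elim
  · exact (hsolv 37 2 1 0 (by norm_num) (by norm_num) (hn.trans (by norm_num))).elim
  · exact (hsolv 2 19 1 1 (by norm_num) (by norm_num) (hn.trans (by norm_num))).elim
  · exact (hsolv 3 13 1 1 (by norm_num) (by norm_num) (hn.trans (by norm_num))).elim
  · exact (hsolv 2 5 3 1 (by norm_num) (by norm_num) (hn.trans (by norm_num))).elim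
  · exact (hsolv 41 2 1 0 (by norm_num) (by norm_num) (hn.trans (by norm_num))).elim
  · exact (h2m 21 (by decide) (by norm_num) (hn.trans (by norm_num))).elim
  · exact (hsolv 43 2 1 0 (by norm_num) (by norm_num) (hn.trans (by norm_num))).elim
  · exact (hsolv 2 11 2 1 (by norm_num) (by norm_num) (hn.trans (by norm_num))).elim
  · exact (hsolv 3 5 2 1 (by norm_num) (by norm_num) (hn.trans (by norm_num))).elim
  · exact (hsolv 2 23 1 1 (by norm_num) (by norm_num) (hn.trans (by norm_num))).elim
  · exact (hsolv 47 2 1 0 (by norm_num) (by norm_num) (hn.trans (by norm_num))).elim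
  · exact (hsolv 2 3 4 1 (by norm_num) (by norm_num) (hn.trans (by norm_num))).elim
  · exact (hsolv 7 2 2 0 (by norm_num) (by norm_num) (hn.trans (by norm_num))).elim
  · exact (hsolv 2 5 1 2 (by norm_num) (by norm_num) (hn.trans (by norm_num))).elim
  · exact (hsolv 3 17 1 1 (by norm_num) (by norm_num) (hn.trans (by norm_num))).elim
  · exact (hsolv 2 13 2 1 (by norm_num) (by norm_num) (hn.trans (by norm_num))).elim
  · exact (hsolv 53 2 1 0 (by norm_num) (by norm_num) (hn.trans (by norm_num))).elim
  · exact (hsolv 2 3 1 3 (by norm_num) (by norm_num) (hn.trans (by norm_num))).elim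
  · exact (hsolv 5 11 1 1 (by norm_num) (by norm_num) (hn.trans (by norm_num))).elim
  · exact (hsolv 2 7 3 1 (by norm_num) (by norm_num) (hn.trans (by norm_num))).elim
  · exact (hsolv 3 19 1 1 (by norm_num) (by norm_num) (hn.trans (by norm_num))).elim
  · exact (hsolv 2 29 1 1 (by norm_num) (by norm_num) (hn.trans (by norm_num))).elim
  · exact (hsolv 59 2 1 0 (by norm_num) (by norm_num) (hn.trans (by norm_num))).elim
  · rfl
  · exact (hsolv 61 2 1 0 (by norm_num) (by norm_num) (hn.trans (by norm_num))).elim
  · exact (hsolv 2 31 1 1 (by norm_num) (by norm_num) (hn.trans (by norm_num))).elim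
  · exact (hsolv 3 7 2 1 (by norm_num) (by norm_num) (hn.trans (by norm_num))).elim
  · exact (hsolv 2 2 6 0 (by norm_num) (by norm_num) (hn.trans (by norm_num))).elim
  · exact (hsolv 5 13 1 1 (by norm_num) (by norm_num) (hn.trans (by norm_num))).elim
  · exact (h2m 33 (by decide) (by norm_num) (hn.trans (by norm_num))).elim
  · exact (hsolv 67 2 1 0 (by norm_num) (by norm_num) (hn.trans (by norm_num))).elim
  · exact (hsolv 2 17 2 1 (by norm_num) (by norm_num) (hn.trans (by norm_num))).elim
  · exact (hsolv 3 23 1 1 (by norm_num) (by norm_num) (hn.trans (by norm_num))).elim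
  · exact (h2m 35 (by decide) (by norm_num) (hn.trans (by norm_num))).elim
  · exact (hsolv 71 2 1 0 (by norm_num) (by norm_num) (hn.trans (by norm_num))).elim
  · exact (hsolv 2 3 3 2 (by norm_num) (by norm_num) (hn.trans (by norm_num))).elim
  · exact (hsolv 73 2 1 0 (by norm_num) (by norm_num) (hn.trans (by norm_num))).elim
  · exact (hsolv 2 37 1 1 (by norm_num) (by norm_num) (hn.trans (by norm_num))).elim
  · exact (hsolv 3 5 1 2 (by norm_num) (by norm_num) (hn.trans (by norm_num))).elim
  · exact (hsolv 2 19 2 1 (by norm_num) (by norm_num) (hn.trans (by norm_num))).elim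
  · exact (hsolv 7 11 1 1 (by norm_num) (by norm_num) (hn.trans (by norm_num))).elim
  · exact (h2m 39 (by decide) (by norm_num) (hn.trans (by norm_num))).elim
  · exact (hsolv 79 2 1 0 (by norm_num) (by norm_num) (hn.trans (by norm_num))).elim
  · exact (hsolv 2 5 4 1 (by norm_num) (by norm_num) (hn.trans (by norm_num))).elim
  · exact (hsolv 3 2 4 0 (by norm_num) (by norm_num) (hn.trans (by norm_num))).elim
  · exact (hsolv 2 41 1 1 (by norm_num) (by norm_num) (hn.trans (by norm_num))).elim
  · exact (hsolv 83 2 1 0 (by norm_num) (by norm_num) (hn.trans (by norm_num))).elim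
  · exact (h84 hn).elim
  · exact (hsolv 5 17 1 1 (by norm_num) (by norm_num) (hn.trans (by norm_num))).elim
  · exact (hsolv 2 43 1 1 (by norm_num) (by norm_num) (hn.trans (by norm_num))).elim
  · exact (hsolv 3 29 1 1 (by norm_num) (by norm_num) (hn.trans (by norm_num))).elim
  · exact (hsolv 2 11 3 1 (by norm_num) (by norm_num) (hn.trans (by norm_num))).elim
  · exact (hsolv 89 2 1 0 (by norm_num) (by norm_num) (hn.trans (by norm_num))).elim
  · exact (h2m 45 (by decide) (by norm_num) (hn.trans (by norm_num))).elim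
  · exact (hsolv 7 13 1 1 (by norm_num) (by norm_num) (hn.trans (by norm_num))).elim
  · exact (hsolv 2 23 2 1 (by norm_num) (by norm_num) (hn.trans (by norm_num))).elim
  · exact (hsolv 3 31 1 1 (by norm_num) (by norm_num) (hn.trans (by norm_num))).elim
  · exact (hsolv 2 47 1 1 (by norm_num) (by norm_num) (hn.trans (by norm_num))).elim
  · exact (hsolv 5 19 1 1 (by norm_num) (by norm_num) (hn.trans (by norm_num))).elim
  · exact (hsolv 2 3 5 1 (by norm_num) (by norm_num) (hn.trans (by norm_num))).elim
  · exact (hsolv 97 2 1 0 (by norm_num) (by norm_num) (hn.trans (by norm_num))).elim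
  · exact (hsolv 2 7 1 2 (by norm_num) (by norm_num) (hn.trans (by norm_num))).elim
  · exact (hsolv 3 11 2 1 (by norm_num) (by norm_num) (hn.trans (by norm_num))).elim
  · exact (hsolv 2 5 2 2 (by norm_num) (by norm_num) (hn.trans (by norm_num))).elim

end Cfsg.Agent.S0493
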