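import Cfsg.Statements.S0502
import Cfsg.Agent.Helper3.Klein4
import Cfsg.Agent.Helper5.Basic

set_option autoImplicit false
open Cfsg

namespace Cfsg.Agent.S0502

universe u

/-- adjacency of four-subgroups. -/
def adj4 {P : Type u} [Group P] (A B : Subgroup P) : Prop :=
  IsKleinFour A ∧ IsKleinFour B ∧ ∀ a ∈ A, ∀ b ∈ B, a * b = b * a

theorem adj4_symm {P : Type u} [Group P] {A B : Subgroup P} (h : adj4 A B) : adj4 B A :=
  ⟨h.2.1, h.1, fun a ha b hb => (h.2.2 b hb a ha).symm⟩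

theorem rel4_symm {P : Type u} [Group P] {A B : Subgroup P}
    (h : Relation.ReflTransGen adj4 A B) : Relation.ReflTransGen adj4 B A := by
  induction h with
  | refl => exact Relation.ReflTransGen.refl
  | tail _ hab ih => exact Relation.ReflTransGen.head (adj4_symm hab) ih

theorem cent_card {P : Type u} [Group P] [Finite P] (hP : IsPGroup 2 P) (E : Subgroup P)
    [E.Normal] (hEe : Cfsg.IsElementaryAbelian 2 E) (hE8 : 8 ≤ Nat.card E) (t : P)
    (ht : t ^ 2 = 1) : 4 ≤ Nat.card ↥(E ⊓ Subgroup.centralizer ({t} : Set P)) := by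
  haveI : Fact (Nat.Prime 2) := ⟨Nat.prime_two⟩
  have hb := S1785.fix_bound E (Helper3.elemAb_comm' hEe) hEe.2 t ht
    (fun w hw => ‹E.Normal›.conj_mem w hw t)
  obtain ⟨k, hk⟩ := IsPGroup.iff_card.1 (hP.to_subgroup (E ⊓ Subgroup.centralizer ({t} : Set P)))
  rw [hk] at hb ⊢
  rcases k with _ | _ | k
  · norm_num at hb
    omega
  · norm_num at hb
    omega
  · have h1 : 2 ^ (k + 1 + 1) = 4 * 2 ^ k := by ring
    have h2 : 1 ≤ 2 ^ k := Nat.one_le_two_pow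
    omega

theorem reach4 {P : Type u} [Group P] [Finite P] (hP : IsPGroup 2 P) (E : Subgroup P)
    [E.Normal] (hEe : Cfsg.IsElementaryAbelian 2 E) (hE8 : 8 ≤ Nat.card E) (U : Subgroup P)
    (hU : IsKleinFour ↥U) :
    ∃ F : Subgroup P, F ≤ E ∧ IsKleinFour ↥F ∧ Relation.ReflTransGen adj4 U F := by
  haveI : Fact (Nat.Prime 2) := ⟨Nat.prime_two⟩
  obtain ⟨hUe, hU4⟩ := Helper3.klein_elemAb hU
  have hUc := Helper3.elemAb_comm' hUe
  have hEc := Helper3.elemAb_comm' hEe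
  obtain ⟨a₀, ha₀U, ha₀1, -⟩ := Helper3.exists_ne_one_ne U (by omega) 1
  obtain ⟨b₀, hb₀U, hb₀1, hb₀a⟩ := Helper3.exists_ne_one_ne U (by omega) a₀
  have hgen := Helper3.four_of_pair (hUe.2 a₀ ha₀U) ha₀1 (hUe.2 b₀ hb₀U) hb₀1 hb₀a
    (hUc b₀ hb₀U a₀ ha₀U)
  have hUeq : Subgroup.zpowers a₀ ⊔ Subgroup.zpowers b₀ = U :=
    Subgroup.eq_of_le_of_card_ge
      (sup_le (Subgroup.zpowers_le.2 ha₀U) (Subgroup.zpowers_le.2 hb₀U)) (by rw [hgen.2, hU4])
  have hW4 := cent_card hP E hEe hE8 a₀ (hUe.2 a₀ ha₀U)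
  have hnorm : ∀ w ∈ E ⊓ Subgroup.centralizer ({a₀} : Set P),
      b₀ * w * b₀⁻¹ ∈ E ⊓ Subgroup.centralizer ({a₀} : Set P) := by
    intro w hw
    refine ⟨‹E.Normal›.conj_mem w hw.1 b₀, (Helper5.mem_centralizer_singleton_iff a₀ _).2 ?_⟩
    have h1 : w * a₀ = a₀ * w := (Helper5.mem_centralizer_singleton_iff a₀ w).1 hw.2
    have h2 : b₀ * a₀ = a₀ * b₀ := hUc b₀ hb₀U a₀ ha₀U
    have h3 : b₀⁻¹ * a₀ = a₀ * b₀⁻¹ := by
      rw [inv_mul_eq_iff_eq_mul, ← mul_assoc, h2, mul_inv_cancel_right]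
    calc b₀ * w * b₀⁻¹ * a₀ = b₀ * w * (b₀⁻¹ * a₀) := by group
      _ = b₀ * w * (a₀ * b₀⁻¹) := by rw [h3]
      _ = b₀ * (w * a₀) * b₀⁻¹ := by group
      _ = b₀ * (a₀ * w) * b₀⁻¹ := by rw [h1]
      _ = (b₀ * a₀) * w * b₀⁻¹ := by group
      _ = (a₀ * b₀) * w * b₀⁻¹ := by rw [h2]
      _ = a₀ * (b₀ * w * b₀⁻¹) := by group
  have hWfix := S1785.fix_bound (E ⊓ Subgroup.centralizer ({a₀} : Set P))
    (fun x hx y hy => hEc x hx.1 y hy.1) (fun x hx => hEe.2 x hx.1) b₀ (hUe.2 b₀ hb₀U) hnorm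
  have hc2 : 2 ≤ Nat.card ↥((E ⊓ Subgroup.centralizer ({a₀} : Set P)) ⊓
      Subgroup.centralizer ({b₀} : Set P)) := by
    generalize Nat.card ↥((E ⊓ Subgroup.centralizer ({a₀} : Set P)) ⊓
      Subgroup.centralizer ({b₀} : Set P)) = c at hWfix
    by_contra hlt
    have hc1 : c ≤ 1 := by omega
    have hc3 : c ^ 2 ≤ 1 := by
      calc c ^ 2 ≤ 1 ^ 2 := Nat.pow_le_pow_left hc1 2
        _ = 1 := by norm_num
    exact absurd (hW4.trans (hWfix.trans hc3)) (by norm_num)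
  obtain ⟨e, heW, he1⟩ := Helper3.exists_ne_one_of_card _ hc2
  have heE : e ∈ E := heW.1.1
  have hea : e * a₀ = a₀ * e := (Helper5.mem_centralizer_singleton_iff a₀ e).1 heW.1.2
  have heb : e * b₀ = b₀ * e := (Helper5.mem_centralizer_singleton_iff b₀ e).1 heW.2
  have heU : e ∈ Subgroup.centralizer (U : Set P) := by
    rw [← hUeq]
    exact Helper3.mem_centralizer_sup_zpowers hea.symm heb.symm
  obtain ⟨a, haU, ha1, hae⟩ := Helper3.exists_ne_one_ne U (by omega) e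
  have ha2 : a ^ 2 = 1 := hUe.2 a haU
  have he2 : e ^ 2 = 1 := hEe.2 e heE
  have hcae : a * e = e * a := Subgroup.mem_centralizer_iff.1 heU a haU
  have hU1 := Helper3.four_of_pair (e := a) (f := e) ha2 ha1 he2 he1 (Ne.symm hae) hcae.symm
  have hK1 : IsKleinFour ↥(Subgroup.zpowers a ⊔ Subgroup.zpowers e) :=
    Helper3.klein_of_elemAb hU1.1 hU1.2
  have hadj1 : adj4 U (Subgroup.zpowers a ⊔ Subgroup.zpowers e) :=
    ⟨hU, hK1, Helper3.sup_zpowers_le_centralizer U (Helper3.elemAb_le_centralizer hUe haU) heU⟩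
  have hW4' := cent_card hP E hEe hE8 a ha2
  obtain ⟨f, hfW, hf1, hfe⟩ := Helper3.exists_ne_one_ne
    (E ⊓ Subgroup.centralizer ({a} : Set P)) (by omega) e
  have hfE : f ∈ E := hfW.1
  have hfa : f * a = a * f := (Helper5.mem_centralizer_singleton_iff a f).1 hfW.2
  have hf2 : f ^ 2 = 1 := hEe.2 f hfE
  have hF := Helper3.four_of_pair (e := e) (f := f) he2 he1 hf2 hf1 hfe (hEc f hfE e heE)
  have hKF : IsKleinFour ↥(Subgroup.zpowers e ⊔ Subgroup.zpowers f) :=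
    Helper3.klein_of_elemAb hF.1 hF.2
  have hFE : Subgroup.zpowers e ⊔ Subgroup.zpowers f ≤ E :=
    sup_le (Subgroup.zpowers_le.2 heE) (Subgroup.zpowers_le.2 hfE)
  have hadj2 : adj4 (Subgroup.zpowers a ⊔ Subgroup.zpowers e)
      (Subgroup.zpowers e ⊔ Subgroup.zpowers f) :=
    ⟨hK1, hKF, Helper3.sup_zpowers_le_centralizer _
      (Helper3.mem_centralizer_sup_zpowers hcae rfl)
      (Helper3.mem_centralizer_sup_zpowers hfa.symm (hEc e heE f hfE))⟩
  exact ⟨_, hFE, hKF, Relation.ReflTransGen.head hadj1 (Relation.ReflTransGen.single hadj2)⟩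

/-- If a finite 2-group has a normal elementary abelian subgroup of order at least 8, then any two of its Klein
four-subgroups are joined by a chain of Klein four-subgroups with consecutive members commuting elementwise. -/
theorem result {P : Type*} [Group P] [Finite P] (hP : IsPGroup 2 P)
    (E : Subgroup P) [E.Normal] (hE : IsMulCommutative E) (hE2 : ∀ e ∈ E, e ^ 2 = 1) (hE8 : 8 ≤ Nat.card E) :
    Cfsg.IsFourConnected P := by
  have hEe : Cfsg.IsElementaryAbelian 2 E := ⟨hE, hE2⟩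
  intro U V hU hV
  obtain ⟨F₁, hF₁E, hF₁, h₁⟩ := reach4 hP E hEe hE8 U hU
  obtain ⟨F₂, hF₂E, hF₂, h₂⟩ := reach4 hP E hEe hE8 V hV
  have hadj : adj4 F₁ F₂ :=
    ⟨hF₁, hF₂, fun a ha b hb => Helper3.elemAb_comm' hEe a (hF₁E ha) b (hF₂E hb)⟩
  exact (h₁.tail hadj).trans (rel4_symm h₂)

end Cfsg.Agent.S0502
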