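import Cfsg.Statements.S0514
import Mathlib
import Cfsg.Agent.Helper6.DihSylow
-- import your own Cfsg.Agent.* helpers here

set_option autoImplicit false
open Cfsg

namespace Cfsg.Agent.S0514

/-- In a finite group whose Sylow 2-subgroups are dihedral of order at least 4, the centralizer of any involution has a
normal subgroup of odd order whose index in the centralizer is a power of 2. -/
theorem result {X : Type*} [Group X] [Finite X]
    (S : Sylow 2 X) (n : ℕ) (hn : 2 ≤ n) (hS : Nonempty ((S : Subgroup X) ≃* DihedralGroup n)) (t : X)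
    (ht : orderOf t = 2) :
    ∃ N : Subgroup (Subgroup.centralizer ({t} : Set X)), N.Normal ∧ Odd (Nat.card N) ∧ ∃ k : ℕ, N.index = 2 ^ k := by
  haveI : Fact (Nat.Prime 2) := ⟨Nat.prime_two⟩
  obtain ⟨e⟩ := hS
  have ht1 : t ≠ 1 := by
    rintro rfl
    rw [orderOf_one] at ht
    omega
  have hF : Cfsg.Agent.Helper6.FrobCond 2 (Subgroup.centralizer ({t} : Set X)) := by
    intro Q hQ g hg hodd
    have hQ' : IsPGroup 2 (Q.map (Subgroup.centralizer ({t} : Set X)).subtype) := hQ.map _
    have hT : IsPGroup 2 (Subgroup.zpowers t) :=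
      Cfsg.Agent.Lead.isPGroup_zpowers_of_orderOf_prime ht
    have hcomm : ∀ x ∈ Subgroup.centralizer ({t} : Set X), x * t = t * x := by
      intro x hx
      exact (Subgroup.mem_centralizer_iff.mp hx t (Set.mem_singleton t)).symm
    have hnormT : ∀ x ∈ Subgroup.centralizer ({t} : Set X),
        x ∈ Subgroup.normalizer ((Subgroup.zpowers t : Subgroup X) : Set X) := by
      intro x hx
      apply Subgroup.centralizer_le_normalizer
      rw [Subgroup.mem_centralizer_iff]
      intro y hy
      obtain ⟨i, rfl⟩ := Subgroup.mem_zpowers_iff.mp hy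
      have hc : Commute t x := (hcomm x hx).symm
      exact (hc.zpow_left i).eq
    have hQ2 : IsPGroup 2 (Q.map (Subgroup.centralizer ({t} : Set X)).subtype ⊔
        Subgroup.zpowers t : Subgroup X) := by
      apply IsPGroup.to_sup_of_normal_right' hQ' hT
      rintro _ ⟨q, hq, rfl⟩
      exact hnormT _ q.2
    have hgN : (g : X) ∈ Subgroup.normalizer
        ((Q.map (Subgroup.centralizer ({t} : Set X)).subtype ⊔
          Subgroup.zpowers t : Subgroup X) : Set X) := by
      apply Cfsg.Agent.Helper5.mem_normalizer_of_conj_le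
      rw [Subgroup.map_sup]
      apply sup_le_sup
      · rintro _ ⟨_, ⟨q, hq, rfl⟩, rfl⟩
        have h1 := (Subgroup.mem_normalizer_iff.mp hg q).mp hq
        exact Subgroup.mem_map.mpr ⟨g * q * g⁻¹, h1, by simp [MulAut.conj_apply]⟩
      · rintro _ ⟨y, hy, rfl⟩
        have h1 := (Subgroup.mem_normalizer_iff.mp (hnormT _ g.2) y).mp hy
        exact h1
    have hgt : (g : X) * t * (g : X)⁻¹ = t := by
      rw [hcomm _ g.2]; group
    have htQ2 : t ∈ (Q.map (Subgroup.centralizer ({t} : Set X)).subtype ⊔
        Subgroup.zpowers t : Subgroup X) := Subgroup.mem_sup_right (Subgroup.mem_zpowers t)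
    have hodd' : (orderOf (g : X)).Coprime 2 := by
      rw [Subgroup.orderOf_coe]; exact hodd
    have hcent : (g : X) ∈ Subgroup.centralizer
        ((Q.map (Subgroup.centralizer ({t} : Set X)).subtype ⊔
          Subgroup.zpowers t : Subgroup X) : Set X) := by
      rcases Cfsg.Agent.Helper6.dihedral_sylow_odd_normalizer S n e _ hQ2 (g : X) hgN hodd'
        with h | hK
      · exact h
      · exact Cfsg.Agent.Helper6.kleinFour_centralize _ hK (g : X) hgN hodd' t htQ2 ht1 hgt
    rw [Subgroup.mem_centralizer_iff] at hcent ⊢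
    intro q hq
    apply Subtype.ext
    have h0 := hcent (q : X) (Subgroup.mem_sup_left (Subgroup.mem_map.mpr ⟨q, hq, rfl⟩))
    simpa using h0
  obtain ⟨P, N, hN, hc⟩ := Cfsg.Agent.Helper6.hasNormalPComplement_of_frobCond hF
  refine ⟨N, hN, ?_, ?_⟩
  · have hidx := hc.index_eq_card
    rw [← hidx]
    have h0 := P.not_dvd_index
    exact Nat.not_even_iff_odd.mp (fun h => h0 (even_iff_two_dvd.mp h))
  · obtain ⟨k, hk⟩ := IsPGroup.iff_card.mp P.isPGroup'
    exact ⟨k, by rw [hc.symm.index_eq_card]; exact hk⟩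

end Cfsg.Agent.S0514
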