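import Cfsg.Statements.S0555
import Mathlib

set_option autoImplicit false
open Cfsg
open scoped commutatorElement

namespace Cfsg.Agent.S0555

theorem mulAut_comm_of_cyclic {N : Type*} [Group N] [IsCyclic N] (σ τ : MulAut N) :
    σ * τ = τ * σ := by
  obtain ⟨a, ha⟩ := MonoidHom.map_cyclic σ.toMonoidHom
  obtain ⟨b, hb⟩ := MonoidHom.map_cyclic τ.toMonoidHom
  have ha' : ∀ x, σ x = x ^ a := ha
  have hb' : ∀ x, τ x = x ^ b := hb
  ext x
  rw [MulAut.mul_apply, MulAut.mul_apply, ha', hb', hb', ha', ← zpow_mul, ← zpow_mul, mul_comm]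

theorem commutator_le_centralizer_of_cyclic {Q : Type*} [Group Q] (N : Subgroup Q) [N.Normal]
    [IsCyclic N] : commutator Q ≤ Subgroup.centralizer (N : Set Q) := by
  rw [commutator_def, Subgroup.commutator_le]
  intro g _ h _
  rw [Subgroup.mem_centralizer_iff]
  intro n hn
  have key : MulAut.conjNormal (H := N) ⁅g, h⁆ = 1 := by
    have e : ⁅g, h⁆ = (g * h) * (h * g)⁻¹ := by rw [commutatorElement_def]; group
    rw [e, map_mul, map_inv, map_mul, map_mul, mulAut_comm_of_cyclic (MulAut.conjNormal g),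
      mul_inv_cancel]
  have e2 := congrArg (fun σ : MulAut N => ((σ ⟨n, hn⟩ : N) : Q)) key
  simp only [MulAut.conjNormal_apply, MulAut.one_apply] at e2
  exact (mul_inv_eq_iff_eq_mul.mp e2).symm

theorem aux {Q : Type*} [Group Q] (E0 E1 : Subgroup Q) [E1.Normal] (hE : E1 = ⁅E0, E0⁆)
    (h0 : E0 ≤ commutator Q) (hcyc : ∃ t ∈ E1, ∀ x ∈ E1, ∃ n : ℤ, x = t ^ n)
    (hc : ∃ s ∈ E0, ∀ x ∈ E0, ∃ n : ℤ, ∃ y ∈ E1, x = s ^ n * y) : E1 = ⊥ := by
  obtain ⟨t, ht, htg⟩ := hcyc
  haveI : IsCyclic E1 := ⟨⟨⟨t, ht⟩, fun x => by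
    obtain ⟨n, hn⟩ := htg x x.2
    exact ⟨n, Subtype.ext (by simpa using hn.symm)⟩⟩⟩
  have hcen : E0 ≤ Subgroup.centralizer (E1 : Set Q) :=
    h0.trans (commutator_le_centralizer_of_cyclic E1)
  have hle : E1 ≤ E0 := by
    rw [hE, Subgroup.commutator_le]
    intro a ha b hb
    exact mul_mem (mul_mem (mul_mem ha hb) (inv_mem ha)) (inv_mem hb)
  obtain ⟨s, hs, hsg⟩ := hc
  rw [hE, Subgroup.commutator_eq_bot_iff_le_centralizer]
  intro x hx
  rw [Subgroup.mem_centralizer_iff]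
  intro x' hx'
  obtain ⟨n, y, hy, rfl⟩ := hsg x hx
  obtain ⟨m, y', hy', rfl⟩ := hsg x' hx'
  have c1 : y * s ^ m = s ^ m * y := Subgroup.mem_centralizer_iff.mp (hcen (zpow_mem hs m)) y hy
  have c2 : y' * s ^ n = s ^ n * y' :=
    Subgroup.mem_centralizer_iff.mp (hcen (zpow_mem hs n)) y' hy'
  have c3 : y * y' = y' * y := Subgroup.mem_centralizer_iff.mp (hcen (hle hy')) y hy
  calc s ^ m * y' * (s ^ n * y) = s ^ m * (y' * s ^ n) * y := by simp only [mul_assoc]
    _ = s ^ m * (s ^ n * y') * y := by rw [c2]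
    _ = (s ^ m * s ^ n) * (y' * y) := by simp only [mul_assoc]
    _ = (s ^ n * s ^ m) * (y * y') := by rw [← zpow_add, add_comm, zpow_add, c3]
    _ = s ^ n * (s ^ m * y) * y' := by simp only [mul_assoc]
    _ = s ^ n * (y * s ^ m) * y' := by rw [c1]
    _ = s ^ n * y * (s ^ m * y') := by simp only [mul_assoc]

/-- Let i ≥ 1. If in the derived series of a group the quotient of the i-th term by the (i+1)-st and the quotient of the (i+1)-st by the (i+2)-nd are both cyclic, then the (i+1)-st and (i+2)-nd terms coincide. -/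
theorem result {G : Type*} [Group G] (i : ℕ) (hi : 1 ≤ i) (h₁ : IsCyclic (↥(derivedSeries G i) ⧸ (derivedSeries G (i + 1)).subgroupOf (derivedSeries G i))) (h₂ : IsCyclic (↥(derivedSeries G (i + 1)) ⧸ (derivedSeries G (i + 2)).subgroupOf (derivedSeries G (i + 1)))) : derivedSeries G (i + 1) = derivedSeries G (i + 2) := by
  apply le_antisymm _ (derivedSeries_antitone G (by omega))
  have hπ : Function.Surjective (QuotientGroup.mk' (derivedSeries G (i + 2))) :=
    QuotientGroup.mk'_surjective _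
  haveI : ((derivedSeries G (i + 1)).map (QuotientGroup.mk' (derivedSeries G (i + 2)))).Normal :=
    Subgroup.Normal.map inferInstance _ hπ
  have key := aux ((derivedSeries G i).map (QuotientGroup.mk' (derivedSeries G (i + 2))))
    ((derivedSeries G (i + 1)).map (QuotientGroup.mk' (derivedSeries G (i + 2)))) ?_ ?_ ?_ ?_
  · intro x hx
    have hx' : QuotientGroup.mk' (derivedSeries G (i + 2)) x ∈
        (derivedSeries G (i + 1)).map (QuotientGroup.mk' (derivedSeries G (i + 2))) :=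
      Subgroup.mem_map_of_mem _ hx
    rw [key, Subgroup.mem_bot] at hx'
    exact (QuotientGroup.eq_one_iff x).mp hx'
  · have e : derivedSeries G (i + 1) = ⁅derivedSeries G i, derivedSeries G i⁆ := derivedSeries_succ G i
    rw [← Subgroup.map_commutator, ← e]
  · rw [map_derivedSeries_eq hπ, ← derivedSeries_one]
    exact derivedSeries_antitone _ hi
  · obtain ⟨q, hq⟩ := h₂.exists_generator
    obtain ⟨t0, rfl⟩ := QuotientGroup.mk_surjective q
    refine ⟨QuotientGroup.mk' _ (t0 : G), Subgroup.mem_map_of_mem _ t0.2, ?_⟩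
    rintro _ ⟨x0, hx0, rfl⟩
    obtain ⟨n, hn⟩ := Subgroup.mem_zpowers_iff.mp (hq (QuotientGroup.mk ⟨x0, hx0⟩))
    refine ⟨n, ?_⟩
    have h3 : ((t0 ^ n)⁻¹ * ⟨x0, hx0⟩ : derivedSeries G (i + 1)) ∈
        (derivedSeries G (i + 2)).subgroupOf (derivedSeries G (i + 1)) := by
      rw [← QuotientGroup.eq]
      exact hn
    rw [Subgroup.mem_subgroupOf] at h3
    rw [← map_zpow]
    symm
    exact QuotientGroup.eq.mpr (by simpa only [Subgroup.coe_mul, InvMemClass.coe_inv, SubgroupClass.coe_zpow] using h3)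
  · obtain ⟨q, hq⟩ := h₁.exists_generator
    obtain ⟨s0, rfl⟩ := QuotientGroup.mk_surjective q
    refine ⟨QuotientGroup.mk' _ (s0 : G), Subgroup.mem_map_of_mem _ s0.2, ?_⟩
    rintro _ ⟨x0, hx0, rfl⟩
    obtain ⟨n, hn⟩ := Subgroup.mem_zpowers_iff.mp (hq (QuotientGroup.mk ⟨x0, hx0⟩))
    have h3 : ((s0 ^ n)⁻¹ * ⟨x0, hx0⟩ : derivedSeries G i) ∈
        (derivedSeries G (i + 1)).subgroupOf (derivedSeries G i) := by
      rw [← QuotientGroup.eq]
      exact hn
    rw [Subgroup.mem_subgroupOf] at h3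
    refine ⟨n, _, Subgroup.mem_map_of_mem _ h3, ?_⟩
    rw [← map_zpow, ← map_mul]
    congr 1
    simp only [Subgroup.coe_mul, InvMemClass.coe_inv, SubgroupClass.coe_zpow]
    group


end Cfsg.Agent.S0555
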