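import Cfsg.Statements.S0526
import Mathlib
import Cfsg.Agent.Helper1.Supersolvable2
import Cfsg.Agent.S0555

set_option autoImplicit false
open Cfsg

namespace Cfsg.Agent.S0526

universe u

open Cfsg.Agent.Helper1 in
theorem aux : ∀ (n : ℕ) (G : Type u) [Group G] [Finite G], Nat.card G = n →
    Cfsg.IsSupersolvable G → Group.IsNilpotent (commutator G) := by
  intro n
  induction n using Nat.strong_induction_on with
  | _ n ih =>
  intro G _ _ hn hG
  rcases subsingleton_or_nontrivial G with hs | hnt
  · infer_instance
  obtain ⟨N, hNn, hNp⟩ := exists_normal_prime_card hG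
  haveI := hNn
  haveI : Fact (Nat.card N).Prime := ⟨hNp⟩
  haveI : IsCyclic N := isCyclic_of_prime_card (p := Nat.card N) rfl
  have hq : Nat.card (G ⧸ N) < n := by
    rw [← hn]
    exact card_quotient_lt N hNp.one_lt
  haveI hQ : Group.IsNilpotent (commutator (G ⧸ N)) := ih _ hq (G ⧸ N) rfl
    (isSupersolvable_of_surjective _ (QuotientGroup.mk'_surjective N) hG)
  have hmap : (commutator G).map (QuotientGroup.mk' N) ≤ commutator (G ⧸ N) := by
    rw [commutator_def, Subgroup.map_commutator, commutator_def]
    exact Subgroup.commutator_mono le_top le_top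
  let f : commutator G →* commutator (G ⧸ N) :=
    ((QuotientGroup.mk' N).comp (commutator G).subtype).codRestrict (commutator (G ⧸ N))
      (fun x => hmap (Subgroup.mem_map_of_mem (QuotientGroup.mk' N) x.2))
  apply Subgroup.isNilpotent_of_ker_le_center f
  intro x hx
  rw [MonoidHom.mem_ker] at hx
  have hxN : (x : G) ∈ N := by
    have h1 := congrArg Subtype.val hx
    exact (QuotientGroup.eq_one_iff (x : G)).mp h1
  rw [Subgroup.mem_center_iff]
  intro y
  apply Subtype.ext
  have hy := Cfsg.Agent.S0555.commutator_le_centralizer_of_cyclic N y.2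
  exact (Subgroup.mem_centralizer_iff.mp hy x hxN).symm

/-- In a finite supersolvable group the commutator subgroup is nilpotent. -/
theorem result {G : Type*} [Group G] [Finite G] (hG : Cfsg.IsSupersolvable G) : Group.IsNilpotent (commutator G) := by
  exact aux _ G rfl hG


end Cfsg.Agent.S0526
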