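import Cfsg.Statements.S0530
import Mathlib
import Cfsg.Agent.Helper1.Supersolvable2

set_option autoImplicit false
open Cfsg

namespace Cfsg.Agent.S0530

universe u

open Cfsg.Agent.Helper1

theorem pgroup_ss (p : ℕ) [hp : Fact p.Prime] : ∀ (n : ℕ) (G : Type u) [Group G] [Finite G],
    Nat.card G = n → IsPGroup p G → Cfsg.IsSupersolvable G := by
  intro n
  induction n using Nat.strong_induction_on with
  | _ n ih =>
  intro G _ _ hn hG
  rcases subsingleton_or_nontrivial G with hs | hnt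
  · exact isSupersolvable_of_subsingleton
  haveI := hG.center_nontrivial
  obtain ⟨⟨z, hz⟩, hz1⟩ := exists_ne (1 : Subgroup.center G)
  have hz1' : z ≠ 1 := fun h => hz1 (Subtype.ext h)
  haveI hNn : (Subgroup.zpowers z).Normal := by
    constructor
    intro x hx y
    have hxc : x ∈ Subgroup.center G := (Subgroup.zpowers_le.mpr hz) hx
    have e : y * x * y⁻¹ = x := by
      rw [Subgroup.mem_center_iff] at hxc
      rw [hxc y]
      group
    rw [e]
    exact hx
  have hcard : 1 < Nat.card (Subgroup.zpowers z) := by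
    rw [Nat.card_zpowers]
    have h0 := orderOf_pos z
    have h1 : orderOf z ≠ 1 := by rwa [Ne, orderOf_eq_one_iff]
    omega
  have hq : Nat.card (G ⧸ Subgroup.zpowers z) < n := by
    rw [← hn]
    exact card_quotient_lt _ hcard
  exact isSupersolvable_of_cyclic_normal (Subgroup.zpowers z) (ih _ hq _ rfl (hG.to_quotient _))

theorem exists_normal_card_p {G : Type u} [Group G] [Finite G] (p : ℕ) [hp : Fact p.Prime]
    (n : ℕ) (hG : Nat.card G = 2 * p ^ (n + 1)) :
    ∃ N : Subgroup G, N.Normal ∧ Nat.card N = p := by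
  obtain ⟨P, hPcard⟩ := Sylow.exists_subgroup_card_pow_prime p (G := G) (n := n + 1)
    (by rw [hG]; exact dvd_mul_left _ _)
  have hPidx : P.index = 2 := by
    have h1 := Subgroup.card_mul_index P
    rw [hPcard, hG] at h1
    have hpos : 0 < p ^ (n + 1) := pow_pos hp.out.pos _
    apply Nat.eq_of_mul_eq_mul_left hpos
    rw [h1, mul_comm]
  haveI hPn : P.Normal := Subgroup.normal_of_index_eq_two hPidx
  have hPp : IsPGroup p P := IsPGroup.of_card hPcard
  haveI : Nontrivial P := by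
    rw [← Finite.one_lt_card_iff_nontrivial, hPcard]
    exact Nat.one_lt_pow (by omega) hp.out.one_lt
  haveI := hPp.center_nontrivial
  obtain ⟨⟨⟨z, hzP⟩, hzc⟩, hz1⟩ := exists_ne (1 : Subgroup.center P)
  have hz1' : z ≠ 1 := fun h => hz1 (Subtype.ext (Subtype.ext h))
  obtain ⟨Z, hZ⟩ : ∃ Z : Subgroup G, Z = P ⊓ Subgroup.centralizer (P : Set G) := ⟨_, rfl⟩
  have hZn : Z.Normal := by
    rw [hZ]
    infer_instance
  have hzZ : z ∈ Z := by
    rw [hZ]
    refine Subgroup.mem_inf.mpr ⟨hzP, ?_⟩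
    rw [Subgroup.mem_centralizer_iff]
    intro y hy
    have h1 := Subgroup.mem_center_iff.mp hzc ⟨y, hy⟩
    exact congrArg Subtype.val h1
  have hpo : p ∣ orderOf z := by
    obtain ⟨k, hk⟩ := hPp ⟨z, hzP⟩
    have hk' : z ^ p ^ k = 1 := by simpa using congrArg Subtype.val hk
    obtain ⟨j, hj, hjo⟩ := (Nat.dvd_prime_pow hp.out).mp (orderOf_dvd_of_pow_eq_one hk')
    rcases Nat.eq_zero_or_pos j with rfl | hjpos
    · rw [pow_zero, orderOf_eq_one_iff] at hjo
      exact absurd hjo hz1'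
    · rw [hjo]
      exact dvd_pow_self p hjpos.ne'
  obtain ⟨v, hv⟩ : ∃ v : G, v = z ^ (orderOf z / p) := ⟨_, rfl⟩
  have hvo : orderOf v = p := by
    rw [hv]
    exact orderOf_pow_orderOf_div (orderOf_pos z).ne' hpo
  have hvZ : v ∈ Z := by
    rw [hv]
    exact pow_mem hzZ _
  obtain ⟨a, ha⟩ := Subgroup.index_eq_two_iff.mp hPidx
  have haP : a ∉ P := by
    have h1 := ha 1
    rw [one_mul] at h1
    rcases h1 with ⟨_, h2⟩ | ⟨_, h2⟩
    · exact absurd (one_mem P) h2
    · exact h2
  have haa : a * a ∈ P := by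
    rcases ha a with ⟨h1, _⟩ | ⟨h1, _⟩
    · exact h1
    · exact absurd h1 haP
  obtain ⟨b, hb⟩ : ∃ b : G, b = a⁻¹ := ⟨_, rfl⟩
  have hbb : b * b ∈ P := by
    have e : b * b = (a * a)⁻¹ := by rw [hb]; group
    rw [e]
    exact inv_mem haa
  have hout : ∀ g, g ∉ P → g * b⁻¹ ∈ P := by
    intro g hg
    rw [hb, inv_inv]
    rcases ha g with ⟨h1, _⟩ | ⟨h1, _⟩
    · exact h1
    · exact absurd h1 hg
  obtain ⟨c, hc⟩ : ∃ c : G, c = b * v * b⁻¹ := ⟨_, rfl⟩
  have hcZ : c ∈ Z := by
    rw [hc]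
    exact hZn.conj_mem v hvZ b
  have hcomm : ∀ x ∈ P, ∀ y ∈ Z, x * y = y * x := by
    intro x hx y hy
    rw [hZ] at hy
    exact Subgroup.mem_centralizer_iff.mp (Subgroup.mem_inf.mp hy).2 x hx
  have conj_in : ∀ g ∈ P, ∀ y ∈ Z, g * y * g⁻¹ = y := by
    intro g hg y hy
    rw [hcomm g hg y hy]
    group
  have conj_out_v : ∀ g, g ∉ P → g * v * g⁻¹ = c := by
    intro g hg
    have hx := hout g hg
    have e : g * v * g⁻¹ = (g * b⁻¹) * c * (g * b⁻¹)⁻¹ := by rw [hc]; group
    rw [e]
    exact conj_in _ hx c hcZ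
  have conj_out_c : ∀ g, g ∉ P → g * c * g⁻¹ = v := by
    intro g hg
    have hx := hout g hg
    have e1 : b * c * b⁻¹ = v := by
      have h2 := conj_in (b * b) hbb v hvZ
      calc b * c * b⁻¹ = b * b * v * (b * b)⁻¹ := by rw [hc]; group
        _ = v := h2
    have e : g * c * g⁻¹ = (g * b⁻¹) * (b * c * b⁻¹) * (g * b⁻¹)⁻¹ := by group
    rw [e, e1]
    exact conj_in _ hx v hvZ
  have hvP : v ∈ P := by
    rw [hZ] at hvZ
    exact (Subgroup.mem_inf.mp hvZ).1
  have hvc : v * c = c * v := hcomm v hvP c hcZ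
  by_cases hcase : c = v⁻¹
  · refine ⟨Subgroup.zpowers v, ?_, by rw [Nat.card_zpowers, hvo]⟩
    constructor
    intro x hx g
    obtain ⟨k, rfl⟩ := Subgroup.mem_zpowers_iff.mp hx
    rw [← conj_zpow]
    by_cases hg : g ∈ P
    · rw [conj_in g hg v hvZ]
      exact zpow_mem (Subgroup.mem_zpowers v) k
    · rw [conj_out_v g hg, hcase]
      exact zpow_mem (inv_mem (Subgroup.mem_zpowers v)) k
  · have hw1 : v * c ≠ 1 := fun h => hcase (eq_inv_of_mul_eq_one_right h)
    have hwp : (v * c) ^ p = 1 := by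
      have h1 : v ^ p = 1 := by
        rw [← hvo]
        exact pow_orderOf_eq_one v
      have h2 : c ^ p = 1 := by
        rw [hc, conj_pow, h1]
        group
      have hcm : Commute v c := hvc
      rw [hcm.mul_pow, h1, h2, one_mul]
    refine ⟨Subgroup.zpowers (v * c), ?_, ?_⟩
    · constructor
      intro x hx g
      obtain ⟨k, rfl⟩ := Subgroup.mem_zpowers_iff.mp hx
      rw [← conj_zpow]
      have e2 : g * (v * c) * g⁻¹ = v * c := by
        have e : g * (v * c) * g⁻¹ = (g * v * g⁻¹) * (g * c * g⁻¹) := by group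
        rw [e]
        by_cases hg : g ∈ P
        · rw [conj_in g hg v hvZ, conj_in g hg c hcZ]
        · rw [conj_out_v g hg, conj_out_c g hg, hvc]
      rw [e2]
      exact zpow_mem (Subgroup.mem_zpowers _) k
    · rw [Nat.card_zpowers]
      exact orderOf_eq_prime hwp hw1

theorem aux (p : ℕ) [hp : Fact p.Prime] : ∀ (n : ℕ) (G : Type u) [Group G] [Finite G],
    Nat.card G = 2 * p ^ n → Cfsg.IsSupersolvable G := by
  intro n
  induction n with
  | zero =>
    intro G _ _ hG
    haveI : Fact (Nat.Prime 2) := ⟨Nat.prime_two⟩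
    exact pgroup_ss 2 _ G rfl (IsPGroup.of_card (n := 1) (by rw [hG]; norm_num))
  | succ n ih =>
    intro G _ _ hG
    by_cases hp2 : p = 2
    · subst hp2
      exact pgroup_ss 2 _ G rfl (IsPGroup.of_card (n := n + 2) (by rw [hG]; ring))
    · obtain ⟨N, hNn, hNc⟩ := exists_normal_card_p p n hG
      haveI := hNn
      haveI : IsCyclic N := isCyclic_of_prime_card hNc
      apply isSupersolvable_of_cyclic_normal N
      apply ih
      have h1 := Subgroup.card_mul_index N
      rw [hNc, hG, Subgroup.index_eq_card] at h1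
      apply Nat.eq_of_mul_eq_mul_left hp.out.pos
      rw [h1]
      ring

/-- A finite group whose order is twice a prime power is supersolvable. -/
theorem result {G : Type*} [Group G] [Finite G] (p n : ℕ) (hp : p.Prime) (hG : Nat.card G = 2 * p ^ n) : Cfsg.IsSupersolvable G := by
  haveI : Fact p.Prime := ⟨hp⟩
  exact aux p n G hG


end Cfsg.Agent.S0530
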