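import Cfsg.Statements.S0531
import Mathlib
import Cfsg.Agent.Helper1.Supersolvable2

set_option autoImplicit false
open Cfsg

namespace Cfsg.Agent.S0531

universe u

open Cfsg.Agent.Helper1 in
theorem aux : ∀ (n : ℕ) (G : Type u) [Group G] [Finite G], Nat.card G = n →
    Cfsg.IsSupersolvable G → Cfsg.HasSubgroupOfEveryOrder G := by
  intro n
  induction n using Nat.strong_induction_on with
  | _ n ih =>
  intro G _ _ hn hG d hd
  rcases subsingleton_or_nontrivial G with hs | hnt
  · refine ⟨⊥, ?_⟩
    have h1 : Nat.card G = 1 := Nat.card_of_subsingleton 1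
    rw [h1] at hd
    rw [Subgroup.card_bot]
    exact (Nat.dvd_one.mp hd).symm
  obtain ⟨N, hNn, hNp⟩ := exists_normal_prime_card hG
  haveI := hNn
  have hq : Nat.card (G ⧸ N) < n := by
    rw [← hn]
    exact card_quotient_lt N hNp.one_lt
  have hQ := ih _ hq (G ⧸ N) rfl
    (isSupersolvable_of_surjective _ (QuotientGroup.mk'_surjective N) hG)
  have hcard : Nat.card G = Nat.card (G ⧸ N) * Nat.card N := by
    rw [← Subgroup.index_eq_card, mul_comm, Subgroup.card_mul_index]
  by_cases hpd : Nat.card N ∣ d
  · obtain ⟨d', rfl⟩ := hpd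
    have hd' : d' ∣ Nat.card (G ⧸ N) := by
      rw [hcard, mul_comm (Nat.card (G ⧸ N))] at hd
      exact Nat.dvd_of_mul_dvd_mul_left hNp.pos hd
    obtain ⟨K', hK'⟩ := hQ d' hd'
    refine ⟨K'.comap (QuotientGroup.mk' N), ?_⟩
    rw [card_comap_mk, hK', mul_comm]
  · have hcop : Nat.Coprime d (Nat.card N) :=
      Nat.Coprime.symm ((Nat.Prime.coprime_iff_not_dvd hNp).mpr hpd)
    have hd' : d ∣ Nat.card (G ⧸ N) := by
      rw [hcard] at hd
      exact hcop.dvd_of_dvd_mul_right hd
    obtain ⟨K', hK'⟩ := hQ d hd'
    by_cases hKtop : K'.comap (QuotientGroup.mk' N) = ⊤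
    · have hK'top : K' = ⊤ := by
        rw [← Subgroup.map_comap_eq_self_of_surjective (QuotientGroup.mk'_surjective N) K',
          hKtop, Subgroup.map_top_of_surjective _ (QuotientGroup.mk'_surjective N)]
      have hidx : N.index = d := by
        rw [Subgroup.index_eq_card, ← hK', hK'top, Subgroup.card_top]
      have hcop' : Nat.Coprime (Nat.card N) N.index := by
        rw [hidx]
        exact hcop.symm
      obtain ⟨H, hH⟩ := Subgroup.exists_right_complement'_of_coprime hcop'
      refine ⟨H, ?_⟩
      rw [← hidx]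
      exact hH.symm.index_eq_card.symm
    · have hKcard : Nat.card (K'.comap (QuotientGroup.mk' N)) = d * Nat.card N := by
        rw [card_comap_mk, hK']
      have hKlt : Nat.card (K'.comap (QuotientGroup.mk' N)) < n := by
        rw [← hn]
        by_contra hge
        push Not at hge
        exact hKtop (Subgroup.eq_top_of_card_eq _
          (le_antisymm (Subgroup.card_le_card_group _) hge))
      obtain ⟨L, hL⟩ := ih _ hKlt (K'.comap (QuotientGroup.mk' N)) rfl
        (isSupersolvable_subgroup hG _) d (by rw [hKcard]; exact dvd_mul_right d _)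
      refine ⟨L.map (K'.comap (QuotientGroup.mk' N)).subtype, ?_⟩
      rw [Subgroup.card_map_of_injective (Subgroup.subtype_injective _), hL]

/-- A finite supersolvable group has a subgroup of each order dividing its order. -/
theorem result {G : Type*} [Group G] [Finite G] (hG : Cfsg.IsSupersolvable G) : Cfsg.HasSubgroupOfEveryOrder G := by
  exact aux _ G rfl hG


end Cfsg.Agent.S0531
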