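import Cfsg.Statements.S0532
import Mathlib

set_option autoImplicit false
open Cfsg

namespace Cfsg.Agent.S0532

universe u

theorem hasSub_of_mulEquiv {A B : Type*} [Group A] [Group B] (e : A ≃* B)
    (h : Cfsg.HasSubgroupOfEveryOrder A) : Cfsg.HasSubgroupOfEveryOrder B := by
  intro d hd
  rw [← Nat.card_congr e.toEquiv] at hd
  obtain ⟨H, hH⟩ := h d hd
  refine ⟨H.map e.toMonoidHom, ?_⟩
  rw [Subgroup.card_map_of_injective (f := e.toMonoidHom) e.injective, hH]

theorem aux : ∀ (n : ℕ) (G : Type u) [Group G] [Finite G], Nat.card G = n →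
    (∀ H : Subgroup G, Cfsg.HasSubgroupOfEveryOrder H) → ∀ (p : ℕ) [Fact p.Prime],
    p ∣ Nat.card G → (∀ q : ℕ, q.Prime → q ∣ Nat.card G → q ≤ p) →
    ∃ P : Sylow p G, (P : Subgroup G).Normal := by
  intro n
  induction n using Nat.strong_induction_on with
  | _ n ih =>
  intro G _ _ hn h p hp hdvd hmax
  have hcard1 : Nat.card G ≠ 1 := by
    intro h1
    rw [h1] at hdvd
    exact hp.out.one_lt.ne' (Nat.dvd_one.mp hdvd)
  have hqprime : (Nat.card G).minFac.Prime := Nat.minFac_prime hcard1
  have hqdvd : (Nat.card G).minFac ∣ Nat.card G := Nat.minFac_dvd _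
  by_cases hqp : (Nat.card G).minFac = p
  · obtain ⟨P⟩ : Nonempty (Sylow p G) := inferInstance
    refine ⟨P, ?_⟩
    have hidx : (P : Subgroup G).index = 1 := by
      by_contra hne
      obtain ⟨r, hr, hrd⟩ := Nat.exists_prime_and_dvd hne
      have hrG : r ∣ Nat.card G := hrd.trans (Subgroup.index_dvd_card _)
      have h1 : r ≤ p := hmax r hr hrG
      have h2 : p ≤ r := by
        rw [← hqp]
        exact Nat.minFac_le_of_dvd hr.two_le hrG
      have h3 : r = p := le_antisymm h1 h2
      rw [h3] at hrd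
      exact P.not_dvd_index hrd
    rw [Subgroup.index_eq_one] at hidx
    rw [hidx]
    infer_instance
  · have hG := hasSub_of_mulEquiv Subgroup.topEquiv (h ⊤)
    obtain ⟨H, hH⟩ := hG (Nat.card G / (Nat.card G).minFac) (Nat.div_dvd_of_dvd hqdvd)
    have hHidx : H.index = (Nat.card G).minFac := by
      have h1 := Subgroup.card_mul_index H
      rw [hH] at h1
      have hpos : 0 < Nat.card G / (Nat.card G).minFac :=
        Nat.div_pos (Nat.le_of_dvd Nat.card_pos hqdvd) hqprime.pos
      apply Nat.eq_of_mul_eq_mul_left hpos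
      rw [h1, Nat.div_mul_cancel hqdvd]
    haveI hHn : H.Normal := Subgroup.normal_of_index_eq_minFac_card hHidx
    have hHlt : Nat.card H < n := by
      rw [← hn, hH]
      exact Nat.div_lt_self Nat.card_pos hqprime.one_lt
    have hcG : Nat.card G = Nat.card H * (Nat.card G).minFac := by
      rw [hH, Nat.div_mul_cancel hqdvd]
    have hpH : p ∣ Nat.card H := by
      rw [hcG] at hdvd
      rcases (Nat.Prime.dvd_mul hp.out).mp hdvd with h1 | h1
      · exact h1
      · exact absurd ((Nat.prime_dvd_prime_iff_eq hp.out hqprime).mp h1).symm hqp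
    have hmaxH : ∀ q : ℕ, q.Prime → q ∣ Nat.card H → q ≤ p := by
      intro q hq hqd
      exact hmax q hq (hqd.trans (Subgroup.card_subgroup_dvd_card H))
    have hsubH : ∀ K : Subgroup H, Cfsg.HasSubgroupOfEveryOrder K := by
      intro K
      exact hasSub_of_mulEquiv (K.equivMapOfInjective H.subtype H.subtype_injective).symm
        (h (K.map H.subtype))
    obtain ⟨PH, hPHn⟩ := ih _ hHlt H rfl hsubH p hpH hmaxH
    haveI : (PH : Subgroup H).Characteristic := Sylow.characteristic_of_normal PH hPHn
    have hQn : ((PH : Subgroup H).map H.subtype).Normal := inferInstance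
    have hQp : IsPGroup p ((PH : Subgroup H).map H.subtype) := PH.isPGroup'.map H.subtype
    have hQidx : ¬ p ∣ ((PH : Subgroup H).map H.subtype).index := by
      rw [Subgroup.index_map_subtype, hHidx]
      intro hd
      rcases (Nat.Prime.dvd_mul hp.out).mp hd with h1 | h1
      · exact PH.not_dvd_index h1
      · exact absurd ((Nat.prime_dvd_prime_iff_eq hp.out hqprime).mp h1).symm hqp
    exact ⟨hQp.toSylow hQidx, hQn⟩

/-- If each subgroup of a finite group satisfies the converse of Lagrange's theorem, then a Sylow subgroup for the largest prime dividing the group order is normal. -/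
theorem result {G : Type*} [Group G] [Finite G] (h : ∀ H : Subgroup G, Cfsg.HasSubgroupOfEveryOrder H) (p : ℕ) [Fact p.Prime] (hdvd : p ∣ Nat.card G) (hmax : ∀ q : ℕ, q.Prime → q ∣ Nat.card G → q ≤ p) (P : Sylow p G) : (P : Subgroup G).Normal := by
  obtain ⟨P₀, hP₀⟩ := aux _ G rfl h p hdvd hmax
  obtain ⟨g, rfl⟩ := MulAction.exists_smul_eq G P₀ P
  haveI := hP₀
  rw [Sylow.smul_eq_of_normal]
  exact hP₀


end Cfsg.Agent.S0532
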