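import Cfsg.Statements.S0533
import Mathlib
import Cfsg.Agent.Helper1.Supersolvable2
import Cfsg.Agent.S0532

set_option autoImplicit false
open Cfsg

namespace Cfsg.Agent.S0533

universe u

open Cfsg.Agent.Helper1

theorem clt_quotient {G : Type u} [Group G] [Finite G] (N : Subgroup G) [N.Normal]
    (hN : (Nat.card N).Prime) (h : ∀ H : Subgroup G, Cfsg.HasSubgroupOfEveryOrder H) :
    ∀ H' : Subgroup (G ⧸ N), Cfsg.HasSubgroupOfEveryOrder H' := by
  intro H' d hd
  obtain ⟨H, hH⟩ : ∃ H : Subgroup G, H = H'.comap (QuotientGroup.mk' N) := ⟨_, rfl⟩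
  have hHcard : Nat.card H = Nat.card H' * Nat.card N := by
    rw [hH]
    exact card_comap_mk N H'
  obtain ⟨K0, hK0⟩ := h H (d * Nat.card N) (by rw [hHcard]; exact Nat.mul_dvd_mul_right hd _)
  obtain ⟨K', hK'⟩ : ∃ K' : Subgroup G, K' = K0.map H.subtype := ⟨_, rfl⟩
  have hK'card : Nat.card K' = d * Nat.card N := by
    rw [hK', Subgroup.card_map_of_injective H.subtype_injective, hK0]
  have hK'H : K' ≤ H := by
    rw [hK']
    exact Subgroup.map_subtype_le K0
  have key : ∃ K : Subgroup G, K ≤ H ∧ Nat.card (K.map (QuotientGroup.mk' N)) = d := by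
    by_cases hNK : N ≤ K'
    · refine ⟨K', hK'H, ?_⟩
      have h1 := card_comap_mk N (K'.map (QuotientGroup.mk' N))
      rw [Subgroup.comap_map_eq_self (by rw [QuotientGroup.ker_mk']; exact hNK), hK'card] at h1
      exact (Nat.eq_of_mul_eq_mul_right hN.pos h1).symm
    · have hdisj : K' ⊓ N = ⊥ := by
        have hdvd : Nat.card ↥(K' ⊓ N) ∣ Nat.card N := Subgroup.card_dvd_of_le inf_le_right
        rcases (Nat.dvd_prime hN).mp hdvd with h1 | h1
        · exact Subgroup.eq_bot_of_card_eq _ h1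
        · exfalso
          apply hNK
          have e : K' ⊓ N = N := Subgroup.eq_of_le_of_card_ge inf_le_right h1.ge
          rw [← e]
          exact inf_le_left
      obtain ⟨K1, hK1⟩ := h K' d (by rw [hK'card]; exact dvd_mul_right d _)
      obtain ⟨K'', hK''⟩ : ∃ K'' : Subgroup G, K'' = K1.map K'.subtype := ⟨_, rfl⟩
      have hK''card : Nat.card K'' = d := by
        rw [hK'', Subgroup.card_map_of_injective K'.subtype_injective, hK1]
      have hK''K' : K'' ≤ K' := by
        rw [hK'']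
        exact Subgroup.map_subtype_le K1
      refine ⟨K'', hK''K'.trans hK'H, ?_⟩
      have hinj : Function.Injective ((QuotientGroup.mk' N).domRestrict K'') := by
        rw [← MonoidHom.ker_eq_bot_iff, MonoidHom.ker_domRestrict, QuotientGroup.ker_mk',
          Subgroup.subgroupOf_eq_bot, disjoint_iff, eq_bot_iff, ← hdisj]
        exact le_inf (inf_le_right.trans hK''K') inf_le_left
      rw [← MonoidHom.domRestrict_range, ← hK''card]
      exact (Nat.card_congr (MonoidHom.ofInjective hinj).toEquiv).symm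
  obtain ⟨K, hKH, hKcard⟩ := key
  have hle : K.map (QuotientGroup.mk' N) ≤ H' := by
    rw [Subgroup.map_le_iff_le_comap, ← hH]
    exact hKH
  refine ⟨(K.map (QuotientGroup.mk' N)).subgroupOf H', ?_⟩
  rw [Nat.card_congr (Subgroup.subgroupOfEquivOfLe hle).toEquiv, hKcard]

theorem exists_normal_prime_of_clt {G : Type u} [Group G] [Finite G] [Nontrivial G]
    (h : ∀ H : Subgroup G, Cfsg.HasSubgroupOfEveryOrder H) :
    ∃ N : Subgroup G, N.Normal ∧ (Nat.card N).Prime := by
  classical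
  have hcard : 1 < Nat.card G := Finite.one_lt_card
  obtain ⟨p, hp, hpdvd, hpmax⟩ : ∃ p, p.Prime ∧ p ∣ Nat.card G ∧
      ∀ q, q.Prime → q ∣ Nat.card G → q ≤ p := by
    have hne : (Nat.card G).primeFactors.Nonempty := Nat.nonempty_primeFactors.mpr hcard
    have hmem := Finset.max'_mem _ hne
    refine ⟨(Nat.card G).primeFactors.max' hne, Nat.prime_of_mem_primeFactors hmem,
      Nat.dvd_of_mem_primeFactors hmem, ?_⟩
    intro q hq hqd
    exact Finset.le_max' _ _ (Nat.mem_primeFactors.mpr ⟨hq, hqd, Nat.card_pos.ne'⟩)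
  haveI : Fact p.Prime := ⟨hp⟩
  obtain ⟨P, hPn⟩ := Cfsg.Agent.S0532.aux _ G rfl h p hpdvd hpmax
  haveI := hPn
  obtain ⟨Z, hZ⟩ : ∃ Z : Subgroup G,
      Z = (P : Subgroup G) ⊓ Subgroup.centralizer ((P : Subgroup G) : Set G) := ⟨_, rfl⟩
  have hZn : Z.Normal := by
    rw [hZ]
    infer_instance
  have hZP : Z ≤ (P : Subgroup G) := by
    rw [hZ]
    exact inf_le_left
  have hcomm : ∀ x ∈ (P : Subgroup G), ∀ y ∈ Z, x * y = y * x := by
    intro x hx y hy
    rw [hZ] at hy
    exact Subgroup.mem_centralizer_iff.mp (Subgroup.mem_inf.mp hy).2 x hx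
  have hZne : Z ≠ ⊥ := by
    haveI : Nontrivial (P : Subgroup G) :=
      (Subgroup.nontrivial_iff_ne_bot _).mpr (P.ne_bot_of_dvd_card hpdvd)
    haveI := P.isPGroup'.center_nontrivial
    obtain ⟨⟨⟨z, hzP⟩, hzc⟩, hz1⟩ := exists_ne (1 : Subgroup.center (P : Subgroup G))
    intro hbot
    have hzZ : z ∈ Z := by
      rw [hZ]
      refine Subgroup.mem_inf.mpr ⟨hzP, ?_⟩
      rw [Subgroup.mem_centralizer_iff]
      intro y hy
      have h1 := Subgroup.mem_center_iff.mp hzc ⟨y, hy⟩
      exact congrArg Subtype.val h1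
    rw [hbot, Subgroup.mem_bot] at hzZ
    exact hz1 (Subtype.ext (Subtype.ext hzZ))
  obtain ⟨N, ⟨hNn, hNZ, hNne⟩, hNmin⟩ : ∃ N : Subgroup G, (N.Normal ∧ N ≤ Z ∧ N ≠ ⊥) ∧
      ∀ D : Subgroup G, D.Normal → D ≤ N → D ≠ ⊥ → D = N := by
    have wf : WellFounded ((· < ·) : Subgroup G → Subgroup G → Prop) := wellFounded_lt
    have hS : ({N | N.Normal ∧ N ≤ Z ∧ N ≠ ⊥} : Set (Subgroup G)).Nonempty :=
      ⟨Z, hZn, le_rfl, hZne⟩
    refine ⟨wf.min _ hS, wf.min_mem _ hS, ?_⟩
    intro D hDn hDle hDne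
    by_contra hne
    exact wf.not_lt_min {N : Subgroup G | N.Normal ∧ N ≤ Z ∧ N ≠ ⊥} (x := D)
      ⟨hDn, hDle.trans (wf.min_mem _ hS).2.1, hDne⟩ (lt_of_le_of_ne hDle hne)
  haveI := hNn
  have hNP : N ≤ (P : Subgroup G) := hNZ.trans hZP
  have hNpg : IsPGroup p N := P.isPGroup'.to_le hNP
  obtain ⟨k, hk⟩ := IsPGroup.iff_card.mp hNpg
  have hk1 : k ≠ 0 := by
    rintro rfl
    rw [pow_zero] at hk
    exact hNne (Subgroup.eq_bot_of_card_eq _ hk)
  have hG := Cfsg.Agent.S0532.hasSub_of_mulEquiv Subgroup.topEquiv (h ⊤)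
  obtain ⟨Q, hQ⟩ := hG (P : Subgroup G).index (Subgroup.index_dvd_card _)
  have hpm : ¬ p ∣ (P : Subgroup G).index := P.not_dvd_index
  obtain ⟨m, hm⟩ : ∃ m : ℕ, m = (P : Subgroup G).index := ⟨_, rfl⟩
  rw [← hm] at hQ hpm
  have hcop : Nat.Coprime (p ^ k) m :=
    Nat.Coprime.pow_left k ((Nat.Prime.coprime_iff_not_dvd hp).mpr hpm)
  have hcop1 : Nat.Coprime p m := (Nat.Prime.coprime_iff_not_dvd hp).mpr hpm
  -- a subgroup L of N ⊔ Q of order p^(k-1) * m
  have hHdvd : p ^ (k - 1) * m ∣ Nat.card ↥(N ⊔ Q) := by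
    have h1 : p ^ k ∣ Nat.card ↥(N ⊔ Q) := hk ▸ Subgroup.card_dvd_of_le le_sup_left
    have h2 : m ∣ Nat.card ↥(N ⊔ Q) := hQ ▸ Subgroup.card_dvd_of_le le_sup_right
    have h3 : p ^ k * m ∣ Nat.card ↥(N ⊔ Q) := hcop.mul_dvd_of_dvd_of_dvd h1 h2
    exact (Nat.mul_dvd_mul_right (pow_dvd_pow p (Nat.sub_le k 1)) m).trans h3
  obtain ⟨L0, hL0⟩ := h (N ⊔ Q) _ hHdvd
  obtain ⟨L, hL⟩ : ∃ L : Subgroup G, L = L0.map (N ⊔ Q).subtype := ⟨_, rfl⟩
  have hLcard : Nat.card L = p ^ (k - 1) * m := by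
    rw [hL, Subgroup.card_map_of_injective (Subgroup.subtype_injective _), hL0]
  have hLH : L ≤ N ⊔ Q := by
    rw [hL]
    exact Subgroup.map_subtype_le L0
  -- r = N.relIndex L divides m
  have hr : N.relIndex L ∣ m := by
    have h1 : N.relIndex L ∣ N.relIndex (N ⊔ Q) := by
      have h3 := @Subgroup.relIndex_dvd_index_of_normal ↥(N ⊔ Q) _ (N.subgroupOf (N ⊔ Q))
        (L.subgroupOf (N ⊔ Q)) inferInstance
      rw [Subgroup.relIndex_subgroupOf hLH] at h3
      exact h3
    rw [Subgroup.relIndex_sup_left] at h1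
    exact h1.trans (hQ ▸ Subgroup.relIndex_dvd_card N Q)
  have hDL : Nat.card ↥(N ⊓ L) * N.relIndex L = Nat.card L := by
    have h1 := Subgroup.card_mul_index (N.subgroupOf L)
    have e1 : Nat.card (N.subgroupOf L) = Nat.card ↥(N ⊓ L) := by
      rw [← Subgroup.inf_subgroupOf_right]
      exact Nat.card_congr (Subgroup.subgroupOfEquivOfLe (inf_le_right : N ⊓ L ≤ L)).toEquiv
    rw [e1] at h1
    exact h1
  have hDdvd : Nat.card ↥(N ⊓ L) ∣ p ^ k := hk ▸ Subgroup.card_dvd_of_le inf_le_left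
  obtain ⟨j, hjk, hj⟩ := (Nat.dvd_prime_pow hp).mp hDdvd
  have hj1 : j = k - 1 := by
    rw [hj, hLcard] at hDL
    obtain ⟨r', hr'⟩ := hr
    -- p^j * r = p^(k-1) * m, r * r' = m
    have hrpos : 0 < N.relIndex L := Nat.pos_of_ne_zero Subgroup.index_ne_zero_of_finite
    have hcopr : Nat.Coprime p (N.relIndex L) :=
      Nat.Coprime.coprime_dvd_right ⟨r', hr'⟩ hcop1
    have h1 : p ^ (k - 1) ∣ p ^ j := by
      have h2 : p ^ (k - 1) ∣ p ^ j * N.relIndex L := ⟨m, hDL⟩
      exact (Nat.Coprime.pow_left (k - 1) hcopr).dvd_of_dvd_mul_right h2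
    have h2 : k - 1 ≤ j := (Nat.pow_dvd_pow_iff_le_right hp.one_lt).mp h1
    by_contra hne
    have hjk' : j = k := by omega
    rw [hjk'] at hDL
    have h3 : p ∣ m := by
      have h4 : p ^ k * N.relIndex L = p ^ (k - 1) * m := hDL
      have h5 : p ^ k = p ^ (k - 1) * p := by
        rw [← pow_succ]
        congr 1
        omega
      rw [h5, mul_assoc] at h4
      have h6 := Nat.eq_of_mul_eq_mul_left (pow_pos hp.pos (k - 1)) h4
      exact ⟨_, h6.symm⟩
    exact hpm h3
  -- D = N ⊓ L is normal in G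
  have hDn : (N ⊓ L).Normal := by
    rw [← Subgroup.normalizer_eq_top_iff, eq_top_iff]
    have hLP : L ⊔ (P : Subgroup G) = ⊤ := by
      apply Subgroup.eq_top_of_card_eq
      apply Nat.dvd_antisymm (Subgroup.card_subgroup_dvd_card _)
      have h1 : m ∣ Nat.card ↥(L ⊔ (P : Subgroup G)) :=
        (Dvd.intro_left _ hLcard.symm).trans (Subgroup.card_dvd_of_le le_sup_left)
      have h2 : Nat.card (P : Subgroup G) ∣ Nat.card ↥(L ⊔ (P : Subgroup G)) :=
        Subgroup.card_dvd_of_le le_sup_right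
      obtain ⟨a, ha⟩ := IsPGroup.iff_card.mp P.isPGroup'
      have h3 : Nat.Coprime (Nat.card (P : Subgroup G)) m := by
        rw [ha]
        exact Nat.Coprime.pow_left a hcop1
      have h4 := h3.mul_dvd_of_dvd_of_dvd h2 h1
      rw [hm, Subgroup.card_mul_index] at h4
      exact h4
    rw [← hLP]
    apply sup_le
    · intro l hl
      rw [Subgroup.mem_normalizer_iff]
      intro x
      constructor
      · intro hx
        rw [Subgroup.mem_inf] at hx ⊢
        exact ⟨hNn.conj_mem x hx.1 l, mul_mem (mul_mem hl hx.2) (inv_mem hl)⟩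
      · intro hx
        rw [Subgroup.mem_inf] at hx ⊢
        have e : x = l⁻¹ * (l * x * l⁻¹) * l⁻¹⁻¹ := by group
        constructor
        · rw [e]
          exact hNn.conj_mem _ hx.1 l⁻¹
        · have e' : x = l⁻¹ * (l * x * l⁻¹) * l := by group
          rw [e']
          exact mul_mem (mul_mem (inv_mem hl) hx.2) hl
    · intro g hg
      rw [Subgroup.mem_normalizer_iff]
      intro x
      constructor
      · intro hx
        have hxZ : x ∈ Z := hNZ (Subgroup.mem_inf.mp hx).1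
        have e : g * x * g⁻¹ = x := by
          rw [hcomm g hg x hxZ]
          group
        rw [e]
        exact hx
      · intro hx
        have hxZ : g * x * g⁻¹ ∈ Z := hNZ (Subgroup.mem_inf.mp hx).1
        have e : x = g * x * g⁻¹ := by
          have h1 := hcomm g⁻¹ (inv_mem hg) _ hxZ
          calc x = g⁻¹ * (g * x * g⁻¹) * g := by group
            _ = (g * x * g⁻¹) * g⁻¹ * g := by rw [h1]
            _ = g * x * g⁻¹ := by group
        rw [e]
        exact hx
  have hDbot : N ⊓ L = ⊥ := by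
    by_contra hne
    have h1 := hNmin (N ⊓ L) hDn inf_le_left hne
    have h2 : Nat.card ↥(N ⊓ L) = Nat.card N := by rw [h1]
    rw [hj, hk, hj1] at h2
    have h3 := Nat.pow_right_injective hp.two_le h2
    omega
  have hj0 : j = 0 := by
    have h1 : Nat.card ↥(N ⊓ L) = 1 := by
      rw [hDbot]
      exact Subgroup.card_bot
    rw [hj] at h1
    by_contra hne
    have := Nat.one_lt_pow hne hp.one_lt
    omega
  refine ⟨N, hNn, ?_⟩
  have hk' : k = 1 := by omega
  rw [hk, hk', pow_one]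
  exact hp

theorem main : ∀ (n : ℕ) (G : Type u) [Group G] [Finite G], Nat.card G = n →
    (∀ H : Subgroup G, Cfsg.HasSubgroupOfEveryOrder H) → Cfsg.IsSupersolvable G := by
  intro n
  induction n using Nat.strong_induction_on with
  | _ n ih =>
  intro G _ _ hn h
  rcases subsingleton_or_nontrivial G with hs | hnt
  · exact isSupersolvable_of_subsingleton
  obtain ⟨N, hNn, hNp⟩ := exists_normal_prime_of_clt h
  haveI := hNn
  haveI : Fact (Nat.card N).Prime := ⟨hNp⟩
  haveI : IsCyclic N := isCyclic_of_prime_card (p := Nat.card N) rfl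
  have hq : Nat.card (G ⧸ N) < n := by
    rw [← hn]
    exact card_quotient_lt N hNp.one_lt
  exact isSupersolvable_of_cyclic_normal N (ih _ hq (G ⧸ N) rfl (clt_quotient N hNp h))

/-- If every subgroup of a finite group has subgroups of all orders dividing its order, then the group is supersolvable. -/
theorem result {G : Type*} [Group G] [Finite G] (h : ∀ H : Subgroup G, Cfsg.HasSubgroupOfEveryOrder H) : Cfsg.IsSupersolvable G := by
  exact main _ G rfl h


end Cfsg.Agent.S0533
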