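import Cfsg.Statements.S0534
import Mathlib
import Cfsg.Agent.S0003

set_option autoImplicit false
open Cfsg

namespace Cfsg.Agent.S0534

universe u

theorem s0534_nt (n a d : ℕ) (hn : 0 < n) (ha : 0 < a) (hd : d ∣ n * a)
    (hexp : ∀ p : ℕ, p.Prime → p ∣ n → a.factorization p + 1 = n.factorization p) :
    ∃ m d₂ : ℕ, d = m * d₂ ∧ m ∣ n ∧ m.Coprime (n / m) ∧ d₂ ∣ a := by
  classical
  have hd0 : d ≠ 0 := ne_of_gt (Nat.pos_of_dvd_of_pos hd (Nat.mul_pos hn ha))
  set f : ℕ →₀ ℕ := n.factorization.filter (fun p => n.factorization p ≤ d.factorization p)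
    with hf
  have hfprime : ∀ p ∈ f.support, p.Prime := by
    intro p hp
    rw [hf, Finsupp.support_filter, Finset.mem_filter, Nat.support_factorization] at hp
    exact Nat.prime_of_mem_primeFactors hp.1
  set m := f.prod (· ^ ·) with hm
  have hmf : m.factorization = f := Nat.prod_pow_factorization_eq_self hfprime
  have hm0 : m ≠ 0 := by
    rw [hm, Finsupp.prod]
    exact Finset.prod_ne_zero_iff.mpr (fun p hp => pow_ne_zero _ (hfprime p hp).ne_zero)
  have hfn : ∀ p, f p ≤ n.factorization p := by
    intro p
    rw [hf, Finsupp.filter_apply]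
    split_ifs <;> simp
  have hfd : ∀ p, f p ≤ d.factorization p := by
    intro p
    rw [hf, Finsupp.filter_apply]
    split_ifs with h
    · exact h
    · exact Nat.zero_le _
  have hmn : m ∣ n := (Nat.factorization_le_iff_dvd hm0 hn.ne').mp (by
    rw [hmf]; exact fun p => hfn p)
  have hmd : m ∣ d := (Nat.factorization_le_iff_dvd hm0 hd0).mp (by
    rw [hmf]; exact fun p => hfd p)
  refine ⟨m, d / m, (Nat.mul_div_cancel' hmd).symm, hmn, ?_, ?_⟩
  · apply Nat.coprime_of_dvd
    intro p hp hpm hpnm
    have h1 : 0 < m.factorization p := hp.factorization_pos_of_dvd hm0 hpm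
    rw [hmf] at h1
    have h2 : f p = n.factorization p := by
      rw [hf, Finsupp.filter_apply] at h1 ⊢
      split_ifs at h1 ⊢ with h
      · rfl
      · exact absurd h1 (lt_irrefl 0)
    have hnm0 : n / m ≠ 0 :=
      (Nat.div_pos (Nat.le_of_dvd hn hmn) (Nat.pos_of_ne_zero hm0)).ne'
    have h3 : 0 < (n / m).factorization p := hp.factorization_pos_of_dvd hnm0 hpnm
    rw [Nat.factorization_div hmn, hmf] at h3
    have h4 : (n.factorization - f) p = n.factorization p - f p := rfl
    rw [h4, h2] at h3
    omega
  · have hdm0 : d / m ≠ 0 :=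
      (Nat.div_pos (Nat.le_of_dvd (Nat.pos_of_ne_zero hd0) hmd) (Nat.pos_of_ne_zero hm0)).ne'
    rw [← Nat.factorization_le_iff_dvd hdm0 ha.ne', Nat.factorization_div hmd, hmf]
    intro p
    show d.factorization p - f p ≤ a.factorization p
    have hdna : d.factorization p ≤ n.factorization p + a.factorization p := by
      have h5 := (Nat.factorization_le_iff_dvd hd0 (Nat.mul_pos hn ha).ne').mpr hd p
      rw [Nat.factorization_mul hn.ne' ha.ne'] at h5
      exact h5
    by_cases h : n.factorization p ≤ d.factorization p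
    · have h6 : f p = n.factorization p := by rw [hf, Finsupp.filter_apply, if_pos h]
      omega
    · have hf0 : f p = 0 := by rw [hf, Finsupp.filter_apply, if_neg h]
      push Not at h
      by_cases hpp : p.Prime
      · have hpn : p ∣ n := by
          by_contra hh
          rw [Nat.factorization_eq_zero_of_not_dvd hh] at h
          omega
        have h7 := hexp p hpp hpn
        omega
      · have h8 : n.factorization p = 0 := Nat.factorization_eq_zero_of_not_prime n hpp
        omega

theorem s0534_comm_clt : ∀ (n : ℕ) {A : Type u} [CommGroup A] [Finite A], Nat.card A = n →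
    ∀ d : ℕ, d ∣ n → ∃ H : Subgroup A, Nat.card H = d := by
  intro n
  induction n using Nat.strong_induction_on with
  | _ n ih =>
    intro A _ _ hn d hd
    by_cases hd1 : d = 1
    · exact ⟨⊥, by rw [hd1]; exact Subgroup.card_bot⟩
    obtain ⟨p, hp, hpd⟩ := Nat.exists_prime_and_dvd hd1
    have : Fact p.Prime := ⟨hp⟩
    have hpn : p ∣ Nat.card A := by rw [hn]; exact hpd.trans hd
    obtain ⟨x, hx⟩ := exists_prime_orderOf_dvd_card' p hpn
    have hNcard : Nat.card (Subgroup.zpowers x) = p := by rw [Nat.card_zpowers, hx]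
    have hq : Nat.card (A ⧸ Subgroup.zpowers x) * p = n := by
      rw [← hn, ← hNcard]
      exact (Subgroup.card_eq_card_quotient_mul_card_subgroup (Subgroup.zpowers x)).symm
    have hpos : 0 < Nat.card (A ⧸ Subgroup.zpowers x) := Nat.card_pos
    have hlt : Nat.card (A ⧸ Subgroup.zpowers x) < n := by
      have := hp.two_le
      nlinarith
    obtain ⟨e, rfl⟩ := hpd
    have he : e ∣ Nat.card (A ⧸ Subgroup.zpowers x) := by
      rw [← hq, mul_comm (Nat.card _) p] at hd
      exact Nat.dvd_of_mul_dvd_mul_left hp.pos hd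
    obtain ⟨K, hK⟩ := ih _ hlt rfl e he
    refine ⟨K.comap (QuotientGroup.mk' (Subgroup.zpowers x)), ?_⟩
    have hidx : (K.comap (QuotientGroup.mk' (Subgroup.zpowers x))).index = K.index :=
      Subgroup.index_comap_of_surjective K (QuotientGroup.mk'_surjective _)
    have h1 := Subgroup.card_mul_index (K.comap (QuotientGroup.mk' (Subgroup.zpowers x)))
    have h2 := Subgroup.card_mul_index K
    have hi0 : 0 < K.index := Nat.pos_of_ne_zero Subgroup.index_ne_zero_of_finite
    rw [hidx, hn, ← hq, ← h2, hK] at h1
    have h3 : Nat.card ↥(K.comap (QuotientGroup.mk' (Subgroup.zpowers x))) * K.index =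
        (p * e) * K.index := by rw [h1]; ring
    exact Nat.eq_of_mul_eq_mul_right hi0 h3


/-- Let G be a finite solvable group and A a finite abelian group such that every prime dividing the order of A divides the order of G and, for each prime p dividing the order of G, the exponent of p in the order of A is one less than its exponent in the order of G. Then G × A has a subgroup of every order dividing its order. -/
theorem result {G A : Type*} [Group G] [CommGroup A] [Finite G] [Finite A] [Group.IsSolvable G] (hA : ∀ p : ℕ, p.Prime → p ∣ Nat.card A → p ∣ Nat.card G) (hexp : ∀ p : ℕ, p.Prime → p ∣ Nat.card G → (Nat.card A).factorization p + 1 = (Nat.card G).factorization p) : Cfsg.HasSubgroupOfEveryOrder (G × A) := by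
  intro d hd
  rw [Nat.card_prod] at hd
  have hn : 0 < Nat.card G := Nat.card_pos
  have ha : 0 < Nat.card A := Nat.card_pos
  obtain ⟨m, d₂, hdeq, hmn, hcop, hd₂⟩ := s0534_nt (Nat.card G) (Nat.card A) d hn ha hd hexp
  obtain ⟨H₁, hH₁⟩ := Cfsg.Agent.S0003.result (G := G) m (Nat.card G / m)
    (Nat.mul_div_cancel' hmn).symm hcop
  obtain ⟨A₂, hA₂⟩ := s0534_comm_clt (Nat.card A) rfl d₂ hd₂
  refine ⟨H₁.prod A₂, ?_⟩
  rw [Nat.card_congr (Subgroup.prodEquiv H₁ A₂).toEquiv, Nat.card_prod, hH₁, hA₂, hdeq]

end Cfsg.Agent.S0534
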