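import Cfsg.Statements.S0535
import Mathlib
import Cfsg.Agent.S0006
-- import your own Cfsg.Agent.* helpers here

set_option autoImplicit false
open Cfsg

namespace Cfsg.Agent.S0535

/-- Suppose that for every nontrivial subgroup H of a finite group and every prime p dividing the order of H there is a proper subgroup of H whose index in H is a power of p. Then the group is solvable. -/
theorem result {G : Type*} [Group G] [Finite G] (h : ∀ H : Subgroup G, H ≠ ⊥ → ∀ p : ℕ, p.Prime → p ∣ Nat.card H → ∃ K : Subgroup H, K ≠ ⊤ ∧ ∃ k : ℕ, K.index = p ^ k) : Group.IsSolvable G := by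
  classical
  apply Cfsg.Agent.S0006.result
  intro p hp
  haveI : Fact p.Prime := ⟨hp⟩
  have key : ∀ n : ℕ, ∀ H : Subgroup G, Nat.card H = n →
      ∃ L : Subgroup G, L ≤ H ∧ (∃ k : ℕ, L.relIndex H = p ^ k) ∧ ¬ p ∣ Nat.card L := by
    intro n
    induction n using Nat.strong_induction_on with
    | _ n ih =>
      intro H hn
      by_cases hdvd : p ∣ Nat.card H
      · have hne : H ≠ ⊥ := by
          rintro rfl
          rw [Subgroup.card_bot] at hdvd
          exact hp.one_lt.ne' (Nat.dvd_one.mp hdvd)
        obtain ⟨K, hKne, k, hk⟩ := h H hne p hp hdvd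
        have hlt : Nat.card (K.map H.subtype) < n := by
          rw [Subgroup.card_map_of_injective H.subtype_injective, ← hn]
          have h1 := Subgroup.card_mul_index K
          have h2 : K.index ≠ 1 := fun h => hKne (Subgroup.index_eq_one.mp h)
          have h3 : K.index ≠ 0 := Subgroup.index_ne_zero_of_finite
          have h4 : 0 < Nat.card K := Nat.card_pos
          have h5 : 2 ≤ K.index := by omega
          nlinarith
        obtain ⟨L, hLK, ⟨j, hj⟩, hL⟩ := ih _ hlt (K.map H.subtype) rfl
        have hKH : K.map H.subtype ≤ H := Subgroup.map_subtype_le K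
        refine ⟨L, hLK.trans hKH, ⟨j + k, ?_⟩, hL⟩
        have hrel : (K.map H.subtype).relIndex H = K.index := by
          unfold Subgroup.relIndex
          rw [Subgroup.subgroupOf,
            Subgroup.comap_map_eq_self_of_injective (Subgroup.subtype_injective _)]
        rw [← Subgroup.relIndex_mul_relIndex L (K.map H.subtype) H hLK hKH, hj, hrel, hk, pow_add]
      · exact ⟨H, le_refl H, ⟨0, by rw [Subgroup.relIndex_self, pow_zero]⟩, hdvd⟩
  obtain ⟨L, -, ⟨k, hk⟩, hL⟩ := key _ ⊤ rfl
  rw [Subgroup.relIndex_top_right] at hk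
  refine ⟨L, ?_⟩
  rw [hk]
  congr 1
  have h1 := Subgroup.card_mul_index L
  rw [hk] at h1
  rw [← h1, Nat.factorization_mul Nat.card_pos.ne' (pow_ne_zero k hp.ne_zero)]
  simp [Nat.factorization_eq_zero_of_not_dvd hL, hp.factorization_self]

end Cfsg.Agent.S0535
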