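import Cfsg.Statements.S0537
import Mathlib
import Cfsg.Agent.Helper6.MinNonNilp
import Cfsg.Agent.Helper3.Layer
import Cfsg.Agent.Lead.CoprimeAbelian
import Cfsg.Agent.Lead.Coprime2
import Cfsg.Agent.Lead.Fpf3
-- import your own Cfsg.Agent.* helpers here

set_option autoImplicit false
open Cfsg

namespace Cfsg.Agent.S0537


theorem mem_normal_sylow {G : Type*} [Group G] [Finite G] {r : ℕ} [Fact r.Prime]
    (R : Sylow r G) [hR : (R : Subgroup G).Normal] (x : G) (j : ℕ) (hx : orderOf x = r ^ j) :
    x ∈ (R : Subgroup G) := by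
  have hz : IsPGroup r (Subgroup.zpowers x) :=
    IsPGroup.of_card (n := j) (by rw [Nat.card_zpowers, hx])
  obtain ⟨c, hc⟩ := Cfsg.Agent.Lead.exists_conj_mem_sylow R hz
  have h1 := hc x (Subgroup.mem_zpowers _)
  have h2 := hR.conj_mem _ h1 c⁻¹
  have e : c⁻¹ * (c * x * c⁻¹) * c⁻¹⁻¹ = x := by group
  rw [e] at h2
  exact h2

open Cfsg.Agent.Helper6 in
/-- A finite nilpotent group with abelian Sylow subgroups is abelian. -/
theorem comm_of_nilpotent_of_sylow_comm {G : Type*} [Group G] [Finite G] [Group.IsNilpotent G]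
    (h : ∀ (r : ℕ) [Fact r.Prime] (R : Sylow r G), ∀ a ∈ (R : Subgroup G),
      ∀ b ∈ (R : Subgroup G), a * b = b * a) : ∀ a b : G, a * b = b * a := by
  have step1 : ∀ (r j : ℕ) (x : G), r.Prime → orderOf x = r ^ j → ∀ y : G, x * y = y * x := by
    intro r j x hr hx y
    haveI : Fact r.Prime := ⟨hr⟩
    obtain ⟨R⟩ : Nonempty (Sylow r G) := inferInstance
    have hxR : x ∈ (R : Subgroup G) := mem_normal_sylow R x j hx
    have hy : y ∈ Subgroup.centralizer {x} := by
      apply mem_of_primary_powers_mem _ (orderOf y) y rfl (orderOf_pos y)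
      rintro q' k hq' ⟨j', hj'⟩
      rw [Subgroup.mem_centralizer_iff]
      intro z hz
      rw [Set.mem_singleton_iff] at hz
      subst hz
      by_cases hqr : q' = r
      · subst hqr
        exact h q' R z hxR (y ^ k) (mem_normal_sylow R (y ^ k) j' hj')
      · have hcop : (orderOf (y ^ k)).Coprime r := by
          rw [hj']
          exact Nat.Coprime.pow_left _ ((Nat.coprime_primes hq' hr).mpr hqr)
        have h1 := mem_centralizer_sylow_of_coprime_of_isNilpotent R (y ^ k) hcop
        exact Subgroup.mem_centralizer_iff.mp h1 z hxR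
    exact Subgroup.mem_centralizer_iff.mp hy x rfl
  intro a b
  have ha : a ∈ Subgroup.center G := by
    apply mem_of_primary_powers_mem _ (orderOf a) a rfl (orderOf_pos a)
    rintro q k hq ⟨j, hj⟩
    rw [Subgroup.mem_center_iff]
    intro g
    exact (step1 q j (a ^ k) hq hj g).symm
  exact (Subgroup.mem_center_iff.mp ha b).symm

theorem comm_of_sup_eq_top {G : Type*} [Group G] (A B : Subgroup G) (hsup : A ⊔ B = ⊤)
    (hA : ∀ a ∈ A, ∀ b ∈ A, a * b = b * a) (hB : ∀ a ∈ B, ∀ b ∈ B, a * b = b * a)
    (hAB : ∀ a ∈ A, ∀ b ∈ B, a * b = b * a) : ∀ x y : G, x * y = y * x := by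
  have hcen : A ⊔ B ≤ Subgroup.center G := by
    apply sup_le
    · intro a ha
      rw [Subgroup.mem_center_iff]
      intro z
      have hz : z ∈ A ⊔ B := by rw [hsup]; exact Subgroup.mem_top z
      have hle : A ⊔ B ≤ Subgroup.centralizer {a} := by
        apply sup_le
        · intro b hb
          rw [Subgroup.mem_centralizer_iff]
          intro y hy
          rw [Set.mem_singleton_iff] at hy; subst hy
          exact hA _ ha b hb
        · intro b hb
          rw [Subgroup.mem_centralizer_iff]
          intro y hy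
          rw [Set.mem_singleton_iff] at hy; subst hy
          exact hAB _ ha b hb
      exact (Subgroup.mem_centralizer_iff.mp (hle hz) a rfl).symm
    · intro a ha
      rw [Subgroup.mem_center_iff]
      intro z
      have hz : z ∈ A ⊔ B := by rw [hsup]; exact Subgroup.mem_top z
      have hle : A ⊔ B ≤ Subgroup.centralizer {a} := by
        apply sup_le
        · intro b hb
          rw [Subgroup.mem_centralizer_iff]
          intro y hy
          rw [Set.mem_singleton_iff] at hy; subst hy
          exact (hAB b hb _ ha).symm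
        · intro b hb
          rw [Subgroup.mem_centralizer_iff]
          intro y hy
          rw [Set.mem_singleton_iff] at hy; subst hy
          exact hB _ ha b hb
      exact (Subgroup.mem_centralizer_iff.mp (hle hz) a rfl).symm
  intro x y
  have hy : y ∈ Subgroup.center G := hcen (by rw [hsup]; exact Subgroup.mem_top y)
  exact Subgroup.mem_center_iff.mp hy x

/-- A finite non-abelian group in which every proper subgroup is abelian is either of prime-power order, or is generated by a cyclic Sylow p-subgroup and a normal Sylow q-subgroup that is elementary abelian, for distinct primes p and q. -/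
theorem result {G : Type*} [Group G] [Finite G] (hna : ¬ IsMulCommutative G) (h : ∀ H : Subgroup G, H ≠ ⊤ → IsMulCommutative H) : (∃ p : ℕ, p.Prime ∧ IsPGroup p G) ∨ ∃ p q : ℕ, p.Prime ∧ q.Prime ∧ p ≠ q ∧ ∃ (P : Sylow p G) (Q : Sylow q G), IsCyclic P ∧ (Q : Subgroup G).Normal ∧ Cfsg.IsElementaryAbelian q (Q : Subgroup G) ∧ (P : Subgroup G) ⊔ Q = ⊤ := by
  classical
  have hcommOf : ∀ H : Subgroup G, H ≠ ⊤ → ∀ a ∈ H, ∀ b ∈ H, a * b = b * a := by
    intro H hH a ha b hb
    have := (h H hH).is_comm.comm (⟨a, ha⟩ : H) ⟨b, hb⟩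
    exact congrArg (fun z : H => (z : G)) this
  have hna' : ¬ ∀ a b : G, a * b = b * a := fun hc => hna ⟨⟨hc⟩⟩
  by_cases hnil : Group.IsNilpotent G
  · left
    by_contra hcon
    push Not at hcon
    apply hna'
    apply comm_of_nilpotent_of_sylow_comm
    intro r _ R a ha b hb
    apply hcommOf (R : Subgroup G) _ a ha b hb
    intro htop
    apply hcon r Fact.out
    intro g
    have hg : g ∈ (R : Subgroup G) := by rw [htop]; exact Subgroup.mem_top g
    obtain ⟨k, hk⟩ := R.isPGroup' ⟨g, hg⟩
    exact ⟨k, by simpa using congrArg (fun z : (R : Subgroup G) => (z : G)) hk⟩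
  · right
    have hmin : Cfsg.IsMinimalNonNilpotent G := ⟨hnil, fun H hH => by
      haveI := h H hH
      exact Cfsg.Agent.Helper3.nilpotent_of_commutative H⟩
    obtain ⟨p, q, hp, hq, hpq, P, Q, x, hPeq, hQn, hsup, hPnn⟩ :=
      Cfsg.Agent.Helper6.minNonNilp_structure hmin
    haveI : Fact p.Prime := ⟨hp⟩
    haveI : Fact q.Prime := ⟨hq⟩
    haveI := hQn
    have hxP : x ∈ (P : Subgroup G) := by rw [hPeq]; exact Subgroup.mem_zpowers x
    have hcyc : IsCyclic P := by
      refine ⟨⟨⟨x, hxP⟩, fun y => ?_⟩⟩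
      have hy : (y : G) ∈ Subgroup.zpowers x := by rw [← hPeq]; exact y.2
      obtain ⟨k, hk⟩ := Subgroup.mem_zpowers_iff.mp hy
      refine ⟨k, Subtype.ext ?_⟩
      simpa using hk
    refine ⟨p, q, hp, hq, hpq, P, Q, hcyc, hQn, ?_, hsup⟩
    have hdisj : (P : Subgroup G) ⊓ Q = ⊥ :=
      disjoint_iff.mp (IsPGroup.disjoint_of_ne p q hpq _ _ P.isPGroup' Q.isPGroup')
    have hQtop : (Q : Subgroup G) ≠ ⊤ := by
      intro htop
      apply hPnn
      have hPbot : (P : Subgroup G) = ⊥ := by
        rw [htop, inf_top_eq] at hdisj; exact hdisj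
      rw [hPbot]; infer_instance
    haveI hQc : IsMulCommutative (Q : Subgroup G) := h _ hQtop
    have hQcomm := hcommOf (Q : Subgroup G) hQtop
    refine ⟨hQc, ?_⟩
    have hPN : (P : Subgroup G) ≤ Subgroup.normalizer ((Q : Subgroup G) : Set G) := by
      rw [Subgroup.normalizer_eq_top]; exact le_top
    have hcop : (Nat.card (P : Subgroup G)).Coprime (Nat.card (Q : Subgroup G)) := by
      obtain ⟨a, ha⟩ := IsPGroup.iff_card.mp P.isPGroup'
      obtain ⟨b, hb⟩ := IsPGroup.iff_card.mp Q.isPGroup'
      rw [ha, hb]; exact Nat.Coprime.pow _ _ ((Nat.coprime_primes hp hq).mpr hpq)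
    have hcardG := Cfsg.Agent.Lead.card_sup_of_le_normalizer (Q : Subgroup G) (P : Subgroup G) hPN
      (by rw [inf_comm]; exact hdisj)
    rw [sup_comm, hsup] at hcardG
    have hkey : ∀ B : Subgroup G, B ≤ (Q : Subgroup G) →
        (P : Subgroup G) ≤ Subgroup.normalizer (B : Set G) →
        B = (Q : Subgroup G) ∨ B ≤ Subgroup.centralizer ((P : Subgroup G) : Set G) := by
      intro B hBQ hPB
      by_cases htop : B ⊔ (P : Subgroup G) = ⊤
      · left
        have h1 := Cfsg.Agent.Lead.card_sup_of_le_normalizer B (P : Subgroup G) hPB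
          (by rw [eq_bot_iff, ← hdisj, inf_comm]; exact inf_le_inf_left _ hBQ)
        rw [htop, hcardG] at h1
        apply Subgroup.eq_of_le_of_card_ge hBQ
        exact (Nat.eq_of_mul_eq_mul_right Nat.card_pos h1).le
      · right
        intro b hb
        rw [Subgroup.mem_centralizer_iff]
        intro y hy
        exact hcommOf _ htop y (Subgroup.mem_sup_right hy) b (Subgroup.mem_sup_left hb)
    have hPcomm : ∀ a ∈ (P : Subgroup G), ∀ b ∈ (P : Subgroup G), a * b = b * a := by
      intro a ha b hb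
      rw [hPeq] at ha hb
      obtain ⟨i, rfl⟩ := Subgroup.mem_zpowers_iff.mp ha
      obtain ⟨j, rfl⟩ := Subgroup.mem_zpowers_iff.mp hb
      rw [← zpow_add, ← zpow_add, add_comm]
    have hC : (Q : Subgroup G) ⊓ Subgroup.centralizer ((P : Subgroup G) : Set G) = ⊥ := by
      have h1 := Cfsg.Agent.Lead.fixed_inf_commutator_eq_bot (P : Subgroup G) (Q : Subgroup G)
        hPN hcop
      have h2 := Cfsg.Agent.Lead.fixed_sup_commutator_eq (P : Subgroup G) (Q : Subgroup G)
        hPN hcop
      have hBQ := Cfsg.Agent.Lead.commutator_le_left_of_normalizer (Q : Subgroup G)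
        (P : Subgroup G) hPN
      rcases hkey ⁅(Q : Subgroup G), (P : Subgroup G)⁆ hBQ
        (Cfsg.Agent.Lead.le_normalizer_commutator_right _ _ hPN) with hB | hB
      · rw [hB] at h1
        rw [← h1, inf_eq_left.mpr inf_le_left]
      · exfalso
        have hB' : ⁅(Q : Subgroup G), (P : Subgroup G)⁆ = ⊥ := by
          rw [eq_bot_iff, ← h1]
          exact le_inf (le_inf hBQ hB) le_rfl
        rw [hB', sup_bot_eq] at h2
        have hQC : (Q : Subgroup G) ≤ Subgroup.centralizer ((P : Subgroup G) : Set G) := by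
          rw [← h2]; exact inf_le_right
        apply hna'
        exact comm_of_sup_eq_top (P : Subgroup G) (Q : Subgroup G) hsup hPcomm hQcomm
          (fun a ha b hb => Subgroup.mem_centralizer_iff.mp (hQC hb) a ha)
    intro a ha
    by_contra hne
    let Q₁ : Subgroup G :=
      { carrier := {y | ∃ b ∈ (Q : Subgroup G), b ^ q = y}
        one_mem' := ⟨1, Subgroup.one_mem _, one_pow q⟩
        mul_mem' := by
          rintro _ _ ⟨b, hb, rfl⟩ ⟨c, hc, rfl⟩
          exact ⟨b * c, Subgroup.mul_mem _ hb hc, Commute.mul_pow (hQcomm b hb c hc) q⟩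
        inv_mem' := by
          rintro _ ⟨b, hb, rfl⟩
          exact ⟨b⁻¹, Subgroup.inv_mem _ hb, inv_pow b q⟩ }
    have hQ₁Q : Q₁ ≤ (Q : Subgroup G) := by
      rintro _ ⟨b, hb, rfl⟩
      exact Subgroup.pow_mem _ hb q
    have hPQ₁ : (P : Subgroup G) ≤ Subgroup.normalizer (Q₁ : Set G) := by
      intro g _
      apply Cfsg.Agent.Lead.mem_normalizer_of_conj_mem
      rintro _ ⟨b, hb, rfl⟩
      exact ⟨g * b * g⁻¹, hQn.conj_mem b hb g, by rw [conj_pow]⟩
    rcases hkey Q₁ hQ₁Q hPQ₁ with hB | hB
    · -- power map surjective on Q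
      have hsurj : Function.Surjective (fun b : (Q : Subgroup G) => b ^ q) := by
        intro y
        have hy : (y : G) ∈ Q₁ := by rw [hB]; exact y.2
        obtain ⟨b, hb, hby⟩ := hy
        exact ⟨⟨b, hb⟩, Subtype.ext (by simpa using hby)⟩
      have hinj := Finite.injective_iff_surjective.mpr hsurj
      have ha1 : (⟨a, ha⟩ : (Q : Subgroup G)) ≠ 1 := by
        intro h1
        apply hne
        have := congrArg (fun z : (Q : Subgroup G) => (z : G)) h1
        simp only [Subgroup.coe_one] at this
        rw [this, one_pow]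
      have hQnt : Nontrivial (Q : Subgroup G) := ⟨⟨_, _, ha1⟩⟩
      have hdvd : q ∣ Nat.card (Q : Subgroup G) := by
        obtain ⟨b, hb⟩ := IsPGroup.iff_card.mp Q.isPGroup'
        rw [hb]
        apply dvd_pow_self
        rintro rfl
        rw [pow_zero] at hb
        exact (Finite.one_lt_card (α := (Q : Subgroup G))).ne' hb
      obtain ⟨c, hc⟩ := exists_prime_orderOf_dvd_card' q hdvd
      have hc1 : c = 1 := by
        apply hinj
        show c ^ q = 1 ^ q
        have hcq : c ^ q = 1 := by
          have h3 := pow_orderOf_eq_one c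
          rwa [hc] at h3
        rw [one_pow]; exact hcq
      rw [hc1, orderOf_one] at hc
      exact hq.one_lt.ne hc
    · have h1 : a ^ q ∈ (Q : Subgroup G) ⊓ Subgroup.centralizer ((P : Subgroup G) : Set G) :=
        ⟨Subgroup.pow_mem _ ha q, hB ⟨a, ha, rfl⟩⟩
      rw [hC] at h1
      exact hne (Subgroup.mem_bot.mp h1)

end Cfsg.Agent.S0537
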