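import Cfsg.Statements.S0542
import Mathlib

set_option autoImplicit false
open Cfsg

namespace Cfsg.Agent.S0542

theorem relIndex_dvd_of_normal_subgroupOf {G : Type*} [Group G] [Finite G] (S H K : Subgroup G)
    (hHK : H ≤ K) (hn : (H.subgroupOf K).Normal) : S.relIndex H ∣ S.relIndex K := by
  have e1 : (H ⊓ S).relIndex K = S.relIndex H * H.relIndex K := by
    rw [← Subgroup.relIndex_mul_relIndex (H ⊓ S) H K inf_le_left hHK, Subgroup.inf_relIndex_left]
  have e0 : H ⊓ S = H ⊓ (S ⊓ K) := by
    apply le_antisymm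
    · exact le_inf inf_le_left (le_inf inf_le_right (inf_le_left.trans hHK))
    · exact le_inf inf_le_left (inf_le_right.trans inf_le_left)
  have e2 : (H ⊓ S).relIndex K = H.relIndex (S ⊓ K) * S.relIndex K := by
    rw [← Subgroup.relIndex_mul_relIndex (H ⊓ S) (S ⊓ K) K
      (le_inf inf_le_right (inf_le_left.trans hHK)) inf_le_right, Subgroup.inf_relIndex_right,
      e0, Subgroup.inf_relIndex_right]
  have e3 : H.relIndex (S ⊓ K) ∣ H.relIndex K := by
    have h3 := @Subgroup.relIndex_dvd_index_of_normal K _ (H.subgroupOf K)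
      ((S ⊓ K).subgroupOf K) hn
    rw [Subgroup.relIndex_subgroupOf inf_le_right] at h3
    exact h3
  obtain ⟨c, hc⟩ := e3
  have hne : H.relIndex (S ⊓ K) ≠ 0 := Subgroup.index_ne_zero_of_finite
  refine ⟨c, ?_⟩
  apply Nat.eq_of_mul_eq_mul_left (Nat.pos_of_ne_zero hne)
  rw [← e2, e1, hc]
  ring

/-- A Sylow p-subgroup of a finite group meets every subnormal subgroup H in a Sylow p-subgroup of H. -/
theorem result {G : Type*} [Group G] [Finite G] (p : ℕ) [Fact p.Prime] (H : Subgroup G) (hH : H.IsSubnormal) (S : Sylow p G) : ∃ Q : Sylow p H, (Q : Subgroup H) = (S : Subgroup G).subgroupOf H := by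
  have key : ¬ p ∣ (S : Subgroup G).relIndex H := by
    induction hH with
    | top =>
      rw [Subgroup.relIndex_top_right]
      exact S.not_dvd_index
    | step H K hle hK hn ih =>
      exact fun h => ih (h.trans (relIndex_dvd_of_normal_subgroupOf _ H K hle hn))
  exact ⟨(S.isPGroup'.comap_subtype (K := H)).toSylow key, rfl⟩


end Cfsg.Agent.S0542
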