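import Cfsg.Statements.S0546
import Mathlib
import Cfsg.Agent.Helper6.SysNorm
-- import your own Cfsg.Agent.* helpers here

set_option autoImplicit false
open Cfsg

namespace Cfsg.Agent.S0546

/-- The normal closure of a system normalizer of a finite solvable group is the whole group. -/
theorem result {G : Type*} [Group G] [Finite G] [Group.IsSolvable G] (K : Nat.Primes → Subgroup G) (hK : Cfsg.IsComplementSystem K) : Subgroup.normalClosure ((Cfsg.systemNormalizer K : Subgroup G) : Set G) = ⊤ := by
  classical
  by_contra hne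
  obtain ⟨N, hNdef⟩ : ∃ N : Subgroup G,
      N = Subgroup.normalClosure ((Cfsg.systemNormalizer K : Subgroup G) : Set G) := ⟨_, rfl⟩
  rw [← hNdef] at hne
  haveI hNn : N.Normal := by rw [hNdef]; exact Subgroup.normalClosure_normal
  have hDN : Cfsg.systemNormalizer K ≤ N := by rw [hNdef]; exact Subgroup.le_normalClosure
  haveI : Nontrivial (G ⧸ N) := by
    rw [← Finite.one_lt_card_iff_nontrivial]
    have h1 : N.index ≠ 1 := fun h => hne (Subgroup.index_eq_one.mp h)
    have h0 : N.index ≠ 0 := Subgroup.index_ne_zero_of_finite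
    show 1 < N.index
    omega
  obtain ⟨Lb, hLbn, hLbi⟩ := Cfsg.Agent.Helper6.exists_normal_prime_index (G := G ⧸ N)
  haveI := hLbn
  obtain ⟨L, hLdef⟩ : ∃ L : Subgroup G, L = Lb.comap (QuotientGroup.mk' N) := ⟨_, rfl⟩
  haveI hLn : L.Normal := by rw [hLdef]; infer_instance
  have hNL : N ≤ L := by
    rw [hLdef]
    intro n hn
    rw [Subgroup.mem_comap]
    have : QuotientGroup.mk' N n = 1 := (QuotientGroup.eq_one_iff n).mpr hn
    rw [this]; exact Lb.one_mem
  have hLi : L.index.Prime := by
    rw [hLdef, Subgroup.index_comap_of_surjective _ (QuotientGroup.mk'_surjective N)]; exact hLbi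
  have hall : ∀ x : G, x ∈ L := by
    intro x
    have hx : ∀ p : Nat.Primes, x ∈ Subgroup.normalizer ((K p ⊔ L : Subgroup G) : Set G) := by
      intro p
      have hd : (K p ⊔ L).index ∣ L.index := Subgroup.index_dvd_of_le le_sup_right
      rcases (Nat.dvd_prime hLi).mp hd with h | h
      · rw [Subgroup.index_eq_one.mp h]
        exact Subgroup.mem_normalizer_iff.mpr (fun h => by simp)
      · have h1 := Subgroup.relIndex_mul_index (le_sup_right : L ≤ K p ⊔ L)
        rw [h] at h1
        have h2 : L.relIndex (K p ⊔ L) = 1 :=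
          Nat.eq_of_mul_eq_mul_right hLi.pos (by rw [h1, one_mul])
        have h3 : K p ⊔ L = L := le_antisymm (Subgroup.relIndex_eq_one.mp h2) le_sup_right
        rw [h3]
        exact Subgroup.mem_normalizer_iff.mpr (fun h => ⟨fun hh => hLn.conj_mem h hh x,
          fun hh => by have := hLn.conj_mem _ hh x⁻¹; simpa [mul_assoc] using this⟩)
    obtain ⟨d, hd, l, hl, hdl⟩ := Cfsg.Agent.Helper6.sysnorm_cover K hK _ L hLn rfl x hx
    rw [hdl]
    exact L.mul_mem (hNL (hDN hd)) hl
  have : L = ⊤ := eq_top_iff.mpr (fun x _ => hall x)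
  rw [this, Subgroup.index_top] at hLi
  exact Nat.not_prime_one hLi

end Cfsg.Agent.S0546
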