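import Cfsg.Statements.S0547
import Mathlib
import Cfsg.Agent.S0043

set_option autoImplicit false
open Cfsg

namespace Cfsg.Agent.S0547

/-- Let a finite solvable group G act faithfully and primitively on a set, and let M be a minimal normal subgroup of G. Then M is transitive with trivial point stabilizers, and the number of points equals the order of M, which is a prime power p ^ d with d ≥ 1. -/
theorem result {G : Type*} [Group G] [Finite G] [Group.IsSolvable G] {Ω : Type*} [Nonempty Ω] [MulAction G Ω] [FaithfulSMul G Ω] (hprim : MulAction.IsPreprimitive G Ω) (M : Subgroup G) [M.Normal] (hM : M ≠ ⊥) (hmin : ∀ K : Subgroup G, K.Normal → K ≤ M → K = ⊥ ∨ K = M) : MulAction.IsPretransitive M Ω ∧ (∀ ω : Ω, MulAction.stabilizer M ω = ⊥) ∧ ∃ p d : ℕ, p.Prime ∧ 0 < d ∧ Nat.card Ω = p ^ d ∧ Nat.card M = p ^ d := by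
  classical
  have hMn : M.Normal := inferInstance
  obtain ⟨hMab, p, hp, hpow⟩ := Cfsg.Agent.S0043.result M hM hmin
  have hfix : MulAction.fixedPoints M Ω ≠ Set.univ := by
    intro h
    apply hM
    rw [eq_bot_iff]
    intro m hm
    rw [Subgroup.mem_bot]
    apply FaithfulSMul.eq_of_smul_eq_smul (α := Ω)
    intro ω
    have h1 : ω ∈ MulAction.fixedPoints M Ω := by rw [h]; trivial
    rw [MulAction.mem_fixedPoints] at h1
    rw [one_smul]
    exact h1 ⟨m, hm⟩
  have htrans : MulAction.IsPretransitive M Ω :=
    MulAction.IsQuasiPreprimitive.isPretransitive_of_normal hfix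
  have hstab : ∀ ω : Ω, MulAction.stabilizer M ω = ⊥ := by
    intro a
    rw [eq_bot_iff]
    intro m hm
    rw [MulAction.mem_stabilizer_iff] at hm
    rw [Subgroup.mem_bot]
    apply Subtype.ext
    apply FaithfulSMul.eq_of_smul_eq_smul (α := Ω)
    intro b
    obtain ⟨n, rfl⟩ := MulAction.exists_smul_eq M a b
    show m • (n • a) = (1 : G) • (n • a)
    rw [one_smul, smul_smul, mul_comm' m n, ← smul_smul, hm]
  refine ⟨htrans, hstab, ?_⟩
  obtain ⟨ω⟩ := ‹Nonempty Ω›
  have hcard : Nat.card Ω = Nat.card M := by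
    have hbij : Function.Bijective (fun m : M => m • ω) := by
      constructor
      · intro m n hmn
        have hmn' : m • ω = n • ω := hmn
        have h1 : n⁻¹ * m ∈ MulAction.stabilizer M ω := by
          rw [MulAction.mem_stabilizer_iff, mul_smul, hmn', inv_smul_smul]
        rw [hstab, Subgroup.mem_bot] at h1
        exact (inv_mul_eq_one.mp h1).symm
      · intro b
        exact MulAction.exists_smul_eq M ω b
    exact (Nat.card_congr (Equiv.ofBijective _ hbij)).symm
  have hpg : IsPGroup p M := by
    intro m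
    refine ⟨1, ?_⟩
    rw [pow_one]
    apply Subtype.ext
    have h1 := hpow (m : G) m.2
    simpa using h1
  have : Fact p.Prime := ⟨hp⟩
  obtain ⟨d, hd⟩ := IsPGroup.iff_card.mp hpg
  refine ⟨p, d, hp, ?_, hcard.trans hd, hd⟩
  by_contra h0
  have hd0 : d = 0 := by omega
  rw [hd0, pow_zero] at hd
  have hMnt : Nontrivial M := (Subgroup.nontrivial_iff_ne_bot M).mpr hM
  have hlt : 1 < Nat.card M := Finite.one_lt_card
  omega

end Cfsg.Agent.S0547
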