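import Cfsg.Statements.S0548
import Mathlib
import Cfsg.Agent.Helper4.SupMul
import Cfsg.Agent.S0547

set_option autoImplicit false
open Cfsg

namespace Cfsg.Agent.S0548

/-- Let a finite solvable group G act faithfully and primitively on a set, let M be a minimal normal subgroup and H the stabilizer of a point. Then H is a complement to M, no non-identity element of H centralizes M, and the only subgroups of M normalized by H are the trivial subgroup and M. -/
theorem result {G : Type*} [Group G] [Finite G] [Group.IsSolvable G] {Ω : Type*} [MulAction G Ω] [FaithfulSMul G Ω] (hprim : MulAction.IsPreprimitive G Ω) (M : Subgroup G) [M.Normal] (hM : M ≠ ⊥) (hmin : ∀ K : Subgroup G, K.Normal → K ≤ M → K = ⊥ ∨ K = M) (ω : Ω) : Subgroup.IsComplement' M (MulAction.stabilizer G ω) ∧ MulAction.stabilizer G ω ⊓ Subgroup.centralizer (M : Set G) = ⊥ ∧ ∀ K : Subgroup G, K ≤ M → MulAction.stabilizer G ω ≤ Subgroup.normalizer (K : Set G) → K = ⊥ ∨ K = M := by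
  classical
  have hne : Nonempty Ω := ⟨ω⟩
  obtain ⟨htrans, hstab, -⟩ := Cfsg.Agent.S0547.result hprim M hM hmin
  have hMH : ∀ m ∈ M, m ∈ MulAction.stabilizer G ω → m = 1 := by
    intro m hm hmω
    rw [MulAction.mem_stabilizer_iff] at hmω
    have h1 : (⟨m, hm⟩ : M) ∈ MulAction.stabilizer M ω := by
      rw [MulAction.mem_stabilizer_iff]; exact hmω
    rw [hstab ω, Subgroup.mem_bot] at h1
    exact congrArg Subtype.val h1
  have hdisj : Disjoint M (MulAction.stabilizer G ω) := by
    rw [Subgroup.disjoint_def]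
    intro x hx hx'
    exact hMH x hx hx'
  have hnt : Nontrivial Ω := by
    obtain ⟨m, hm⟩ := Subgroup.ne_bot_iff_exists_ne_one.mp hM
    have h1 : (m : G) ≠ 1 := fun h => hm (Subtype.ext h)
    obtain ⟨b, hb⟩ : ∃ b : Ω, (m : G) • b ≠ b := by
      by_contra hcon
      push Not at hcon
      apply h1
      apply FaithfulSMul.eq_of_smul_eq_smul (α := Ω)
      intro b
      rw [hcon b, one_smul]
    exact ⟨⟨_, b, hb⟩⟩
  have hK : IsCoatom (MulAction.stabilizer G ω) :=
    MulAction.IsPreprimitive.isCoatom_stabilizer_of_isPreprimitive G ω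
  refine ⟨?_, ?_, ?_⟩
  · apply Subgroup.isComplement'_of_disjoint_and_mul_eq_univ hdisj
    rw [Set.eq_univ_iff_forall]
    intro g
    obtain ⟨m, hm⟩ := MulAction.exists_smul_eq M ω (g • ω)
    refine ⟨(m : G), m.2, (m : G)⁻¹ * g, ?_, by simp⟩
    show (m : G)⁻¹ * g ∈ MulAction.stabilizer G ω
    rw [MulAction.mem_stabilizer_iff, mul_smul, ← hm]
    exact inv_smul_smul _ _
  · rw [eq_bot_iff]
    intro h hh
    obtain ⟨hh1, hh2⟩ := Subgroup.mem_inf.mp hh
    rw [MulAction.mem_stabilizer_iff] at hh1
    rw [Subgroup.mem_centralizer_iff] at hh2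
    rw [Subgroup.mem_bot]
    apply FaithfulSMul.eq_of_smul_eq_smul (α := Ω)
    intro b
    obtain ⟨m, rfl⟩ := MulAction.exists_smul_eq M ω b
    show h • ((m : G) • ω) = (1 : G) • ((m : G) • ω)
    rw [one_smul, smul_smul, ← hh2 (m : G) m.2, ← smul_smul, hh1]
  · intro K hKM hinv
    rcases hK.le_iff.mp (le_sup_right : MulAction.stabilizer G ω ≤ K ⊔ MulAction.stabilizer G ω)
      with htop | heq
    · right
      apply le_antisymm hKM
      intro m hm
      have hmem : m ∈ MulAction.stabilizer G ω ⊔ K := by rw [sup_comm, htop]; trivial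
      obtain ⟨h, hh, k, hk, rfl⟩ :=
        Cfsg.Agent.Helper4.exists_mul_of_mem_sup_of_le_normalizer hinv hmem
      have hhM : h ∈ M := by
        have := M.mul_mem hm (M.inv_mem (hKM hk))
        simpa using this
      have h1 := hMH h hhM hh
      rw [h1, one_mul]
      exact hk
    · left
      rw [eq_bot_iff]
      intro k hk
      have h1 : k ∈ MulAction.stabilizer G ω := by rw [← heq]; exact le_sup_left (a := K) hk
      rw [Subgroup.mem_bot]
      exact hMH k (hKM hk) h1

end Cfsg.Agent.S0548
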