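import Cfsg.Statements.S0549
import Mathlib

set_option autoImplicit false
open Cfsg

namespace Cfsg.Agent.S0549

/-- Let U be a maximal subgroup of a finite group G whose normal core is trivial, and N a nontrivial normal subgroup with centralizer C. Then C ∩ U = 1, and either C = 1 or C is a minimal normal subgroup of G. -/
theorem result {G : Type*} [Group G] [Finite G] (U : Subgroup G) (hU : IsCoatom U) (hcore : U.normalCore = ⊥) (N : Subgroup G) [N.Normal] (hN : N ≠ ⊥) : Subgroup.centralizer (N : Set G) ⊓ U = ⊥ ∧ (Subgroup.centralizer (N : Set G) = ⊥ ∨ (Subgroup.centralizer (N : Set G) ≠ ⊥ ∧ ∀ K : Subgroup G, K.Normal → K ≤ Subgroup.centralizer (N : Set G) → K = ⊥ ∨ K = Subgroup.centralizer (N : Set G))) := by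
  have hCn : (Subgroup.centralizer (N : Set G)).Normal := inferInstance
  have hnot : ∀ K : Subgroup G, K.Normal → K ≠ ⊥ → K ⊔ U = ⊤ := by
    intro K hK hK0
    apply hU.2
    refine lt_of_le_of_ne le_sup_right ?_
    intro h
    apply hK0
    have hKU : K ≤ U := by rw [h]; exact le_sup_left
    haveI := hK
    have h2 : K ≤ U.normalCore := Subgroup.normal_le_normalCore.mpr hKU
    rw [hcore] at h2
    exact le_bot_iff.mp h2
  have h1 : Subgroup.centralizer (N : Set G) ⊓ U = ⊥ := by
    rw [eq_bot_iff, ← hcore]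
    haveI hDn : (Subgroup.centralizer (N : Set G) ⊓ U).Normal := by
      constructor
      intro d hd g
      rw [Subgroup.mem_inf] at hd
      have hg : g ∈ N ⊔ U := by rw [hnot N inferInstance hN]; trivial
      obtain ⟨n, hn, u, hu, rfl⟩ := Subgroup.mem_sup_of_normal_left.mp hg
      have hud : u * d * u⁻¹ ∈ Subgroup.centralizer (N : Set G) ⊓ U :=
        Subgroup.mem_inf.mpr ⟨hCn.conj_mem d hd.1 u, mul_mem (mul_mem hu hd.2) (inv_mem hu)⟩
      have hud1 := (Subgroup.mem_inf.mp hud).1
      have e : n * u * d * (n * u)⁻¹ = u * d * u⁻¹ := by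
        have hc := Subgroup.mem_centralizer_iff.mp hud1 n hn
        calc n * u * d * (n * u)⁻¹ = n * (u * d * u⁻¹) * n⁻¹ := by group
          _ = (u * d * u⁻¹) * n * n⁻¹ := by rw [hc]
          _ = u * d * u⁻¹ := by group
      rw [e]
      exact hud
    exact Subgroup.normal_le_normalCore.mpr inf_le_right
  refine ⟨h1, ?_⟩
  by_cases hC : Subgroup.centralizer (N : Set G) = ⊥
  · left
    exact hC
  · right
    refine ⟨hC, ?_⟩
    intro K hK hKC
    by_cases hK0 : K = ⊥
    · left
      exact hK0
    · right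
      apply le_antisymm hKC
      intro c hc
      have hg : c ∈ K ⊔ U := by rw [hnot K hK hK0]; trivial
      haveI := hK
      obtain ⟨k, hk, u, hu, rfl⟩ := Subgroup.mem_sup_of_normal_left.mp hg
      have hu' : u ∈ Subgroup.centralizer (N : Set G) ⊓ U := by
        refine Subgroup.mem_inf.mpr ⟨?_, hu⟩
        have e : u = k⁻¹ * (k * u) := by group
        rw [e]
        exact mul_mem (inv_mem (hKC hk)) hc
      rw [h1, Subgroup.mem_bot] at hu'
      rw [hu', mul_one]
      exact hk


end Cfsg.Agent.S0549
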