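import Cfsg.Statements.S0550
import Mathlib
import Cfsg.Agent.S0549

set_option autoImplicit false
open Cfsg

namespace Cfsg.Agent.S0550

theorem equiv_of_map_eq {G K : Type*} [Group G] [Group K] (f : G →* K) (X Y : Subgroup G)
    (hX : X ⊓ f.ker = ⊥) (hY : Y ⊓ f.ker = ⊥) (h : X.map f = Y.map f) : Nonempty (X ≃* Y) := by
  have hXi : Function.Injective (f.domRestrict X) := by
    rw [← MonoidHom.ker_eq_bot_iff, MonoidHom.ker_domRestrict, Subgroup.subgroupOf_eq_bot,
      disjoint_iff, inf_comm]
    exact hX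
  have hYi : Function.Injective (f.domRestrict Y) := by
    rw [← MonoidHom.ker_eq_bot_iff, MonoidHom.ker_domRestrict, Subgroup.subgroupOf_eq_bot,
      disjoint_iff, inf_comm]
    exact hY
  have hr : (f.domRestrict X).range = (f.domRestrict Y).range := by
    rw [MonoidHom.domRestrict_range, MonoidHom.domRestrict_range, h]
  exact ⟨(MonoidHom.ofInjective hXi).trans
    ((MulEquiv.subgroupCongr hr).trans (MonoidHom.ofInjective hYi).symm)⟩

/-- Let U be a maximal subgroup with trivial normal core in a finite group G, and A ≠ B two minimal normal subgroups. Then A is the centralizer of B and B that of A, U complements each of them, A and B are non-abelian, and A, B and (A ⊔ B) ∩ U are pairwise isomorphic. -/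
theorem result {G : Type*} [Group G] [Finite G] (U : Subgroup G) (hU : IsCoatom U) (hcore : U.normalCore = ⊥) (A B : Subgroup G) [A.Normal] [B.Normal] (hA : A ≠ ⊥) (hB : B ≠ ⊥) (hAmin : ∀ K : Subgroup G, K.Normal → K ≤ A → K = ⊥ ∨ K = A) (hBmin : ∀ K : Subgroup G, K.Normal → K ≤ B → K = ⊥ ∨ K = B) (hAB : A ≠ B) : Subgroup.centralizer (B : Set G) = A ∧ Subgroup.centralizer (A : Set G) = B ∧ Subgroup.IsComplement' A U ∧ Subgroup.IsComplement' B U ∧ ¬ IsMulCommutative A ∧ Nonempty (A ≃* B) ∧ Nonempty (A ≃* ↥((A ⊔ B) ⊓ U)) := by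
  have hAn : A.Normal := inferInstance
  have hBn : B.Normal := inferInstance
  have hAB0 : A ⊓ B = ⊥ := by
    rcases hAmin (A ⊓ B) inferInstance inf_le_left with h | h
    · exact h
    · exfalso
      have hle : A ≤ B := by
        rw [← h]
        exact inf_le_right
      rcases hBmin A inferInstance hle with h' | h'
      · exact hA h'
      · exact hAB h'
  have hcomm : ∀ a ∈ A, ∀ b ∈ B, a * b = b * a := fun a ha b hb =>
    (Subgroup.commute_of_normal_of_disjoint A B inferInstance inferInstance
      (disjoint_iff.mpr hAB0) a b ha hb).eq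
  have hBCA : B ≤ Subgroup.centralizer (A : Set G) := by
    intro b hb
    rw [Subgroup.mem_centralizer_iff]
    intro a ha
    exact hcomm a ha b hb
  have hACB : A ≤ Subgroup.centralizer (B : Set G) := by
    intro a ha
    rw [Subgroup.mem_centralizer_iff]
    intro b hb
    exact (hcomm a ha b hb).symm
  obtain ⟨hA1, hA2⟩ := Cfsg.Agent.S0549.result U hU hcore A hA
  obtain ⟨hB1, hB2⟩ := Cfsg.Agent.S0549.result U hU hcore B hB
  have hCA : Subgroup.centralizer (A : Set G) = B := by
    rcases hA2 with h | ⟨hne, hmin⟩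
    · exfalso
      apply hB
      rw [eq_bot_iff, ← h]
      exact hBCA
    · rcases hmin B inferInstance hBCA with h | h
      · exact absurd h hB
      · exact h.symm
  have hCB : Subgroup.centralizer (B : Set G) = A := by
    rcases hB2 with h | ⟨hne, hmin⟩
    · exfalso
      apply hA
      rw [eq_bot_iff, ← h]
      exact hACB
    · rcases hmin A inferInstance hACB with h | h
      · exact absurd h hA
      · exact h.symm
  have hBU : B ⊓ U = ⊥ := by
    rw [← hCA]
    exact hA1
  have hAU : A ⊓ U = ⊥ := by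
    rw [← hCB]
    exact hB1
  have hnot : ∀ K : Subgroup G, K.Normal → K ≠ ⊥ → K ⊔ U = ⊤ := by
    intro K hK hK0
    apply hU.2
    refine lt_of_le_of_ne le_sup_right ?_
    intro h
    apply hK0
    have hKU : K ≤ U := by rw [h]; exact le_sup_left
    haveI := hK
    have h2 : K ≤ U.normalCore := Subgroup.normal_le_normalCore.mpr hKU
    rw [hcore] at h2
    exact le_bot_iff.mp h2
  have hAUtop := hnot A inferInstance hA
  have hBUtop := hnot B inferInstance hB
  have hcA : Subgroup.IsComplement' A U :=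
    Subgroup.isComplement'_of_disjoint_and_mul_eq_univ (disjoint_iff.mpr hAU) (by
      rw [← Subgroup.normal_mul, hAUtop]
      rfl)
  have hcB : Subgroup.IsComplement' B U :=
    Subgroup.isComplement'_of_disjoint_and_mul_eq_univ (disjoint_iff.mpr hBU) (by
      rw [← Subgroup.normal_mul, hBUtop]
      rfl)
  have hnab : ¬ IsMulCommutative A := by
    intro hc
    have h1 : A ≤ Subgroup.centralizer (A : Set G) :=
      Subgroup.le_centralizer_iff_isMulCommutative.mpr hc
    rw [hCA] at h1
    apply hA
    rw [eq_bot_iff, ← hAB0]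
    exact le_inf le_rfl h1
  have hDB : (A ⊔ B) ⊓ U ⊔ B = A ⊔ B := by
    apply le_antisymm
    · exact sup_le inf_le_left le_sup_right
    · apply sup_le _ le_sup_right
      intro a ha
      have hg : a ∈ B ⊔ U := by rw [hBUtop]; trivial
      obtain ⟨b, hb, u, hu, rfl⟩ := Subgroup.mem_sup_of_normal_left.mp hg
      have hu' : u ∈ (A ⊔ B) ⊓ U := by
        refine Subgroup.mem_inf.mpr ⟨?_, hu⟩
        have e : u = b⁻¹ * (b * u) := by group
        rw [e]
        exact mul_mem (Subgroup.mem_sup_right (inv_mem hb)) (Subgroup.mem_sup_left ha)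
      exact mul_mem (Subgroup.mem_sup_right hb) (Subgroup.mem_sup_left hu')
  have hDA : (A ⊔ B) ⊓ U ⊔ A = A ⊔ B := by
    apply le_antisymm
    · exact sup_le inf_le_left le_sup_left
    · apply sup_le le_sup_right
      intro b hb
      have hg : b ∈ A ⊔ U := by rw [hAUtop]; trivial
      obtain ⟨a, ha, u, hu, rfl⟩ := Subgroup.mem_sup_of_normal_left.mp hg
      have hu' : u ∈ (A ⊔ B) ⊓ U := by
        refine Subgroup.mem_inf.mpr ⟨?_, hu⟩
        have e : u = a⁻¹ * (a * u) := by group
        rw [e]
        exact mul_mem (Subgroup.mem_sup_left (inv_mem ha)) (Subgroup.mem_sup_right hb)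
      exact mul_mem (Subgroup.mem_sup_right ha) (Subgroup.mem_sup_left hu')
  have e1 : Nonempty (A ≃* ↥((A ⊔ B) ⊓ U)) := by
    apply equiv_of_map_eq (QuotientGroup.mk' B)
    · rw [QuotientGroup.ker_mk']
      exact hAB0
    · rw [QuotientGroup.ker_mk', eq_bot_iff, ← hBU]
      exact le_inf inf_le_right (inf_le_left.trans inf_le_right)
    · rw [Subgroup.map_eq_map_iff, QuotientGroup.ker_mk']
      exact hDB.symm
  have e2 : Nonempty (B ≃* ↥((A ⊔ B) ⊓ U)) := by
    apply equiv_of_map_eq (QuotientGroup.mk' A)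
    · rw [QuotientGroup.ker_mk', inf_comm]
      exact hAB0
    · rw [QuotientGroup.ker_mk', eq_bot_iff, ← hAU]
      exact le_inf inf_le_right (inf_le_left.trans inf_le_right)
    · rw [Subgroup.map_eq_map_iff, QuotientGroup.ker_mk', hDA, sup_comm]
  obtain ⟨f1⟩ := e1
  obtain ⟨f2⟩ := e2
  exact ⟨hCB, hCA, hcA, hcB, hnab, ⟨f1.trans f2.symm⟩, ⟨f1⟩⟩


end Cfsg.Agent.S0550
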