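import Cfsg.Statements.S0551
import Cfsg.Agent.Helper4.Wielandt
import Cfsg.Agent.Helper4.SupIndex2
import Cfsg.Agent.Helper4.RelSylow
import Cfsg.Agent.Helper4.SupMul
import Cfsg.Agent.S0043
import Cfsg.Agent.S0549
import Cfsg.Agent.S0065

set_option autoImplicit false
open Pointwise
open Cfsg

namespace Cfsg.Agent.S0551

open scoped Pointwise in
theorem s0551_isCoatom_smul {G : Type*} [Group G] (c : MulAut G) (M : Subgroup G)
    (hM : IsCoatom M) : IsCoatom (c • M) := by
  have : c • M = MulEquiv.mapSubgroup c M := rfl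
  rw [this, OrderIso.isCoatom_iff]
  exact hM


/-- In a finite solvable group all core-free maximal subgroups are conjugate. -/
theorem result {G : Type*} [Group G] [Finite G] [Group.IsSolvable G] (U V : Subgroup G) (hU : IsCoatom U) (hV : IsCoatom V) (hUc : U.normalCore = ⊥) (hVc : V.normalCore = ⊥) : ∃ g : G, MulAut.conj g • U = V := by
  classical
  have htriv : (⊤ : Subgroup G) ≠ ⊥ := by
    intro h
    apply hU.1
    rw [h, eq_bot_iff, ← h]
    exact le_top
  obtain ⟨N, ⟨hNn, hNne⟩, hNmin'⟩ := (wellFounded_lt (α := Subgroup G)).has_min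
    {M : Subgroup G | M.Normal ∧ M ≠ ⊥} ⟨⊤, Subgroup.normal_top, htriv⟩
  have hmin : ∀ K : Subgroup G, K.Normal → K ≤ N → K = ⊥ ∨ K = N := by
    intro K hK hKN
    by_cases hK0 : K = ⊥
    · exact Or.inl hK0
    right
    by_contra hne
    exact hNmin' K ⟨hK, hK0⟩ (lt_of_le_of_ne hKN hne)
  have := hNn
  obtain ⟨hNab, p, hp, hNp⟩ := Cfsg.Agent.S0043.result N hNne hmin
  have hp' : Fact p.Prime := ⟨hp⟩
  have hNC : N ≤ Subgroup.centralizer (N : Set G) := by
    intro n hn
    rw [Subgroup.mem_centralizer_iff]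
    intro m hm
    have := mul_comm' (⟨m, hm⟩ : N) ⟨n, hn⟩
    exact congrArg Subtype.val this
  have hNpg : IsPGroup p N := by
    intro n
    refine ⟨1, ?_⟩
    rw [pow_one]
    apply Subtype.ext
    have h1 := hNp (n : G) n.2
    simpa using h1
  obtain ⟨k, hk⟩ := IsPGroup.iff_card.mp hNpg
  -- facts about a core-free coatom
  have key : ∀ W : Subgroup G, IsCoatom W → W.normalCore = ⊥ →
      (N ⊓ W = ⊥ ∧ N ⊔ W = ⊤ ∧ Subgroup.centralizer (N : Set G) ⊓ W = ⊥ ∧ W.index = p ^ k) := by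
    intro W hW hWc
    have hNW : ¬ N ≤ W := fun h => hNne (by
      rw [eq_bot_iff, ← hWc]; exact Subgroup.normal_le_normalCore.mpr h)
    have hsup : N ⊔ W = ⊤ := by
      rcases hW.le_iff.mp (le_sup_right : W ≤ N ⊔ W) with h | h
      · exact h
      · exact absurd (le_sup_left.trans h.le) hNW
    have hC := (Cfsg.Agent.S0549.result W hW hWc N hNne).1
    have hinf : N ⊓ W = ⊥ := by
      rw [eq_bot_iff, ← hC]; exact inf_le_inf_right W hNC
    refine ⟨hinf, hsup, hC, ?_⟩
    have h1 := Cfsg.Agent.Helper4.relIndex_sup_eq_of_normal N W hNn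
    rw [hsup, Subgroup.relIndex_top_right] at h1
    rw [h1, ← Subgroup.inf_relIndex_left N W, hinf, Subgroup.relIndex_bot_left, hk]
  obtain ⟨hUinf, hUsup, hUC, hUidx⟩ := key U hU hUc
  obtain ⟨hVinf, hVsup, hVC, hVidx⟩ := key V hV hVc
  -- `C_G(N) = N`
  have hCN : Subgroup.centralizer (N : Set G) = N := by
    apply le_antisymm _ hNC
    intro c hc
    have hmem : c ∈ U ⊔ N := by rw [sup_comm, hUsup]; trivial
    have hUN : U ≤ Subgroup.normalizer (N : Set G) := by
      rw [Subgroup.normalizer_eq_top_iff.mpr hNn]; exact le_top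
    obtain ⟨u, hu, n, hn, rfl⟩ :=
      Cfsg.Agent.Helper4.exists_mul_of_mem_sup_of_le_normalizer hUN hmem
    have huC : u ∈ Subgroup.centralizer (N : Set G) := by
      have := (Subgroup.centralizer (N : Set G)).mul_mem hc
        ((Subgroup.centralizer (N : Set G)).inv_mem (hNC hn))
      simpa using this
    have hu1 : u ∈ Subgroup.centralizer (N : Set G) ⊓ U := Subgroup.mem_inf.mpr ⟨huC, hu⟩
    rw [hUC, Subgroup.mem_bot] at hu1
    rw [hu1, one_mul]; exact hn
  by_cases hNtop : N = ⊤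
  · refine ⟨1, ?_⟩
    rw [map_one, one_smul]
    have hU0 : U = ⊥ := by rw [← hUinf, hNtop, top_inf_eq]
    have hV0 : V = ⊥ := by rw [← hVinf, hNtop, top_inf_eq]
    rw [hU0, hV0]
  -- a minimal normal subgroup of `G ⧸ N`
  have htrivQ : (⊤ : Subgroup (G ⧸ N)) ≠ ⊥ := by
    intro h
    apply hNtop
    rw [eq_top_iff]
    intro g _
    have h1 : (QuotientGroup.mk' N g) ∈ (⊤ : Subgroup (G ⧸ N)) := trivial
    rw [h, Subgroup.mem_bot] at h1
    exact (QuotientGroup.eq_one_iff g).mp h1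
  obtain ⟨Lb, ⟨hLbn, hLbne⟩, hLbmin'⟩ := (wellFounded_lt (α := Subgroup (G ⧸ N))).has_min
    {M : Subgroup (G ⧸ N) | M.Normal ∧ M ≠ ⊥} ⟨⊤, Subgroup.normal_top, htrivQ⟩
  have hLbmin : ∀ K : Subgroup (G ⧸ N), K.Normal → K ≤ Lb → K = ⊥ ∨ K = Lb := by
    intro K hK hKN
    by_cases hK0 : K = ⊥
    · exact Or.inl hK0
    right
    by_contra hne
    exact hLbmin' K ⟨hK, hK0⟩ (lt_of_le_of_ne hKN hne)
  have := hLbn
  obtain ⟨-, q, hq, hLbq⟩ := Cfsg.Agent.S0043.result Lb hLbne hLbmin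
  have hq' : Fact q.Prime := ⟨hq⟩
  have hLn : (Lb.comap (QuotientGroup.mk' N)).Normal := hLbn.comap _
  have hNL : N ≤ Lb.comap (QuotientGroup.mk' N) := by
    intro n hn
    show QuotientGroup.mk' N n ∈ Lb
    have h1 : QuotientGroup.mk' N n = 1 := (QuotientGroup.eq_one_iff n).mpr hn
    rw [h1]; exact Lb.one_mem
  have hLq : ∀ l ∈ Lb.comap (QuotientGroup.mk' N), l ^ q ∈ N := by
    intro l hl
    have h1 : QuotientGroup.mk' N (l ^ q) = 1 := by
      rw [map_pow]; exact hLbq _ hl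
    exact (QuotientGroup.eq_one_iff _).mp h1
  have hLneN : ¬ Lb.comap (QuotientGroup.mk' N) ≤ N := by
    intro h
    apply hLbne
    rw [eq_bot_iff]
    intro x hx
    obtain ⟨g, rfl⟩ := QuotientGroup.mk'_surjective N x
    rw [Subgroup.mem_bot]
    exact (QuotientGroup.eq_one_iff g).mpr (h hx)
  -- `q ≠ p`
  have hqp : q ≠ p := by
    intro hqp
    subst hqp
    have hLpg : IsPGroup q ↥(Lb.comap (QuotientGroup.mk' N)) := by
      intro l
      refine ⟨2, ?_⟩
      apply Subtype.ext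
      have h1 := hNp _ (hLq (l : G) l.2)
      rw [pow_two, pow_mul]
      simpa using h1
    have hLnil : Group.IsNilpotent ↥(Lb.comap (QuotientGroup.mk' N)) := hLpg.isNilpotent
    have hNLn : (N.subgroupOf (Lb.comap (QuotientGroup.mk' N))).Normal := hNn.subgroupOf _
    have hNLne : N.subgroupOf (Lb.comap (QuotientGroup.mk' N)) ≠ ⊥ := by
      intro h
      apply hNne
      rw [eq_bot_iff]
      intro n hn
      have h1 : (⟨n, hNL hn⟩ : ↥(Lb.comap (QuotientGroup.mk' N))) ∈
          N.subgroupOf (Lb.comap (QuotientGroup.mk' N)) := hn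
      rw [h, Subgroup.mem_bot] at h1
      rw [Subgroup.mem_bot]
      exact congrArg Subtype.val h1
    have hZ := Cfsg.Agent.S0065.result (N.subgroupOf (Lb.comap (QuotientGroup.mk' N))) hNLne
    have hZn : ((Subgroup.center ↥(Lb.comap (QuotientGroup.mk' N))).map
        (Lb.comap (QuotientGroup.mk' N)).subtype).Normal :=
      ConjAct.normal_of_characteristic_of_normal
    have hNZn := Subgroup.normal_inf_normal N ((Subgroup.center
      ↥(Lb.comap (QuotientGroup.mk' N))).map (Lb.comap (QuotientGroup.mk' N)).subtype)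
    rcases hmin _ hNZn inf_le_left with h0 | h0
    · apply hZ
      rw [eq_bot_iff]
      intro z hz
      obtain ⟨hz1, hz2⟩ := Subgroup.mem_inf.mp hz
      have h1 : (z : G) ∈ N ⊓ (Subgroup.center ↥(Lb.comap (QuotientGroup.mk' N))).map
          (Lb.comap (QuotientGroup.mk' N)).subtype :=
        Subgroup.mem_inf.mpr ⟨hz1, ⟨z, hz2, rfl⟩⟩
      rw [h0, Subgroup.mem_bot] at h1
      rw [Subgroup.mem_bot]
      exact Subtype.ext h1
    · apply hLneN
      refine le_trans ?_ hCN.le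
      intro l hl
      rw [Subgroup.mem_centralizer_iff]
      intro n hn
      have h1 : n ∈ (Subgroup.center ↥(Lb.comap (QuotientGroup.mk' N))).map
          (Lb.comap (QuotientGroup.mk' N)).subtype := by
        have : n ∈ N ⊓ (Subgroup.center ↥(Lb.comap (QuotientGroup.mk' N))).map
          (Lb.comap (QuotientGroup.mk' N)).subtype := by rw [h0]; exact hn
        exact (Subgroup.mem_inf.mp this).2
      obtain ⟨z, hz, rfl⟩ := h1
      have hz' : z ∈ Subgroup.center ↥(Lb.comap (QuotientGroup.mk' N)) := hz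
      rw [Subgroup.mem_center_iff] at hz'
      have h2 := hz' ⟨l, hl⟩
      have h3 := congrArg Subtype.val h2
      simpa using h3.symm
  -- the Sylow `q`-subgroups `L ⊓ W`
  have key2 : ∀ W : Subgroup G, IsCoatom W → W.normalCore = ⊥ → N ⊓ W = ⊥ → N ⊔ W = ⊤ →
      W.index = p ^ k →
      (IsPGroup q ↥(Lb.comap (QuotientGroup.mk' N) ⊓ W) ∧
       (Lb.comap (QuotientGroup.mk' N) ⊓ W).relIndex (Lb.comap (QuotientGroup.mk' N)) = p ^ k ∧
       Subgroup.normalizer ((Lb.comap (QuotientGroup.mk' N) ⊓ W : Subgroup G) : Set G) = W) := by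
    intro W hW hWc hWinf hWsup hWidx
    refine ⟨?_, ?_, ?_⟩
    · intro x
      refine ⟨1, ?_⟩
      rw [pow_one]
      apply Subtype.ext
      obtain ⟨hx1, hx2⟩ := Subgroup.mem_inf.mp x.2
      have h1 : (x : G) ^ q ∈ N ⊓ W := Subgroup.mem_inf.mpr ⟨hLq _ hx1, W.pow_mem hx2 q⟩
      rw [hWinf, Subgroup.mem_bot] at h1
      simpa using h1
    · rw [Subgroup.inf_relIndex_left]
      have h1 := Cfsg.Agent.Helper4.relIndex_sup_eq_of_normal
        (Lb.comap (QuotientGroup.mk' N)) W hLn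
      have h2 : Lb.comap (QuotientGroup.mk' N) ⊔ W = ⊤ := by
        rw [eq_top_iff, ← hWsup]; exact sup_le_sup_right hNL W
      rw [h2, Subgroup.relIndex_top_right] at h1
      rw [← h1, hWidx]
    · have hle : W ≤ Subgroup.normalizer
          ((Lb.comap (QuotientGroup.mk' N) ⊓ W : Subgroup G) : Set G) := by
        apply Cfsg.Agent.Helper4.le_normalizer_of_conj_mem'
        intro w hw x hx
        obtain ⟨hx1, hx2⟩ := Subgroup.mem_inf.mp hx
        exact Subgroup.mem_inf.mpr ⟨hLn.conj_mem x hx1 w, W.mul_mem (W.mul_mem hw hx2) (W.inv_mem hw)⟩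
      rcases hW.le_iff.mp hle with h | h
      · exfalso
        have hnorm : (Lb.comap (QuotientGroup.mk' N) ⊓ W).Normal :=
          Subgroup.normalizer_eq_top_iff.mp h
        have h0 : Lb.comap (QuotientGroup.mk' N) ⊓ W = ⊥ := by
          rw [eq_bot_iff, ← hWc]
          exact Subgroup.normal_le_normalCore.mpr inf_le_right
        apply hLneN
        intro l hl
        have hmem : l ∈ W ⊔ N := by rw [sup_comm, hWsup]; trivial
        have hWN : W ≤ Subgroup.normalizer (N : Set G) := by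
          rw [Subgroup.normalizer_eq_top_iff.mpr hNn]; exact le_top
        obtain ⟨w, hw, n, hn, rfl⟩ :=
          Cfsg.Agent.Helper4.exists_mul_of_mem_sup_of_le_normalizer hWN hmem
        have hwL : w ∈ Lb.comap (QuotientGroup.mk' N) := by
          have := (Lb.comap (QuotientGroup.mk' N)).mul_mem hl
            ((Lb.comap (QuotientGroup.mk' N)).inv_mem (hNL hn))
          simpa using this
        have hw1 : w ∈ Lb.comap (QuotientGroup.mk' N) ⊓ W := Subgroup.mem_inf.mpr ⟨hwL, hw⟩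
        rw [h0, Subgroup.mem_bot] at hw1
        rw [hw1, one_mul]; exact hn
      · exact h
  obtain ⟨hUq, hUri, hUnorm⟩ := key2 U hU hUc hUinf hUsup hUidx
  obtain ⟨hVq, hVri, hVnorm⟩ := key2 V hV hVc hVinf hVsup hVidx
  have hqndvd : ¬ q ∣ (Lb.comap (QuotientGroup.mk' N) ⊓ V).relIndex
      (Lb.comap (QuotientGroup.mk' N)) := by
    rw [hVri]
    intro h
    exact hqp ((Nat.prime_dvd_prime_iff_eq hq hp).mp (hq.dvd_of_dvd_pow h))
  obtain ⟨c, hcL, hc⟩ := Cfsg.Agent.Helper4.exists_conj_le_of_relIndex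
    (Lb.comap (QuotientGroup.mk' N)) (Lb.comap (QuotientGroup.mk' N) ⊓ V)
    (Lb.comap (QuotientGroup.mk' N) ⊓ U) hVq hqndvd hUq inf_le_left
  -- cardinalities agree
  have hcardU : Nat.card ↥(Lb.comap (QuotientGroup.mk' N) ⊓ U) * p ^ k =
      Nat.card ↥(Lb.comap (QuotientGroup.mk' N)) := by
    have h0 := Subgroup.relIndex_mul_relIndex (⊥ : Subgroup G)
      (Lb.comap (QuotientGroup.mk' N) ⊓ U) (Lb.comap (QuotientGroup.mk' N)) bot_le inf_le_left
    rwa [Subgroup.relIndex_bot_left, Subgroup.relIndex_bot_left, hUri] at h0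
  have hcardV : Nat.card ↥(Lb.comap (QuotientGroup.mk' N) ⊓ V) * p ^ k =
      Nat.card ↥(Lb.comap (QuotientGroup.mk' N)) := by
    have h0 := Subgroup.relIndex_mul_relIndex (⊥ : Subgroup G)
      (Lb.comap (QuotientGroup.mk' N) ⊓ V) (Lb.comap (QuotientGroup.mk' N)) bot_le inf_le_left
    rwa [Subgroup.relIndex_bot_left, Subgroup.relIndex_bot_left, hVri] at h0
  have hcardeq : Nat.card ↥(Lb.comap (QuotientGroup.mk' N) ⊓ U) =
      Nat.card ↥(Lb.comap (QuotientGroup.mk' N) ⊓ V) :=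
    Nat.eq_of_mul_eq_mul_right (pow_pos hp.pos k) (hcardU.trans hcardV.symm)
  have hconj_le : MulAut.conj c • (Lb.comap (QuotientGroup.mk' N) ⊓ U) ≤
      Lb.comap (QuotientGroup.mk' N) ⊓ V := by
    intro z hz
    rw [Subgroup.mem_smul_pointwise_iff_exists] at hz
    obtain ⟨x, hx, rfl⟩ := hz
    rw [MulAut.smul_def, MulAut.conj_apply]
    exact hc x hx
  have hconj_eq : MulAut.conj c • (Lb.comap (QuotientGroup.mk' N) ⊓ U) =
      Lb.comap (QuotientGroup.mk' N) ⊓ V := by
    apply Subgroup.eq_of_le_of_card_ge hconj_le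
    rw [← hcardeq]
    exact (Nat.card_congr (Subgroup.equivSMul (MulAut.conj c)
      (Lb.comap (QuotientGroup.mk' N) ⊓ U)).toEquiv).le
  have hcUV : MulAut.conj c • U ≤ V := by
    rw [← hVnorm]
    apply Cfsg.Agent.Helper4.le_normalizer_of_conj_mem'
    intro y hy x hx
    rw [Subgroup.mem_smul_pointwise_iff_exists] at hy
    obtain ⟨u, hu, rfl⟩ := hy
    rw [← hconj_eq] at hx ⊢
    rw [Subgroup.mem_smul_pointwise_iff_exists] at hx
    obtain ⟨x', hx', rfl⟩ := hx
    have hux : u * x' * u⁻¹ ∈ Lb.comap (QuotientGroup.mk' N) ⊓ U := by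
      obtain ⟨hx1, hx2⟩ := Subgroup.mem_inf.mp hx'
      exact Subgroup.mem_inf.mpr ⟨hLn.conj_mem x' hx1 u, U.mul_mem (U.mul_mem hu hx2) (U.inv_mem hu)⟩
    have h5 := Subgroup.smul_mem_pointwise_smul _ (MulAut.conj c) _ hux
    have h6 : MulAut.conj c • u * MulAut.conj c • x' * (MulAut.conj c • u)⁻¹ =
        MulAut.conj c • (u * x' * u⁻¹) := by
      simp [MulAut.smul_def]
    rw [h6]; exact h5
  have hco := s0551_isCoatom_smul (MulAut.conj c) U hU
  refine ⟨c, ?_⟩
  rcases hco.le_iff.mp hcUV with h | h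
  · exact absurd h hV.1
  · exact h.symm

end Cfsg.Agent.S0551
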