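import Cfsg.Statements.S0552
import Mathlib
import Cfsg.Agent.Helper3.Layer
-- import your own Cfsg.Agent.* helpers here

set_option autoImplicit false
open Cfsg

namespace Cfsg.Agent.S0552

/-- Let σ be an automorphism of a finite solvable group G fixing every element of the Fitting subgroup. If σ is not the identity then the order of σ and the order of G have a common prime factor. -/
theorem result {G : Type*} [Group G] [Finite G] [Group.IsSolvable G] (σ : G ≃* G) (hσ : ∀ x ∈ Cfsg.fittingSubgroup G, σ x = x) (hne : σ ≠ MulEquiv.refl G) : ¬ (orderOf σ).Coprime (Nat.card G) := by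
  intro hcop
  apply hne
  have hlayer : Cfsg.layer G = ⊥ :=
    Cfsg.Agent.Helper3.layer_eq_bot_of_le_solvable (⊤ : Subgroup G) inferInstance le_top
  have hCF : Subgroup.centralizer (Cfsg.fittingSubgroup G : Set G) ≤ Cfsg.fittingSubgroup G :=
    Cfsg.Agent.Helper3.centralizer_fitting_le_iff.mpr hlayer
  have hFn : (Cfsg.fittingSubgroup G).Normal := inferInstance
  ext g
  show σ g = g
  obtain ⟨c, hcdef⟩ : ∃ c : G, c = g⁻¹ * σ g := ⟨_, rfl⟩
  have hcC : c ∈ Subgroup.centralizer (Cfsg.fittingSubgroup G : Set G) := by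
    rw [Subgroup.mem_centralizer_iff]
    intro x hx
    have h1 : σ (g * x * g⁻¹) = g * x * g⁻¹ := hσ _ (hFn.conj_mem x hx g)
    rw [map_mul, map_mul, map_inv, hσ x hx] at h1
    rw [hcdef]
    calc x * (g⁻¹ * σ g) = g⁻¹ * (g * x * g⁻¹) * σ g := by group
      _ = g⁻¹ * (σ g * x * (σ g)⁻¹) * σ g := by rw [h1]
      _ = g⁻¹ * σ g * x := by group
  have hcF : c ∈ Cfsg.fittingSubgroup G := hCF hcC
  have hσc : σ c = c := hσ c hcF
  have hσg : σ g = g * c := by rw [hcdef]; group
  have hpow : ∀ n : ℕ, (σ ^ n) g = g * c ^ n := by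
    intro n
    induction n with
    | zero => simp
    | succ n ih =>
      rw [pow_succ', MulAut.mul_apply, ih, map_mul, map_pow, hσc, hσg, pow_succ']
      group
  have h1 := hpow (orderOf σ)
  rw [pow_orderOf_eq_one, MulAut.one_apply] at h1
  have h2 : c ^ orderOf σ = 1 := by
    have : g * c ^ orderOf σ = g * 1 := by rw [mul_one]; exact h1.symm
    exact mul_left_cancel this
  have h3 : orderOf c ∣ orderOf σ := orderOf_dvd_of_pow_eq_one h2
  have h4 : orderOf c ∣ Nat.card G := orderOf_dvd_natCard c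
  have h5 : orderOf c = 1 := Nat.eq_one_of_dvd_coprimes hcop h3 h4
  rw [orderOf_eq_one_iff] at h5
  rw [hσg, h5, mul_one]

end Cfsg.Agent.S0552
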