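import Cfsg.Statements.S0553
import Mathlib
import Cfsg.Agent.Helper3.SchurZ
import Cfsg.Agent.Helper4.PPrimeP
-- import your own Cfsg.Agent.* helpers here

set_option autoImplicit false
open Cfsg

namespace Cfsg.Agent.S0553

/-- Let G be a nontrivial finite solvable group in which every maximal subgroup has order coprime to its index. Then for some prime p dividing the order of G the Sylow p-subgroups of G are normal. -/
theorem result {G : Type*} [Group G] [Finite G] [Group.IsSolvable G] [Nontrivial G] (h : ∀ M : Subgroup G, IsCoatom M → (Nat.card M).Coprime M.index) : ∃ p : ℕ, p.Prime ∧ p ∣ Nat.card G ∧ ∀ P : Sylow p G, (P : Subgroup G).Normal := by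
  classical
  have hΦle : ∀ M : Subgroup G, IsCoatom M → frattini G ≤ M := fun M hM =>
    Order.radical_le_coatom hM
  obtain ⟨M0, hM0⟩ : ∃ M : Subgroup G, IsCoatom M := by
    rcases eq_top_or_exists_le_coatom (⊥ : Subgroup G) with h | ⟨M, hM, -⟩
    · exact absurd h bot_ne_top
    · exact ⟨M, hM⟩
  have hΦne : frattini G ≠ ⊤ := by
    intro h
    have := hΦle M0 hM0
    rw [h] at this
    exact hM0.1 (top_le_iff.mp this)
  haveI : Nontrivial (G ⧸ frattini G) := QuotientGroup.nontrivial_iff.mpr hΦne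
  obtain ⟨p, hp, N, hNn, hNne, hNp⟩ :=
    Cfsg.Agent.Helper3.exists_normal_pgroup_of_solvable (G ⧸ frattini G)
  haveI : Fact p.Prime := ⟨hp⟩
  have hsurj : Function.Surjective (QuotientGroup.mk' (frattini G)) := QuotientGroup.mk'_surjective _
  obtain ⟨Q, hQdef⟩ : ∃ Q : Subgroup G, Q = N.comap (QuotientGroup.mk' (frattini G)) := ⟨_, rfl⟩
  haveI hQn : Q.Normal := by rw [hQdef]; exact hNn.comap _
  have hΦQ : frattini G ≤ Q := by
    rw [hQdef]
    intro x hx
    rw [Subgroup.mem_comap]
    have : QuotientGroup.mk' (frattini G) x = 1 := (QuotientGroup.eq_one_iff x).mpr hx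
    rw [this]; exact N.one_mem
  have hQmap : Q.map (QuotientGroup.mk' (frattini G)) = N := by
    rw [hQdef]; exact Subgroup.map_comap_eq_self_of_surjective hsurj N
  -- index of Φ in Q
  obtain ⟨k, hk⟩ := IsPGroup.iff_card.mp hNp
  have hrel : (frattini G).relIndex Q = p ^ k := by
    have h1 : frattini G = (⊥ : Subgroup (G ⧸ frattini G)).comap (QuotientGroup.mk' (frattini G)) := by
      exact (QuotientGroup.ker_mk' (frattini G)).symm
    rw [h1, Subgroup.relIndex_comap, hQmap, Subgroup.relIndex_bot_left, hk]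
  -- some coatom does not contain Q
  have hex : ∃ M : Subgroup G, IsCoatom M ∧ ¬ Q ≤ M := by
    by_contra hcon
    push Not at hcon
    have hQΦ : Q ≤ frattini G := by
      intro x hx
      unfold frattini Order.radical
      simp only [Subgroup.mem_iInf]
      intro M hM
      exact hcon M hM hx
    have : N = ⊥ := by
      rw [← hQmap, eq_bot_iff]
      rintro _ ⟨x, hx, rfl⟩
      exact (QuotientGroup.eq_one_iff x).mpr (hQΦ hx)
    exact hNne this
  obtain ⟨M, hM, hQM⟩ := hex
  have hsup : M ⊔ Q = ⊤ := by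
    by_contra hne
    have h1 : M < M ⊔ Q := lt_of_le_of_ne le_sup_left (fun h => hQM (h ▸ le_sup_right))
    exact hne (hM.2 _ h1)
  have hMidx : M.index = M.relIndex Q := by
    rw [← Cfsg.Agent.Helper4.relIndex_sup_of_normal_right M Q, hsup, Subgroup.relIndex_top_right]
  have hMdvd : M.index ∣ p ^ k := by
    rw [hMidx, ← hrel]
    exact Subgroup.relIndex_dvd_of_le_left Q (hΦle M hM)
  have hMne1 : M.index ≠ 1 := fun h => hM.1 (Subgroup.index_eq_one.mp h)
  have hpM : p ∣ M.index := by
    obtain ⟨j, -, hj⟩ := (Nat.dvd_prime_pow hp).mp hMdvd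
    rw [hj]
    apply dvd_pow_self
    rintro rfl
    exact hMne1 (by rw [hj, pow_zero])
  have hpcardM : ¬ p ∣ Nat.card M := by
    intro hdvd
    have := Nat.Coprime.eq_one_of_dvd ((h M hM).symm.coprime_dvd_left hpM) hdvd
    exact hp.one_lt.ne' this
  have hQidx : ¬ p ∣ Q.index := by
    intro hdvd
    have h1 : Q.relIndex (M ⊔ Q) = Q.relIndex M := Subgroup.relIndex_sup_right M Q
    rw [hsup, Subgroup.relIndex_top_right] at h1
    rw [h1] at hdvd
    exact hpcardM (dvd_trans hdvd (Subgroup.relIndex_dvd_card Q M))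
  -- Sylow p of Q
  obtain ⟨P0⟩ : Nonempty (Sylow p Q) := inferInstance
  obtain ⟨P, hPdef⟩ : ∃ P : Subgroup G, P = (P0 : Subgroup Q).map Q.subtype := ⟨_, rfl⟩
  have hPQ : P ≤ Q := by rw [hPdef]; exact Subgroup.map_subtype_le _
  have hPp : IsPGroup p P := by rw [hPdef]; exact P0.isPGroup'.map _
  have hPrel : P.relIndex Q = (P0 : Subgroup Q).index := by
    rw [hPdef]
    unfold Subgroup.relIndex
    rw [Subgroup.subgroupOf, Subgroup.comap_map_eq_self_of_injective (Subgroup.subtype_injective _)]
  have hPidx : ¬ p ∣ P.index := by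
    rw [← Subgroup.relIndex_mul_index hPQ, hPrel]
    intro hdvd
    rcases (Nat.Prime.dvd_mul hp).mp hdvd with h1 | h1
    · exact P0.not_dvd_index h1
    · exact hQidx h1
  have hfr : Subgroup.normalizer (P : Set G) ⊔ Q = ⊤ := by
    rw [hPdef]; exact Sylow.normalizer_sup_eq_top P0
  have hQle : Q ≤ P ⊔ frattini G := by
    rw [← Subgroup.relIndex_eq_one]
    have h1 : (P ⊔ frattini G).relIndex Q ∣ P.relIndex Q :=
      Subgroup.relIndex_dvd_of_le_left Q le_sup_left
    have h2 : (P ⊔ frattini G).relIndex Q ∣ p ^ k := by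
      rw [← hrel]; exact Subgroup.relIndex_dvd_of_le_left Q le_sup_right
    obtain ⟨j, -, hj⟩ := (Nat.dvd_prime_pow hp).mp h2
    rw [hj]
    rcases Nat.eq_zero_or_pos j with h0 | h0
    · rw [h0, pow_zero]
    · exfalso
      rw [hPrel, hj] at h1
      exact P0.not_dvd_index (dvd_trans (dvd_pow_self p h0.ne') h1)
  have hNtop : Subgroup.normalizer (P : Set G) = ⊤ := by
    apply frattini_nongenerating
    rw [eq_top_iff, ← hfr]
    apply sup_le le_sup_left
    refine hQle.trans (sup_le ?_ le_sup_right)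
    exact le_trans Subgroup.le_normalizer le_sup_left
  have hPn : P.Normal := Subgroup.normalizer_eq_top_iff.mp hNtop
  refine ⟨p, hp, dvd_trans hpM (Subgroup.index_dvd_card M), ?_⟩
  intro S'
  obtain ⟨g, hg⟩ := MulAction.exists_smul_eq G (hPp.toSylow hPidx) S'
  haveI : ((hPp.toSylow hPidx : Sylow p G) : Subgroup G).Normal := by
    rw [IsPGroup.toSylow_coe]; exact hPn
  rw [Sylow.smul_eq_of_normal] at hg
  rw [← hg]
  infer_instance

end Cfsg.Agent.S0553
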