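import Cfsg.Statements.S0554
import Cfsg.Agent.Helper4.Basic
import Cfsg.Agent.Helper7.Solvable

set_option autoImplicit false
open Cfsg

namespace Cfsg.Agent.S0554

universe u

/-- Moving an element of a normal subgroup into position `j` of a product. -/
theorem absorb {G : Type*} [Group G] (N : Subgroup G) [hN : N.Normal] :
    ∀ (t : ℕ) (S : Fin t → Subgroup G) (j : Fin t), N ≤ S j → ∀ (s : Fin t → G),
      (∀ i, s i ∈ S i) → ∀ n ∈ N,
      ∃ s' : Fin t → G, (∀ i, s' i ∈ S i) ∧ (List.ofFn s').prod = (List.ofFn s).prod * n := by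
  intro t
  induction t with
  | zero => intro S j; exact j.elim0
  | succ t ih =>
    intro S j hj s hs n hn
    rcases Fin.eq_zero_or_eq_succ j with rfl | ⟨j', rfl⟩
    · obtain ⟨c, hc⟩ : ∃ c, c = (List.ofFn (fun i : Fin t => s i.succ)).prod := ⟨_, rfl⟩
      refine ⟨(Fin.cons (s 0 * (c * n * c⁻¹)) (fun i => s i.succ) : Fin (t + 1) → G), ?_, ?_⟩
      · intro i
        induction i using Fin.cases with
        | zero =>
          rw [Fin.cons_zero]
          exact (S 0).mul_mem (hs 0) (hj (hN.conj_mem n hn c))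
        | succ i' =>
          rw [Fin.cons_succ]
          exact hs i'.succ
      · rw [List.ofFn_succ, List.ofFn_succ, List.prod_cons, List.prod_cons]
        simp only [Fin.cons_zero, Fin.cons_succ]
        rw [← hc]
        group
    · obtain ⟨s'', hs'', hprod⟩ := ih (fun i => S i.succ) j' hj (fun i => s i.succ)
        (fun i => hs i.succ) n hn
      refine ⟨(Fin.cons (s 0) s'' : Fin (t + 1) → G), ?_, ?_⟩
      · intro i
        induction i using Fin.cases with
        | zero =>
          rw [Fin.cons_zero]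
          exact hs 0
        | succ i' =>
          rw [Fin.cons_succ]
          exact hs'' i'
      · rw [List.ofFn_succ, List.ofFn_succ, List.prod_cons, List.prod_cons]
        simp only [Fin.cons_zero, Fin.cons_succ]
        rw [hprod, mul_assoc]

theorem aux : ∀ (n : ℕ) (G : Type u) [Group G] [Finite G] [Group.IsSolvable G], Nat.card G = n →
    ∀ (t : ℕ) (p : Fin t → ℕ) (_ : ∀ i, (p i).Prime)
      (_ : ∀ q : ℕ, q.Prime → q ∣ Nat.card G → ∃ i, p i = q)
      (S : (i : Fin t) → Sylow (p i) G), ∀ g : G, ∃ s : (i : Fin t) → G,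
      (∀ i, s i ∈ (S i : Subgroup G)) ∧ g = (List.ofFn s).prod := by
  intro n
  induction n using Nat.strong_induction_on with
  | _ n ih =>
    intro G _ _ _ hn t p hp hall S g
    by_cases htriv : Subsingleton G
    · refine ⟨fun _ => 1, fun i => Subgroup.one_mem _, ?_⟩
      exact Subsingleton.elim _ _
    rw [not_subsingleton_iff_nontrivial] at htriv
    haveI := htriv
    obtain ⟨q, K, hq, hKn, hKne, hKexp, -⟩ :=
      Cfsg.Agent.Helper7.exists_normal_exponent_prime (G := G)
    haveI := hKn
    haveI : Fact q.Prime := ⟨hq⟩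
    have hKp : IsPGroup q K := fun x =>
      ⟨1, by rw [pow_one]; exact Subtype.ext (by simpa using hKexp x x.2)⟩
    have hK1 : 1 < Nat.card K := (Subgroup.one_lt_card_iff_ne_bot K).mpr hKne
    have hqdvd : q ∣ Nat.card G := by
      obtain ⟨k, hk⟩ := IsPGroup.iff_card.mp hKp
      have hk0 : k ≠ 0 := by
        rintro rfl
        rw [pow_zero] at hk
        omega
      have h1 : q ∣ Nat.card K := by rw [hk]; exact dvd_pow_self q hk0
      exact h1.trans (Subgroup.card_subgroup_dvd_card K)
    obtain ⟨i₀, hi₀⟩ := hall q hq hqdvd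
    subst hi₀
    haveI : ∀ i, Fact (p i).Prime := fun i => ⟨hp i⟩
    have hKS : K ≤ (S i₀ : Subgroup G) := by
      obtain ⟨Q, hQ⟩ := hKp.exists_le_sylow
      obtain ⟨x, hx⟩ := MulAction.exists_smul_eq G Q (S i₀)
      intro y hy
      rw [← hx, Cfsg.Agent.Helper4.mem_smul_sylow_iff]
      exact hQ (by have h0 := hKn.conj_mem y hy x⁻¹; simpa using h0)
    have hcard : Nat.card (G ⧸ K) < n := by
      have h1 := K.card_mul_index
      have h2 : 2 * K.index ≤ Nat.card K * K.index := Nat.mul_le_mul_right _ hK1
      have h3 : 0 < K.index := Nat.pos_of_ne_zero Subgroup.index_ne_zero_of_finite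
      have h4 : Nat.card (G ⧸ K) = K.index := rfl
      omega
    have hall' : ∀ q' : ℕ, q'.Prime → q' ∣ Nat.card (G ⧸ K) → ∃ i, p i = q' := by
      intro q' hq' hd
      exact hall q' hq' (hd.trans (Subgroup.index_dvd_card K))
    obtain ⟨sbar, hsbar, hg⟩ := ih (Nat.card (G ⧸ K)) hcard (G ⧸ K) rfl t p hp hall'
      (fun i => (S i).mapSurjective (QuotientGroup.mk'_surjective K)) (g : G ⧸ K)
    have hlift : ∀ i, ∃ x ∈ (S i : Subgroup G), QuotientGroup.mk' K x = sbar i := by
      intro i
      have h0 := hsbar i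
      rw [Sylow.coe_mapSurjective] at h0
      exact Subgroup.mem_map.mp h0
    choose s hs hsm using hlift
    have hprod : QuotientGroup.mk' K (List.ofFn s).prod = (List.ofFn sbar).prod := by
      rw [map_list_prod, List.map_ofFn]
      have hfun : (⇑(QuotientGroup.mk' K) ∘ s) = sbar := funext hsm
      rw [hfun]
    have hmem : ((List.ofFn s).prod)⁻¹ * g ∈ K := by
      apply QuotientGroup.eq.mp
      rw [hg]
      exact hprod
    obtain ⟨s', hs', hprod'⟩ := absorb K t (fun i => (S i : Subgroup G)) i₀ hKS s hs _ hmem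
    refine ⟨s', hs', ?_⟩
    rw [hprod', mul_inv_cancel_left]

/-- Let G be a finite solvable group and let S assign to each of t distinct primes, including every prime divisor of the order of G, a Sylow subgroup of G. Then every element of G is a product s_0 s_1 ⋯ s_(t-1) with s_i in S i, the factors taken in the given order. -/
theorem result {G : Type*} [Group G] [Finite G] [Group.IsSolvable G] (t : ℕ) (p : Fin t → ℕ) (hp : ∀ i, (p i).Prime) (hinj : Function.Injective p) (hall : ∀ q : ℕ, q.Prime → q ∣ Nat.card G → ∃ i, p i = q) (S : (i : Fin t) → Sylow (p i) G) : ∀ g : G, ∃ s : (i : Fin t) → G, (∀ i, s i ∈ (S i : Subgroup G)) ∧ g = (List.ofFn s).prod := by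
  intro g
  exact aux _ G rfl t p hp hall S g

end Cfsg.Agent.S0554
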