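import Cfsg.Statements.S0558
import Mathlib
import Cfsg.Agent.Helper6.HallNilp
import Cfsg.Agent.Helper6.Coprime
import Cfsg.Agent.Helper4.RelSylow
import Cfsg.Agent.Lead.SylowBasic
import Cfsg.Agent.Lead.Fpf3
-- import your own Cfsg.Agent.* helpers here

set_option autoImplicit false
open Cfsg

namespace Cfsg.Agent.S0558


open Cfsg.Agent.Helper6 in
/-- In a finite nilpotent group, conjugation of an element of the Sylow `p`-subgroup by any
element is realised inside the Sylow subgroup. -/
theorem nilp_conj_sylow {H : Type*} [Group H] [Finite H] [Group.IsNilpotent H] {p : ℕ}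
    [Fact p.Prime] (P : Sylow p H) (h a : H) (ha : a ∈ (P : Subgroup H)) :
    ∃ x ∈ (P : Subgroup H), h * a * h⁻¹ = x * a * x⁻¹ := by
  have hPn : (P : Subgroup H).Normal := inferInstance
  have hmem : h ∈ (P : Subgroup H) ⊔ Subgroup.centralizer ((P : Subgroup H) : Set H) := by
    apply mem_of_primary_powers_mem _ (orderOf h) h rfl (orderOf_pos h)
    rintro q k hq ⟨j, hj⟩
    by_cases hqp : q = p
    · subst hqp
      apply Subgroup.mem_sup_left
      have hz : IsPGroup q (Subgroup.zpowers (h ^ k)) :=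
        IsPGroup.of_card (n := j) (by rw [Nat.card_zpowers, hj])
      obtain ⟨c, hc⟩ := Cfsg.Agent.Lead.exists_conj_mem_sylow P hz
      have h1 := hc (h ^ k) (Subgroup.mem_zpowers _)
      have h2 := hPn.conj_mem _ h1 c⁻¹
      have e : c⁻¹ * (c * h ^ k * c⁻¹) * c⁻¹⁻¹ = h ^ k := by group
      rw [e] at h2
      exact h2
    · apply Subgroup.mem_sup_right
      apply mem_centralizer_sylow_of_coprime_of_isNilpotent P
      rw [hj]
      exact Nat.Coprime.pow_left _ ((Nat.coprime_primes hq (Fact.out)).mpr hqp)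
  obtain ⟨x, hx, c, hc, rfl⟩ := Subgroup.mem_sup_of_normal_left.mp hmem
  refine ⟨x, hx, ?_⟩
  have h1 : c * a = a * c := (Subgroup.mem_centralizer_iff.mp hc a ha).symm
  have h2 : c * a * c⁻¹ = a := by rw [h1]; group
  calc x * c * a * (x * c)⁻¹ = x * (c * a * c⁻¹) * x⁻¹ := by group
    _ = x * a * x⁻¹ := by rw [h2]

/-- Let H be a subgroup of a finite group G that is not a Sylow subgroup of G for any prime, and suppose that for every prime p dividing the order of H and every Sylow p-subgroup P of H the normalizer of P in G is exactly H. Then some normal subgroup of G is a complement to H. -/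
theorem result {G : Type*} [Group G] [Finite G] (H : Subgroup G) (hnot : ∀ p : ℕ, p.Prime → ∀ P : Sylow p G, (P : Subgroup G) ≠ H) (hnorm : ∀ p : ℕ, p.Prime → p ∣ Nat.card H → ∀ P : Sylow p H, Subgroup.normalizer (((P : Subgroup H).map H.subtype : Subgroup G) : Set G) = H) : ∃ N : Subgroup G, N.Normal ∧ Subgroup.IsComplement' N H := by
  classical
  by_cases hH1 : Nat.card H = 1
  · have hb : H = ⊥ := Subgroup.card_eq_one.mp hH1
    subst hb
    exact ⟨⊤, inferInstance, Subgroup.isComplement'_top_bot⟩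
  -- Sylow subgroups of H are Sylow subgroups of G
  have hsyl : ∀ (p : ℕ) [Fact p.Prime], p ∣ Nat.card H → ∀ P : Sylow p H,
      ∃ S : Sylow p G, (S : Subgroup G) = (P : Subgroup H).map H.subtype := by
    intro p _ hdvd P
    have hP' : IsPGroup p ((P : Subgroup H).map H.subtype) := P.isPGroup'.map _
    obtain ⟨S, hS⟩ := hP'.exists_le_sylow
    refine ⟨S, ?_⟩
    by_contra hne
    have hlt : (P : Subgroup H).map H.subtype < (S : Subgroup G) :=
      lt_of_le_of_ne hS (fun h => hne h.symm)
    have h1 := Cfsg.Agent.Helper4.lt_inf_normalizer (S : Subgroup G) _ S.isPGroup' hlt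
    obtain ⟨x, hx, hxP⟩ := SetLike.exists_of_lt h1
    have hxS : x ∈ (S : Subgroup G) := hx.1
    have hxH : x ∈ H := by
      have := hx.2
      rw [hnorm p Fact.out hdvd P] at this
      exact this
    have hQ : IsPGroup p ((((P : Subgroup H).map H.subtype) ⊔ Subgroup.zpowers x).subgroupOf H) :=
      (S.isPGroup'.to_le (sup_le hS (by rw [Subgroup.zpowers_le]; exact hxS))).comap_of_injective
        _ H.subtype_injective
    have hle : (P : Subgroup H) ≤ (((P : Subgroup H).map H.subtype) ⊔ Subgroup.zpowers x).subgroupOf H := by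
      intro y hy
      rw [Subgroup.mem_subgroupOf]
      exact Subgroup.mem_sup_left (Subgroup.mem_map_of_mem _ hy)
    have heq := P.is_maximal' hQ hle
    have hxQ : (⟨x, hxH⟩ : H) ∈ (((P : Subgroup H).map H.subtype) ⊔ Subgroup.zpowers x).subgroupOf H := by
      rw [Subgroup.mem_subgroupOf]
      exact Subgroup.mem_sup_right (Subgroup.mem_zpowers x)
    rw [heq] at hxQ
    exact hxP (Subgroup.mem_map_of_mem H.subtype hxQ)
  -- H is a Hall subgroup
  have hHall : (Nat.card H).Coprime H.index := by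
    apply Nat.coprime_of_dvd
    intro p hp hdvd hidx
    haveI : Fact p.Prime := ⟨hp⟩
    obtain ⟨P⟩ : Nonempty (Sylow p H) := inferInstance
    obtain ⟨S, hS⟩ := hsyl p hdvd P
    have hSH : (S : Subgroup G) ≤ H := by
      rw [hS]; exact Subgroup.map_subtype_le _
    exact S.not_dvd_index (dvd_trans hidx (Subgroup.index_dvd_of_le hSH))
  -- every Sylow subgroup of H is normal in H
  have hnormal : ∀ (p : ℕ) [Fact p.Prime] (P : Sylow p H), (P : Subgroup H).Normal := by
    intro p _ P
    by_cases hdvd : p ∣ Nat.card H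
    · have hN := hnorm p Fact.out hdvd P
      refine ⟨fun n hn g => ?_⟩
      have hg : (g : G) ∈ Subgroup.normalizer (((P : Subgroup H).map H.subtype : Subgroup G) : Set G) := by
        rw [hN]; exact g.2
      have h2 := (Subgroup.mem_normalizer_iff.mp hg (n : G)).mp (Subgroup.mem_map_of_mem H.subtype hn)
      obtain ⟨y, hy, hye⟩ := Subgroup.mem_map.mp h2
      have : y = g * n * g⁻¹ := Subtype.ext (by simpa using hye)
      rw [← this]; exact hy
    · have hc : Nat.card (P : Subgroup H) = 1 := by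
        rw [Sylow.card_eq_multiplicity, Nat.factorization_eq_zero_of_not_dvd hdvd, pow_zero]
      rw [Subgroup.card_eq_one.mp hc]
      infer_instance
  haveI hnil : Group.IsNilpotent H :=
    ((Group.isNilpotent_of_finite_tfae (G := H)).out 0 3).mpr (fun p hp P => @hnormal p hp P)
  apply Cfsg.Agent.Helper6.exists_normal_complement_of_forall_npc H hHall
  intro p hp hdvd
  haveI : Fact p.Prime := ⟨hp⟩
  obtain ⟨P⟩ : Nonempty (Sylow p H) := inferInstance
  obtain ⟨S, hS⟩ := hsyl p hdvd P
  have hNS : Subgroup.normalizer ((S : Subgroup G) : Set G) = H := by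
    rw [hS]; exact hnorm p hp hdvd P
  -- a second prime
  have hq : ∃ q : ℕ, q.Prime ∧ q ≠ p ∧ q ∣ Nat.card H := by
    by_contra hcon
    push Not at hcon
    have hpow : Nat.card H = p ^ (Nat.card H).primeFactorsList.length := by
      apply Nat.eq_prime_pow_of_unique_prime_dvd Nat.card_pos.ne'
      intro d hd hdd
      by_contra hdp
      exact hcon d hd hdp hdd
    have hHp : IsPGroup p H := IsPGroup.of_card hpow
    have htop : (⊤ : Subgroup H) = P := P.is_maximal' (hHp.to_subgroup ⊤) le_top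
    have : (S : Subgroup G) = H := by
      rw [hS, ← htop, ← MonoidHom.range_eq_map, Subgroup.range_subtype]
    exact hnot p hp S this
  obtain ⟨q, hqp, hqne, hqdvd⟩ := hq
  haveI : Fact q.Prime := ⟨hqp⟩
  obtain ⟨Q⟩ : Nonempty (Sylow q H) := inferInstance
  obtain ⟨T, hT⟩ := hsyl q hqdvd Q
  have hNT : Subgroup.normalizer ((T : Subgroup G) : Set G) = H := by
    rw [hT]; exact hnorm q hqp hqdvd Q
  have hSH : (S : Subgroup G) ≤ H := by
    rw [hS]; exact Subgroup.map_subtype_le _
  have hTH : (T : Subgroup G) ≤ H := by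
    rw [hT]; exact Subgroup.map_subtype_le _
  have hdisj : Disjoint (S : Subgroup G) (T : Subgroup G) :=
    IsPGroup.disjoint_of_ne p q (fun h => hqne h.symm) _ _ S.isPGroup' T.isPGroup'
  have hcomm : ∀ s ∈ (S : Subgroup G), ∀ t ∈ (T : Subgroup G), s * t = t * s := by
    intro s hs t ht
    have h1 : s * t * s⁻¹ * t⁻¹ ∈ (S : Subgroup G) := by
      have htN : t ∈ Subgroup.normalizer ((S : Subgroup G) : Set G) := by rw [hNS]; exact hTH ht
      have h2 := (Subgroup.mem_normalizer_iff.mp htN s⁻¹).mp (Subgroup.inv_mem _ hs)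
      have e : s * t * s⁻¹ * t⁻¹ = s * (t * s⁻¹ * t⁻¹) := by group
      rw [e]; exact Subgroup.mul_mem _ hs h2
    have h2 : s * t * s⁻¹ * t⁻¹ ∈ (T : Subgroup G) := by
      have hsN : s ∈ Subgroup.normalizer ((T : Subgroup G) : Set G) := by rw [hNT]; exact hSH hs
      have h3 := (Subgroup.mem_normalizer_iff.mp hsN t).mp ht
      exact Subgroup.mul_mem _ h3 (Subgroup.inv_mem _ ht)
    have h3 : s * t * s⁻¹ * t⁻¹ = 1 := by
      have := Subgroup.disjoint_def.mp hdisj h1 h2
      exact this
    calc s * t = (s * t * s⁻¹ * t⁻¹) * (t * s) := by group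
      _ = t * s := by rw [h3, one_mul]
  apply Cfsg.Agent.Helper6.hasNormalPComplement_of_frobCond
  apply Cfsg.Agent.Helper6.frobCond_of_fusion_omega S
  intro a ha _ g hb
  set b := g * a * g⁻¹ with hbdef
  have hTC : (T : Subgroup G) ≤ Subgroup.centralizer {b} := by
    intro t ht
    rw [Subgroup.mem_centralizer_iff]
    intro y hy
    rw [Set.mem_singleton_iff] at hy
    subst hy
    exact hcomm _ hb t ht
  have hTgC : (T : Subgroup G).map (MulAut.conj g).toMonoidHom ≤ Subgroup.centralizer {b} := by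
    rintro _ ⟨t, ht, rfl⟩
    rw [Subgroup.mem_centralizer_iff]
    intro y hy
    rw [Set.mem_singleton_iff] at hy
    subst hy
    have h1 := hcomm a ha t ht
    show g * a * g⁻¹ * (g * t * g⁻¹) = g * t * g⁻¹ * (g * a * g⁻¹)
    calc g * a * g⁻¹ * (g * t * g⁻¹) = g * (a * t) * g⁻¹ := by group
      _ = g * (t * a) * g⁻¹ := by rw [h1]
      _ = g * t * g⁻¹ * (g * a * g⁻¹) := by group
  have hidx : ¬ q ∣ (T : Subgroup G).relIndex (Subgroup.centralizer {b}) := by
    intro h
    exact T.not_dvd_index (dvd_trans h (Subgroup.relIndex_dvd_index_of_le hTC))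
  obtain ⟨c, hc, hcT⟩ := Cfsg.Agent.Helper4.exists_conj_le_of_relIndex (Subgroup.centralizer {b})
    (T : Subgroup G) ((T : Subgroup G).map (MulAut.conj g).toMonoidHom) T.isPGroup' hidx
    (T.isPGroup'.map _) hTgC
  have hcgN : c * g ∈ Subgroup.normalizer ((T : Subgroup G) : Set G) := by
    apply Cfsg.Agent.Lead.mem_normalizer_of_conj_mem
    intro t ht
    have h1 := hcT (g * t * g⁻¹) (Subgroup.mem_map_of_mem _ ht)
    have e : c * g * t * (c * g)⁻¹ = c * (g * t * g⁻¹) * c⁻¹ := by group
    rw [e]; exact h1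
  rw [hNT] at hcgN
  have hcb : c * b * c⁻¹ = b := by
    have := Subgroup.mem_centralizer_iff.mp hc b (Set.mem_singleton b)
    rw [← this]; group
  have haP : a ∈ (P : Subgroup H).map H.subtype := by rw [← hS]; exact ha
  obtain ⟨a', ha', rfl⟩ := Subgroup.mem_map.mp haP
  obtain ⟨x, hx, hxe⟩ := nilp_conj_sylow P ⟨c * g, hcgN⟩ a' ha'
  refine ⟨(x : G), ?_, ?_⟩
  · show (x : G) ∈ (S : Subgroup G)
    rw [hS]; exact Subgroup.mem_map_of_mem H.subtype hx
  · have h1 := congrArg (fun z : H => (z : G)) hxe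
    simp only [Subgroup.coe_mul, Subgroup.coe_inv] at h1
    have e : c * g * (a' : G) * (c * g)⁻¹ = c * (g * (a' : G) * g⁻¹) * c⁻¹ := by group
    show g * (a' : G) * g⁻¹ = (x : G) * (a' : G) * (x : G)⁻¹
    rw [← h1, e]
    exact hcb.symm

end Cfsg.Agent.S0558
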