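import Cfsg.Statements.S0560
import Mathlib
import Cfsg.Agent.Helper4.Basic
import Cfsg.Agent.Helper5.CD

set_option autoImplicit false
open Pointwise
open Cfsg

namespace Cfsg.Agent.S0560

/-- Let the finite group G be the product HK of two subgroups and p a prime. Then there are Sylow p-subgroups P of H and Q of K and a Sylow p-subgroup R of G whose underlying set is the product set of P and Q. -/
theorem result {G : Type*} [Group G] [Finite G] (H K : Subgroup G) (hHK : ∀ g : G, ∃ h ∈ H, ∃ k ∈ K, g = h * k) (p : ℕ) [Fact p.Prime] : ∃ (P : Sylow p H) (Q : Sylow p K) (R : Sylow p G), ((R : Subgroup G) : Set G) = (((P : Subgroup H).map H.subtype : Subgroup G) : Set G) * (((Q : Subgroup K).map K.subtype : Subgroup G) : Set G) := by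
  classical
  have hp : p.Prime := Fact.out
  obtain ⟨P₁⟩ := (inferInstance : Nonempty (Sylow p H))
  obtain ⟨Q₁⟩ := (inferInstance : Nonempty (Sylow p K))
  obtain ⟨R₀⟩ := (inferInstance : Nonempty (Sylow p G))
  have hP₁ : IsPGroup p ((P₁ : Subgroup H).map H.subtype) := P₁.2.map _
  have hQ₁ : IsPGroup p ((Q₁ : Subgroup K).map K.subtype) := Q₁.2.map _
  obtain ⟨a, ha⟩ := Cfsg.Agent.Helper4.exists_conj_mem_sylow R₀ _ hP₁
  obtain ⟨b, hb⟩ := Cfsg.Agent.Helper4.exists_conj_mem_sylow R₀ _ hQ₁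
  obtain ⟨h, hh, k, hk, hab⟩ := hHK (a * b⁻¹)
  have hc : h⁻¹ * a = k * b := by
    have e : a = h * k * b := by rw [← hab]; group
    rw [e]; group
  set P : Sylow p H := (⟨h, hh⟩ : H)⁻¹ • P₁ with hPdef
  set Q : Sylow p K := (⟨k, hk⟩ : K) • Q₁ with hQdef
  set R : Sylow p G := (h⁻¹ * a) • R₀ with hRdef
  have hPR : (P : Subgroup H).map H.subtype ≤ (R : Subgroup G) := by
    rintro x ⟨y, hy, rfl⟩
    have hy' : y ∈ (P : Subgroup H) := hy
    rw [hPdef, Cfsg.Agent.Helper4.mem_smul_sylow_iff, inv_inv] at hy'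
    have h1 : ((⟨h, hh⟩ * y * (⟨h, hh⟩ : H)⁻¹ : H) : G) ∈ (P₁ : Subgroup H).map H.subtype :=
      ⟨_, hy', rfl⟩
    have h2 := ha _ h1
    rw [hRdef, Cfsg.Agent.Helper4.mem_smul_sylow_iff]
    have e : (h⁻¹ * a)⁻¹ * (H.subtype y) * (h⁻¹ * a) =
        a⁻¹ * ((⟨h, hh⟩ * y * (⟨h, hh⟩ : H)⁻¹ : H) : G) * a := by
      simp only [Subgroup.coe_mul, Subgroup.coe_inv, Subgroup.coe_subtype]
      group
    rw [e]; exact h2
  have hQR : (Q : Subgroup K).map K.subtype ≤ (R : Subgroup G) := by
    rintro x ⟨y, hy, rfl⟩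
    have hy' : y ∈ (Q : Subgroup K) := hy
    rw [hQdef, Cfsg.Agent.Helper4.mem_smul_sylow_iff] at hy'
    have h1 : (((⟨k, hk⟩ : K)⁻¹ * y * ⟨k, hk⟩ : K) : G) ∈ (Q₁ : Subgroup K).map K.subtype :=
      ⟨_, hy', rfl⟩
    have h2 := hb _ h1
    rw [hRdef, Cfsg.Agent.Helper4.mem_smul_sylow_iff, hc]
    have e : (k * b)⁻¹ * (K.subtype y) * (k * b) =
        b⁻¹ * (((⟨k, hk⟩ : K)⁻¹ * y * ⟨k, hk⟩ : K) : G) * b := by
      simp only [Subgroup.coe_mul, Subgroup.coe_inv, Subgroup.coe_subtype]
      group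
    rw [e]; exact h2
  refine ⟨P, Q, R, ?_⟩
  set P' : Subgroup G := (P : Subgroup H).map H.subtype with hP'
  set Q' : Subgroup G := (Q : Subgroup K).map K.subtype with hQ'
  -- the product set is contained in R
  have hsub : (P' : Set G) * (Q' : Set G) ⊆ ((R : Subgroup G) : Set G) := by
    rintro x ⟨u, hu, v, hv, rfl⟩
    exact (R : Subgroup G).mul_mem (hPR hu) (hQR hv)
  -- cardinalities
  have hunivHK : ((H : Set G) * (K : Set G) : Set G) = Set.univ := by
    apply Set.eq_univ_of_forall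
    intro g
    obtain ⟨h', hh', k', hk', rfl⟩ := hHK g
    exact Set.mul_mem_mul hh' hk'
  have h1 := Cfsg.Agent.Helper5.card_mul_card_eq_card_setMul_mul_card_inf H K
  rw [hunivHK, Nat.card_congr (Equiv.Set.univ G)] at h1
  have h2 := Cfsg.Agent.Helper5.card_mul_card_eq_card_setMul_mul_card_inf P' Q'
  have hPc : Nat.card P' = p ^ (Nat.card H).factorization p := by
    rw [hP', Subgroup.card_map_of_injective H.subtype_injective]
    exact Sylow.card_eq_multiplicity P
  have hQc : Nat.card Q' = p ^ (Nat.card K).factorization p := by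
    rw [hQ', Subgroup.card_map_of_injective K.subtype_injective]
    exact Sylow.card_eq_multiplicity Q
  have hRc : Nat.card (R : Subgroup G) = p ^ (Nat.card G).factorization p :=
    Sylow.card_eq_multiplicity R
  have hP'p : IsPGroup p P' := P.2.map _
  have hIp : IsPGroup p (P' ⊓ Q' : Subgroup G) := hP'p.to_le inf_le_left
  obtain ⟨j, hj⟩ := IsPGroup.iff_card.mp hIp
  have hIle : (P' ⊓ Q' : Subgroup G) ≤ H ⊓ K := by
    apply inf_le_inf
    · exact Subgroup.map_subtype_le _
    · exact Subgroup.map_subtype_le _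
  have hjdvd : p ^ j ∣ Nat.card (H ⊓ K : Subgroup G) := by
    rw [← hj]; exact Subgroup.card_dvd_of_le hIle
  have hIpos : Nat.card (H ⊓ K : Subgroup G) ≠ 0 := Nat.card_pos.ne'
  have hjle : j ≤ (Nat.card (H ⊓ K : Subgroup G)).factorization p :=
    (hp.pow_dvd_iff_le_factorization hIpos).mp hjdvd
  have hfac : (Nat.card H).factorization p + (Nat.card K).factorization p =
      (Nat.card G).factorization p + (Nat.card (H ⊓ K : Subgroup G)).factorization p := by
    have e1 : (Nat.card H * Nat.card K).factorization p =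
        (Nat.card G * Nat.card (H ⊓ K : Subgroup G)).factorization p := by rw [h1]
    rw [Nat.factorization_mul Nat.card_pos.ne' Nat.card_pos.ne',
      Nat.factorization_mul Nat.card_pos.ne' hIpos] at e1
    simpa using e1
  rw [hPc, hQc, hj, ← pow_add, hfac] at h2
  have h3 : Nat.card ((P' : Set G) * (Q' : Set G) : Set G) =
      p ^ ((Nat.card G).factorization p +
        ((Nat.card (H ⊓ K : Subgroup G)).factorization p - j)) := by
    apply Nat.eq_of_mul_eq_mul_right (pow_pos hp.pos j)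
    rw [← h2, ← pow_add]
    congr 1
    omega
  have hle : Nat.card (R : Subgroup G) ≤ Nat.card ((P' : Set G) * (Q' : Set G) : Set G) := by
    rw [hRc, h3]
    exact Nat.pow_le_pow_right hp.pos (Nat.le_add_right _ _)
  symm
  apply Set.eq_of_subset_of_ncard_le hsub _ (Set.toFinite _)
  rw [← Nat.card_coe_set_eq, ← Nat.card_coe_set_eq]
  exact hle

end Cfsg.Agent.S0560
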