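import Cfsg.Statements.S0561
import Mathlib
import Cfsg.Agent.Lead.Hall
import Cfsg.Agent.Lead.SylowBasic
-- import your own Cfsg.Agent.* helpers here

set_option autoImplicit false
open Pointwise
open Cfsg

namespace Cfsg.Agent.S0561


theorem prod_card_lcm {G : Type*} [Group G] [Finite G] (A B E : Subgroup G) (hA : A ≤ E) (hB : B ≤ E)
    (hE : Nat.card E = Nat.lcm (Nat.card A) (Nat.card B)) :
    (E : Set G) = (A : Set G) * (B : Set G) := by
  classical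
  obtain ⟨T, hT⟩ : ∃ T : Set G, T = (A : Set G) * (B : Set G) := ⟨_, rfl⟩
  rw [← hT]
  have hTE : T ⊆ (E : Set G) := by
    rw [hT]
    rintro _ ⟨a, ha, b, hb, rfl⟩
    exact E.mul_mem (hA ha) (hB hb)
  have hch : ∀ t : T, ∃ p : A × B, (p.1 : G) * (p.2 : G) = (t : G) := by
    rintro ⟨t, ht⟩
    rw [hT] at ht
    obtain ⟨a, ha, b, hb, rfl⟩ := ht
    exact ⟨(⟨a, ha⟩, ⟨b, hb⟩), rfl⟩
  choose r hr using hch
  have hmemT : ∀ p : A × B, (p.1 : G) * (p.2 : G) ∈ T := fun p => by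
    rw [hT]; exact Set.mul_mem_mul p.1.2 p.2.2
  have key : ∀ p : A × B, ((r ⟨_, hmemT p⟩).1 : G)⁻¹ * (p.1 : G) ∈ A ⊓ B := by
    intro p
    have h1 := hr ⟨_, hmemT p⟩
    refine Subgroup.mem_inf.mpr ⟨A.mul_mem (A.inv_mem (r _).1.2) p.1.2, ?_⟩
    have h2 : ((r ⟨_, hmemT p⟩).1 : G)⁻¹ * (p.1 : G) = ((r ⟨_, hmemT p⟩).2 : G) * (p.2 : G)⁻¹ := by
      rw [inv_mul_eq_iff_eq_mul, ← mul_assoc, h1, mul_inv_cancel_right]
    rw [h2]
    exact B.mul_mem (r _).2.2 (B.inv_mem p.2.2)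
  let F : A × B → (A ⊓ B : Subgroup G) × T := fun p => (⟨_, key p⟩, ⟨_, hmemT p⟩)
  have hF : Function.Injective F := by
    intro p q hpq
    have h1 : (⟨_, hmemT p⟩ : T) = ⟨_, hmemT q⟩ := congrArg Prod.snd hpq
    have h2 : ((r ⟨_, hmemT p⟩).1 : G)⁻¹ * (p.1 : G) = ((r ⟨_, hmemT q⟩).1 : G)⁻¹ * (q.1 : G) :=
      congrArg (fun z => ((z.1 : (A ⊓ B : Subgroup G)) : G)) hpq
    rw [h1] at h2
    have h3 : (p.1 : G) = q.1 := mul_left_cancel h2
    have h4 : (p.1 : G) * p.2 = q.1 * q.2 := congrArg Subtype.val h1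
    rw [h3] at h4
    have h5 : (p.2 : G) = q.2 := mul_left_cancel h4
    exact Prod.ext (Subtype.ext h3) (Subtype.ext h5)
  have hcard := Nat.card_le_card_of_injective F hF
  rw [Nat.card_prod, Nat.card_prod] at hcard
  have hdA : Nat.card (A ⊓ B : Subgroup G) ∣ Nat.card A := Subgroup.card_dvd_of_le inf_le_left
  have hdB : Nat.card (A ⊓ B : Subgroup G) ∣ Nat.card B := Subgroup.card_dvd_of_le inf_le_right
  have hgpos : 0 < Nat.gcd (Nat.card A) (Nat.card B) := Nat.gcd_pos_of_pos_left _ Nat.card_pos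
  have hg : Nat.card (A ⊓ B : Subgroup G) ≤ Nat.gcd (Nat.card A) (Nat.card B) :=
    Nat.le_of_dvd hgpos (Nat.dvd_gcd hdA hdB)
  have hgl := Nat.gcd_mul_lcm (Nat.card A) (Nat.card B)
  have h6 : Nat.gcd (Nat.card A) (Nat.card B) * Nat.lcm (Nat.card A) (Nat.card B)
      ≤ Nat.gcd (Nat.card A) (Nat.card B) * Nat.card T := by
    rw [hgl]; exact hcard.trans (Nat.mul_le_mul_right _ hg)
  have h7 : Nat.lcm (Nat.card A) (Nat.card B) ≤ Nat.card T := Nat.le_of_mul_le_mul_left h6 hgpos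
  symm
  apply Set.eq_of_subset_of_ncard_le hTE _ (Set.toFinite _)
  rw [← Nat.card_coe_set_eq, ← Nat.card_coe_set_eq]
  exact hE.le.trans h7

theorem hall_sup561 {G : Type*} [Group G] [Finite G] [Group.IsSolvable G] (H K A B : Subgroup G)
    (hHK : ∀ g : G, ∃ h ∈ H, ∃ k ∈ K, g = h * k) (hA : A ≤ H) (hAn : (A.subgroupOf H).Normal)
    (hB : B ≤ K) (hBn : (B.subgroupOf K).Normal)
    (hAh : (Nat.card A).Coprime A.index) (hBh : (Nat.card B).Coprime B.index) :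
    ∃ E : Subgroup G, A ≤ E ∧ B ≤ E ∧ Nat.card E = Nat.lcm (Nat.card A) (Nat.card B) := by
  have hAi : Nat.card A * A.index = Nat.card G := Subgroup.card_mul_index A
  have hBi : Nat.card B * B.index = Nat.card G := Subgroup.card_mul_index B
  obtain ⟨a, ha⟩ : ∃ a, a = Nat.card A := ⟨_, rfl⟩
  obtain ⟨b, hb⟩ : ∃ b, b = Nat.card B := ⟨_, rfl⟩
  obtain ⟨n, hn⟩ : ∃ n, n = Nat.card G := ⟨_, rfl⟩
  rw [← ha] at hAi hAh
  rw [← hb] at hBi hBh
  rw [← hn] at hAi hBi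
  rw [← ha, ← hb]
  have hapos : 0 < a := ha ▸ Nat.card_pos
  have hbpos : 0 < b := hb ▸ Nat.card_pos
  obtain ⟨l, hl⟩ : ∃ l, l = Nat.lcm a b := ⟨_, rfl⟩
  rw [← hl]
  have hln : l ∣ n := hl ▸ Nat.lcm_dvd ⟨A.index, hAi.symm⟩ ⟨B.index, hBi.symm⟩
  obtain ⟨t, ht⟩ := hln
  have htA : t ∣ A.index := by
    obtain ⟨c, hc⟩ : a ∣ l := hl ▸ Nat.dvd_lcm_left a b
    refine ⟨c, ?_⟩
    have h1 : a * A.index = a * (t * c) := by rw [hAi, ht, hc]; ring
    exact Nat.eq_of_mul_eq_mul_left hapos h1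
  have htB : t ∣ B.index := by
    obtain ⟨c, hc⟩ : b ∣ l := hl ▸ Nat.dvd_lcm_right a b
    refine ⟨c, ?_⟩
    have h1 : b * B.index = b * (t * c) := by rw [hBi, ht, hc]; ring
    exact Nat.eq_of_mul_eq_mul_left hbpos h1
  have hat : a.Coprime t := hAh.coprime_dvd_right htA
  have hbt : b.Coprime t := hBh.coprime_dvd_right htB
  have hlt : l.Coprime t := by
    have h1 : (a * b).Coprime t := Nat.Coprime.mul_left hat hbt
    exact Nat.Coprime.coprime_dvd_left (hl ▸ Nat.lcm_dvd_mul a b) h1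
  obtain ⟨E1, hE1, hAE1⟩ := Cfsg.Agent.Lead.hall_dom_aux n G hn.symm l t ht hlt A (ha ▸ hat)
  obtain ⟨E2, hE2, hBE2⟩ := Cfsg.Agent.Lead.hall_dom_aux n G hn.symm l t ht hlt B (hb ▸ hbt)
  obtain ⟨g, hg⟩ := Cfsg.Agent.Lead.hall_conj_aux n G hn.symm l t ht hlt E2 E1 hE2 hE1
  obtain ⟨h, hh, k, hk, rfl⟩ := hHK g
  refine ⟨MulAut.conj k • E2, ?_, ?_, ?_⟩
  · intro x hx
    rw [Cfsg.Agent.Lead.mem_conj_smul_iff]
    have h1 : h * x * h⁻¹ ∈ A := by
      have := hAn.conj_mem ⟨x, hA hx⟩ (Subgroup.mem_subgroupOf.mpr hx) ⟨h, hh⟩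
      simpa [Subgroup.mem_subgroupOf] using this
    have h2 : h * x * h⁻¹ ∈ MulAut.conj (h * k) • E2 := by rw [hg]; exact hAE1 h1
    rw [Cfsg.Agent.Lead.mem_conj_smul_iff] at h2
    convert h2 using 1; group
  · intro x hx
    rw [Cfsg.Agent.Lead.mem_conj_smul_iff]
    have h1 : k⁻¹ * x * k ∈ B := by
      have := hBn.conj_mem ⟨x, hB hx⟩ (Subgroup.mem_subgroupOf.mpr hx) (⟨k, hk⟩⁻¹)
      simpa [Subgroup.mem_subgroupOf] using this
    exact hBE2 h1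
  · rw [Cfsg.Agent.Lead.card_conj_smul, hE2]

/-- Let the finite solvable group G be the product HK of subgroups, and let A be normal in H and B normal in K, where A and B are Hall subgroups of G (order coprime to index). Then for all x, y the product set of xAx⁻¹ and yBy⁻¹ is a subgroup of G. -/
theorem result {G : Type*} [Group G] [Finite G] [Group.IsSolvable G] (H K A B : Subgroup G) (hHK : ∀ g : G, ∃ h ∈ H, ∃ k ∈ K, g = h * k) (hA : A ≤ H) (hAn : (A.subgroupOf H).Normal) (hB : B ≤ K) (hBn : (B.subgroupOf K).Normal) (hAh : (Nat.card A).Coprime A.index) (hBh : (Nat.card B).Coprime B.index) (x y : G) : ∃ S : Subgroup G, (S : Set G) = ((MulAut.conj x • A : Subgroup G) : Set G) * ((MulAut.conj y • B : Subgroup G) : Set G) := by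
  obtain ⟨E0, hAE, hBE, hE0⟩ := hall_sup561 H K A B hHK hA hAn hB hBn hAh hBh
  obtain ⟨h0, hh0, k0, hk0, hxy⟩ := hHK (x⁻¹ * y)
  refine ⟨MulAut.conj (x * h0) • E0, ?_⟩
  apply prod_card_lcm
  · intro z hz
    rw [Cfsg.Agent.Lead.mem_conj_smul_iff] at hz ⊢
    have h1 : h0⁻¹ * (x⁻¹ * z * x) * h0 ∈ A := by
      have := hAn.conj_mem ⟨_, hA hz⟩ (Subgroup.mem_subgroupOf.mpr hz) (⟨h0, hh0⟩⁻¹)
      simpa [Subgroup.mem_subgroupOf] using this
    convert hAE h1 using 1; group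
  · intro z hz
    rw [Cfsg.Agent.Lead.mem_conj_smul_iff] at hz ⊢
    have h1 : k0 * (y⁻¹ * z * y) * k0⁻¹ ∈ B := by
      have := hBn.conj_mem ⟨_, hB hz⟩ (Subgroup.mem_subgroupOf.mpr hz) ⟨k0, hk0⟩
      simpa [Subgroup.mem_subgroupOf] using this
    have hy : y = x * h0 * k0 := by rw [mul_assoc, ← hxy]; group
    convert hBE h1 using 1
    rw [hy]; group
  · rw [Cfsg.Agent.Lead.card_conj_smul, Cfsg.Agent.Lead.card_conj_smul, Cfsg.Agent.Lead.card_conj_smul, hE0]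

end Cfsg.Agent.S0561
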