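import Cfsg.Statements.S0562
import Cfsg.Agent.Helper1.Basic

set_option autoImplicit false
open Cfsg
open Cfsg.Agent.Helper1
open scoped Pointwise

namespace Cfsg.Agent.S0562

/-- Let the finite group G be the product HK of subgroups, A normal in H, B normal in K, and L the normalizer of the subgroup generated by A and B. Then every element of L is a product of an element of L ∩ H and an element of L ∩ K. -/
theorem result {G : Type*} [Group G] [Finite G] (H K A B : Subgroup G) (hHK : ∀ g : G, ∃ h ∈ H, ∃ k ∈ K, g = h * k) (hA : A ≤ H) (hAn : (A.subgroupOf H).Normal) (hB : B ≤ K) (hBn : (B.subgroupOf K).Normal) : ∀ g ∈ Subgroup.normalizer ((A ⊔ B : Subgroup G) : Set G), ∃ h ∈ Subgroup.normalizer ((A ⊔ B : Subgroup G) : Set G) ⊓ H, ∃ k ∈ Subgroup.normalizer ((A ⊔ B : Subgroup G) : Set G) ⊓ K, g = h * k := by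
  intro g hg
  obtain ⟨h, hh, k, hk, rfl⟩ := hHK g
  have hD : MulAut.conj (h * k) • (A ⊔ B) = A ⊔ B := mem_normalizer_iff_conj_smul.mp hg
  have hkB : MulAut.conj k • B = B := conj_smul_eq_of_normal_subgroupOf hB hBn hk
  have hhA : MulAut.conj h⁻¹ • A = A := conj_smul_eq_of_normal_subgroupOf hA hAn (H.inv_mem hh)
  have hE : MulAut.conj k • (A ⊔ B) = MulAut.conj h⁻¹ • (A ⊔ B) := by
    rw [map_mul, mul_smul] at hD
    rw [map_inv, eq_inv_smul_iff]
    exact hD
  have h1 : A ⊔ B ≤ MulAut.conj k • (A ⊔ B) := by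
    apply sup_le
    · rw [hE, Subgroup.smul_sup, hhA]; exact le_sup_left
    · rw [Subgroup.smul_sup, hkB]; exact le_sup_right
  have hk' : MulAut.conj k • (A ⊔ B) = A ⊔ B := conj_smul_eq_of_le h1
  have hh' : MulAut.conj h⁻¹ • (A ⊔ B) = A ⊔ B := by rw [← hE, hk']
  refine ⟨h, ⟨?_, hh⟩, k, ⟨?_, hk⟩, rfl⟩
  · have := mem_normalizer_iff_conj_smul.mpr hh'
    exact (Subgroup.inv_mem_iff _).mp this
  · exact mem_normalizer_iff_conj_smul.mpr hk'


end Cfsg.Agent.S0562
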