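import Cfsg.Statements.S0566
import Mathlib
import Cfsg.Agent.Lead.SylowBasic
-- import your own Cfsg.Agent.* helpers here

set_option autoImplicit false
open Pointwise
open Cfsg

namespace Cfsg.Agent.S0566

/-- Let A and B be nontrivial subgroups of a finite group G such that for every x the product set of A and xBx⁻¹ is a proper subgroup of G. Then there is a proper normal subgroup of G containing A or containing B. -/
theorem result {G : Type*} [Group G] [Finite G] (A B : Subgroup G) (hA : A ≠ ⊥) (hB : B ≠ ⊥) (h : ∀ x : G, ∃ S : Subgroup G, S ≠ ⊤ ∧ (S : Set G) = (A : Set G) * ((MulAut.conj x • B : Subgroup G) : Set G)) : ∃ N : Subgroup G, N.Normal ∧ N ≠ ⊤ ∧ (A ≤ N ∨ B ≤ N) := by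
  classical
  have hmem : ∀ (g x : G) (H : Subgroup G), x ∈ MulAut.conj g • H ↔ g⁻¹ * x * g ∈ H :=
    fun g x H => Cfsg.Agent.Lead.mem_conj_smul_iff
  have L1 : ∀ (X Y Z : Subgroup G),
      (∀ x ∈ X, ∀ z ∈ Z, ∃ x' ∈ X, ∃ z' ∈ Z, z * x = x' * z') →
      (∀ y ∈ Y, ∀ z ∈ Z, ∃ y' ∈ Y, ∃ z' ∈ Z, z * y = y' * z') →
      ∀ u ∈ X ⊔ Y, ∀ z ∈ Z, ∃ u' ∈ X ⊔ Y, ∃ z' ∈ Z, z * u = u' * z' := by
    intro X Y Z hX hY u hu
    rw [Subgroup.sup_eq_closure] at hu
    refine Subgroup.closure_induction''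
      (p := fun u _ => ∀ z ∈ Z, ∃ u' ∈ X ⊔ Y, ∃ z' ∈ Z, z * u = u' * z') ?_ ?_ ?_ ?_ hu
    · intro x hx z hz
      rcases hx with hx | hx
      · obtain ⟨x', hx', z', hz', e⟩ := hX x hx z hz
        exact ⟨x', (le_sup_left : X ≤ X ⊔ Y) hx', z', hz', e⟩
      · obtain ⟨x', hx', z', hz', e⟩ := hY x hx z hz
        exact ⟨x', (le_sup_right : Y ≤ X ⊔ Y) hx', z', hz', e⟩
    · intro x hx z hz
      rcases hx with hx | hx
      · obtain ⟨x', hx', z', hz', e⟩ := hX x⁻¹ (X.inv_mem hx) z hz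
        exact ⟨x', (le_sup_left : X ≤ X ⊔ Y) hx', z', hz', e⟩
      · obtain ⟨x', hx', z', hz', e⟩ := hY x⁻¹ (Y.inv_mem hx) z hz
        exact ⟨x', (le_sup_right : Y ≤ X ⊔ Y) hx', z', hz', e⟩
    · intro z hz
      exact ⟨1, Subgroup.one_mem _, z, hz, by rw [mul_one, one_mul]⟩
    · intro x y _ _ ihx ihy z hz
      obtain ⟨x', hx', z', hz', e⟩ := ihx z hz
      obtain ⟨y', hy', z'', hz'', e'⟩ := ihy z' hz'
      refine ⟨x' * y', Subgroup.mul_mem _ hx' hy', z'', hz'', ?_⟩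
      rw [← mul_assoc, e, mul_assoc, e', mul_assoc]
  have L2 : ∀ (X Z : Subgroup G),
      (∀ x ∈ X, ∀ z ∈ Z, ∃ x' ∈ X, ∃ z' ∈ Z, z * x = x' * z') →
      ((X ⊔ Z : Subgroup G) : Set G) = (X : Set G) * (Z : Set G) := by
    intro X Z hXZ
    apply Set.Subset.antisymm
    · intro g hg
      have hg' : g ∈ X ⊔ Z := hg
      rw [Subgroup.sup_eq_closure] at hg'
      refine Subgroup.closure_induction''
        (p := fun g _ => g ∈ (X : Set G) * (Z : Set G)) ?_ ?_ ?_ ?_ hg'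
      · intro x hx
        rcases hx with hx | hx
        · exact Set.mem_mul.mpr ⟨x, hx, 1, Z.one_mem, mul_one x⟩
        · exact Set.mem_mul.mpr ⟨1, X.one_mem, x, hx, one_mul x⟩
      · intro x hx
        rcases hx with hx | hx
        · exact Set.mem_mul.mpr ⟨x⁻¹, X.inv_mem hx, 1, Z.one_mem, mul_one _⟩
        · exact Set.mem_mul.mpr ⟨1, X.one_mem, x⁻¹, Z.inv_mem hx, one_mul _⟩
      · exact Set.mem_mul.mpr ⟨1, X.one_mem, 1, Z.one_mem, mul_one 1⟩
      · intro a b _ _ ha hb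
        obtain ⟨x1, hx1, z1, hz1, e1⟩ := Set.mem_mul.mp ha
        obtain ⟨x2, hx2, z2, hz2, e2⟩ := Set.mem_mul.mp hb
        obtain ⟨x', hx', z', hz', e⟩ := hXZ x2 hx2 z1 hz1
        refine Set.mem_mul.mpr ⟨x1 * x', X.mul_mem hx1 hx', z' * z2, Z.mul_mem hz' hz2, ?_⟩
        calc x1 * x' * (z' * z2) = x1 * (x' * z') * z2 := by group
          _ = x1 * (z1 * x2) * z2 := by rw [e]
          _ = x1 * z1 * (x2 * z2) := by group
          _ = a * b := by rw [e1, e2]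
    · intro g hg
      obtain ⟨x, hx, z, hz, rfl⟩ := Set.mem_mul.mp hg
      exact Subgroup.mul_mem _ ((le_sup_left : X ≤ X ⊔ Z) hx) ((le_sup_right : Z ≤ X ⊔ Z) hz)
  obtain ⟨Good, hGood⟩ : ∃ Good : Subgroup G → Prop, Good = fun A' => A ≤ A' ∧
      ∀ x : G, ∃ S : Subgroup G, S ≠ ⊤ ∧
        (S : Set G) = (A' : Set G) * ((MulAut.conj x • B : Subgroup G) : Set G) := ⟨_, rfl⟩
  have hGA : Good A := by rw [hGood]; exact ⟨le_refl _, h⟩
  haveI : Nonempty {X : Subgroup G // Good X} := ⟨⟨A, hGA⟩⟩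
  obtain ⟨⟨A', hA'⟩, hmax⟩ :=
    Finite.exists_max (fun X : {X : Subgroup G // Good X} => Nat.card X.1)
  have hA'g : A ≤ A' ∧ ∀ x : G, ∃ S : Subgroup G, S ≠ ⊤ ∧
        (S : Set G) = (A' : Set G) * ((MulAut.conj x • B : Subgroup G) : Set G) := by
    have := hA'
    rw [hGood] at this
    exact this
  obtain ⟨hAA', hA'2⟩ := hA'g
  have hP1 : ∀ x : G, ∀ a ∈ A', ∀ z ∈ MulAut.conj x • B,
      ∃ a' ∈ A', ∃ z' ∈ MulAut.conj x • B, z * a = a' * z' := by
    intro x a ha z hz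
    obtain ⟨S, -, hS⟩ := hA'2 x
    have h1 : a ∈ (S : Set G) := by
      rw [hS]; exact Set.mem_mul.mpr ⟨a, ha, 1, Subgroup.one_mem _, mul_one a⟩
    have h2 : z ∈ (S : Set G) := by
      rw [hS]; exact Set.mem_mul.mpr ⟨1, A'.one_mem, z, hz, one_mul z⟩
    have h3 : z * a ∈ (S : Set G) := S.mul_mem h2 h1
    rw [hS] at h3
    obtain ⟨a', ha', z', hz', e⟩ := Set.mem_mul.mp h3
    exact ⟨a', ha', z', hz', e.symm⟩
  have hP2 : ∀ x : G, A' ⊔ MulAut.conj x • B ≠ ⊤ := by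
    intro x htop
    obtain ⟨S, hSne, hS⟩ := hA'2 x
    apply hSne
    rw [eq_top_iff, ← htop]
    apply sup_le
    · intro a ha
      have : a ∈ (S : Set G) := by
        rw [hS]; exact Set.mem_mul.mpr ⟨a, ha, 1, Subgroup.one_mem _, mul_one a⟩
      exact this
    · intro z hz
      have : z ∈ (S : Set G) := by
        rw [hS]; exact Set.mem_mul.mpr ⟨1, A'.one_mem, z, hz, one_mul z⟩
      exact this
  have hnorm : ∀ y : G, ∀ b ∈ MulAut.conj y • B, ∀ a ∈ A', b * a * b⁻¹ ∈ A' := by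
    intro y b hb a ha
    obtain ⟨As, hAs⟩ : ∃ As : Subgroup G, As = A' ⊔ MulAut.conj b • A' := ⟨_, rfl⟩
    have hA'As : A' ≤ As := by rw [hAs]; exact le_sup_left
    have hSy : As ≤ A' ⊔ MulAut.conj y • B := by
      rw [hAs]
      apply sup_le le_sup_left
      intro c hc
      rw [hmem] at hc
      have e : c = b * (b⁻¹ * c * b) * b⁻¹ := by group
      rw [e]
      have hb' : b ∈ A' ⊔ MulAut.conj y • B :=
        (le_sup_right : MulAut.conj y • B ≤ A' ⊔ MulAut.conj y • B) hb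
      exact Subgroup.mul_mem _ (Subgroup.mul_mem _ hb'
        ((le_sup_left : A' ≤ A' ⊔ MulAut.conj y • B) hc)) (Subgroup.inv_mem _ hb')
    have hPs : ∀ x : G, ∀ u ∈ As, ∀ z ∈ MulAut.conj x • B,
        ∃ u' ∈ As, ∃ z' ∈ MulAut.conj x • B, z * u = u' * z' := by
      intro x
      rw [hAs]
      apply L1 A' (MulAut.conj b • A') (MulAut.conj x • B) (hP1 x)
      intro c hc z hz
      rw [hmem] at hc hz
      have hz2 : b⁻¹ * z * b ∈ MulAut.conj (b⁻¹ * x) • B := by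
        rw [hmem]
        have e : (b⁻¹ * x)⁻¹ * (b⁻¹ * z * b) * (b⁻¹ * x) = x⁻¹ * z * x := by group
        rw [e]; exact hz
      obtain ⟨a'', ha'', z'', hz'', e⟩ := hP1 (b⁻¹ * x) (b⁻¹ * c * b) hc (b⁻¹ * z * b) hz2
      refine ⟨b * a'' * b⁻¹, ?_, b * z'' * b⁻¹, ?_, ?_⟩
      · rw [hmem]
        have e1 : b⁻¹ * (b * a'' * b⁻¹) * b = a'' := by group
        rw [e1]; exact ha''
      · rw [hmem] at hz'' ⊢
        have e1 : x⁻¹ * (b * z'' * b⁻¹) * x = (b⁻¹ * x)⁻¹ * z'' * (b⁻¹ * x) := by group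
        rw [e1]; exact hz''
      · calc z * c = b * ((b⁻¹ * z * b) * (b⁻¹ * c * b)) * b⁻¹ := by group
          _ = b * (a'' * z'') * b⁻¹ := by rw [e]
          _ = b * a'' * b⁻¹ * (b * z'' * b⁻¹) := by group
    have hGs : Good As := by
      rw [hGood]
      refine ⟨hAA'.trans hA'As, fun x => ⟨As ⊔ MulAut.conj x • B, ?_, L2 As _ (hPs x)⟩⟩
      intro htop
      apply hP2 y
      rw [eq_top_iff]
      have hall : ∀ t : G, t ∈ (As : Set G) * ((MulAut.conj x • B : Subgroup G) : Set G) := by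
        intro t
        rw [← L2 As _ (hPs x), htop]
        exact Subgroup.mem_top t
      obtain ⟨u, hu, z, hz, e⟩ := Set.mem_mul.mp (hall (x * y⁻¹)⁻¹)
      have hz' : x⁻¹ * z * x ∈ B := (hmem x z B).mp hz
      have hk : (x * y⁻¹)⁻¹ * z * (x * y⁻¹) ∈ MulAut.conj y • B := by
        rw [hmem]
        have e1 : y⁻¹ * ((x * y⁻¹)⁻¹ * z * (x * y⁻¹)) * y = x⁻¹ * z * x := by group
        rw [e1]; exact hz'
      have hg : x * y⁻¹ ∈ A' ⊔ MulAut.conj y • B := by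
        have e2 : x * y⁻¹ = u⁻¹ * ((x * y⁻¹)⁻¹ * z * (x * y⁻¹))⁻¹ := by
          have ez : z = u⁻¹ * (x * y⁻¹)⁻¹ := by rw [← e]; group
          rw [ez]; group
        rw [e2]
        exact Subgroup.mul_mem _ (Subgroup.inv_mem _ (hSy hu)) (Subgroup.inv_mem _
          ((le_sup_right : MulAut.conj y • B ≤ A' ⊔ MulAut.conj y • B) hk))
      intro t _
      obtain ⟨ut, hut, zt, hzt, et⟩ := Set.mem_mul.mp (hall t)
      have hzt' : x⁻¹ * zt * x ∈ B := (hmem x zt B).mp hzt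
      have hkt : (x * y⁻¹)⁻¹ * zt * (x * y⁻¹) ∈ MulAut.conj y • B := by
        rw [hmem]
        have e1 : y⁻¹ * ((x * y⁻¹)⁻¹ * zt * (x * y⁻¹)) * y = x⁻¹ * zt * x := by group
        rw [e1]; exact hzt'
      have e3 : t = ut * ((x * y⁻¹) * ((x * y⁻¹)⁻¹ * zt * (x * y⁻¹)) * (x * y⁻¹)⁻¹) := by
        rw [← et]; group
      rw [e3]
      exact Subgroup.mul_mem _ (hSy hut) (Subgroup.mul_mem _ (Subgroup.mul_mem _ hg
        ((le_sup_right : MulAut.conj y • B ≤ A' ⊔ MulAut.conj y • B) hkt))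
        (Subgroup.inv_mem _ hg))
    have hcard := hmax ⟨As, hGs⟩
    have heq : A' = As := Subgroup.eq_of_le_of_card_ge hA'As hcard
    have : b * a * b⁻¹ ∈ As := by
      rw [hAs]
      apply (le_sup_right : MulAut.conj b • A' ≤ A' ⊔ MulAut.conj b • A')
      rw [hmem]
      have e1 : b⁻¹ * (b * a * b⁻¹) * b = a := by group
      rw [e1]; exact ha
    rw [heq]; exact this
  have hnz : ∀ y : G, MulAut.conj y • B ≤ Subgroup.normalizer (A' : Set G) := by
    intro y b hb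
    rw [Subgroup.mem_normalizer_iff]
    intro a
    constructor
    · intro ha; exact hnorm y b hb a ha
    · intro ha
      have := hnorm y b⁻¹ (Subgroup.inv_mem _ hb) _ ha
      have e1 : b⁻¹ * (b * a * b⁻¹) * b⁻¹⁻¹ = a := by group
      rwa [e1] at this
  have hncl : Subgroup.normalClosure (B : Set G) ≤ Subgroup.normalizer (A' : Set G) := by
    show Subgroup.closure (Group.conjugatesOfSet (B : Set G)) ≤ _
    rw [Subgroup.closure_le]
    intro c hc
    rw [Group.mem_conjugatesOfSet_iff] at hc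
    obtain ⟨b0, hb0, hconj⟩ := hc
    rw [isConj_iff] at hconj
    obtain ⟨y, rfl⟩ := hconj
    apply hnz y
    rw [hmem]
    have e1 : y⁻¹ * (y * b0 * y⁻¹) * y = b0 := by group
    rw [e1]; exact hb0
  by_cases hN : Subgroup.normalizer (A' : Set G) = ⊤
  · have hn : A'.Normal := Subgroup.normalizer_eq_top_iff.mp hN
    refine ⟨A', hn, ?_, Or.inl hAA'⟩
    intro htop
    apply hP2 1
    rw [eq_top_iff, ← htop]; exact le_sup_left
  · refine ⟨Subgroup.normalClosure (B : Set G), Subgroup.normalClosure_normal, ?_,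
      Or.inr Subgroup.le_normalClosure⟩
    intro htop
    apply hN
    rw [eq_top_iff, ← htop]; exact hncl

end Cfsg.Agent.S0566
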