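import Cfsg.Statements.S0567
import Mathlib

set_option autoImplicit false
open Cfsg
open scoped commutatorElement

namespace Cfsg.Agent.S0567

theorem iter_mono {G : Type*} [Group G] {H K : Subgroup G} (hle : H ≤ K) (m : ℕ) :
    (fun L : Subgroup G => ⁅L, H⁆)^[m] ⊤ ≤ (fun L : Subgroup G => ⁅L, K⁆)^[m] ⊤ := by
  induction m with
  | zero => exact le_rfl
  | succ m ih =>
    rw [Function.iterate_succ_apply', Function.iterate_succ_apply']
    exact Subgroup.commutator_mono ih hle

theorem subnormal_sup_iter {G : Type*} [Group G] (H : Subgroup G) (i : ℕ) :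
    (H ⊔ (fun K : Subgroup G => ⁅K, H⁆)^[i] ⊤).IsSubnormal := by
  induction i with
  | zero =>
    simp only [Function.iterate_zero, id, sup_top_eq]
    exact Subgroup.IsSubnormal.top
  | succ i ih =>
    rw [Function.iterate_succ_apply']
    generalize (fun K : Subgroup G => ⁅K, H⁆)^[i] ⊤ = Ki at ih ⊢
    have hle : H ⊔ ⁅Ki, H⁆ ≤ H ⊔ Ki := sup_le le_sup_left (by
      rw [Subgroup.commutator_le]
      intro k hk h hh
      rw [commutatorElement_def]
      exact mul_mem (mul_mem (mul_mem (Subgroup.mem_sup_right hk) (Subgroup.mem_sup_left hh))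
        (inv_mem (Subgroup.mem_sup_right hk))) (inv_mem (Subgroup.mem_sup_left hh)))
    refine Subgroup.IsSubnormal.step _ _ hle ih ?_
    rw [Subgroup.normal_subgroupOf_iff_le_normalizer hle]
    apply sup_le
    · exact le_sup_left.trans Subgroup.le_normalizer
    · intro k hk
      have hconj : ∀ k ∈ Ki, ∀ y ∈ H ⊔ ⁅Ki, H⁆, k * y * k⁻¹ ∈ H ⊔ ⁅Ki, H⁆ := by
        intro k hk y hy
        have hsub : H ⊔ ⁅Ki, H⁆ ≤ (H ⊔ ⁅Ki, H⁆).comap (MulAut.conj k).toMonoidHom := by
          apply sup_le
          · intro h hh
            rw [Subgroup.mem_comap]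
            show k * h * k⁻¹ ∈ _
            have e : k * h * k⁻¹ = ⁅k, h⁆ * h := by rw [commutatorElement_def]; group
            rw [e]
            exact mul_mem (Subgroup.mem_sup_right (Subgroup.commutator_mem_commutator hk hh))
              (Subgroup.mem_sup_left hh)
          · rw [Subgroup.commutator_le]
            intro k' hk' h hh
            rw [Subgroup.mem_comap]
            show k * ⁅k', h⁆ * k⁻¹ ∈ _
            have e : k * ⁅k', h⁆ * k⁻¹ = ⁅k * k', h⁆ * ⁅k, h⁆⁻¹ := by
              simp only [commutatorElement_def]; group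
            rw [e]
            exact Subgroup.mem_sup_right (mul_mem
              (Subgroup.commutator_mem_commutator (mul_mem hk hk') hh)
              (inv_mem (Subgroup.commutator_mem_commutator hk hh)))
        exact hsub hy
      rw [Subgroup.mem_normalizer_iff]
      intro y
      constructor
      · exact hconj k hk y
      · intro hy
        have h3 := hconj k⁻¹ (inv_mem hk) _ hy
        have e : k⁻¹ * (k * y * k⁻¹) * k⁻¹⁻¹ = y := by group
        rw [e] at h3
        exact h3

/-- A subgroup H of a group G is subnormal exactly when, for some m, the subgroup obtained from G by taking the commutator with H m times in succession is contained in H. -/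
theorem result {G : Type*} [Group G] (H : Subgroup G) : H.IsSubnormal ↔ ∃ m : ℕ, (fun K : Subgroup G => ⁅K, H⁆)^[m] ⊤ ≤ H := by
  constructor
  · intro hH
    induction hH with
    | top => exact ⟨0, le_top⟩
    | step H K hle hK hn ih =>
      obtain ⟨m, hm⟩ := ih
      refine ⟨m + 1, ?_⟩
      rw [Function.iterate_succ_apply']
      have h2 : ⁅K, H⁆ ≤ H := by
        rw [Subgroup.commutator_le]
        intro k hk h hh
        have h3 := hn.conj_mem ⟨h, hle hh⟩ (Subgroup.mem_subgroupOf.mpr hh) ⟨k, hk⟩
        rw [Subgroup.mem_subgroupOf] at h3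
        rw [commutatorElement_def]
        exact mul_mem h3 (inv_mem hh)
      exact (Subgroup.commutator_mono ((iter_mono hle m).trans hm) le_rfl).trans h2
  · rintro ⟨m, hm⟩
    have key := subnormal_sup_iter H m
    rwa [sup_eq_left.mpr hm] at key


end Cfsg.Agent.S0567
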