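import Cfsg.Statements.S0569
import Mathlib
import Cfsg.Agent.Helper6.CarterSys2
-- import your own Cfsg.Agent.* helpers here

set_option autoImplicit false
open Cfsg

namespace Cfsg.Agent.S0569

/-- In a finite solvable group: each nilpotent self-normalizing subgroup contains the system normalizer of some Hall complement system, and the system normalizer of any Hall complement system lies in some nilpotent self-normalizing subgroup. -/
theorem result {G : Type*} [Group G] [Finite G] [Group.IsSolvable G] : (∀ C : Subgroup G, Cfsg.IsCarterSubgroup C → ∃ K : Nat.Primes → Subgroup G, Cfsg.IsComplementSystem K ∧ Cfsg.systemNormalizer K ≤ C) ∧ ∀ K : Nat.Primes → Subgroup G, Cfsg.IsComplementSystem K → ∃ C : Subgroup G, Cfsg.IsCarterSubgroup C ∧ Cfsg.systemNormalizer K ≤ C := by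
  classical
  have part1 : ∀ C : Subgroup G, Cfsg.IsCarterSubgroup C → ∃ K : Nat.Primes → Subgroup G,
      Cfsg.IsComplementSystem K ∧ Cfsg.systemNormalizer K ≤ C := by
    intro C hC
    obtain ⟨K, hK, hred⟩ := Cfsg.Agent.Helper6.exists_reducing_system C hC.1
    exact ⟨K, hK,
      Cfsg.Agent.Helper6.sysnorm_le_carter (Nat.card G) G le_rfl K hK C hC.1 hC.2 hred⟩
  refine ⟨part1, ?_⟩
  intro K hK
  obtain ⟨C₀, hC₀⟩ := (Cfsg.Agent.S0045.result (G := G)).1
  obtain ⟨K₀, hK₀, hle⟩ := part1 C₀ hC₀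
  obtain ⟨g, hg⟩ := Cfsg.Agent.Helper6.compl_system_conj K₀ K hK₀ hK
  exact ⟨C₀.map (MulAut.conj g).toMonoidHom, Cfsg.Agent.S0045.carter_conj C₀ hC₀ g,
    Cfsg.Agent.Helper6.sysnorm_conj_le K₀ K g hg C₀ hle⟩

end Cfsg.Agent.S0569
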