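import Cfsg.Statements.S0570
import Mathlib
import Cfsg.Agent.Helper6.CarterSys3
-- import your own Cfsg.Agent.* helpers here

set_option autoImplicit false
open Cfsg

namespace Cfsg.Agent.S0570

/-- Let G be a finite group with a nilpotent normal subgroup F such that G modulo F is nilpotent (nilpotent length at most two). Then a subgroup of G is a Carter subgroup if and only if it is the system normalizer of some Hall complement system. -/
theorem result {G : Type*} [Group G] [Finite G] (F : Subgroup G) [F.Normal] (hF : Group.IsNilpotent F) (hGF : Group.IsNilpotent (G ⧸ F)) (C : Subgroup G) : Cfsg.IsCarterSubgroup C ↔ ∃ K : Nat.Primes → Subgroup G, Cfsg.IsComplementSystem K ∧ C = Cfsg.systemNormalizer K := by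
  classical
  haveI := hF
  haveI := hGF
  haveI hsol : Group.IsSolvable G := by
    apply Group.isSolvable_of_ker_le_range F.subtype (QuotientGroup.mk' F)
    rw [QuotientGroup.ker_mk', Subgroup.range_subtype]
  constructor
  · intro hC
    obtain ⟨K, hK, hred⟩ := Cfsg.Agent.Helper6.exists_reducing_system C hC.1
    have hle := Cfsg.Agent.Helper6.sysnorm_le_carter (Nat.card G) G le_rfl K hK C hC.1 hC.2 hred
    have hD := Cfsg.Agent.Helper6.sysnorm_isCarter_of_nilp_quot K hK F hF hGF
    refine ⟨K, hK, ?_⟩
    exact (Cfsg.Agent.S0045.eq_of_le_nilpotent _ C hle hC.1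
      (by rw [hD.2]; exact inf_le_right)).symm
  · rintro ⟨K, hK, rfl⟩
    exact Cfsg.Agent.Helper6.sysnorm_isCarter_of_nilp_quot K hK F hF hGF

end Cfsg.Agent.S0570
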