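import Cfsg.Statements.S0572
import Mathlib

set_option autoImplicit false
open Cfsg
open scoped commutatorElement

namespace Cfsg.Agent.S0572

/-- Itô's Theorem: if a group G is the product AB of two abelian subgroups, then the commutator subgroup of G is abelian, i.e. the second term of the derived series is trivial. -/
theorem result {G : Type*} [Group G] (A B : Subgroup G) [IsMulCommutative A] [IsMulCommutative B] (hAB : ∀ g : G, ∃ a ∈ A, ∃ b ∈ B, g = a * b) : derivedSeries G 2 = ⊥ := by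
  have comA : ∀ x ∈ A, ∀ y ∈ A, x * y = y * x := fun x hx y hy =>
    setLike_mul_comm hx hy
  have comB : ∀ x ∈ B, ∀ y ∈ B, x * y = y * x := fun x hx y hy =>
    setLike_mul_comm hx hy
  have hBA : ∀ g : G, ∃ b ∈ B, ∃ a ∈ A, g = b * a := by
    intro g
    obtain ⟨a, ha, b, hb, h⟩ := hAB g⁻¹
    exact ⟨b⁻¹, inv_mem hb, a⁻¹, inv_mem ha, by rw [← mul_inv_rev, ← h, inv_inv]⟩
  -- conjugation by an element of A
  have LA : ∀ a ∈ A, ∀ a1 ∈ A, ∀ b b2 a2 : G, a2 ∈ A → a1 * b * a1⁻¹ = b2 * a2 →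
      a1 * ⁅a, b⁆ * a1⁻¹ = ⁅a, b2⁆ := by
    intro a ha a1 ha1 b b2 a2 ha2 e
    have h1 : a1 * a * a1⁻¹ = a := by rw [comA a1 ha1 a ha, mul_inv_cancel_right]
    have h2 : a2 * a⁻¹ * a2⁻¹ = a⁻¹ := by
      rw [comA a2 ha2 a⁻¹ (inv_mem ha), mul_inv_cancel_right]
    rw [conjugate_commutatorElement, h1, e, commutatorElement_def, commutatorElement_def]
    calc a * (b2 * a2) * a⁻¹ * (b2 * a2)⁻¹ = a * b2 * (a2 * a⁻¹ * a2⁻¹) * b2⁻¹ := by group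
      _ = a * b2 * a⁻¹ * b2⁻¹ := by rw [h2]
  have LB : ∀ b ∈ B, ∀ b1 ∈ B, ∀ a a3 b3 : G, b3 ∈ B → b1 * a * b1⁻¹ = a3 * b3 →
      b1 * ⁅a, b⁆ * b1⁻¹ = ⁅a3, b⁆ := by
    intro b hb b1 hb1 a a3 b3 hb3 e
    have h1 : b1 * b * b1⁻¹ = b := by rw [comB b1 hb1 b hb, mul_inv_cancel_right]
    have h2 : b3 * b * b3⁻¹ = b := by
      rw [comB b3 hb3 b hb, mul_inv_cancel_right]
    rw [conjugate_commutatorElement, h1, e, commutatorElement_def, commutatorElement_def]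
    calc a3 * b3 * b * (a3 * b3)⁻¹ * b⁻¹ = a3 * (b3 * b * b3⁻¹) * a3⁻¹ * b⁻¹ := by group
      _ = a3 * b * a3⁻¹ * b⁻¹ := by rw [h2]
  -- Ito's computation
  have ito : ∀ a ∈ A, ∀ b ∈ B, ∀ a1 ∈ A, ∀ b1 ∈ B,
      (b1 * a1) * ⁅a, b⁆ * (b1 * a1)⁻¹ = (a1 * b1) * ⁅a, b⁆ * (a1 * b1)⁻¹ := by
    intro a ha b hb a1 ha1 b1 hb1
    obtain ⟨b2, hb2, a2, ha2, e1⟩ := hBA (a1 * b * a1⁻¹)
    obtain ⟨a3, ha3, b3, hb3, e2⟩ := hAB (b1 * a * b1⁻¹)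
    have s1 : (b1 * a1) * ⁅a, b⁆ * (b1 * a1)⁻¹ = b1 * (a1 * ⁅a, b⁆ * a1⁻¹) * b1⁻¹ := by group
    have s2 : (a1 * b1) * ⁅a, b⁆ * (a1 * b1)⁻¹ = a1 * (b1 * ⁅a, b⁆ * b1⁻¹) * a1⁻¹ := by group
    rw [s1, s2, LA a ha a1 ha1 b b2 a2 ha2 e1, LB b2 hb2 b1 hb1 a a3 b3 hb3 e2,
      LB b hb b1 hb1 a a3 b3 hb3 e2, LA a3 ha3 a1 ha1 b b2 a2 ha2 e1]
  have comm1 : ∀ a ∈ A, ∀ b ∈ B, ∀ a' ∈ A, ∀ b' ∈ B, Commute ⁅a', b'⁆ ⁅a, b⁆ := by
    intro a ha b hb a' ha' b' hb'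
    have h := ito a ha b hb a'⁻¹ (inv_mem ha') b'⁻¹ (inv_mem hb')
    have h2 : Commute ⁅b', a'⁆ ⁅a, b⁆ := by
      unfold Commute SemiconjBy
      have e : ⁅b', a'⁆ = (a'⁻¹ * b'⁻¹)⁻¹ * (b'⁻¹ * a'⁻¹) := by
        rw [commutatorElement_def]; group
      rw [e]
      have h3 : (a'⁻¹ * b'⁻¹)⁻¹ * ((b'⁻¹ * a'⁻¹) * ⁅a, b⁆ * (b'⁻¹ * a'⁻¹)⁻¹) * (b'⁻¹ * a'⁻¹)
          = (a'⁻¹ * b'⁻¹)⁻¹ * ((a'⁻¹ * b'⁻¹) * ⁅a, b⁆ * (a'⁻¹ * b'⁻¹)⁻¹) * (b'⁻¹ * a'⁻¹) := by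
        rw [h]
      calc (a'⁻¹ * b'⁻¹)⁻¹ * (b'⁻¹ * a'⁻¹) * ⁅a, b⁆
          = (a'⁻¹ * b'⁻¹)⁻¹ * ((b'⁻¹ * a'⁻¹) * ⁅a, b⁆ * (b'⁻¹ * a'⁻¹)⁻¹) * (b'⁻¹ * a'⁻¹) := by group
        _ = (a'⁻¹ * b'⁻¹)⁻¹ * ((a'⁻¹ * b'⁻¹) * ⁅a, b⁆ * (a'⁻¹ * b'⁻¹)⁻¹) * (b'⁻¹ * a'⁻¹) := h3
        _ = ⁅a, b⁆ * ((a'⁻¹ * b'⁻¹)⁻¹ * (b'⁻¹ * a'⁻¹)) := by group
    have := h2.inv_left
    rwa [commutatorElement_inv] at this
  -- N = ⁅A, B⁆ is abelian
  have hNcomm : ∀ x ∈ ⁅A, B⁆, ∀ y ∈ ⁅A, B⁆, x * y = y * x := by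
    have hS : ∀ y ∈ {g | ∃ g₁ ∈ A, ∃ g₂ ∈ B, ⁅g₁, g₂⁆ = g}, ∀ x ∈ ⁅A, B⁆, x * y = y * x := by
      rintro y ⟨a, ha, b, hb, rfl⟩ x hx
      rw [Subgroup.commutator_def] at hx
      have : Subgroup.closure {g | ∃ g₁ ∈ A, ∃ g₂ ∈ B, ⁅g₁, g₂⁆ = g} ≤
          Subgroup.centralizer {⁅a, b⁆} := by
        rw [Subgroup.closure_le]
        rintro _ ⟨a', ha', b', hb', rfl⟩
        rw [SetLike.mem_coe, Subgroup.mem_centralizer_iff]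
        intro z hz
        rw [Set.mem_singleton_iff] at hz
        subst hz
        exact (comm1 a ha b hb a' ha' b' hb').eq.symm
      have := this hx
      rw [Subgroup.mem_centralizer_iff] at this
      exact (this _ (Set.mem_singleton _)).symm
    intro x hx y hy
    have : Subgroup.closure {g | ∃ g₁ ∈ A, ∃ g₂ ∈ B, ⁅g₁, g₂⁆ = g} ≤ Subgroup.centralizer {x} := by
      rw [Subgroup.closure_le]
      intro z hz
      rw [SetLike.mem_coe, Subgroup.mem_centralizer_iff]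
      intro w hw
      rw [Set.mem_singleton_iff] at hw
      subst hw
      exact hS z hz w hx
    rw [Subgroup.commutator_def] at hy
    have := this hy
    rw [Subgroup.mem_centralizer_iff] at this
    exact this _ (Set.mem_singleton _)
  -- N is normal
  have hNn : (⁅A, B⁆ : Subgroup G).Normal := by
    rw [← Subgroup.normalizer_eq_top_iff, eq_top_iff]
    intro g _
    obtain ⟨a, ha, b, hb, rfl⟩ := hAB g
    exact mul_mem (Subgroup.normalizer_commutator_ge_left A B ha)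
      (Subgroup.normalizer_commutator_ge_right A B hb)
  -- G' ≤ N
  have hle : ⁅(⊤ : Subgroup G), ⊤⁆ ≤ ⁅A, B⁆ := by
    rw [Subgroup.commutator_le]
    intro g₁ _ g₂ _
    have key : ∀ a ∈ A, ∀ b ∈ B,
        Commute (QuotientGroup.mk' ⁅A, B⁆ a) (QuotientGroup.mk' ⁅A, B⁆ b) := by
      intro a ha b hb
      rw [← commutatorElement_eq_one_iff_commute, ← map_commutatorElement,
        QuotientGroup.mk'_apply, QuotientGroup.eq_one_iff]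
      exact Subgroup.commutator_mem_commutator ha hb
    obtain ⟨a₁, ha₁, b₁, hb₁, rfl⟩ := hAB g₁
    obtain ⟨a₂, ha₂, b₂, hb₂, rfl⟩ := hAB g₂
    rw [← QuotientGroup.eq_one_iff, ← QuotientGroup.mk'_apply, map_commutatorElement,
      commutatorElement_eq_one_iff_commute, map_mul, map_mul]
    have cA : Commute (QuotientGroup.mk' ⁅A, B⁆ a₁) (QuotientGroup.mk' ⁅A, B⁆ a₂) := by
      unfold Commute SemiconjBy; rw [← map_mul, ← map_mul, comA a₁ ha₁ a₂ ha₂]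
    have cB : Commute (QuotientGroup.mk' ⁅A, B⁆ b₁) (QuotientGroup.mk' ⁅A, B⁆ b₂) := by
      unfold Commute SemiconjBy; rw [← map_mul, ← map_mul, comB b₁ hb₁ b₂ hb₂]
    exact (cA.mul_right (key a₁ ha₁ b₂ hb₂)).mul_left ((key a₂ ha₂ b₁ hb₁).symm.mul_right cB)
  rw [derivedSeries_succ, derivedSeries_succ, derivedSeries_zero, eq_bot_iff]
  refine le_trans (Subgroup.commutator_mono hle hle) ?_
  rw [Subgroup.commutator_le]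
  intro g₁ h₁ g₂ h₂
  rw [Subgroup.mem_bot, commutatorElement_eq_one_iff_mul_comm]
  exact hNcomm g₁ h₁ g₂ h₂


end Cfsg.Agent.S0572
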