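import Cfsg.Statements.S0573
import Mathlib
import Cfsg.Agent.S0572
-- import your own Cfsg.Agent.* helpers here

set_option autoImplicit false
open Cfsg

namespace Cfsg.Agent.S0573

/-- If a nontrivial finite group G is the product AB of abelian subgroups A and B, then some nontrivial normal subgroup of G is contained in A or in B. -/
theorem result {G : Type*} [Group G] [Finite G] [Nontrivial G] (A B : Subgroup G) [IsMulCommutative A] [IsMulCommutative B] (hAB : ∀ g : G, ∃ a ∈ A, ∃ b ∈ B, g = a * b) : ∃ N : Subgroup G, N.Normal ∧ N ≠ ⊥ ∧ (N ≤ A ∨ N ≤ B) := by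
  classical
  have comA : ∀ x ∈ A, ∀ y ∈ A, x * y = y * x := fun x hx y hy => setLike_mul_comm hx hy
  have comB : ∀ x ∈ B, ∀ y ∈ B, x * y = y * x := fun x hx y hy => setLike_mul_comm hx hy
  have hBA : ∀ g : G, ∃ b ∈ B, ∃ a ∈ A, g = b * a := by
    intro g
    obtain ⟨a, ha, b, hb, h⟩ := hAB g⁻¹
    refine ⟨b⁻¹, B.inv_mem hb, a⁻¹, A.inv_mem ha, ?_⟩
    rw [← mul_inv_rev, ← h, inv_inv]
  have hcent : ∀ (X Y : Subgroup G), (∀ g : G, ∃ a ∈ X, ∃ b ∈ Y, g = a * b) → ∀ z : G,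
      (∀ a ∈ X, z * a = a * z) → (∀ b ∈ Y, z * b = b * z) → ∀ g : G, z * g = g * z := by
    intro X Y hXY z hzX hzY g
    obtain ⟨a, ha, b, hb, rfl⟩ := hXY g
    calc z * (a * b) = (z * a) * b := by group
      _ = (a * z) * b := by rw [hzX a ha]
      _ = a * (z * b) := by group
      _ = a * (b * z) := by rw [hzY b hb]
      _ = a * b * z := by group
  by_cases hZ : ∃ z : G, z ≠ 1 ∧ ∀ g : G, z * g = g * z
  · obtain ⟨z, hz1, hz⟩ := hZ
    obtain ⟨a, ha, b, hb, hzab⟩ := hAB z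
    have hac : ∀ g : G, a * g = g * a := by
      apply hcent A B hAB a (fun a1 ha1 => comA a ha a1 ha1)
      intro b1 hb1
      have e : a = z * b⁻¹ := by rw [hzab]; group
      have c := comB b⁻¹ (B.inv_mem hb) b1 hb1
      calc a * b1 = z * (b⁻¹ * b1) := by rw [e]; group
        _ = z * (b1 * b⁻¹) := by rw [c]
        _ = (z * b1) * b⁻¹ := by group
        _ = (b1 * z) * b⁻¹ := by rw [hz b1]
        _ = b1 * a := by rw [e]; group
    have hbc : ∀ g : G, b * g = g * b := by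
      intro g
      have e : b = a⁻¹ * z := by rw [hzab]; group
      have hainv : a⁻¹ * g = g * a⁻¹ := by
        have := hac g
        calc a⁻¹ * g = a⁻¹ * (g * a) * a⁻¹ := by group
          _ = a⁻¹ * (a * g) * a⁻¹ := by rw [this]
          _ = g * a⁻¹ := by group
      calc b * g = a⁻¹ * (z * g) := by rw [e]; group
        _ = a⁻¹ * (g * z) := by rw [hz g]
        _ = (a⁻¹ * g) * z := by group
        _ = (g * a⁻¹) * z := by rw [hainv]
        _ = g * b := by rw [e]; group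
    have hzp : ∀ c : G, (∀ g : G, c * g = g * c) → (Subgroup.zpowers c).Normal := by
      intro c hc
      refine ⟨fun n hn g => ?_⟩
      have hn' : ∀ g : G, n * g = g * n := by
        intro g
        obtain ⟨k, rfl⟩ := Subgroup.mem_zpowers_iff.mp hn
        exact ((Commute.zpow_left (show Commute c g from hc g) k)).eq
      have : g * n * g⁻¹ = n := by rw [← hn' g, mul_assoc, mul_inv_cancel, mul_one]
      rw [this]; exact hn
    by_cases ha1 : a = 1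
    · have hb1 : b ≠ 1 := by
        intro h; apply hz1; rw [hzab, ha1, h, mul_one]
      exact ⟨Subgroup.zpowers b, hzp b hbc, fun h => hb1 (Subgroup.zpowers_eq_bot.mp h),
        Or.inr (Subgroup.zpowers_le.mpr hb)⟩
    · exact ⟨Subgroup.zpowers a, hzp a hac, fun h => ha1 (Subgroup.zpowers_eq_bot.mp h),
        Or.inl (Subgroup.zpowers_le.mpr ha)⟩
  push Not at hZ
  have hZ' : ∀ z : G, (∀ g : G, z * g = g * z) → z = 1 := by
    intro z hz
    by_contra h1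
    obtain ⟨g, hg⟩ := hZ z h1
    exact hg (hz g)
  obtain ⟨V, hV⟩ : ∃ V : Subgroup G, V = commutator G := ⟨_, rfl⟩
  have hVn : V.Normal := by rw [hV]; infer_instance
  have hVc : ∀ g h : G, g * h * g⁻¹ * h⁻¹ ∈ V := by
    intro g h
    rw [hV, commutator_def]
    exact Subgroup.commutator_mem_commutator (Subgroup.mem_top g) (Subgroup.mem_top h)
  have hVab : ∀ x ∈ V, ∀ y ∈ V, x * y = y * x := by
    intro x hx y hy
    have h2 := Cfsg.Agent.S0572.result A B hAB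
    rw [derivedSeries_succ, derivedSeries_one] at h2
    rw [hV] at hx hy
    have h3 := Subgroup.commutator_mem_commutator hx hy
    rw [h2, Subgroup.mem_bot, commutatorElement_def] at h3
    calc x * y = (x * y * x⁻¹ * y⁻¹) * (y * x) := by group
      _ = y * x := by rw [h3, one_mul]
  have key : ∀ (X Y : Subgroup G), (∀ x ∈ X, ∀ y ∈ X, x * y = y * x) →
      (∀ x ∈ Y, ∀ y ∈ Y, x * y = y * x) →
      (∀ g : G, ∃ a ∈ X, ∃ b ∈ Y, g = a * b) →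
      V ⊓ Subgroup.centralizer (X : Set G) ≠ ⊥ → ∃ N : Subgroup G, N.Normal ∧ N ≠ ⊥ ∧ N ≤ X := by
    intro X Y cX cY hXY hne
    refine ⟨V ⊓ Subgroup.centralizer (X : Set G), ⟨?_⟩, hne, ?_⟩
    · intro n hn g
      have hn' := Subgroup.mem_inf.mp hn
      refine Subgroup.mem_inf.mpr ⟨hVn.conj_mem n hn'.1 g, ?_⟩
      rw [Subgroup.mem_centralizer_iff]
      intro a1 ha1
      have hn2 := Subgroup.mem_centralizer_iff.mp hn'.2
      have hv1 : a1⁻¹ * g⁻¹ * a1 * g ∈ V := by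
        have := hVc a1⁻¹ g⁻¹
        simpa using this
      have h1 : n * (a1⁻¹ * g⁻¹ * a1 * g) = (a1⁻¹ * g⁻¹ * a1 * g) * n := hVab n hn'.1 _ hv1
      have h2 : a1 * n = n * a1 := hn2 a1 ha1
      have h3 : n * (g⁻¹ * a1 * g) = (g⁻¹ * a1 * g) * n := by
        calc n * (g⁻¹ * a1 * g) = (n * a1) * (a1⁻¹ * g⁻¹ * a1 * g) := by group
          _ = (a1 * n) * (a1⁻¹ * g⁻¹ * a1 * g) := by rw [h2]
          _ = a1 * (n * (a1⁻¹ * g⁻¹ * a1 * g)) := by group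
          _ = a1 * ((a1⁻¹ * g⁻¹ * a1 * g) * n) := by rw [h1]
          _ = (g⁻¹ * a1 * g) * n := by group
      calc a1 * (g * n * g⁻¹) = g * ((g⁻¹ * a1 * g) * n) * g⁻¹ := by group
        _ = g * (n * (g⁻¹ * a1 * g)) * g⁻¹ := by rw [h3]
        _ = g * n * g⁻¹ * a1 := by group
    · intro n hn
      obtain ⟨a, ha, b, hb, hnab⟩ := hXY n
      have hn2 := Subgroup.mem_centralizer_iff.mp (Subgroup.mem_inf.mp hn).2
      have hb1 : b = 1 := by
        apply hZ'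
        apply hcent X Y hXY b
        · intro a1 ha1
          have e : b = a⁻¹ * n := by rw [hnab]; group
          have c1 := hn2 a1 ha1
          have c2 := cX a⁻¹ (X.inv_mem ha) a1 ha1
          calc b * a1 = a⁻¹ * (n * a1) := by rw [e]; group
            _ = a⁻¹ * (a1 * n) := by rw [c1]
            _ = (a⁻¹ * a1) * n := by group
            _ = (a1 * a⁻¹) * n := by rw [c2]
            _ = a1 * b := by rw [e]; group
        · intro b1 hb1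
          exact cY b hb b1 hb1
      rw [hnab, hb1, mul_one]; exact ha
  by_cases hCA : V ⊓ Subgroup.centralizer (A : Set G) ≠ ⊥
  · obtain ⟨N, h1, h2, h3⟩ := key A B comA comB hAB hCA
    exact ⟨N, h1, h2, Or.inl h3⟩
  by_cases hCB : V ⊓ Subgroup.centralizer (B : Set G) ≠ ⊥
  · obtain ⟨N, h1, h2, h3⟩ := key B A comB comA hBA hCB
    exact ⟨N, h1, h2, Or.inr h3⟩
  push Not at hCA hCB
  exfalso
  have hVne : V ≠ ⊥ := by
    intro hV0
    obtain ⟨g, hg⟩ := exists_ne (1 : G)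
    apply hg
    apply hZ'
    intro h
    have := hVc g h
    rw [hV0, Subgroup.mem_bot] at this
    calc g * h = (g * h * g⁻¹ * h⁻¹) * (h * g) := by group
      _ = h * g := by rw [this, one_mul]
  haveI : Nonempty {N : Subgroup G // N.Normal ∧ N ≤ V ∧ N ≠ ⊥} :=
    ⟨⟨V, hVn, le_refl _, hVne⟩⟩
  obtain ⟨⟨N, hNn, hNV, hNne⟩, hmin⟩ := Finite.exists_min
    (fun N : {N : Subgroup G // N.Normal ∧ N ≤ V ∧ N ≠ ⊥} => Nat.card N.1)
  obtain ⟨n, hnN, hn1⟩ : ∃ n ∈ N, n ≠ 1 := by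
    by_contra hcon
    push Not at hcon
    exact hNne (by rw [eq_bot_iff]; intro x hx; exact Subgroup.mem_bot.mpr (hcon x hx))
  obtain ⟨a, ha, b, hb, hnab⟩ := hAB n
  have hnV : n ∈ V := hNV hnN
  have ha1 : a ≠ 1 := by
    intro h
    have hnb : n = b := by rw [hnab, h, one_mul]
    have : n ∈ V ⊓ Subgroup.centralizer (B : Set G) := by
      refine Subgroup.mem_inf.mpr ⟨hnV, ?_⟩
      rw [Subgroup.mem_centralizer_iff]
      intro b1 hb1
      rw [hnb]; exact comB b1 hb1 b hb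
    rw [hCB, Subgroup.mem_bot] at this
    exact hn1 this
  have haV : ∃ x ∈ V, a * x ≠ x * a := by
    by_contra hcon
    push Not at hcon
    apply ha1
    apply hZ'
    intro g
    have hv : a⁻¹ * g * a * g⁻¹ ∈ V := by
      have := hVc a⁻¹ g
      simpa using this
    have hvc : a⁻¹ * g * a * g⁻¹ ∈ Subgroup.centralizer (A : Set G) := by
      rw [Subgroup.mem_centralizer_iff]
      intro a1 ha1'
      have hv1 : a1⁻¹ * g⁻¹ * a1 * g ∈ V := by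
        have := hVc a1⁻¹ g⁻¹
        simpa using this
      have h1 : a * (a1⁻¹ * g⁻¹ * a1 * g) = (a1⁻¹ * g⁻¹ * a1 * g) * a := hcon _ hv1
      have h2 : a * a1 = a1 * a := comA a ha a1 ha1'
      have h3 : a * (g⁻¹ * a1 * g) = (g⁻¹ * a1 * g) * a := by
        calc a * (g⁻¹ * a1 * g) = (a * a1) * (a1⁻¹ * g⁻¹ * a1 * g) := by group
          _ = (a1 * a) * (a1⁻¹ * g⁻¹ * a1 * g) := by rw [h2]
          _ = a1 * (a * (a1⁻¹ * g⁻¹ * a1 * g)) := by group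
          _ = a1 * ((a1⁻¹ * g⁻¹ * a1 * g) * a) := by rw [h1]
          _ = (g⁻¹ * a1 * g) * a := by group
      have h4 : a1 * (g * a * g⁻¹) = (g * a * g⁻¹) * a1 := by
        calc a1 * (g * a * g⁻¹) = g * ((g⁻¹ * a1 * g) * a) * g⁻¹ := by group
          _ = g * (a * (g⁻¹ * a1 * g)) * g⁻¹ := by rw [h3]
          _ = (g * a * g⁻¹) * a1 := by group
      have h5 : a1 * a⁻¹ = a⁻¹ * a1 := comA a1 ha1' a⁻¹ (A.inv_mem ha)
      calc a1 * (a⁻¹ * g * a * g⁻¹) = (a1 * a⁻¹) * (g * a * g⁻¹) := by group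
        _ = (a⁻¹ * a1) * (g * a * g⁻¹) := by rw [h5]
        _ = a⁻¹ * (a1 * (g * a * g⁻¹)) := by group
        _ = a⁻¹ * ((g * a * g⁻¹) * a1) := by rw [h4]
        _ = a⁻¹ * g * a * g⁻¹ * a1 := by group
    have hv0 : a⁻¹ * g * a * g⁻¹ ∈ V ⊓ Subgroup.centralizer (A : Set G) :=
      Subgroup.mem_inf.mpr ⟨hv, hvc⟩
    rw [hCA, Subgroup.mem_bot] at hv0
    symm
    calc g * a = a * (a⁻¹ * g * a * g⁻¹) * g := by group
      _ = a * g := by rw [hv0, mul_one]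
  obtain ⟨x0, hx0V, hx0⟩ := haV
  obtain ⟨K, hK⟩ : ∃ K : Subgroup G, ∀ y, y ∈ K ↔ ∃ x ∈ V, y = a * x⁻¹ * a⁻¹ * x := by
    have hone : ∃ x ∈ V, (1 : G) = a * x⁻¹ * a⁻¹ * x := ⟨1, V.one_mem, by group⟩
    refine ⟨{ carrier := {y | ∃ x ∈ V, y = a * x⁻¹ * a⁻¹ * x}
              mul_mem' := ?_
              one_mem' := hone
              inv_mem' := ?_ }, fun y => Iff.rfl⟩
    · rintro y1 y2 ⟨x1, hx1, rfl⟩ ⟨x2, hx2, rfl⟩
      refine ⟨x1 * x2, V.mul_mem hx1 hx2, ?_⟩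
      have c1 : x1 * (a * x2⁻¹ * a⁻¹) = (a * x2⁻¹ * a⁻¹) * x1 :=
        hVab x1 hx1 _ (hVn.conj_mem _ (V.inv_mem hx2) a)
      have c2 : x1⁻¹ * x2⁻¹ = x2⁻¹ * x1⁻¹ := hVab _ (V.inv_mem hx1) _ (V.inv_mem hx2)
      calc a * x1⁻¹ * a⁻¹ * x1 * (a * x2⁻¹ * a⁻¹ * x2)
          = a * x1⁻¹ * a⁻¹ * (x1 * (a * x2⁻¹ * a⁻¹)) * x2 := by group
        _ = a * x1⁻¹ * a⁻¹ * ((a * x2⁻¹ * a⁻¹) * x1) * x2 := by rw [c1]
        _ = a * (x1⁻¹ * x2⁻¹) * a⁻¹ * (x1 * x2) := by group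
        _ = a * (x2⁻¹ * x1⁻¹) * a⁻¹ * (x1 * x2) := by rw [c2]
        _ = a * (x1 * x2)⁻¹ * a⁻¹ * (x1 * x2) := by group
    · rintro y ⟨x, hx, rfl⟩
      refine ⟨x⁻¹, V.inv_mem hx, ?_⟩
      have c1 : x⁻¹ * (a * x * a⁻¹) = (a * x * a⁻¹) * x⁻¹ :=
        hVab _ (V.inv_mem hx) _ (hVn.conj_mem _ hx a)
      calc (a * x⁻¹ * a⁻¹ * x)⁻¹ = x⁻¹ * (a * x * a⁻¹) := by group
        _ = (a * x * a⁻¹) * x⁻¹ := c1
        _ = a * x⁻¹⁻¹ * a⁻¹ * x⁻¹ := by group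
  have hKN : K ≤ N := by
    intro y hy
    obtain ⟨x, hx, rfl⟩ := (hK y).mp hy
    obtain ⟨a1, ha1', b1, hb1, rfl⟩ := hAB x
    have e1 : a1⁻¹ * a⁻¹ * a1 = a⁻¹ := by
      have := comA a1⁻¹ (A.inv_mem ha1') a⁻¹ (A.inv_mem ha)
      rw [this]; group
    have e2 : b⁻¹ * b1⁻¹ * b = b1⁻¹ := by
      have := comB b⁻¹ (B.inv_mem hb) b1⁻¹ (B.inv_mem hb1)
      rw [this]; group
    have e3 : a * (a1 * b1)⁻¹ * a⁻¹ * (a1 * b1) = n * (b1⁻¹ * n⁻¹ * b1⁻¹⁻¹) := by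
      calc a * (a1 * b1)⁻¹ * a⁻¹ * (a1 * b1) = a * b1⁻¹ * (a1⁻¹ * a⁻¹ * a1) * b1 := by group
        _ = a * b1⁻¹ * a⁻¹ * b1 := by rw [e1]
        _ = n * (b⁻¹ * b1⁻¹ * b) * n⁻¹ * b1 := by rw [hnab]; group
        _ = n * b1⁻¹ * n⁻¹ * b1 := by rw [e2]
        _ = n * (b1⁻¹ * n⁻¹ * b1⁻¹⁻¹) := by group
    rw [e3]
    exact N.mul_mem hnN (hNn.conj_mem _ (N.inv_mem hnN) _)
  have hKn : K.Normal := by
    refine ⟨fun y hy g => ?_⟩
    obtain ⟨x, hx, rfl⟩ := (hK y).mp hy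
    rw [hK]
    refine ⟨g * x * g⁻¹, hVn.conj_mem x hx g, ?_⟩
    have hvg : a⁻¹ * g * a * g⁻¹ ∈ V := by
      have := hVc a⁻¹ g
      simpa using this
    have c1 : (a⁻¹ * g * a * g⁻¹) * (g * x⁻¹ * g⁻¹) = (g * x⁻¹ * g⁻¹) * (a⁻¹ * g * a * g⁻¹) :=
      hVab _ hvg _ (hVn.conj_mem _ (V.inv_mem hx) g)
    calc g * (a * x⁻¹ * a⁻¹ * x) * g⁻¹
        = a * ((a⁻¹ * g * a * g⁻¹) * (g * x⁻¹ * g⁻¹)) * (a⁻¹ * g * a * g⁻¹)⁻¹ * a⁻¹ *
            (g * x * g⁻¹) := by group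
      _ = a * ((g * x⁻¹ * g⁻¹) * (a⁻¹ * g * a * g⁻¹)) * (a⁻¹ * g * a * g⁻¹)⁻¹ * a⁻¹ *
            (g * x * g⁻¹) := by rw [c1]
      _ = a * (g * x * g⁻¹)⁻¹ * a⁻¹ * (g * x * g⁻¹) := by group
  have hKne : K ≠ ⊥ := by
    intro h0
    have : a * x0⁻¹ * a⁻¹ * x0 ∈ K := (hK _).mpr ⟨x0, hx0V, rfl⟩
    rw [h0, Subgroup.mem_bot] at this
    apply hx0
    calc a * x0 = x0 * (a * x0⁻¹ * a⁻¹ * x0)⁻¹ * a := by group
      _ = x0 * a := by rw [this, inv_one, mul_one]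
  have hKeq : K = N := by
    have hc := hmin ⟨K, hKn, hKN.trans hNV, hKne⟩
    exact Subgroup.eq_of_le_of_card_ge hKN hc
  have hnK : n ∈ K := by rw [hKeq]; exact hnN
  obtain ⟨x, hxV, hnx⟩ := (hK n).mp hnK
  have hbx : b = x⁻¹ * a⁻¹ * x := by
    have : b = a⁻¹ * n := by rw [hnab]; group
    rw [this, hnx]; group
  apply ha1
  have hainv : a⁻¹ = 1 := by
    apply hZ'
    intro g
    obtain ⟨a0, ha0, b0, hb0, hx0'⟩ := hAB x
    obtain ⟨a2, ha2, b2, hb2, hg2⟩ := hAB (a0⁻¹ * g * a0)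
    have e1 : a0 * b2 * a0⁻¹ = x * b2 * x⁻¹ := by
      have c := comB b0 hb0 b2 hb2
      rw [hx0']
      calc a0 * b2 * a0⁻¹ = a0 * (b2 * b0) * b0⁻¹ * a0⁻¹ := by group
        _ = a0 * (b0 * b2) * b0⁻¹ * a0⁻¹ := by rw [c]
        _ = a0 * b0 * b2 * (a0 * b0)⁻¹ := by group
    have e2 : g = a2 * (x * b2 * x⁻¹) := by
      rw [← e1]
      have c := comA a0 ha0 a2 ha2
      calc g = a0 * (a0⁻¹ * g * a0) * a0⁻¹ := by group
        _ = a0 * (a2 * b2) * a0⁻¹ := by rw [hg2]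
        _ = (a0 * a2) * b2 * a0⁻¹ := by group
        _ = (a2 * a0) * b2 * a0⁻¹ := by rw [c]
        _ = a2 * (a0 * b2 * a0⁻¹) := by group
    have e3 : a⁻¹ = x * b * x⁻¹ := by rw [hbx]; group
    have c1 : a⁻¹ * a2 = a2 * a⁻¹ := comA _ (A.inv_mem ha) a2 ha2
    have c2 : b * b2 = b2 * b := comB b hb b2 hb2
    have c3 : a⁻¹ * (x * b2 * x⁻¹) = (x * b2 * x⁻¹) * a⁻¹ := by
      rw [e3]
      calc x * b * x⁻¹ * (x * b2 * x⁻¹) = x * (b * b2) * x⁻¹ := by group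
        _ = x * (b2 * b) * x⁻¹ := by rw [c2]
        _ = x * b2 * x⁻¹ * (x * b * x⁻¹) := by group
    calc a⁻¹ * g = a⁻¹ * (a2 * (x * b2 * x⁻¹)) := by rw [← e2]
      _ = (a⁻¹ * a2) * (x * b2 * x⁻¹) := by group
      _ = (a2 * a⁻¹) * (x * b2 * x⁻¹) := by rw [c1]
      _ = a2 * (a⁻¹ * (x * b2 * x⁻¹)) := by group
      _ = a2 * ((x * b2 * x⁻¹) * a⁻¹) := by rw [c3]
      _ = (a2 * (x * b2 * x⁻¹)) * a⁻¹ := by group
      _ = g * a⁻¹ := by rw [← e2]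
  simpa using hainv

end Cfsg.Agent.S0573
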