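import Cfsg.Statements.S0576
import Mathlib
import Cfsg.Agent.Helper8.GroupFusion

set_option autoImplicit false
open Cfsg

namespace Cfsg.Agent.S0576

/-- Let H be a normal subgroup of a finite group G with H contained in the Frattini subgroup of G. Then the group of inner automorphisms of H is contained in the Frattini subgroup of the automorphism group of H. -/
theorem result {G : Type*} [Group G] [Finite G] (H : Subgroup G) [H.Normal] (hH : H ≤ frattini G) : (MulAut.conj : ↥H →* MulAut ↥H).range ≤ frattini (MulAut ↥H) := by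
  have hInn : (MulAut.conj : ↥H →* MulAut ↥H).range.Normal := by
    constructor
    intro a ha φ
    obtain ⟨h, rfl⟩ := MonoidHom.mem_range.mp ha
    refine MonoidHom.mem_range.mpr ⟨φ h, ?_⟩
    ext x
    simp [MulAut.conj_apply, MulAut.mul_apply, MulAut.inv_apply]
  have key : ∀ M : Subgroup (MulAut ↥H), IsCoatom M →
      (MulAut.conj : ↥H →* MulAut ↥H).range ≤ M := by
    intro M hM
    by_contra hcon
    have hsup : M ⊔ (MulAut.conj : ↥H →* MulAut ↥H).range = ⊤ := by
      by_contra hne
      have h1 : M ≤ M ⊔ (MulAut.conj : ↥H →* MulAut ↥H).range := le_sup_left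
      rcases eq_or_lt_of_le h1 with h2 | h2
      · apply hcon
        rw [h2]; exact le_sup_right
      · exact hne (hM.2 _ h2)
    have hMn : M ≤ Subgroup.normalizer (((MulAut.conj : ↥H →* MulAut ↥H).range : Subgroup (MulAut ↥H)) : Set (MulAut ↥H)) := by
      rw [Subgroup.normalizer_eq_top_iff.mpr hInn]; exact le_top
    have hG : M.comap (MulAut.conjNormal : G →* MulAut ↥H) ⊔ frattini G = ⊤ := by
      rw [eq_top_iff]
      intro g _
      have h1 : (MulAut.conjNormal g : MulAut ↥H) ∈ M ⊔ (MulAut.conj : ↥H →* MulAut ↥H).range := by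
        rw [hsup]; exact Subgroup.mem_top _
      obtain ⟨m, hm, i, hi, hmi⟩ := Cfsg.Agent.Helper8.mem_sup_of_le_normalizer hMn h1
      obtain ⟨h, rfl⟩ := MonoidHom.mem_range.mp hi
      have h2 : (MulAut.conjNormal (g * ((h : G))⁻¹) : MulAut ↥H) = m := by
        rw [map_mul, map_inv, hmi, MulAut.conjNormal_val, mul_inv_cancel_right]
      have h3 : g * ((h : G))⁻¹ ∈ M.comap (MulAut.conjNormal : G →* MulAut ↥H) := by
        rw [Subgroup.mem_comap, h2]; exact hm
      have h4 : g = (g * ((h : G))⁻¹) * (h : G) := by group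
      rw [h4]
      exact Subgroup.mul_mem _ (Subgroup.mem_sup_left h3) (Subgroup.mem_sup_right (hH h.2))
    have htop := frattini_nongenerating hG
    apply hcon
    intro a ha
    obtain ⟨h, rfl⟩ := MonoidHom.mem_range.mp ha
    have h1 : (h : G) ∈ M.comap (MulAut.conjNormal : G →* MulAut ↥H) := by
      rw [htop]; exact Subgroup.mem_top _
    rw [Subgroup.mem_comap, MulAut.conjNormal_val] at h1
    exact h1
  intro a ha
  rw [frattini, Order.radical, Subgroup.mem_iInf]
  intro M
  rw [Subgroup.mem_iInf]
  intro hM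
  exact key M hM ha

end Cfsg.Agent.S0576
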