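import Cfsg.Statements.S0577
import Mathlib
import Cfsg.Agent.Helper6.MinNonNilp
import Cfsg.Agent.Helper3.CN
import Cfsg.Agent.Lead.Coprime2
import Cfsg.Agent.Lead.PGroupFrattini
import Cfsg.Agent.Lead.SylowBasic
-- import your own Cfsg.Agent.* helpers here

set_option autoImplicit false
open Cfsg

namespace Cfsg.Agent.S0577


theorem mem_normal_sylow {G : Type*} [Group G] [Finite G] {r : ℕ} [Fact r.Prime]
    (R : Sylow r G) [hR : (R : Subgroup G).Normal] (x : G) (j : ℕ) (hx : orderOf x = r ^ j) :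
    x ∈ (R : Subgroup G) := by
  have hz : IsPGroup r (Subgroup.zpowers x) :=
    IsPGroup.of_card (n := j) (by rw [Nat.card_zpowers, hx])
  obtain ⟨c, hc⟩ := Cfsg.Agent.Lead.exists_conj_mem_sylow R hz
  have h1 := hc x (Subgroup.mem_zpowers _)
  have h2 := hR.conj_mem _ h1 c⁻¹
  have e : c⁻¹ * (c * x * c⁻¹) * c⁻¹⁻¹ = x := by group
  rw [e] at h2
  exact h2

/-- Let G be a finite minimal non-nilpotent group and Q a normal Sylow q-subgroup of G, and let D be the commutator subgroup of Q regarded in G (a normal subgroup). Then G modulo D is non-abelian and all its proper subgroups are abelian. -/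
theorem result {G : Type*} [Group G] [Finite G] (hG : Cfsg.IsMinimalNonNilpotent G) (q : ℕ) [Fact q.Prime] (hq : q ∣ Nat.card G) (Q : Sylow q G) (hQ : (Q : Subgroup G).Normal) (D : Subgroup G) [D.Normal] (hD : D = (commutator ↥(Q : Subgroup G)).map (Q : Subgroup G).subtype) : ¬ IsMulCommutative (G ⧸ D) ∧ ∀ K : Subgroup (G ⧸ D), K ≠ ⊤ → IsMulCommutative K := by
  classical
  obtain ⟨p₀, q₀, hp₀, hq₀, hne, P, Q₀, x, hPeq, hQ₀n, hsup, hPnn⟩ :=
    Cfsg.Agent.Helper6.minNonNilp_structure hG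
  haveI : Fact p₀.Prime := ⟨hp₀⟩
  haveI : Fact q₀.Prime := ⟨hq₀⟩
  have hqpr : q.Prime := Fact.out
  have hdisj : (P : Subgroup G) ⊓ Q₀ = ⊥ :=
    disjoint_iff.mp (IsPGroup.disjoint_of_ne p₀ q₀ hne _ _ P.isPGroup' Q₀.isPGroup')
  haveI := hQ₀n
  haveI := hQ
  have hcardG := Cfsg.Agent.Lead.card_sup_of_inf_eq_bot (P : Subgroup G) (Q₀ : Subgroup G) hdisj
  rw [hsup, Subgroup.card_top] at hcardG
  obtain ⟨a, ha⟩ := IsPGroup.iff_card.mp P.isPGroup'
  obtain ⟨b, hb⟩ := IsPGroup.iff_card.mp Q₀.isPGroup'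
  rw [ha, hb] at hcardG
  have hq01 : q = p₀ ∨ q = q₀ := by
    rw [hcardG] at hq
    rcases (Nat.Prime.dvd_mul hqpr).mp hq with h1 | h1
    · left; exact (Nat.prime_dvd_prime_iff_eq hqpr hp₀).mp (hqpr.dvd_of_dvd_pow h1)
    · right; exact (Nat.prime_dvd_prime_iff_eq hqpr hq₀).mp (hqpr.dvd_of_dvd_pow h1)
  have hqq : q = q₀ := by
    rcases hq01 with h1 | h1
    · exfalso
      subst h1
      obtain ⟨g, hg⟩ := MulAction.exists_smul_eq G Q P
      rw [Sylow.smul_eq_of_normal] at hg
      exact hPnn (hg ▸ hQ)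
    · exact h1
  subst hqq
  have hQQ : Q₀ = Q := by
    obtain ⟨g, hg⟩ := MulAction.exists_smul_eq G Q₀ Q
    rw [Sylow.smul_eq_of_normal] at hg
    exact hg
  subst hQQ
  have hπ : Function.Surjective (QuotientGroup.mk' D) := QuotientGroup.mk'_surjective D
  have hDmem : ∀ u ∈ (Q₀ : Subgroup G), ∀ w ∈ (Q₀ : Subgroup G), u * w * u⁻¹ * w⁻¹ ∈ D := by
    intro u hu w hw
    rw [hD]
    have h0 : ((⟨u, hu⟩ : (Q₀ : Subgroup G)) * ⟨w, hw⟩ * (⟨u, hu⟩ : (Q₀ : Subgroup G))⁻¹ *
        (⟨w, hw⟩ : (Q₀ : Subgroup G))⁻¹) ∈ commutator (Q₀ : Subgroup G) := by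
      rw [commutator_def]
      exact Subgroup.commutator_mem_commutator (Subgroup.mem_top _) (Subgroup.mem_top _)
    exact ⟨_, h0, rfl⟩
  have hcommD : ∀ u w : G, u * w * u⁻¹ * w⁻¹ ∈ D →
      (QuotientGroup.mk' D u) * (QuotientGroup.mk' D w) =
        (QuotientGroup.mk' D w) * (QuotientGroup.mk' D u) := by
    intro u w h
    have h1 : QuotientGroup.mk' D (u * w * u⁻¹ * w⁻¹) = 1 := (QuotientGroup.eq_one_iff _).mpr h
    rw [map_mul, map_mul, map_mul, map_inv, map_inv] at h1
    have h2 := mul_inv_eq_one.mp h1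
    exact mul_inv_eq_iff_eq_mul.mp h2
  have hPcomm : ∀ a ∈ (P : Subgroup G), ∀ b ∈ (P : Subgroup G), a * b = b * a := by
    intro a ha b hb
    rw [hPeq] at ha hb
    obtain ⟨i, rfl⟩ := Subgroup.mem_zpowers_iff.mp ha
    obtain ⟨j, rfl⟩ := Subgroup.mem_zpowers_iff.mp hb
    rw [← zpow_add, ← zpow_add, add_comm]
  refine ⟨?_, ?_⟩
  · intro hc
    apply hPnn
    have hcomm : ∀ a b : G ⧸ D, a * b = b * a := fun a b => hc.is_comm.comm a b
    have hPN : (P : Subgroup G) ≤ Subgroup.normalizer ((Q₀ : Subgroup G) : Set G) := by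
      rw [Subgroup.normalizer_eq_top]; exact le_top
    have hcop : (Nat.card (P : Subgroup G)).Coprime (Nat.card (Q₀ : Subgroup G)) := by
      rw [ha, hb]; exact Nat.Coprime.pow _ _ ((Nat.coprime_primes hp₀ hqpr).mpr hne)
    have hcomD : ⁅(Q₀ : Subgroup G), (P : Subgroup G)⁆ ≤ D := by
      rw [Subgroup.commutator_le]
      intro y _ z _
      have h1 : QuotientGroup.mk' D (y * z * y⁻¹ * z⁻¹) = 1 := by
        rw [map_mul, map_mul, map_mul, map_inv, map_inv,
          hcomm (QuotientGroup.mk' D y) (QuotientGroup.mk' D z)]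
        group
      exact (QuotientGroup.eq_one_iff _).mp h1
    have hQC : (Q₀ : Subgroup G) ≤ Subgroup.centralizer ((P : Subgroup G) : Set G) := by
      have hPsol : Group.IsSolvable (P : Subgroup G) := by
        haveI : Group.IsNilpotent (P : Subgroup G) := P.isPGroup'.isNilpotent
        infer_instance
      have htop : ((Subgroup.centralizer ((P : Subgroup G) : Set G)).subgroupOf
          (Q₀ : Subgroup G)) = ⊤ := by
        apply frattini_nongenerating
        rw [eq_top_iff]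
        intro y _
        obtain ⟨n, hn, c, hc, hy⟩ := Cfsg.Agent.Lead.coprime_decomp (P : Subgroup G)
          (Q₀ : Subgroup G) hPN hcop (Or.inl hPsol) (y : G) y.2
        have hnD := hcomD hn
        rw [hD] at hnD
        obtain ⟨n', hn', hn'e⟩ := hnD
        have hyeq : y = n' * (⟨c, hc.1⟩ : (Q₀ : Subgroup G)) := by
          apply Subtype.ext
          rw [Subgroup.coe_mul, hy]
          congr 1
          exact hn'e.symm
        rw [hyeq]
        exact Subgroup.mul_mem _
          (Subgroup.mem_sup_right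
            (Cfsg.Agent.Lead.commutator_le_frattini_of_isPGroup q Q₀.isPGroup' hn'))
          (Subgroup.mem_sup_left (by rw [Subgroup.mem_subgroupOf]; exact hc.2))
      intro y hy
      have h1 : (⟨y, hy⟩ : (Q₀ : Subgroup G)) ∈
          (Subgroup.centralizer ((P : Subgroup G) : Set G)).subgroupOf (Q₀ : Subgroup G) := by
        rw [htop]; exact Subgroup.mem_top _
      exact Subgroup.mem_subgroupOf.mp h1
    rw [← Subgroup.normalizer_eq_top_iff, eq_top_iff, ← hsup]
    exact sup_le Subgroup.le_normalizer (hQC.trans (Subgroup.centralizer_le_normalizer _))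
  · intro K hK
    obtain ⟨H, hHdef⟩ : ∃ H : Subgroup G, H = K.comap (QuotientGroup.mk' D) := ⟨_, rfl⟩
    have hHne : H ≠ ⊤ := by
      intro htop
      apply hK
      rw [eq_top_iff]
      intro k _
      obtain ⟨g, rfl⟩ := hπ k
      have hg : g ∈ H := by rw [htop]; exact Subgroup.mem_top g
      rw [hHdef] at hg
      exact hg
    have hHnil : Group.IsNilpotent H := hG.2 H hHne
    have hclass : ∀ u : G, (∃ r i, r.Prime ∧ orderOf u = r ^ i) →
        (u ∈ (Q₀ : Subgroup G)) ∨ (∃ i, orderOf u = p₀ ^ i) := by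
      rintro u ⟨r, i, hr, hu⟩
      by_cases hrq : r = q
      · left
        subst hrq
        exact mem_normal_sylow Q₀ u i hu
      · right
        have h1 : orderOf u ∣ p₀ ^ a * q ^ b := hcardG ▸ orderOf_dvd_natCard u
        have h2 : (orderOf u).Coprime (q ^ b) := by
          rw [hu]; exact Nat.Coprime.pow _ _ ((Nat.coprime_primes hr hqpr).mpr hrq)
        have h3 : orderOf u ∣ p₀ ^ a := h2.dvd_of_dvd_mul_right h1
        obtain ⟨i', -, hi'⟩ := (Nat.dvd_prime_pow hp₀).mp h3
        exact ⟨i', hi'⟩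
    have hpp : ∀ u ∈ H, ∀ w ∈ H, (∃ r i, r.Prime ∧ orderOf u = r ^ i) →
        (∃ r i, r.Prime ∧ orderOf w = r ^ i) →
        QuotientGroup.mk' D u * QuotientGroup.mk' D w =
          QuotientGroup.mk' D w * QuotientGroup.mk' D u := by
      intro u hu w hw hu' hw'
      rcases hclass u hu' with hu1 | ⟨i, hu1⟩ <;> rcases hclass w hw' with hw1 | ⟨j, hw1⟩
      · exact hcommD u w (hDmem u hu1 w hw1)
      · obtain ⟨i', hi'⟩ := (IsPGroup.iff_orderOf.mp Q₀.isPGroup') ⟨u, hu1⟩
        rw [Subgroup.orderOf_mk] at hi'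
        have h1 := Cfsg.Agent.Helper3.commute_in_nilpotent H hHnil hqpr hp₀
          (fun h => hne h.symm) hu hw hi' hw1
        rw [← map_mul, ← map_mul, h1]
      · obtain ⟨j', hj'⟩ := (IsPGroup.iff_orderOf.mp Q₀.isPGroup') ⟨w, hw1⟩
        rw [Subgroup.orderOf_mk] at hj'
        have h1 := Cfsg.Agent.Helper3.commute_in_nilpotent H hHnil hp₀ hqpr hne hu hw hu1 hj'
        rw [← map_mul, ← map_mul, h1]
      · obtain ⟨S⟩ : Nonempty (Sylow p₀ H) := inferInstance
        have huS : (⟨u, hu⟩ : H) ∈ (S : Subgroup H) :=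
          mem_normal_sylow S ⟨u, hu⟩ i (by rw [Subgroup.orderOf_mk]; exact hu1)
        have hwS : (⟨w, hw⟩ : H) ∈ (S : Subgroup H) :=
          mem_normal_sylow S ⟨w, hw⟩ j (by rw [Subgroup.orderOf_mk]; exact hw1)
        obtain ⟨g, hg⟩ := Cfsg.Agent.Lead.exists_conj_mem_sylow P
          (Q := (S : Subgroup H).map H.subtype) (S.isPGroup'.map _)
        have h1 := hg u (Subgroup.mem_map_of_mem H.subtype huS)
        have h2 := hg w (Subgroup.mem_map_of_mem H.subtype hwS)
        have h3 := hPcomm _ h1 _ h2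
        have h4 : u * w = w * u := by
          have e1 : g * u * g⁻¹ * (g * w * g⁻¹) = g * (u * w) * g⁻¹ := by group
          have e2 : g * w * g⁻¹ * (g * u * g⁻¹) = g * (w * u) * g⁻¹ := by group
          rw [e1, e2] at h3
          exact mul_left_cancel (mul_right_cancel h3)
        rw [← map_mul, ← map_mul, h4]
    have hA : ∀ w ∈ H, (∃ r i, r.Prime ∧ orderOf w = r ^ i) → ∀ u ∈ H,
        QuotientGroup.mk' D u * QuotientGroup.mk' D w =
          QuotientGroup.mk' D w * QuotientGroup.mk' D u := by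
      intro w hw hw' u hu
      have h1 : u ∈ (Subgroup.centralizer {QuotientGroup.mk' D w}).comap (QuotientGroup.mk' D) := by
        apply Cfsg.Agent.Helper6.mem_of_primary_powers_mem _ (orderOf u) u rfl (orderOf_pos u)
        rintro r k hr ⟨j, hj⟩
        rw [Subgroup.mem_comap, Subgroup.mem_centralizer_iff]
        intro z hz
        rw [Set.mem_singleton_iff] at hz; subst hz
        exact (hpp (u ^ k) (H.pow_mem hu k) w hw ⟨r, j, hr, hj⟩ hw').symm
      rw [Subgroup.mem_comap, Subgroup.mem_centralizer_iff] at h1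
      exact (h1 _ rfl).symm
    have hB : ∀ u ∈ H, ∀ v ∈ H, QuotientGroup.mk' D u * QuotientGroup.mk' D v =
        QuotientGroup.mk' D v * QuotientGroup.mk' D u := by
      intro u hu v hv
      have h1 : v ∈ (Subgroup.centralizer {QuotientGroup.mk' D u}).comap (QuotientGroup.mk' D) := by
        apply Cfsg.Agent.Helper6.mem_of_primary_powers_mem _ (orderOf v) v rfl (orderOf_pos v)
        rintro r k hr ⟨j, hj⟩
        rw [Subgroup.mem_comap, Subgroup.mem_centralizer_iff]
        intro z hz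
        rw [Set.mem_singleton_iff] at hz; subst hz
        exact hA (v ^ k) (H.pow_mem hv k) ⟨r, j, hr, hj⟩ u hu
      rw [Subgroup.mem_comap, Subgroup.mem_centralizer_iff] at h1
      exact h1 _ rfl
    refine ⟨⟨fun a b => ?_⟩⟩
    obtain ⟨u, hu⟩ := hπ (a : G ⧸ D)
    obtain ⟨v, hv⟩ := hπ (b : G ⧸ D)
    apply Subtype.ext
    have huH : u ∈ H := by rw [hHdef, Subgroup.mem_comap, hu]; exact a.2
    have hvH : v ∈ H := by rw [hHdef, Subgroup.mem_comap, hv]; exact b.2
    have h1 := hB u huH v hvH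
    rw [hu, hv] at h1
    simpa using h1

end Cfsg.Agent.S0577
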