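import Cfsg.Statements.S0578
import Mathlib

set_option autoImplicit false
open Cfsg
open scoped commutatorElement

namespace Cfsg.Agent.S0578

theorem sylow_comm {G : Type*} [Group G] [Finite G]
    (h : ∀ A : Subgroup G, IsMulCommutative A →
      Subgroup.normalizer (A : Set G) = Subgroup.centralizer (A : Set G))
    {p : ℕ} [Fact p.Prime] (P : Sylow p G) : IsMulCommutative (P : Subgroup G) := by
  classical
  obtain ⟨A, ⟨hAP, hAc⟩, hAmax⟩ : ∃ A : Subgroup G, (A ≤ P ∧ IsMulCommutative A) ∧
      ∀ B : Subgroup G, B ≤ P → IsMulCommutative B → A ≤ B → B = A := by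
    have wf : WellFounded ((· > ·) : Subgroup G → Subgroup G → Prop) := wellFounded_gt
    have hS : ({A | A ≤ P ∧ IsMulCommutative A} : Set (Subgroup G)).Nonempty :=
      ⟨⊥, bot_le, inferInstance⟩
    refine ⟨wf.min _ hS, wf.min_mem _ hS, ?_⟩
    intro B hB1 hB2 hle
    by_contra hne
    exact wf.not_lt_min {A : Subgroup G | A ≤ P ∧ IsMulCommutative A} (x := B) ⟨hB1, hB2⟩
      (lt_of_le_of_ne hle (Ne.symm hne))
  have hAeq : A = P := by
    by_contra hne
    haveI : Group.IsNilpotent (P : Subgroup G) := P.isPGroup'.isNilpotent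
    have hnc := Group.normalizerCondition_of_isNilpotent (G := (P : Subgroup G))
    have hlt : A.subgroupOf P < ⊤ := by
      rw [lt_top_iff_ne_top]
      intro htop
      rw [Subgroup.subgroupOf_eq_top] at htop
      exact hne (le_antisymm hAP htop)
    obtain ⟨x, hxN, hxA⟩ := SetLike.exists_of_lt (hnc _ hlt)
    have hxNG : (x : G) ∈ Subgroup.normalizer (A : Set G) := by
      rw [Subgroup.mem_normalizer_iff]
      intro a
      have hx := Subgroup.mem_normalizer_iff.mp hxN
      constructor
      · intro ha
        have h1 := (hx ⟨a, hAP ha⟩).mp (Subgroup.mem_subgroupOf.mpr ha)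
        exact Subgroup.mem_subgroupOf.mp h1
      · intro ha
        have haP : a ∈ (P : Subgroup G) := by
          have e : a = (x : G)⁻¹ * ((x : G) * a * (x : G)⁻¹) * (x : G) := by group
          rw [e]
          exact mul_mem (mul_mem (inv_mem x.2) (hAP ha)) x.2
        have h1 := (hx ⟨a, haP⟩).mpr (Subgroup.mem_subgroupOf.mpr ha)
        exact Subgroup.mem_subgroupOf.mp h1
    rw [h A hAc] at hxNG
    have hBc : IsMulCommutative (Subgroup.closure ((A : Set G) ∪ {(x : G)})) := by
      apply Subgroup.isMulCommutative_closure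
      rintro a (ha | ha) b (hb | hb)
      · exact setLike_mul_comm ha hb
      · rw [Set.mem_singleton_iff] at hb
        rw [hb]
        exact Subgroup.mem_centralizer_iff.mp hxNG a ha
      · rw [Set.mem_singleton_iff] at ha
        rw [ha]
        exact (Subgroup.mem_centralizer_iff.mp hxNG b hb).symm
      · rw [Set.mem_singleton_iff] at ha hb
        rw [ha, hb]
    have hBP : Subgroup.closure ((A : Set G) ∪ {(x : G)}) ≤ P := by
      rw [Subgroup.closure_le]
      rintro a (ha | ha)
      · exact hAP ha
      · rw [Set.mem_singleton_iff] at ha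
        rw [ha]
        exact x.2
    have hAB : A ≤ Subgroup.closure ((A : Set G) ∪ {(x : G)}) := fun a ha =>
      Subgroup.subset_closure (Or.inl ha)
    have hBA := hAmax _ hBP hBc hAB
    apply hxA
    rw [Subgroup.mem_subgroupOf, ← hBA]
    exact Subgroup.subset_closure (Or.inr rfl)
  rw [← hAeq]
  exact hAc

/-- If in a finite group the normalizer of each abelian subgroup coincides with its centralizer, then the group is abelian. -/
theorem result {G : Type*} [Group G] [Finite G] (h : ∀ A : Subgroup G, IsMulCommutative A → Subgroup.normalizer (A : Set G) = Subgroup.centralizer (A : Set G)) : IsMulCommutative G := by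
  classical
  have hcard : Nat.card (commutator G) = 1 := by
    rw [Nat.eq_one_iff_not_exists_prime_dvd]
    intro p hp hdvd
    haveI : Fact p.Prime := ⟨hp⟩
    obtain ⟨P⟩ : Nonempty (Sylow p G) := inferInstance
    have hPc : IsMulCommutative (P : Subgroup G) := sylow_comm h P
    have hP : Subgroup.normalizer ((P : Subgroup G) : Set G) ≤
        Subgroup.centralizer ((P : Subgroup G) : Set G) := (h P hPc).le
    have hle : commutator G ≤ (MonoidHom.transferSylow P hP).ker := by
      rw [commutator_def, Subgroup.commutator_le]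
      intro g₁ _ g₂ _
      rw [MonoidHom.mem_ker, map_commutatorElement, commutatorElement_eq_one_iff_mul_comm]
      exact hPc.is_comm.comm _ _
    exact MonoidHom.not_dvd_card_ker_transferSylow P hP
      (hdvd.trans (Subgroup.card_dvd_of_le hle))
  have hbot : commutator G = ⊥ := Subgroup.eq_bot_of_card_eq _ hcard
  refine ⟨⟨fun a b => ?_⟩⟩
  have hab : ⁅a, b⁆ ∈ commutator G := by
    rw [commutator_def]
    exact Subgroup.commutator_mem_commutator (Subgroup.mem_top a) (Subgroup.mem_top b)
  rw [hbot, Subgroup.mem_bot] at hab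
  exact commutatorElement_eq_one_iff_mul_comm.mp hab


end Cfsg.Agent.S0578
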