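import Cfsg.Statements.S0580
import Mathlib

set_option autoImplicit false
open Cfsg

namespace Cfsg.Agent.S0580

universe u

theorem isCoatom_comap_mk {G : Type u} [Group G] (N : Subgroup G) [N.Normal]
    (M : Subgroup (G ⧸ N)) (hM : IsCoatom M) : IsCoatom (M.comap (QuotientGroup.mk' N)) := by
  have hsurj := QuotientGroup.mk'_surjective N
  constructor
  · intro htop
    apply hM.1
    have := Subgroup.map_comap_eq_self_of_surjective hsurj M
    rw [htop, Subgroup.map_top_of_surjective _ hsurj] at this
    exact this.symm
  · intro K hK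
    have hker : (QuotientGroup.mk' N).ker ≤ K := le_trans (Subgroup.ker_le_comap _ _) hK.le
    have hKeq : (K.map (QuotientGroup.mk' N)).comap (QuotientGroup.mk' N) = K :=
      Subgroup.comap_map_eq_self hker
    have hlt' : M < K.map (QuotientGroup.mk' N) := by
      rw [lt_iff_le_and_ne]
      constructor
      · rw [← Subgroup.map_comap_eq_self_of_surjective hsurj M]
        exact Subgroup.map_mono hK.le
      · intro heq
        rw [← heq] at hKeq
        exact hK.ne hKeq
    have := hM.2 _ hlt'
    rw [← hKeq, this, Subgroup.comap_top]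

theorem aux : ∀ (n : ℕ) (G : Type u) [Group G] [Finite G], Nat.card G = n →
    (∀ M : Subgroup G, IsCoatom M → M.index.Prime) → Group.IsSolvable G := by
  intro n
  induction n using Nat.strong_induction_on with
  | _ n ih =>
  intro G _ _ hn h
  rcases subsingleton_or_nontrivial G with hs | hnt
  · infer_instance
  have hcard : 1 < Nat.card G := Finite.one_lt_card
  obtain ⟨p, hp, hpdvd, hpmax⟩ : ∃ p, p.Prime ∧ p ∣ Nat.card G ∧
      ∀ q, q.Prime → q ∣ Nat.card G → q ≤ p := by
    have hne : (Nat.card G).primeFactors.Nonempty := Nat.nonempty_primeFactors.mpr hcard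
    have hmem := Finset.max'_mem _ hne
    refine ⟨(Nat.card G).primeFactors.max' hne, Nat.prime_of_mem_primeFactors hmem,
      Nat.dvd_of_mem_primeFactors hmem, ?_⟩
    intro q hq hqd
    exact Finset.le_max' _ _ (Nat.mem_primeFactors.mpr ⟨hq, hqd, Nat.card_pos.ne'⟩)
  haveI : Fact p.Prime := ⟨hp⟩
  obtain ⟨P⟩ : Nonempty (Sylow p G) := inferInstance
  have hPn : (P : Subgroup G).Normal := by
    by_contra hnn
    have hN : Subgroup.normalizer ((P : Subgroup G) : Set G) ≠ ⊤ := by
      rwa [Ne, Subgroup.normalizer_eq_top_iff]
    obtain ⟨M, hM, hNM⟩ := (eq_top_or_exists_le_coatom _).resolve_left hN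
    have hq := h M hM
    have hPM : (P : Subgroup G) ≤ M := le_trans Subgroup.le_normalizer hNM
    have h1 : Nat.card (Sylow p G) = (Subgroup.normalizer ((P : Subgroup G) : Set G)).index :=
      P.card_eq_index_normalizer
    have h2 : Nat.card (Sylow p M) =
        (Subgroup.normalizer ((P : Subgroup G) : Set G)).relIndex M := by
      have := (P.subtype hPM).card_eq_index_normalizer
      have e : ((P.subtype hPM : Sylow p M) : Subgroup M) = (P : Subgroup G).subgroupOf M :=
        Sylow.coe_subtype ..
      have e' : ((P.subtype hPM : Sylow p M) : Set M) =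
          (((P : Subgroup G).subgroupOf M : Subgroup M) : Set M) := by rw [← e]; rfl
      rw [this, e', ← Subgroup.subgroupOf_normalizer_eq hPM]
      rfl
    have h3 : (Subgroup.normalizer ((P : Subgroup G) : Set G)).relIndex M * M.index =
        (Subgroup.normalizer ((P : Subgroup G) : Set G)).index := Subgroup.relIndex_mul_index hNM
    have m1 : Nat.card (Sylow p G) ≡ 1 [MOD p] := card_sylow_modEq_one p G
    have m2 : Nat.card (Sylow p M) ≡ 1 [MOD p] := card_sylow_modEq_one p M
    have m3 : M.index ≡ 1 [MOD p] := by
      rw [h1, ← h3] at m1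
      rw [h2] at m2
      have : 1 * M.index ≡ 1 [MOD p] := (Nat.ModEq.mul_right _ m2.symm).trans m1
      simpa using this
    have hqdvd : M.index ∣ Nat.card G := M.index_dvd_card
    have hle := hpmax _ hq hqdvd
    have hmod : M.index % p = 1 % p := m3
    rw [Nat.mod_eq_of_lt hp.one_lt] at hmod
    rcases hle.lt_or_eq with hlt | heq
    · rw [Nat.mod_eq_of_lt hlt] at hmod
      exact hq.one_lt.ne' hmod
    · rw [heq, Nat.mod_self] at hmod
      exact zero_ne_one hmod
  haveI := hPn
  have hPne : (P : Subgroup G) ≠ ⊥ := P.ne_bot_of_dvd_card hpdvd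
  have hlt : Nat.card (G ⧸ (P : Subgroup G)) < n := by
    rw [← hn, ← Subgroup.index_eq_card, ← Subgroup.index_mul_card (P : Subgroup G)]
    have h1 : 1 < Nat.card (P : Subgroup G) := by
      rw [Finite.one_lt_card_iff_nontrivial]
      exact (Subgroup.nontrivial_iff_ne_bot _).mpr hPne
    have h2 : 0 < (P : Subgroup G).index := Nat.pos_of_ne_zero (Subgroup.index_ne_zero_of_finite)
    nlinarith
  haveI : Group.IsSolvable (G ⧸ (P : Subgroup G)) := ih _ hlt (G ⧸ (P : Subgroup G)) rfl (by
    intro M hM
    have := h _ (isCoatom_comap_mk (P : Subgroup G) M hM)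
    rwa [Subgroup.index_comap_of_surjective _ (QuotientGroup.mk'_surjective _)] at this)
  haveI : Group.IsSolvable (P : Subgroup G) := by
    haveI := P.isPGroup'.isNilpotent
    infer_instance
  exact Group.isSolvable_of_ker_le_range (P : Subgroup G).subtype (QuotientGroup.mk' (P : Subgroup G))
    (by simp)

/-- If every maximal subgroup of a finite group has prime index, then the group is solvable. -/
theorem result {G : Type*} [Group G] [Finite G] (h : ∀ M : Subgroup G, IsCoatom M → M.index.Prime) : Group.IsSolvable G := by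
  exact aux _ G rfl h


end Cfsg.Agent.S0580
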