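import Cfsg.Statements.S0581
import Mathlib
import Cfsg.Agent.Helper6.HallNilp
import Cfsg.Agent.Helper4.RelSylow
-- import your own Cfsg.Agent.* helpers here

set_option autoImplicit false
open Pointwise
open Cfsg

namespace Cfsg.Agent.S0581


universe u

open Cfsg.Agent.Helper6 in
/-- Coprime `π`-elements normalizing a `p`-subgroup centralize it, when `G` has a nilpotent
Hall `π`-subgroup. -/
theorem wielandt_centralize {G : Type*} [Group G] [Finite G] (H : Subgroup G)
    [Group.IsNilpotent H] (hHall : (Nat.card H).Coprime H.index) {p : ℕ} [Fact p.Prime]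
    (hpH : p ∣ Nat.card H) (X : Subgroup G) (hX : IsPGroup p X) (g : G)
    (hg : g ∈ Subgroup.normalizer (X : Set G)) (hcop : (orderOf g).Coprime p)
    (hgH : ∀ q : ℕ, q.Prime → q ∣ orderOf g → q ∣ Nat.card H) :
    g ∈ Subgroup.centralizer (X : Set G) := by
  obtain ⟨Qp⟩ : Nonempty (Sylow p H) := inferInstance
  obtain ⟨Pp, hPp⟩ := exists_sylow_of_hall H hHall hpH Qp
  obtain ⟨y, hy⟩ := Cfsg.Agent.Lead.exists_conj_mem_sylow Pp hX
  have hidx : ∀ q : ℕ, q.Prime → q ∣ orderOf g →
      ¬ q ∣ (Subgroup.centralizer (X : Set G)).index := by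
    intro q hq hqg
    haveI : Fact q.Prime := ⟨hq⟩
    have hqp : q ≠ p := by
      rintro rfl
      exact hq.one_lt.ne' (Nat.Coprime.eq_one_of_dvd hcop.symm hqg)
    obtain ⟨Qq⟩ : Nonempty (Sylow q H) := inferInstance
    obtain ⟨Pq, hPq⟩ := exists_sylow_of_hall H hHall (hgH q hq hqg) Qq
    have hle : (Pq : Subgroup G).map (MulAut.conj y⁻¹).toMonoidHom ≤
        Subgroup.centralizer (X : Set G) := by
      rintro _ ⟨u, hu, rfl⟩
      rw [Subgroup.mem_centralizer_iff]
      intro x hx
      have hxP : y * x * y⁻¹ ∈ (Pp : Subgroup G) := hy x hx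
      rw [hPp] at hxP
      have huP : u ∈ (Pq : Subgroup G) := hu
      rw [hPq] at huP
      obtain ⟨x', hx', hxe⟩ := hxP
      obtain ⟨u', hu', rfl⟩ := huP
      have hdisj : Disjoint (Qp : Subgroup H) (Qq : Subgroup H) :=
        IsPGroup.disjoint_of_ne p q (fun h => hqp h.symm) _ _ Qp.isPGroup' Qq.isPGroup'
      have hc := (Subgroup.commute_of_normal_of_disjoint _ _ inferInstance inferInstance hdisj
        x' u' hx' hu').eq
      have hc' : (y * x * y⁻¹) * (u' : G) = (u' : G) * (y * x * y⁻¹) := by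
        rw [← hxe]
        exact congrArg Subtype.val hc
      show x * (y⁻¹ * (u' : G) * y⁻¹⁻¹) = (y⁻¹ * (u' : G) * y⁻¹⁻¹) * x
      calc x * (y⁻¹ * (u' : G) * y⁻¹⁻¹) = y⁻¹ * ((y * x * y⁻¹) * (u' : G)) * y := by group
        _ = y⁻¹ * ((u' : G) * (y * x * y⁻¹)) * y := by rw [hc']
        _ = (y⁻¹ * (u' : G) * y⁻¹⁻¹) * x := by group
    have h1 : (Subgroup.centralizer (X : Set G)).index ∣
        ((Pq : Subgroup G).map (MulAut.conj y⁻¹).toMonoidHom).index :=
      Subgroup.index_dvd_of_le hle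
    have h2 : ((Pq : Subgroup G).map (MulAut.conj y⁻¹).toMonoidHom).index
        = (Pq : Subgroup G).index := by
      have hc := Cfsg.Agent.Helper5.card_conj (Pq : Subgroup G) y⁻¹
      have e1 := Subgroup.card_mul_index ((Pq : Subgroup G).map (MulAut.conj y⁻¹).toMonoidHom)
      have e2 := Subgroup.card_mul_index (Pq : Subgroup G)
      rw [hc] at e1
      exact Nat.eq_of_mul_eq_mul_left Nat.card_pos (e1.trans e2.symm)
    intro hq'
    have h3 := dvd_trans hq' h1
    rw [h2] at h3
    exact Pq.not_dvd_index h3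
  haveI := centralizer_subgroupOf_normalizer_normal X
  have hpow : (⟨g, hg⟩ : Subgroup.normalizer (X : Set G)) ^
      ((Subgroup.centralizer (X : Set G)).subgroupOf (Subgroup.normalizer (X : Set G))).index ∈
      (Subgroup.centralizer (X : Set G)).subgroupOf (Subgroup.normalizer (X : Set G)) :=
    Subgroup.pow_index_mem _ _
  have hpow' : g ^ (Subgroup.centralizer (X : Set G)).relIndex (Subgroup.normalizer (X : Set G)) ∈
      Subgroup.centralizer (X : Set G) := by
    have h0 := Subgroup.mem_subgroupOf.mp hpow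
    simp only [Subgroup.coe_pow] at h0
    exact h0
  have hcop2 : ((Subgroup.centralizer (X : Set G)).relIndex
      (Subgroup.normalizer (X : Set G))).Coprime (orderOf g) := by
    apply Nat.Coprime.symm
    apply Nat.coprime_of_dvd
    intro q hq hqg hqr
    exact hidx q hq hqg (dvd_trans hqr
      (Subgroup.relIndex_dvd_index_of_le (Subgroup.centralizer_le_normalizer _)))
  obtain ⟨m, hm⟩ := exists_pow_eq_self_of_coprime hcop2
  rw [← hm]
  exact Subgroup.pow_mem _ hpow' m

open Cfsg.Agent.Helper6 in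
theorem wielandt_aux {G : Type u} [Group G] [Finite G] (H : Subgroup G) [Group.IsNilpotent H]
    (hHall : (Nat.card H).Coprime H.index) : ∀ n : ℕ, ∀ K : Subgroup G, Nat.card K = n →
      (∀ p : ℕ, p.Prime → p ∣ Nat.card K → p ∣ Nat.card H) →
      ∃ x : G, ∀ k ∈ K, x⁻¹ * k * x ∈ H := by
  intro n
  induction n using Nat.strong_induction_on with
  | _ n ih =>
    intro K hn hK
    by_cases hK1 : Nat.card K = 1
    · refine ⟨1, fun k hk => ?_⟩
      have h0 : k = 1 := by
        rw [Subgroup.card_eq_one.mp hK1] at hk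
        exact Subgroup.mem_bot.mp hk
      rw [h0]
      simp
    · obtain ⟨p, hp, hpK⟩ := Nat.exists_prime_and_dvd hK1
      haveI : Fact p.Prime := ⟨hp⟩
      have hpH := hK p hp hpK
      have hF : FrobCond p K := by
        intro X hX g hg hcop
        have hX' : IsPGroup p (X.map K.subtype) := hX.map _
        have hg' : (g : G) ∈ Subgroup.normalizer ((X.map K.subtype : Subgroup G) : Set G) := by
          apply Cfsg.Agent.Helper5.mem_normalizer_of_conj_le
          rintro _ ⟨_, ⟨x, hx, rfl⟩, rfl⟩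
          have h1 := (Subgroup.mem_normalizer_iff.mp hg x).mp hx
          exact ⟨g * x * g⁻¹, h1, rfl⟩
        have hcent := wielandt_centralize H hHall hpH (X.map K.subtype) hX' (g : G) hg'
          (by rw [Subgroup.orderOf_coe]; exact hcop) (by
            intro q hq hqg
            apply hK q hq
            rw [Subgroup.orderOf_coe] at hqg
            exact dvd_trans hqg (orderOf_dvd_natCard g))
        rw [Subgroup.mem_centralizer_iff] at hcent ⊢
        intro x hx
        apply Subtype.ext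
        exact hcent (x : G) ⟨x, hx, rfl⟩
      obtain ⟨M', hM'n, hM'c, hM'pow⟩ := exists_isNPC_of_frobCond (Nat.card K) K rfl hF
      have hMcard : Nat.card (M'.map K.subtype) = Nat.card M' :=
        Subgroup.card_map_of_injective (Subgroup.subtype_injective K)
      have hMdvd : Nat.card M' ∣ Nat.card K := Subgroup.card_subgroup_dvd_card M'
      have hMlt : Nat.card (M'.map K.subtype) < n := by
        rw [hMcard, ← hn]
        apply lt_of_le_of_ne (Nat.le_of_dvd Nat.card_pos hMdvd)
        intro h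
        rw [h] at hM'c
        exact hp.one_lt.ne' (Nat.Coprime.eq_one_of_dvd hM'c.symm hpK)
      obtain ⟨x, hx⟩ := ih _ hMlt (M'.map K.subtype) rfl (by
        intro q hq hqM
        rw [hMcard] at hqM
        exact hK q hq (dvd_trans hqM hMdvd))
      obtain ⟨PK⟩ : Nonempty (Sylow p K) := inferInstance
      haveI := hM'n
      have hQuot : IsPGroup p (K ⧸ M') := by
        intro y
        obtain ⟨g, rfl⟩ := QuotientGroup.mk_surjective y
        obtain ⟨j, hj⟩ := hM'pow g
        exact ⟨j, by rw [← QuotientGroup.mk_pow]; exact (QuotientGroup.eq_one_iff _).mpr hj⟩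
      obtain ⟨Qp⟩ : Nonempty (Sylow p H) := inferInstance
      obtain ⟨Pp, hPp⟩ := exists_sylow_of_hall H hHall hpH Qp
      have hPpH : (Pp : Subgroup G) ≤ H := by
        rw [hPp]; exact Subgroup.map_subtype_le _
      obtain ⟨M₁, hM₁⟩ : ∃ M₁ : Subgroup G,
          M₁ = (M'.map K.subtype).map (MulAut.conj x⁻¹).toMonoidHom := ⟨_, rfl⟩
      obtain ⟨P₁, hP₁⟩ : ∃ P₁ : Subgroup G,
          P₁ = ((PK : Subgroup K).map K.subtype).map (MulAut.conj x⁻¹).toMonoidHom := ⟨_, rfl⟩
      have hM₁H : M₁ ≤ H := by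
        rw [hM₁]
        rintro _ ⟨m, hm, rfl⟩
        have h0 := hx m hm
        have e : (MulAut.conj x⁻¹).toMonoidHom m = x⁻¹ * m * x := by
          show x⁻¹ * m * x⁻¹⁻¹ = _
          rw [inv_inv]
        rw [e]
        exact h0
      have hM₁ord : ∀ m₁ ∈ M₁, (orderOf m₁).Coprime p := by
        rw [hM₁]
        rintro _ ⟨_, ⟨m, hm, rfl⟩, rfl⟩
        have e : (MulAut.conj x⁻¹).toMonoidHom (K.subtype m) = x⁻¹ * (m : G) * x⁻¹⁻¹ := rfl
        rw [e, Cfsg.Agent.Lead.orderOf_conj_eq, Subgroup.orderOf_coe]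
        have h1 : orderOf m ∣ Nat.card M' := by
          have h0 := orderOf_dvd_natCard (⟨m, hm⟩ : M')
          rwa [Subgroup.orderOf_mk] at h0
        exact Nat.Coprime.coprime_dvd_left h1 hM'c
      have hPpC : (Pp : Subgroup G) ≤ Subgroup.centralizer (M₁ : Set G) := by
        intro u hu
        rw [Subgroup.mem_centralizer_iff]
        intro m₁ hm₁
        rw [hPp] at hu
        obtain ⟨u', hu', rfl⟩ := hu
        have h1 := mem_centralizer_sylow_of_coprime_of_isNilpotent Qp (⟨m₁, hM₁H hm₁⟩ : H)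
          (by rw [Subgroup.orderOf_mk]; exact hM₁ord m₁ hm₁)
        have h2 := Subgroup.mem_centralizer_iff.mp h1 u' hu'
        have h3 := congrArg Subtype.val h2
        exact h3.symm
      have hP₁N : P₁ ≤ Subgroup.normalizer (M₁ : Set G) := by
        rw [hP₁]
        rintro _ ⟨_, ⟨u, hu, rfl⟩, rfl⟩
        apply Cfsg.Agent.Helper5.mem_normalizer_of_conj_le
        rw [hM₁]
        rintro _ ⟨_, ⟨_, ⟨m, hm, rfl⟩, rfl⟩, rfl⟩
        refine ⟨K.subtype (u * m * u⁻¹), ⟨u * m * u⁻¹, hM'n.conj_mem m hm u, rfl⟩, ?_⟩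
        simp only [MulEquiv.coe_toMonoidHom, MulAut.conj_apply, Subgroup.coe_subtype,
          Subgroup.coe_mul, Subgroup.coe_inv]
        group
      have hP₁p : IsPGroup p P₁ := by
        rw [hP₁]
        exact (PK.isPGroup'.map _).map _
      have hidx : ¬ p ∣ (Pp : Subgroup G).relIndex (Subgroup.normalizer (M₁ : Set G)) := by
        intro h
        exact Pp.not_dvd_index (dvd_trans h (Subgroup.relIndex_dvd_index_of_le
          (hPpC.trans (Subgroup.centralizer_le_normalizer _))))
      obtain ⟨c, hcN, hc⟩ := Cfsg.Agent.Helper4.exists_conj_le_of_relIndex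
        (Subgroup.normalizer (M₁ : Set G)) (Pp : Subgroup G) P₁ Pp.isPGroup' hidx hP₁p hP₁N
      refine ⟨x * c⁻¹, fun k hk => ?_⟩
      obtain ⟨m, hm, u, hu, hmu⟩ := exists_mul_of_quot_isPGroup p M' hQuot PK ⟨k, hk⟩
      have hk' : k = (m : G) * (u : G) := by
        have h0 := congrArg Subtype.val hmu
        simpa using h0
      have h1 : c * (x⁻¹ * (m : G) * x) * c⁻¹ ∈ H := by
        have hm₁ : x⁻¹ * (m : G) * x ∈ M₁ := by
          rw [hM₁]
          refine ⟨(m : G), ⟨m, hm, rfl⟩, ?_⟩
          show x⁻¹ * (m : G) * x⁻¹⁻¹ = _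
          rw [inv_inv]
        exact hM₁H ((Subgroup.mem_normalizer_iff.mp hcN _).mp hm₁)
      have h2 : c * (x⁻¹ * (u : G) * x) * c⁻¹ ∈ H := by
        have hu₁ : x⁻¹ * (u : G) * x ∈ P₁ := by
          rw [hP₁]
          refine ⟨(u : G), ⟨u, hu, rfl⟩, ?_⟩
          show x⁻¹ * (u : G) * x⁻¹⁻¹ = _
          rw [inv_inv]
        exact hPpH (hc _ hu₁)
      have e : (x * c⁻¹)⁻¹ * k * (x * c⁻¹)
          = (c * (x⁻¹ * (m : G) * x) * c⁻¹) * (c * (x⁻¹ * (u : G) * x) * c⁻¹) := by
        rw [hk']; group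
      rw [e]
      exact H.mul_mem h1 h2

/-- Let H be a nilpotent subgroup of a finite group G whose order is coprime to its index, and K a subgroup every prime divisor of whose order divides the order of H. Then K lies in some conjugate of H. -/
theorem result {G : Type*} [Group G] [Finite G] (H K : Subgroup G) (hH : Group.IsNilpotent H) (hHall : (Nat.card H).Coprime H.index) (hK : ∀ p : ℕ, p.Prime → p ∣ Nat.card K → p ∣ Nat.card H) : ∃ x : G, K ≤ MulAut.conj x • H := by
  haveI := hH
  obtain ⟨x, hx⟩ := wielandt_aux H hHall _ K rfl hK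
  refine ⟨x, fun k hk => ?_⟩
  rw [Subgroup.mem_pointwise_smul_iff_inv_smul_mem]
  have h0 := hx k hk
  have e : (MulAut.conj x)⁻¹ • k = x⁻¹ * k * x := by
    rw [← map_inv, MulAut.smul_def, MulAut.conj_apply, inv_inv]
  rw [e]
  exact h0

end Cfsg.Agent.S0581
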