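import Cfsg.Statements.S0584
import Mathlib

set_option autoImplicit false
open Cfsg
open scoped Pointwise

namespace Cfsg.Agent.S0584

/-- Let B ≤ A be normal subgroups of a finite group G with B contained in the Frattini subgroup of G. If A modulo B is nilpotent then A is nilpotent. -/
theorem result {G : Type*} [Group G] [Finite G] (A B : Subgroup G) [A.Normal] [B.Normal] (hBA : B ≤ A) (hB : B ≤ frattini G) (h : Group.IsNilpotent (↥A ⧸ B.subgroupOf A)) : Group.IsNilpotent A := by
  classical
  have q03 := (Group.isNilpotent_of_finite_tfae (G := A)).out 0 3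
  rw [q03]
  intro p hp P
  have hπs : Function.Surjective (QuotientGroup.mk' (B.subgroupOf A)) :=
    QuotientGroup.mk'_surjective _
  have hQn : ∀ Q : Sylow p (↥A ⧸ B.subgroupOf A), (Q : Subgroup (↥A ⧸ B.subgroupOf A)).Normal := by
    intro Q
    have q03' := (Group.isNilpotent_of_finite_tfae (G := ↥A ⧸ B.subgroupOf A)).out 0 3
    exact q03'.mp h p hp Q
  have huniq : ∀ Q₁ Q₂ : Sylow p (↥A ⧸ B.subgroupOf A), Q₁ = Q₂ := by
    intro Q₁ Q₂
    obtain ⟨g, rfl⟩ := MulAction.exists_smul_eq (↥A ⧸ B.subgroupOf A) Q₁ Q₂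
    haveI := hQn Q₁
    exact Sylow.smul_eq_of_normal.symm
  obtain ⟨P', hP'⟩ : ∃ P' : Subgroup G, P' = (P : Subgroup A).map A.subtype := ⟨_, rfl⟩
  have hPA : P' ≤ A := by
    rw [hP']
    rintro _ ⟨x, -, rfl⟩
    exact x.2
  have hN : (P' ⊔ B).Normal := by
    constructor
    intro n hn g
    obtain ⟨y, hy, z, hz, rfl⟩ := Subgroup.mem_sup_of_normal_right.mp hn
    have e1 : g * (y * z) * g⁻¹ = (g * y * g⁻¹) * (g * z * g⁻¹) := by group
    rw [e1]
    refine mul_mem ?_ (Subgroup.mem_sup_right ((inferInstance : B.Normal).conj_mem z hz g))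
    rw [hP'] at hy
    obtain ⟨y', hy', rfl⟩ := hy
    have hmem : (MulAut.conjNormal g : MulAut A) • y' ∈ (MulAut.conjNormal g : MulAut A) • P :=
      Subgroup.smul_mem_pointwise_smul _ _ _ hy'
    have heq : P.mapSurjective hπs = ((MulAut.conjNormal g : MulAut A) • P).mapSurjective hπs :=
      huniq _ _
    have hin : QuotientGroup.mk' (B.subgroupOf A) ((MulAut.conjNormal g : MulAut A) • y') ∈
        (P.mapSurjective hπs : Subgroup (↥A ⧸ B.subgroupOf A)) := by
      rw [heq]
      exact ⟨_, hmem, rfl⟩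
    obtain ⟨w, hw, hwπ⟩ := hin
    have hker : w⁻¹ * ((MulAut.conjNormal g : MulAut A) • y') ∈ B.subgroupOf A := by
      rw [← QuotientGroup.ker_mk' (B.subgroupOf A), MonoidHom.mem_ker, map_mul, map_inv, hwπ,
        inv_mul_cancel]
    have e2 : g * (A.subtype y') * g⁻¹ =
        (w : G) * ((w⁻¹ * ((MulAut.conjNormal g : MulAut A) • y') : A) : G) := by
      simp [MulAut.smul_def, MulAut.conjNormal_apply]
    rw [e2]
    refine mul_mem (Subgroup.mem_sup_left ?_) (Subgroup.mem_sup_right (Subgroup.mem_subgroupOf.mp hker))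
    rw [hP']
    exact ⟨w, hw, rfl⟩
  have hP'p : IsPGroup p P' := by
    rw [hP']
    exact P.isPGroup'.map A.subtype
  let PN : Sylow p ↥(P' ⊔ B) :=
    { toSubgroup := P'.subgroupOf (P' ⊔ B)
      isPGroup' := hP'p.comap_subtype
      is_maximal' := by
        intro Q hQ hle
        apply le_antisymm _ hle
        intro q hq
        rw [Subgroup.mem_subgroupOf]
        have hQ' : IsPGroup p ((Q.map (P' ⊔ B).subtype).subgroupOf A) :=
          (hQ.map (P' ⊔ B).subtype).comap_subtype
        have hPQ : (P : Subgroup A) ≤ (Q.map (P' ⊔ B).subtype).subgroupOf A := by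
          intro x hx
          rw [Subgroup.mem_subgroupOf]
          have hxP' : (x : G) ∈ P' := by rw [hP']; exact ⟨x, hx, rfl⟩
          exact ⟨⟨(x : G), Subgroup.mem_sup_left hxP'⟩, hle (Subgroup.mem_subgroupOf.mpr hxP'), rfl⟩
        have hEq := P.is_maximal' hQ' hPQ
        have hqA : (q : G) ∈ A := (sup_le hPA hBA) q.2
        have : (⟨(q : G), hqA⟩ : A) ∈ (Q.map (P' ⊔ B).subtype).subgroupOf A := by
          rw [Subgroup.mem_subgroupOf]
          exact ⟨q, hq, rfl⟩
        rw [hEq] at this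
        have hq' : (q : G) ∈ (P : Subgroup A).map A.subtype := ⟨_, this, rfl⟩
        rw [← hP'] at hq'
        exact hq' }
  haveI := hN
  have hfr := Sylow.normalizer_sup_eq_top PN
  have hmap : (PN : Subgroup ↥(P' ⊔ B)).map (P' ⊔ B).subtype = P' :=
    Subgroup.map_subgroupOf_eq_of_le le_sup_left
  rw [hmap] at hfr
  have h2 : Subgroup.normalizer (P' : Set G) ⊔ frattini G = ⊤ := by
    rw [eq_top_iff, ← hfr]
    apply sup_le le_sup_left
    exact sup_le (le_trans Subgroup.le_normalizer le_sup_left) (le_trans hB le_sup_right)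
  have h3 := frattini_nongenerating h2
  have hP'n : P'.Normal := Subgroup.normalizer_eq_top_iff.mp h3
  rw [hP'] at hP'n
  exact hP'n.of_map_subtype


end Cfsg.Agent.S0584
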