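import Cfsg.Statements.S0587
import Cfsg.Agent.Helper8.CoreFree

set_option autoImplicit false
open Cfsg

namespace Cfsg.Agent.S0587

/-- Let G be a finite group whose largest normal p-subgroup L is nontrivial, and M a maximal subgroup of G with trivial normal core. Then L is elementary abelian, M is a complement to L, L is a minimal normal subgroup of G, the centralizer of L is L, and for every prime q such that the largest normal q-subgroup of M is nontrivial, the order of L is congruent to 1 modulo q and q ≠ p. -/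
theorem result {G : Type*} [Group G] [Finite G] (p : ℕ) [Fact p.Prime] (hL : Cfsg.pCore p G ≠ ⊥) (M : Subgroup G) (hM : IsCoatom M) (hcore : M.normalCore = ⊥) : Cfsg.IsElementaryAbelian p (Cfsg.pCore p G) ∧ Subgroup.IsComplement' (Cfsg.pCore p G) M ∧ (∀ K : Subgroup G, K.Normal → K ≤ Cfsg.pCore p G → K = ⊥ ∨ K = Cfsg.pCore p G) ∧ Subgroup.centralizer ((Cfsg.pCore p G : Subgroup G) : Set G) = Cfsg.pCore p G ∧ ∀ (q : ℕ) [Fact q.Prime], Cfsg.pCore q ↥M ≠ ⊥ → Nat.card (Cfsg.pCore p G) % q = 1 % q ∧ q ≠ p := by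
  have h := Cfsg.Agent.Helper8.CoreFree.main p hL M hM hcore
  refine ⟨⟨Subgroup.le_centralizer_iff_isMulCommutative.mp h.abelian, h.exponent⟩,
    h.complement, ?_, h.centralizer_eq, ?_⟩
  · intro K hK hKL
    by_cases hb : K = ⊥
    · left
      exact hb
    · right
      haveI := hK
      exact le_antisymm hKL (h.le_of_normal K hb hKL)
  · intro q _ hq
    have hQn : (Cfsg.pCore q ↥M).Normal := by
      haveI := Cfsg.Agent.Helper3.pCore_characteristic q ↥M
      infer_instance
    apply h.qpart q ((Cfsg.pCore q ↥M).map M.subtype)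
    · exact Subgroup.map_subtype_le _
    · intro hbot
      apply hq
      exact (Subgroup.map_eq_bot_iff_of_injective _ (Subgroup.subtype_injective M)).mp hbot
    · exact (Cfsg.Agent.Helper3.pCore_isPGroup q ↥M).map _
    · rintro m hm _ ⟨y, hy, rfl⟩
      exact ⟨⟨m, hm⟩ * y * ⟨m, hm⟩⁻¹, hQn.conj_mem y hy ⟨m, hm⟩, rfl⟩

end Cfsg.Agent.S0587
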