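import Cfsg.Statements.S0588
import Mathlib

set_option autoImplicit false
open Cfsg

namespace Cfsg.Agent.S0588

/-- If a subgroup H of a finite group G contains the centralizer of every non-identity element of H, then the order of H is coprime to its index. -/
theorem result {G : Type*} [Group G] [Finite G] (H : Subgroup G) (h : ∀ x ∈ H, x ≠ 1 → Subgroup.centralizer ({x} : Set G) ≤ H) : (Nat.card H).Coprime H.index := by
  classical
  by_contra hcop
  obtain ⟨p, hp, hpH, hpI⟩ := Nat.Prime.not_coprime_iff_dvd.mp hcop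
  haveI : Fact p.Prime := ⟨hp⟩
  obtain ⟨x, hx⟩ := exists_prime_orderOf_dvd_card' p hpH
  have hx1 : (x : G) ≠ 1 := by
    intro h1
    have : x = 1 := Subtype.ext h1
    rw [this, orderOf_one] at hx
    exact hp.one_lt.ne hx
  have hxo : orderOf (x : G) = p := by rw [Subgroup.orderOf_coe]; exact hx
  have hz : IsPGroup p (Subgroup.zpowers (x : G)) := by
    apply IsPGroup.of_card (n := 1)
    rw [Nat.card_zpowers, hxo, pow_one]
  obtain ⟨P, hP⟩ := hz.exists_le_sylow
  have hxP : (x : G) ∈ (P : Subgroup G) := hP (Subgroup.mem_zpowers _)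
  haveI : Nontrivial P := ⟨⟨⟨x, hxP⟩, 1, fun h => hx1 (congrArg Subtype.val h)⟩⟩
  haveI := P.isPGroup'.center_nontrivial
  obtain ⟨z, hz1⟩ := exists_ne (1 : Subgroup.center P)
  have hzc : ∀ y : P, (y : G) * ((z : P) : G) = ((z : P) : G) * (y : G) := by
    intro y
    have := Subgroup.mem_center_iff.mp z.2 y
    exact congrArg Subtype.val this
  have hzG1 : ((z : P) : G) ≠ 1 := by
    intro h1
    apply hz1
    apply Subtype.ext; apply Subtype.ext; exact h1
  have hzH : ((z : P) : G) ∈ H := by
    apply h x x.2 hx1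
    rw [Subgroup.mem_centralizer_iff]
    intro y hy
    rw [Set.mem_singleton_iff] at hy
    subst hy
    exact hzc ⟨x, hxP⟩
  have hPH : (P : Subgroup G) ≤ H := by
    intro y hy
    apply h _ hzH hzG1
    rw [Subgroup.mem_centralizer_iff]
    intro w hw
    rw [Set.mem_singleton_iff] at hw
    subst hw
    exact (hzc ⟨y, hy⟩).symm
  have := Subgroup.index_dvd_of_le hPH
  exact P.not_dvd_index (dvd_trans hpI this)


end Cfsg.Agent.S0588
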