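import Cfsg.Statements.S0597
import Cfsg.Agent.Helper3.ElemAb
import Cfsg.Agent.Helper3.Cores
import Cfsg.Agent.Helper3.Signalizer
import Cfsg.Agent.Helper4.Wielandt
import Cfsg.Agent.S1459

set_option autoImplicit false
open Cfsg

namespace Cfsg.Agent.S0597

open scoped commutatorElement

universe u

/-- the subgroup of elements centralizing `W` and centralizing `V` modulo `W`. -/
def stab {G : Type u} [Group G] (V W : Subgroup G) : Subgroup G where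
  carrier := {g | g ∈ Subgroup.centralizer (W : Set G) ∧ ∀ v ∈ V, v⁻¹ * g * v * g⁻¹ ∈ W}
  one_mem' := ⟨Subgroup.one_mem _, fun v _ => by
    have : v⁻¹ * 1 * v * 1⁻¹ = 1 := by group
    rw [this]
    exact W.one_mem⟩
  mul_mem' := by
    rintro a b ⟨ha1, ha2⟩ ⟨hb1, hb2⟩
    refine ⟨Subgroup.mul_mem _ ha1 hb1, fun v hv => ?_⟩
    have h1 := ha2 v hv
    have h2 := hb2 v hv
    have h3 : a * (v⁻¹ * b * v * b⁻¹) = (v⁻¹ * b * v * b⁻¹) * a :=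
      (Subgroup.mem_centralizer_iff.1 ha1 _ h2).symm
    have h4 : v⁻¹ * (a * b) * v * (a * b)⁻¹ =
        (v⁻¹ * a * v * a⁻¹) * (a * (v⁻¹ * b * v * b⁻¹) * a⁻¹) := by group
    rw [h4, h3, mul_inv_cancel_right]
    exact W.mul_mem h1 h2
  inv_mem' := by
    rintro a ⟨ha1, ha2⟩
    refine ⟨Subgroup.inv_mem _ ha1, fun v hv => ?_⟩
    have h1 := ha2 v hv
    have h3 : (v⁻¹ * a * v * a⁻¹)⁻¹ * a = a * (v⁻¹ * a * v * a⁻¹)⁻¹ :=
      Subgroup.mem_centralizer_iff.1 ha1 _ (W.inv_mem h1)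
    have h4 : v⁻¹ * a⁻¹ * v * a⁻¹⁻¹ = a⁻¹ * ((v⁻¹ * a * v * a⁻¹)⁻¹ * a) := by group
    rw [h4, h3, inv_mul_cancel_left]
    exact W.inv_mem h1

theorem mem_stab {G : Type u} [Group G] (V W : Subgroup G) (g : G) :
    g ∈ stab V W ↔ g ∈ Subgroup.centralizer (W : Set G) ∧ ∀ v ∈ V, v⁻¹ * g * v * g⁻¹ ∈ W :=
  Iff.rfl

theorem stab_pow {G : Type u} [Group G] (V W : Subgroup G) (q : G) (hq : q ∈ stab V W)
    (v : G) (hv : v ∈ V) (k : ℕ) :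
    q ^ k * v = v * (v⁻¹ * q * v * q⁻¹) ^ k * q ^ k := by
  induction k with
  | zero => simp
  | succ k ih =>
    have hwk : (v⁻¹ * q * v * q⁻¹) ^ k * q = q * (v⁻¹ * q * v * q⁻¹) ^ k :=
      Subgroup.mem_centralizer_iff.1 hq.1 _ (W.pow_mem (hq.2 v hv) k)
    have hqv : q * v = v * (v⁻¹ * q * v * q⁻¹) * q := by group
    generalize v⁻¹ * q * v * q⁻¹ = w at hwk hqv ih
    calc q ^ (k + 1) * v = q * (q ^ k * v) := by rw [pow_succ', mul_assoc]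
      _ = q * (v * w ^ k * q ^ k) := by rw [ih]
      _ = (q * v) * w ^ k * q ^ k := by simp only [mul_assoc]
      _ = (v * w * q) * w ^ k * q ^ k := by rw [hqv]
      _ = v * w * (q * w ^ k) * q ^ k := by simp only [mul_assoc]
      _ = v * w * (w ^ k * q) * q ^ k := by rw [hwk]
      _ = v * (w * w ^ k) * (q * q ^ k) := by simp only [mul_assoc]
      _ = v * w ^ (k + 1) * q ^ (k + 1) := by rw [← pow_succ', ← pow_succ']

theorem id3 {G : Type u} [Group G] (v e₁ w : G) :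
    v⁻¹ * e₁ * v * w * e₁⁻¹ = ⁅v⁻¹, e₁⁆ * (e₁ * w * e₁⁻¹) := by
  rw [commutatorElement_def]; group

theorem id1 {G : Type u} [Group G] (v e₁ e₂ : G) :
    v⁻¹ * ⁅e₁, e₂⁆ * v * ⁅e₁, e₂⁆⁻¹ =
      v⁻¹ * e₁ * v * (e₂ * ⁅(e₂⁻¹ * v * e₂)⁻¹, e₁⁻¹⁆ * e₂⁻¹) * e₁⁻¹ := by
  simp only [commutatorElement_def]; group

/-- If two subnormal subgroups of a faithful group on an elementary abelian p-group satisfy [V, E₁, E₂] = 1, then their commutator lies in the largest normal p-subgroup. -/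
theorem result {G : Type*} [Group G] [Finite G] {p : ℕ} [Fact p.Prime] (V H : Subgroup G) (hV : Cfsg.IsElementaryAbelian p V) (hHV : H ≤ Subgroup.normalizer (V : Set G)) (hf : H ⊓ Subgroup.centralizer (V : Set G) = ⊥) (E₁ E₂ : Subgroup G) (h₁ : E₁ ≤ H) (h₂ : E₂ ≤ H) (hs₁ : (E₁.subgroupOf H).IsSubnormal) (hs₂ : (E₂.subgroupOf H).IsSubnormal) (hc : ⁅⁅V, E₁⁆, E₂⁆ = ⊥) : ⁅E₁, E₂⁆ ≤ (Cfsg.pCore p H).map H.subtype := by
  have hE1V : E₁ ≤ Subgroup.normalizer (V : Set G) := h₁.trans hHV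
  have hE2V : E₂ ≤ Subgroup.normalizer (V : Set G) := h₂.trans hHV
  have hWV : ⁅V, E₁⁆ ≤ V := by
    rw [Subgroup.commutator_le]
    intro v hv e he
    have : ⁅v, e⁆ = v * (e * v⁻¹ * e⁻¹) := by rw [commutatorElement_def]; group
    rw [this]
    exact V.mul_mem hv ((Subgroup.mem_normalizer_iff.1 (hE1V he) v⁻¹).1 (V.inv_mem hv))
  have hE1W : E₁ ≤ Subgroup.normalizer ((⁅V, E₁⁆ : Subgroup G) : Set G) := by
    have := S1459.left_le_normalizer_comm E₁ V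
    rwa [Subgroup.commutator_comm] at this
  have hE2W : E₂ ≤ Subgroup.centralizer ((⁅V, E₁⁆ : Subgroup G) : Set G) := by
    rw [Subgroup.commutator_eq_bot_iff_le_centralizer] at hc
    exact Subgroup.le_centralizer_iff.1 hc
  -- generators lie in the stabilizer
  have hgen : ⁅E₁, E₂⁆ ≤ stab V ⁅V, E₁⁆ := by
    rw [Subgroup.commutator_le]
    intro e₁ he₁ e₂ he₂
    refine ⟨?_, ?_⟩
    · refine Subgroup.mem_centralizer_iff.2 ?_
      intro w hw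
      have hw1 : e₁⁻¹ * w * e₁ ∈ (⁅V, E₁⁆ : Subgroup G) := by
        have := (Subgroup.mem_normalizer_iff.1 (hE1W (E₁.inv_mem he₁)) w).1 hw
        rwa [inv_inv] at this
      have ha : (e₁⁻¹ * w * e₁) * e₂ = e₂ * (e₁⁻¹ * w * e₁) :=
        Subgroup.mem_centralizer_iff.1 (hE2W he₂) _ hw1
      have hb : w * e₂ = e₂ * w := Subgroup.mem_centralizer_iff.1 (hE2W he₂) _ hw
      have hb' : w * e₂⁻¹ = e₂⁻¹ * w := by
        rw [eq_inv_mul_iff_mul_eq, ← mul_assoc, ← hb, mul_inv_cancel_right]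
      rw [commutatorElement_def]
      calc w * (e₁ * e₂ * e₁⁻¹ * e₂⁻¹)
          = e₁ * ((e₁⁻¹ * w * e₁) * e₂) * e₁⁻¹ * e₂⁻¹ := by group
        _ = e₁ * (e₂ * (e₁⁻¹ * w * e₁)) * e₁⁻¹ * e₂⁻¹ := by rw [ha]
        _ = e₁ * e₂ * e₁⁻¹ * (w * e₂⁻¹) := by group
        _ = e₁ * e₂ * e₁⁻¹ * (e₂⁻¹ * w) := by rw [hb']
        _ = e₁ * e₂ * e₁⁻¹ * e₂⁻¹ * w := by group
    · intro v hv
      have hv1 : e₂⁻¹ * v * e₂ ∈ V := by
        have := (Subgroup.mem_normalizer_iff.1 (hE2V (E₂.inv_mem he₂)) v).1 hv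
        rwa [inv_inv] at this
      have hw1 : ⁅(e₂⁻¹ * v * e₂)⁻¹, e₁⁻¹⁆ ∈ (⁅V, E₁⁆ : Subgroup G) :=
        Subgroup.commutator_mem_commutator (V.inv_mem hv1) (E₁.inv_mem he₁)
      have hw1c : ⁅(e₂⁻¹ * v * e₂)⁻¹, e₁⁻¹⁆ * e₂ = e₂ * ⁅(e₂⁻¹ * v * e₂)⁻¹, e₁⁻¹⁆ :=
        Subgroup.mem_centralizer_iff.1 (hE2W he₂) _ hw1
      have hw2 : ⁅v⁻¹, e₁⁆ ∈ (⁅V, E₁⁆ : Subgroup G) :=
        Subgroup.commutator_mem_commutator (V.inv_mem hv) he₁
      have hw3 : e₁ * ⁅(e₂⁻¹ * v * e₂)⁻¹, e₁⁻¹⁆ * e₁⁻¹ ∈ (⁅V, E₁⁆ : Subgroup G) :=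
        (Subgroup.mem_normalizer_iff.1 (hE1W he₁) _).1 hw1
      have id2 : e₂ * ⁅(e₂⁻¹ * v * e₂)⁻¹, e₁⁻¹⁆ * e₂⁻¹ = ⁅(e₂⁻¹ * v * e₂)⁻¹, e₁⁻¹⁆ := by
        rw [← hw1c, mul_inv_cancel_right]
      rw [id1, id2, id3]
      exact Subgroup.mul_mem _ hw2 hw3
  have hQH : ⁅E₁, E₂⁆ ≤ H := by
    rw [Subgroup.commutator_le]
    intro a ha b hb
    rw [commutatorElement_def]
    exact H.mul_mem (H.mul_mem (H.mul_mem (h₁ ha) (h₂ hb)) (H.inv_mem (h₁ ha))) (H.inv_mem (h₂ hb))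
  have hqp : ∀ q ∈ ⁅E₁, E₂⁆, q ^ p = 1 := by
    intro q hq
    have hqs := hgen hq
    have h1 : q ^ p ∈ H ⊓ Subgroup.centralizer (V : Set G) := by
      refine Subgroup.mem_inf.2 ⟨H.pow_mem (hQH hq) p, ?_⟩
      refine Subgroup.mem_centralizer_iff.2 ?_
      intro v hv
      have h2 := stab_pow V ⁅V, E₁⁆ q hqs v hv p
      have h3 : (v⁻¹ * q * v * q⁻¹) ^ p = 1 := hV.2 _ (hWV (hqs.2 v hv))
      rw [h3, mul_one] at h2
      exact h2.symm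
    rw [hf] at h1
    exact Subgroup.mem_bot.1 h1
  have hQp : IsPGroup p (⁅E₁, E₂⁆ : Subgroup G) := by
    rintro ⟨q, hq⟩
    refine ⟨1, ?_⟩
    apply Subtype.ext
    rw [SubmonoidClass.coe_pow, pow_one]
    exact hqp q hq
  have hX : ((E₁ ⊔ E₂).subgroupOf H).IsSubnormal := by
    rw [Subgroup.subgroupOf_sup h₁ h₂]
    exact Helper4.isSubnormal_sup _ _ hs₁ hs₂
  have hQX : ⁅E₁, E₂⁆ ≤ E₁ ⊔ E₂ := by
    rw [Subgroup.commutator_le]
    intro a ha b hb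
    have ha' : a ∈ E₁ ⊔ E₂ := (le_sup_left : E₁ ≤ E₁ ⊔ E₂) ha
    have hb' : b ∈ E₁ ⊔ E₂ := (le_sup_right : E₂ ≤ E₁ ⊔ E₂) hb
    rw [commutatorElement_def]
    exact Subgroup.mul_mem _ (Subgroup.mul_mem _ (Subgroup.mul_mem _ ha' hb')
      (Subgroup.inv_mem _ ha')) (Subgroup.inv_mem _ hb')
  have hXN : E₁ ⊔ E₂ ≤ Subgroup.normalizer ((⁅E₁, E₂⁆ : Subgroup G) : Set G) := by
    refine sup_le (S1459.left_le_normalizer_comm E₁ E₂) ?_
    have := S1459.left_le_normalizer_comm E₂ E₁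
    rwa [Subgroup.commutator_comm] at this
  have hQsn : ((⁅E₁, E₂⁆ : Subgroup G).subgroupOf H).IsSubnormal := by
    have hle : (⁅E₁, E₂⁆ : Subgroup G).subgroupOf H ≤ (E₁ ⊔ E₂).subgroupOf H := by
      intro x hx
      exact hQX hx
    refine Subgroup.IsSubnormal.trans hle ?_ hX
    apply Subgroup.Normal.isSubnormal
    rw [Subgroup.normal_subgroupOf_iff_le_normalizer hle]
    apply Helper3.le_normalizer_of_conj_mem
    intro s hs d hd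
    exact (Subgroup.mem_normalizer_iff.1 (hXN hs) d).1 hd
  have hfin := Helper3.subnormal_isPGroup_le_pCore _ hQsn hQp.comap_subtype
  have h1 : ((⁅E₁, E₂⁆ : Subgroup G).subgroupOf H).map H.subtype = ⁅E₁, E₂⁆ :=
    Subgroup.map_subgroupOf_eq_of_le hQH
  rw [← h1]
  exact Subgroup.map_mono hfin

end Cfsg.Agent.S0597
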