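import Cfsg.Statements.S0590
import Cfsg.Agent.S0597

set_option autoImplicit false
open Cfsg

namespace Cfsg.Agent.S0590

open scoped commutatorElement

/-- Quadratic action on an elementary abelian p-group forces the acting group modulo the kernel of the action to be elementary abelian. -/
theorem result {G : Type*} [Group G] [Finite G] {p : ℕ} [Fact p.Prime] (V H : Subgroup G) (hV : Cfsg.IsElementaryAbelian p V) (hHV : H ≤ Subgroup.normalizer (V : Set G)) (hq : ⁅⁅V, H⁆, H⁆ = ⊥) : ⁅H, H⁆ ≤ Subgroup.centralizer (V : Set G) ∧ ∀ a ∈ H, a ^ p ∈ Subgroup.centralizer (V : Set G) := by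
  have hWV : ⁅V, H⁆ ≤ V := by
    rw [Subgroup.commutator_le]
    intro v hv e he
    have : ⁅v, e⁆ = v * (e * v⁻¹ * e⁻¹) := by rw [commutatorElement_def]; group
    rw [this]
    exact V.mul_mem hv ((Subgroup.mem_normalizer_iff.1 (hHV he) v⁻¹).1 (V.inv_mem hv))
  have hHW : H ≤ Subgroup.centralizer ((⁅V, H⁆ : Subgroup G) : Set G) := by
    rw [Subgroup.commutator_eq_bot_iff_le_centralizer] at hq
    exact Subgroup.le_centralizer_iff.1 hq
  have hst : H ≤ S0597.stab V ⁅V, H⁆ := by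
    intro h hh
    refine ⟨hHW hh, ?_⟩
    intro v hv
    have : v⁻¹ * h * v * h⁻¹ = ⁅v⁻¹, h⁆ := by rw [commutatorElement_def]; group
    rw [this]
    exact Subgroup.commutator_mem_commutator (V.inv_mem hv) hh
  have hVc := Helper3.elemAb_comm' hV
  -- action of a product
  have key : ∀ a ∈ H, ∀ b ∈ H, ∀ v ∈ V,
      (a * b) * v = v * ((v⁻¹ * a * v * a⁻¹) * (v⁻¹ * b * v * b⁻¹)) * (a * b) := by
    intro a ha b hb v hv
    have ha1 : a * v = v * (v⁻¹ * a * v * a⁻¹) * a := by group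
    have hb1 : b * v = v * (v⁻¹ * b * v * b⁻¹) * b := by group
    have ha2 : (v⁻¹ * b * v * b⁻¹) * a = a * (v⁻¹ * b * v * b⁻¹) :=
      Subgroup.mem_centralizer_iff.1 (hHW ha) _ ((hst hb).2 v hv)
    have hw : (v⁻¹ * a * v * a⁻¹) * (v⁻¹ * b * v * b⁻¹) =
        (v⁻¹ * b * v * b⁻¹) * (v⁻¹ * a * v * a⁻¹) :=
      hVc _ (hWV ((hst ha).2 v hv)) _ (hWV ((hst hb).2 v hv))
    generalize v⁻¹ * a * v * a⁻¹ = wa at ha1 hw
    generalize v⁻¹ * b * v * b⁻¹ = wb at hb1 ha2 hw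
    calc (a * b) * v = a * (b * v) := by rw [mul_assoc]
      _ = a * (v * wb * b) := by rw [hb1]
      _ = (a * v) * wb * b := by simp only [mul_assoc]
      _ = (v * wa * a) * wb * b := by rw [ha1]
      _ = v * wa * (a * wb) * b := by simp only [mul_assoc]
      _ = v * wa * (wb * a) * b := by rw [ha2]
      _ = v * (wa * wb) * (a * b) := by simp only [mul_assoc]
  constructor
  · rw [Subgroup.commutator_le]
    intro a ha b hb
    refine Subgroup.mem_centralizer_iff.2 ?_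
    intro v hv
    have hv' : (b * a)⁻¹ * v * (b * a) ∈ V := by
      have := (Subgroup.mem_normalizer_iff.1 (hHV (H.inv_mem (H.mul_mem hb ha))) v).1 hv
      rwa [inv_inv] at this
    have h1 := key a ha b hb _ hv'
    have h2 := key b hb a ha _ hv'
    have hw : ((b * a)⁻¹ * v * (b * a))⁻¹ * a * ((b * a)⁻¹ * v * (b * a)) * a⁻¹ *
        (((b * a)⁻¹ * v * (b * a))⁻¹ * b * ((b * a)⁻¹ * v * (b * a)) * b⁻¹) =
        ((b * a)⁻¹ * v * (b * a))⁻¹ * b * ((b * a)⁻¹ * v * (b * a)) * b⁻¹ *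
        (((b * a)⁻¹ * v * (b * a))⁻¹ * a * ((b * a)⁻¹ * v * (b * a)) * a⁻¹) :=
      hVc _ (hWV ((hst ha).2 _ hv')) _ (hWV ((hst hb).2 _ hv'))
    rw [← hw] at h2
    -- (a*b) v' (a*b)⁻¹ = (b*a) v' (b*a)⁻¹ = v
    have h3 : (a * b) * ((b * a)⁻¹ * v * (b * a)) * (a * b)⁻¹ =
        (b * a) * ((b * a)⁻¹ * v * (b * a)) * (b * a)⁻¹ := by
      rw [h1, h2, mul_inv_cancel_right, mul_inv_cancel_right]
    have h4 : (b * a) * ((b * a)⁻¹ * v * (b * a)) * (b * a)⁻¹ = v := by group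
    rw [h4] at h3
    have h5 : ⁅a, b⁆ * v * ⁅a, b⁆⁻¹ = (a * b) * ((b * a)⁻¹ * v * (b * a)) * (a * b)⁻¹ := by
      rw [commutatorElement_def]; group
    rw [h3] at h5
    calc v * ⁅a, b⁆ = (⁅a, b⁆ * v * ⁅a, b⁆⁻¹) * ⁅a, b⁆ := by rw [h5]
      _ = ⁅a, b⁆ * v := by group
  · intro a ha
    refine Subgroup.mem_centralizer_iff.2 ?_
    intro v hv
    have h2 := S0597.stab_pow V ⁅V, H⁆ a (hst ha) v hv p
    have h3 : (v⁻¹ * a * v * a⁻¹) ^ p = 1 := hV.2 _ (hWV ((hst ha).2 v hv))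
    rw [h3, mul_one] at h2
    exact h2.symm

end Cfsg.Agent.S0590
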