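import Cfsg.Statements.S0591
import Cfsg.Agent.Helper3.ElemAb

set_option autoImplicit false
open Cfsg

namespace Cfsg.Agent.S0591

open scoped commutatorElement

/-- For a quadratically acting element a on an elementary abelian p-group V, the fixed points C_V(a) have order at least the square root of the order of V. -/
theorem result {G : Type*} [Group G] [Finite G] {p : ℕ} [Fact p.Prime] (V : Subgroup G) (hV : Cfsg.IsElementaryAbelian p V) (a : G) (ha : a ∈ Subgroup.normalizer (V : Set G)) (hq : ⁅⁅V, Subgroup.zpowers a⁆, Subgroup.zpowers a⁆ = ⊥) : Nat.card V ≤ Nat.card ↥(V ⊓ Subgroup.centralizer (Subgroup.zpowers a : Set G)) ^ 2 := by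
  classical
  have hVc := Helper3.elemAb_comm' hV
  have hnorm : ∀ v ∈ V, a * v * a⁻¹ ∈ V := fun v hv => (Subgroup.mem_normalizer_iff.1 ha v).1 hv
  have hWV : ⁅V, Subgroup.zpowers a⁆ ≤ V := by
    rw [Subgroup.commutator_le]
    intro v hv e he
    have : ⁅v, e⁆ = v * (e * v⁻¹ * e⁻¹) := by rw [commutatorElement_def]; group
    rw [this]
    have hen : e ∈ Subgroup.normalizer (V : Set G) :=
      (Subgroup.zpowers_le.2 ha) he
    exact V.mul_mem hv ((Subgroup.mem_normalizer_iff.1 hen v⁻¹).1 (V.inv_mem hv))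
  have hAW : Subgroup.zpowers a ≤ Subgroup.centralizer
      ((⁅V, Subgroup.zpowers a⁆ : Subgroup G) : Set G) := by
    rw [Subgroup.commutator_eq_bot_iff_le_centralizer] at hq
    exact Subgroup.le_centralizer_iff.1 hq
  have hphi : ∀ v ∈ V, v⁻¹ * (a * v * a⁻¹) ∈ (⁅V, Subgroup.zpowers a⁆ : Subgroup G) := by
    intro v hv
    have : v⁻¹ * (a * v * a⁻¹) = ⁅v⁻¹, a⁆ := by rw [commutatorElement_def]; group
    rw [this]
    exact Subgroup.commutator_mem_commutator (V.inv_mem hv) (Subgroup.mem_zpowers a)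
  let f : ↥V →* ↥V :=
    { toFun := fun w => ⟨(w : G)⁻¹ * (a * w * a⁻¹), V.mul_mem (V.inv_mem w.2) (hnorm w w.2)⟩
      map_one' := by
        apply Subtype.ext
        simp
      map_mul' := by
        intro x y
        apply Subtype.ext
        show ((x : G) * y)⁻¹ * (a * (x * y) * a⁻¹) = (x : G)⁻¹ * (a * x * a⁻¹) * ((y : G)⁻¹ * (a * y * a⁻¹))
        have h2 := hVc (y : G)⁻¹ (V.inv_mem y.2) ((x : G)⁻¹ * (a * x * a⁻¹))
          (V.mul_mem (V.inv_mem x.2) (hnorm x x.2))
        calc ((x : G) * y)⁻¹ * (a * (x * y) * a⁻¹)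
            = ((y : G)⁻¹ * ((x : G)⁻¹ * (a * x * a⁻¹))) * (a * y * a⁻¹) := by group
          _ = (((x : G)⁻¹ * (a * x * a⁻¹)) * (y : G)⁻¹) * (a * y * a⁻¹) := by rw [h2]
          _ = (x : G)⁻¹ * (a * x * a⁻¹) * ((y : G)⁻¹ * (a * y * a⁻¹)) := by group }
  have hf : ∀ w : ↥V, ((f w : ↥V) : G) = (w : G)⁻¹ * (a * w * a⁻¹) := fun w => rfl
  have hcz : ∀ x : G, a * x = x * a → x ∈ Subgroup.centralizer (Subgroup.zpowers a : Set G) := by
    intro x hx
    refine Subgroup.mem_centralizer_iff.2 ?_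
    intro z hz
    obtain ⟨k, rfl⟩ := Subgroup.mem_zpowers_iff.1 hz
    have hc : Commute a x := hx
    exact (hc.zpow_left k)
  have hker : (f.ker).map V.subtype ≤ V ⊓ Subgroup.centralizer (Subgroup.zpowers a : Set G) := by
    rintro _ ⟨w, hw, rfl⟩
    refine ⟨w.2, hcz _ ?_⟩
    have h1 : (w : G)⁻¹ * (a * w * a⁻¹) = 1 := by
      have h0 := congrArg Subtype.val (MonoidHom.mem_ker.1 hw)
      rw [hf] at h0
      exact h0
    have h3 : a * (w : G) * a⁻¹ = w := by
      have := inv_mul_eq_one.1 h1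
      exact this.symm
    show a * (w : G) = w * a
    calc a * (w : G) = (a * w * a⁻¹) * a := by group
      _ = w * a := by rw [h3]
  have hrange : (f.range).map V.subtype ≤ V ⊓ Subgroup.centralizer (Subgroup.zpowers a : Set G) := by
    rintro _ ⟨_, ⟨w, rfl⟩, rfl⟩
    refine ⟨(f w).2, ?_⟩
    show ((f w : ↥V) : G) ∈ Subgroup.centralizer (Subgroup.zpowers a : Set G)
    rw [hf]
    rw [← Subgroup.le_centralizer_iff] at hAW
    exact hAW (hphi w w.2)
  have hc1 : Nat.card f.ker ≤ Nat.card ↥(V ⊓ Subgroup.centralizer (Subgroup.zpowers a : Set G)) := by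
    rw [← Subgroup.card_map_of_injective V.subtype_injective]
    exact Subgroup.card_le_of_le hker
  have hc2 : Nat.card f.range ≤ Nat.card ↥(V ⊓ Subgroup.centralizer (Subgroup.zpowers a : Set G)) := by
    rw [← Subgroup.card_map_of_injective V.subtype_injective]
    exact Subgroup.card_le_of_le hrange
  have hcard : Nat.card V = Nat.card f.ker * Nat.card f.range := by
    rw [← Subgroup.index_ker, Subgroup.card_mul_index]
  rw [hcard, pow_two]
  exact Nat.mul_le_mul hc1 hc2

end Cfsg.Agent.S0591
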