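import Cfsg.Statements.S0599
import Cfsg.Agent.Helper3.Timmesfeld
import Cfsg.Agent.Helper3.SylFix
import Cfsg.Agent.Helper3.CoprimeSylow
import Cfsg.Agent.Helper5.AxB
import Cfsg.Agent.S1459

set_option autoImplicit false
open Cfsg

namespace Cfsg.Agent.S0599

open scoped commutatorElement

/-- The Timmesfeld replacement Theorem: replacing a best offender A by C_A([U, A]) gives a best offender with fixed points [U, A]C_V(A), still nontrivial on V if A was. -/
theorem result {G : Type*} [Group G] [Finite G] {p : ℕ} [Fact p.Prime] (V A : Subgroup G) (hV : Cfsg.IsElementaryAbelian p V) (hAV : A ≤ Subgroup.normalizer (V : Set G)) (hA : Cfsg.IsBestOffenderOn p V A) (U : Subgroup G) (hU : U ≤ V) : Cfsg.IsBestOffenderOn p V (A ⊓ Subgroup.centralizer ((⁅U, A⁆ : Subgroup G) : Set G)) ∧ V ⊓ Subgroup.centralizer ((A ⊓ Subgroup.centralizer ((⁅U, A⁆ : Subgroup G) : Set G) : Subgroup G) : Set G) = ⁅U, A⁆ ⊔ (V ⊓ Subgroup.centralizer (A : Set G)) ∧ (⁅V, A⁆ ≠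 ⊥ → ⁅V, A ⊓ Subgroup.centralizer ((⁅U, A⁆ : Subgroup G) : Set G)⁆ ≠ ⊥) := by
  have hVc := Helper3.elemAb_comm' hV
  obtain ⟨hmax, hab, hpow⟩ := hA
  obtain ⟨e1, e2⟩ := Helper3.timm_main V A hVc hAV hab hmax U hU
  refine ⟨⟨?_, ?_, ?_⟩, e1, ?_⟩
  · intro B' hB'
    exact (hmax B' (hB'.trans inf_le_left)).trans (le_of_eq e2)
  · exact (Subgroup.commutator_mono inf_le_left inf_le_left).trans hab
  · intro a ha
    exact hpow a ha.1
  · intro hne hbot
    apply hne
    have hBV : V ≤ Subgroup.centralizer ((A ⊓ Subgroup.centralizer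
        ((⁅U, A⁆ : Subgroup G) : Set G) : Subgroup G) : Set G) :=
      (Subgroup.commutator_eq_bot_iff_le_centralizer).1 hbot
    have hVeq : ⁅U, A⁆ ⊔ (V ⊓ Subgroup.centralizer (A : Set G)) = V := by
      rw [← e1]
      exact inf_eq_left.2 hBV
    have hUA : ⁅U, A⁆ ≤ ⁅V, A⁆ := Subgroup.commutator_mono hU le_rfl
    have hVAV : ⁅V, A⁆ ≤ V := by
      have := Helper3.commSet_le V A hAV (V : Set G) (fun x hx => hx)
      rwa [Helper3.commSet_subgroup] at this
    have hUAV : ⁅U, A⁆ ≤ V := hUA.trans hVAV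
    have h1 : ⁅V, A⁆ ≤ ⁅⁅V, A⁆, A⁆ := by
      rw [Subgroup.commutator_le]
      intro v hv a ha
      have hv' : v ∈ ⁅U, A⁆ ⊔ (V ⊓ Subgroup.centralizer (A : Set G)) := by
        rw [hVeq]
        exact hv
      have hn : (V ⊓ Subgroup.centralizer (A : Set G)) ≤
          Subgroup.normalizer ((⁅U, A⁆ : Subgroup G) : Set G) := by
        intro c hc
        exact Subgroup.centralizer_le_normalizer _
          (Subgroup.mem_centralizer_iff.2 (fun x hx => hVc x (hUAV hx) c hc.1))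
      obtain ⟨x, hx, c, hc, rfl⟩ := Helper3.mem_sup_of_le_normalizer_right _ _ hn hv'
      have hca : a * c = c * a := Subgroup.mem_centralizer_iff.1 hc.2 a ha
      have : ⁅x * c, a⁆ = ⁅x, a⁆ := by
        rw [commutatorElement_def, commutatorElement_def]
        calc x * c * a * (x * c)⁻¹ * a⁻¹ = x * (c * a) * c⁻¹ * x⁻¹ * a⁻¹ := by group
          _ = x * (a * c) * c⁻¹ * x⁻¹ * a⁻¹ := by rw [hca]
          _ = x * a * x⁻¹ * a⁻¹ := by group
      rw [this]
      exact Subgroup.commutator_mem_commutator (hUA hx) ha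
    obtain ⟨S⟩ : Nonempty (Sylow p ↥A) := inferInstance
    haveI hCn : ((Subgroup.centralizer (V : Set G)).subgroupOf A).Normal := by
      refine ⟨fun x hx g => ?_⟩
      rw [Subgroup.mem_subgroupOf] at hx ⊢
      refine Subgroup.mem_centralizer_iff.2 ?_
      intro v hv
      have hv' : (g : G)⁻¹ * v * (g : G) ∈ V := by
        have := (Subgroup.mem_normalizer_iff.1 (hAV (A.inv_mem g.2)) v).1 hv
        rwa [inv_inv] at this
      have h3 := Subgroup.mem_centralizer_iff.1 hx _ hv'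
      show v * ((g : G) * (x : G) * (g : G)⁻¹) = (g : G) * (x : G) * (g : G)⁻¹ * v
      calc v * ((g : G) * (x : G) * (g : G)⁻¹)
          = (g : G) * ((g : G)⁻¹ * v * (g : G) * (x : G)) * (g : G)⁻¹ := by group
        _ = (g : G) * ((x : G) * ((g : G)⁻¹ * v * (g : G))) * (g : G)⁻¹ := by rw [h3]
        _ = (g : G) * (x : G) * (g : G)⁻¹ * v := by group
    have hpp : ∀ d ∈ (⊤ : Subgroup ↥A), ∃ k : ℕ,
        d ^ p ^ k ∈ (Subgroup.centralizer (V : Set G)).subgroupOf A := by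
      intro d _
      refine ⟨1, ?_⟩
      rw [pow_one, Subgroup.mem_subgroupOf]
      show (d : G) ^ p ∈ Subgroup.centralizer (V : Set G)
      exact hpow d d.2
    have hdec := Helper3.exists_sylow_mul_of_pow_mem
      ((Subgroup.centralizer (V : Set G)).subgroupOf A) ⊤ hpp S
    have h2 : ⁅⁅V, A⁆, A⁆ ≤ ⁅⁅V, A⁆, (S : Subgroup ↥A).map A.subtype⁆ := by
      rw [Subgroup.commutator_le]
      intro w hw a ha
      obtain ⟨s, hs, hc⟩ := hdec ⟨a, ha⟩ (Subgroup.mem_top _)
      have hc' : (s : G)⁻¹ * a ∈ Subgroup.centralizer (V : Set G) := hc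
      have hwV : w ∈ V := hVAV hw
      have hcw : w⁻¹ * ((s : G)⁻¹ * a) = ((s : G)⁻¹ * a) * w⁻¹ :=
        Subgroup.mem_centralizer_iff.1 hc' w⁻¹ (V.inv_mem hwV)
      have : ⁅w, a⁆ = ⁅w, (s : G)⁆ := by
        rw [commutatorElement_def, commutatorElement_def]
        calc w * a * w⁻¹ * a⁻¹
            = w * (s : G) * (((s : G)⁻¹ * a) * w⁻¹) * ((s : G)⁻¹ * a)⁻¹ * (s : G)⁻¹ := by group
          _ = w * (s : G) * (w⁻¹ * ((s : G)⁻¹ * a)) * ((s : G)⁻¹ * a)⁻¹ * (s : G)⁻¹ := by rw [hcw]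
          _ = w * (s : G) * w⁻¹ * (s : G)⁻¹ := by group
      rw [this]
      exact Subgroup.commutator_mem_commutator hw ⟨s, hs, rfl⟩
    have hWp : IsPGroup p (⁅V, A⁆ : Subgroup G) :=
      (Helper3.isPGroup_of_isElementaryAbelian p V hV).to_le hVAV
    have hPp : IsPGroup p ((S : Subgroup ↥A).map A.subtype) := S.2.map A.subtype
    have hPn : (S : Subgroup ↥A).map A.subtype ≤
        Subgroup.normalizer ((⁅V, A⁆ : Subgroup G) : Set G) := by
      have h3 := S1459.left_le_normalizer_comm A V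
      rw [Subgroup.commutator_comm] at h3
      exact (Subgroup.map_subtype_le _).trans h3
    exact Helper5.eq_bot_of_le_commutator _ _ hWp hPp hPn (h1.trans h2)

end Cfsg.Agent.S0599
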