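import Cfsg.Statements.S0600
import Cfsg.Agent.Helper3.SylFix
import Cfsg.Agent.Helper3.Cores

set_option autoImplicit false
open Cfsg

namespace Cfsg.Agent.S0600

/-- A normal elementary abelian p-subgroup generated by the fixed points of the Sylow p-subgroups admits no nontrivial normal p-subgroup of G modulo its centralizer. -/
theorem result {G : Type*} [Group G] [Finite G] {p : ℕ} [Fact p.Prime] (V : Subgroup G) [V.Normal] (hV : Cfsg.IsElementaryAbelian p V) (hgen : V = ⨆ S : Sylow p G, V ⊓ Subgroup.centralizer ((S : Subgroup G) : Set G)) : Cfsg.pCore p (G ⧸ Subgroup.centralizer (V : Set G)) = ⊥ := by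
  rw [eq_bot_iff]
  intro x hx
  obtain ⟨d, rfl⟩ := QuotientGroup.mk_surjective x
  haveI hDn : ((Cfsg.pCore p (G ⧸ Subgroup.centralizer (V : Set G))).comap
      (QuotientGroup.mk' (Subgroup.centralizer (V : Set G)))).Normal :=
    Subgroup.Normal.comap inferInstance _
  have hp : ∀ e ∈ (Cfsg.pCore p (G ⧸ Subgroup.centralizer (V : Set G))).comap
      (QuotientGroup.mk' (Subgroup.centralizer (V : Set G))),
      ∃ k : ℕ, e ^ p ^ k ∈ Subgroup.centralizer (V : Set G) := by
    intro e he
    obtain ⟨k, hk⟩ := Helper3.pCore_isPGroup p (G ⧸ Subgroup.centralizer (V : Set G)) ⟨_, he⟩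
    refine ⟨k, ?_⟩
    have h0 := congrArg Subtype.val hk
    rw [SubmonoidClass.coe_pow] at h0
    have h1 : (QuotientGroup.mk' (Subgroup.centralizer (V : Set G)) e) ^ p ^ k = 1 := h0
    rw [← map_pow] at h1
    exact (QuotientGroup.eq_one_iff _).1 h1
  have h2 := Helper3.le_centralizer_of_gen_sylow_fixed V _ hp (le_of_eq hgen)
  have h3 : d ∈ Subgroup.centralizer (V : Set G) := h2 hx
  exact Subgroup.mem_bot.2 ((QuotientGroup.eq_one_iff _).2 h3)

end Cfsg.Agent.S0600
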