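import Cfsg.Statements.S0601
import Cfsg.Agent.Helper3.SylFix
import Cfsg.Agent.Helper3.Cores

set_option autoImplicit false
open Cfsg

namespace Cfsg.Agent.S0601

theorem W_normal {G : Type*} [Group G] [Finite G] {p : ℕ} [Fact p.Prime] :
    (⨆ S : Sylow p G, Cfsg.omegaOne p (((S : Subgroup G)) ⊓
      Subgroup.centralizer ((S : Subgroup G) : Set G))).Normal := by
  refine ⟨fun x hx g => ?_⟩
  have h : (⨆ S : Sylow p G, Cfsg.omegaOne p (((S : Subgroup G)) ⊓
      Subgroup.centralizer ((S : Subgroup G) : Set G))) ≤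
      (⨆ S : Sylow p G, Cfsg.omegaOne p (((S : Subgroup G)) ⊓
      Subgroup.centralizer ((S : Subgroup G) : Set G))).comap (MulAut.conj g).toMonoidHom := by
    refine iSup_le ?_
    intro S
    refine (Subgroup.closure_le _).2 ?_
    rintro y ⟨hy1, hy2⟩
    show g * y * g⁻¹ ∈ (⨆ S : Sylow p G, Cfsg.omegaOne p (((S : Subgroup G)) ⊓
      Subgroup.centralizer ((S : Subgroup G) : Set G)))
    have h1 : g * y * g⁻¹ ∈ Cfsg.omegaOne p ((((g • S : Sylow p G) : Subgroup G)) ⊓
        Subgroup.centralizer (((g • S : Sylow p G) : Subgroup G) : Set G)) := by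
      refine Subgroup.subset_closure ⟨Subgroup.mem_inf.2 ⟨?_, ?_⟩, ?_⟩
      · rw [Helper4.mem_smul_sylow_iff]
        have : g⁻¹ * (g * y * g⁻¹) * g = y := by group
        rw [this]
        exact (Subgroup.mem_inf.1 hy1).1
      · refine Subgroup.mem_centralizer_iff.2 ?_
        intro z hz
        have hz' : g⁻¹ * z * g ∈ (S : Subgroup G) := (Helper4.mem_smul_sylow_iff S g z).1 hz
        have h2 : g⁻¹ * z * g * y = y * (g⁻¹ * z * g) :=
          Subgroup.mem_centralizer_iff.1 (Subgroup.mem_inf.1 hy1).2 _ hz'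
        have h3 : z * (g * y * g⁻¹) = g * (g⁻¹ * z * g * y) * g⁻¹ := by group
        rw [h3, h2]
        group
      · rw [conj_pow, hy2, mul_one, mul_inv_cancel]
    exact le_iSup (fun S : Sylow p G => Cfsg.omegaOne p (((S : Subgroup G)) ⊓
      Subgroup.centralizer ((S : Subgroup G) : Set G))) (g • S) h1
  exact h hx

/-- When O_p(G) contains its centralizer, the normal closure of Ω₁(Z(S)) is elementary abelian and G has no nontrivial normal p-subgroup modulo its centralizer. -/
theorem result {G : Type*} [Group G] [Finite G] {p : ℕ} [Fact p.Prime] (hc : Subgroup.centralizer (Cfsg.pCore p G : Set G) ≤ Cfsg.pCore p G) : (⨆ S : Sylow p G, Cfsg.omegaOne p (((S : Subgroup G)) ⊓ Subgroup.centralizer ((S : Subgroup G) : Set G))).Normal ∧ Cfsg.IsElementaryAbelian p (⨆ S : Sylow p G, Cfsg.omegaOne p (((S : Subgroup G)) ⊓ Subgroup.centralizer ((S : Subgroup G) : Set G))) ∧ ∀ D : Subgroup G, D.Normal → Subgroup.centralizer ((⨆ S : Sylow p G, Cfsg.omegaOne p (((S : Subgroup G)) ⊓ Subgroup.centralizer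 ((S : Subgroup G) : Set G)) : Subgroup G) : Set G) ≤ D → (∃ k : ℕ, (Subgroup.centralizer ((⨆ S : Sylow p G, Cfsg.omegaOne p (((S : Subgroup G)) ⊓ Subgroup.centralizer ((S : Subgroup G) : Set G)) : Subgroup G) : Set G)).relIndex D = p ^ k) → D = Subgroup.centralizer ((⨆ S : Sylow p G, Cfsg.omegaOne p (((S : Subgroup G)) ⊓ Subgroup.centralizer ((S : Subgroup G) : Set G)) : Subgroup G) : Set G) := by
  haveI hWn := W_normal (G := G) (p := p)
  refine ⟨hWn, ?_, ?_⟩
  · -- elementary abelian
    have hcomm : ∀ a ∈ Cfsg.pCore p G ⊓ Subgroup.centralizer (Cfsg.pCore p G : Set G),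
        ∀ b ∈ Cfsg.pCore p G ⊓ Subgroup.centralizer (Cfsg.pCore p G : Set G), a * b = b * a := by
      intro a ha b hb
      exact Subgroup.mem_centralizer_iff.1 (Subgroup.mem_inf.1 hb).2 a (Subgroup.mem_inf.1 ha).1
    have hE := Helper3.elemAb_omegaOne_of_comm (p := p) hcomm
    refine Helper3.elemAb_of_le' hE ?_
    refine iSup_le ?_
    intro S
    apply Helper3.omegaOne_mono
    have hPS : Cfsg.pCore p G ≤ (S : Subgroup G) :=
      (Helper3.pCore_isPGroup p G).le_sylow_of_normal S
    intro x hx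
    have h1 : x ∈ Subgroup.centralizer (Cfsg.pCore p G : Set G) :=
      Subgroup.centralizer_le hPS (Subgroup.mem_inf.1 hx).2
    exact Subgroup.mem_inf.2 ⟨hc h1, h1⟩
  · intro D hDn hCD hk
    haveI := hDn
    obtain ⟨k, hk⟩ := hk
    refine le_antisymm ?_ hCD
    apply Helper3.le_centralizer_of_gen_sylow_fixed (p := p)
    · intro d hd
      refine ⟨k, ?_⟩
      rw [← hk]
      exact Subgroup.pow_relIndex_mem _ hd
    · refine iSup_le ?_
      intro S
      refine le_trans ?_ (le_iSup _ S)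
      refine le_inf (le_iSup (fun S : Sylow p G => Cfsg.omegaOne p (((S : Subgroup G)) ⊓
        Subgroup.centralizer ((S : Subgroup G) : Set G))) S) ?_
      exact (Helper3.omegaOne_le p _).trans inf_le_right

end Cfsg.Agent.S0601
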