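import Cfsg.Statements.S0602
import Mathlib
import Cfsg.Agent.Helper6.ThompsonJ
-- import your own Cfsg.Agent.* helpers here

set_option autoImplicit false
open Cfsg

namespace Cfsg.Agent.S0602

/-- The Thompson subgroup is characteristic, and nontrivial as soon as p divides the group order. -/
theorem result {G : Type*} [Group G] [Finite G] {p : ℕ} [Fact p.Prime] : (Cfsg.thompsonSubgroup p G).Characteristic ∧ (p ∣ Nat.card G → Cfsg.thompsonSubgroup p G ≠ ⊥) := by
  classical
  refine ⟨?_, ?_⟩
  · rw [Subgroup.characteristic_iff_map_le]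
    intro φ
    exact Cfsg.Agent.Helper6.thompson_map_equiv p φ
  · intro hp
    obtain ⟨x, hx⟩ := exists_prime_orderOf_dvd_card' p hp
    obtain ⟨A, hA⟩ := Cfsg.Agent.Helper6.exists_maxElemAb p G
    have hz : Cfsg.IsElementaryAbelian p (Subgroup.zpowers x) := by
      refine ⟨inferInstance, ?_⟩
      intro a ha
      obtain ⟨k, rfl⟩ := Subgroup.mem_zpowers_iff.mp ha
      rw [← zpow_natCast, ← zpow_mul, mul_comm, zpow_mul, zpow_natCast, ← hx,
        pow_orderOf_eq_one, one_zpow]
    have h1 := hA.2 _ hz
    rw [Nat.card_zpowers, hx] at h1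
    intro hbot
    have hAle : A ≤ Cfsg.thompsonSubgroup p G :=
      Cfsg.Agent.Helper6.maxElemAb_le_thompson p A hA
    rw [hbot, le_bot_iff] at hAle
    rw [hAle, Subgroup.card_bot] at h1
    have := (Fact.out : p.Prime).one_lt
    omega

end Cfsg.Agent.S0602
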