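import Cfsg.Statements.S0604
import Mathlib
import Cfsg.Agent.Helper6.ThompsonJ
-- import your own Cfsg.Agent.* helpers here

set_option autoImplicit false
open Cfsg

namespace Cfsg.Agent.S0604

/-- The Thompson subgroup of G is the join of the Thompson subgroups of its Sylow p-subgroups. -/
theorem result {G : Type*} [Group G] [Finite G] {p : ℕ} [Fact p.Prime] : Cfsg.thompsonSubgroup p G = ⨆ S : Sylow p G, Cfsg.thompsonSubgroupOf p (S : Subgroup G) := by
  classical
  obtain ⟨A₀, hA₀⟩ := Cfsg.Agent.Helper6.exists_maxElemAb p G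
  apply le_antisymm
  · apply Cfsg.Agent.Helper6.thompson_le_of_forall
    intro A hA
    obtain ⟨S, hS⟩ := (Cfsg.Agent.Helper6.elemAb_isPGroup p A hA.1).exists_le_sylow
    have h1 := Cfsg.Agent.Helper6.maxElemAb_le_thompson p _
      (Cfsg.Agent.Helper6.maxElemAb_subgroupOf p (S : Subgroup G) A hA hS)
    have h2 := Subgroup.map_mono (f := (S : Subgroup G).subtype) h1
    rw [Subgroup.map_subgroupOf_eq_of_le hS] at h2
    exact le_trans h2
      (le_iSup (fun S : Sylow p G => Cfsg.thompsonSubgroupOf p (S : Subgroup G)) S)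
  · apply iSup_le
    intro S
    obtain ⟨S', hS'⟩ := (Cfsg.Agent.Helper6.elemAb_isPGroup p A₀ hA₀.1).exists_le_sylow
    obtain ⟨g, hg⟩ := MulAction.exists_smul_eq G S' S
    have hA₁ : A₀.map (MulAut.conj g).toMonoidHom ∈ Cfsg.maxElementaryAbelianSubgroups p G :=
      Cfsg.Agent.Helper6.maxElemAb_map_equiv p (MulAut.conj g) A₀ hA₀
    have hA₁S : A₀.map (MulAut.conj g).toMonoidHom ≤ S := by
      rw [← hg, Sylow.coe_subgroup_smul]
      exact Subgroup.map_mono hS'
    unfold Cfsg.thompsonSubgroupOf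
    rw [Subgroup.map_le_iff_le_comap]
    apply Cfsg.Agent.Helper6.thompson_le_of_forall
    intro B hB
    rw [← Subgroup.map_le_iff_le_comap]
    exact Cfsg.Agent.Helper6.maxElemAb_le_thompson p _
      (Cfsg.Agent.Helper6.maxElemAb_map_subtype p (S : Subgroup G) _ hA₁ hA₁S B hB)

end Cfsg.Agent.S0604
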