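import Cfsg.Statements.S0605
import Mathlib
import Cfsg.Agent.Helper6.ThompsonJ
-- import your own Cfsg.Agent.* helpers here

set_option autoImplicit false
open Cfsg

namespace Cfsg.Agent.S0605

/-- Elements of order p in the centralizer of the Thompson subgroup belong to the Thompson subgroup (so to its centre). -/
theorem result {G : Type*} [Group G] [Finite G] {p : ℕ} [Fact p.Prime] (x : G) (hx : x ∈ Subgroup.centralizer (Cfsg.thompsonSubgroup p G : Set G)) (ho : orderOf x = p) : x ∈ Cfsg.thompsonSubgroup p G := by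
  classical
  obtain ⟨A, hA⟩ := Cfsg.Agent.Helper6.exists_maxElemAb p G
  have hAJ := Cfsg.Agent.Helper6.maxElemAb_le_thompson p A hA
  have hxA : ∀ a ∈ A, a * x = x * a := by
    intro a ha
    rw [Subgroup.mem_centralizer_iff] at hx
    exact hx a (hAJ ha)
  have hcomm : ∀ y ∈ (A : Set G) ∪ {x}, ∀ z ∈ (A : Set G) ∪ {x}, y * z = z * y := by
    intro y hy z hz
    rcases hy with hy | hy <;> rcases hz with hz | hz
    · exact congrArg Subtype.val (hA.1.1.is_comm.comm ⟨y, hy⟩ ⟨z, hz⟩)
    · rw [Set.mem_singleton_iff] at hz; rw [hz]; exact hxA y hy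
    · rw [Set.mem_singleton_iff] at hy; rw [hy]; exact (hxA z hz).symm
    · rw [Set.mem_singleton_iff] at hy hz; rw [hy, hz]
  have hB : IsMulCommutative (Subgroup.closure ((A : Set G) ∪ {x})) :=
    Subgroup.isMulCommutative_closure hcomm
  have hBe : Cfsg.IsElementaryAbelian p (Subgroup.closure ((A : Set G) ∪ {x})) := by
    refine ⟨hB, ?_⟩
    intro b hb
    induction hb using Subgroup.closure_induction with
    | mem y hy =>
      rcases hy with hy | hy
      · exact hA.1.2 y hy
      · rw [Set.mem_singleton_iff] at hy; rw [hy, ← ho]; exact pow_orderOf_eq_one x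
    | one => exact one_pow p
    | mul y z hy hz ihy ihz =>
      have hc : Commute y z := congrArg Subtype.val (hB.is_comm.comm ⟨y, hy⟩ ⟨z, hz⟩)
      rw [hc.mul_pow, ihy, ihz, one_mul]
    | inv y hy ih => rw [inv_pow, ih, inv_one]
  have hAB : A ≤ Subgroup.closure ((A : Set G) ∪ {x}) := fun a ha =>
    Subgroup.subset_closure (Or.inl ha)
  have hcard := hA.2 _ hBe
  have := Subgroup.eq_of_le_of_card_ge hAB hcard
  apply hAJ
  rw [this]
  exact Subgroup.subset_closure (Or.inr (Set.mem_singleton x))

end Cfsg.Agent.S0605
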