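import Cfsg.Statements.S0606
import Cfsg.Agent.Helper3.ElemAb

set_option autoImplicit false
open Cfsg

namespace Cfsg.Agent.S0606

/-- Elementary abelian p-subgroups of maximal order are best offenders on any normal elementary abelian p-subgroup. -/
theorem result {G : Type*} [Group G] [Finite G] {p : ℕ} [Fact p.Prime] (V : Subgroup G) [V.Normal] (hV : Cfsg.IsElementaryAbelian p V) (A : Subgroup G) (hA : A ∈ Cfsg.maxElementaryAbelianSubgroups p G) : Cfsg.IsBestOffenderOn p V A := by
  obtain ⟨hAe, hAmax⟩ := hA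
  refine ⟨?_, ?_, ?_⟩
  · intro B hBA
    have hCe : Cfsg.IsElementaryAbelian p (V ⊓ Subgroup.centralizer (B : Set G)) :=
      Helper3.elemAb_of_le' hV inf_le_left
    have hBe : Cfsg.IsElementaryAbelian p B := Helper3.elemAb_of_le' hAe hBA
    have h1 : Cfsg.IsElementaryAbelian p (B ⊔ (V ⊓ Subgroup.centralizer (B : Set G))) :=
      Helper3.elemAb_sup hBe hCe inf_le_right
    have h2 := hAmax _ h1
    have h3 := Helper3.card_mul_card_le_sup_mul_inf B (V ⊓ Subgroup.centralizer (B : Set G))
    have h4 : B ⊓ (V ⊓ Subgroup.centralizer (B : Set G)) ≤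
        V ⊓ Subgroup.centralizer (A : Set G) := by
      intro x hx
      refine Subgroup.mem_inf.2 ⟨(Subgroup.mem_inf.1 (Subgroup.mem_inf.1 hx).2).1, ?_⟩
      exact Helper3.elemAb_le_centralizer hAe (hBA (Subgroup.mem_inf.1 hx).1)
    have h5 := Subgroup.card_le_of_le h4
    calc Nat.card B * Nat.card ↥(V ⊓ Subgroup.centralizer (B : Set G))
        ≤ Nat.card (B ⊔ (V ⊓ Subgroup.centralizer (B : Set G)) : Subgroup G) *
          Nat.card (B ⊓ (V ⊓ Subgroup.centralizer (B : Set G)) : Subgroup G) := h3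
      _ ≤ Nat.card A * Nat.card ↥(V ⊓ Subgroup.centralizer (A : Set G)) :=
          Nat.mul_le_mul h2 h5
  · have h1 : ⁅A, A⁆ = ⊥ := by
      rw [Subgroup.commutator_eq_bot_iff_le_centralizer]
      exact Helper3.elemAb_le_centralizer hAe
    rw [h1]
    exact bot_le
  · intro a ha
    rw [hAe.2 a ha]
    exact Subgroup.one_mem _

end Cfsg.Agent.S0606
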