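import Cfsg.Statements.S0607
import Cfsg.Agent.Helper3.Timmesfeld
import Cfsg.Agent.S0599
import Cfsg.Agent.S0606

set_option autoImplicit false
open Cfsg

namespace Cfsg.Agent.S0607

open scoped commutatorElement

/-- The replacement Theorem for the Thompson subgroup: from A of maximal order among elementary abelian p-subgroups one obtains A₀ = [V, A] C_A([V, A]) of the same kind, quadratic on V and nontrivial on V when A is. -/
theorem result {G : Type*} [Group G] [Finite G] {p : ℕ} [Fact p.Prime] (V : Subgroup G) [V.Normal] (hV : Cfsg.IsElementaryAbelian p V) (A : Subgroup G) (hA : A ∈ Cfsg.maxElementaryAbelianSubgroups p G) : (⁅V, A⁆ ⊔ (A ⊓ Subgroup.centralizer ((⁅V, A⁆ : Subgroup G) : Set G))) ∈ Cfsg.maxElementaryAbelianSubgroups p G ∧ ⁅⁅V, ⁅V, A⁆ ⊔ (A ⊓ Subgroup.centralizer ((⁅V, A⁆ : Subgroup G) : Set G))⁆, ⁅V, A⁆ ⊔ (A ⊓ Subgroup.centralizer ((⁅V, A⁆ : Subgroup G) : Set G))⁆ = ⊥ ∧ (⁅V, A⁆ ≠ ⊥ → ⁅V, ⁅V, A⁆ ⊔ (A ⊓ Subgroup.centralizer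 ((⁅V, A⁆ : Subgroup G) : Set G))⁆ ≠ ⊥) := by
  have hVc := Helper3.elemAb_comm' hV
  have hAc := Helper3.elemAb_comm' hA.1
  have hAV : A ≤ Subgroup.normalizer (V : Set G) := by
    intro a _
    rw [Subgroup.mem_normalizer_iff]
    intro v
    constructor
    · intro hv
      exact ‹V.Normal›.conj_mem v hv a
    · intro hv
      have := ‹V.Normal›.conj_mem _ hv a⁻¹
      have e : a⁻¹ * (a * v * a⁻¹) * a⁻¹⁻¹ = v := by group
      rwa [e] at this
  have hbest := S0606.result V hV A hA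
  obtain ⟨hmax, hab, hpow⟩ := hbest
  obtain ⟨e1, e2⟩ := Helper3.timm_main V A hVc hAV hab hmax V le_rfl
  have h599 := S0599.result V A hV hAV (S0606.result V hV A hA) V le_rfl
  have hVAV : ⁅V, A⁆ ≤ V := by
    have := Helper3.commSet_le V A hAV (V : Set G) (fun x hx => hx)
    rwa [Helper3.commSet_subgroup] at this
  have hXe : Cfsg.IsElementaryAbelian p (⁅V, A⁆ : Subgroup G) := Helper3.elemAb_of_le' hV hVAV
  have hBe : Cfsg.IsElementaryAbelian p
      (A ⊓ Subgroup.centralizer ((⁅V, A⁆ : Subgroup G) : Set G)) :=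
    Helper3.elemAb_of_le' hA.1 inf_le_left
  have hVcent : V ≤ Subgroup.centralizer ((⁅V, A⁆ : Subgroup G) : Set G) := by
    intro v hv
    exact Subgroup.mem_centralizer_iff.2 (fun x hx => hVc x (hVAV hx) v hv)
  have hstar : ⁅V, A⁆ ⊔ (A ⊓ Subgroup.centralizer ((⁅V, A⁆ : Subgroup G) : Set G)) ≤
      Subgroup.centralizer ((⁅V, A⁆ : Subgroup G) : Set G) :=
    sup_le (hVAV.trans hVcent) inf_le_right
  refine ⟨⟨Helper3.elemAb_sup hXe hBe inf_le_right, ?_⟩, ?_, ?_⟩
  · -- maximality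
    intro E hE
    refine (hA.2 E hE).trans ?_
    -- C ≤ B
    have hCe : Cfsg.IsElementaryAbelian p (V ⊓ Subgroup.centralizer (A : Set G)) :=
      Helper3.elemAb_of_le' hV inf_le_left
    have hCA : V ⊓ Subgroup.centralizer (A : Set G) ≤ A :=
      Helper3.le_of_max_elemAb hA hCe inf_le_right
    have hCB : V ⊓ Subgroup.centralizer (A : Set G) ≤
        A ⊓ Subgroup.centralizer ((⁅V, A⁆ : Subgroup G) : Set G) :=
      le_inf hCA (inf_le_left.trans hVcent)
    have hsup : (A ⊓ Subgroup.centralizer ((⁅V, A⁆ : Subgroup G) : Set G)) ⊔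
        (V ⊓ Subgroup.centralizer ((A ⊓ Subgroup.centralizer
          ((⁅V, A⁆ : Subgroup G) : Set G) : Subgroup G) : Set G)) ≤
        ⁅V, A⁆ ⊔ (A ⊓ Subgroup.centralizer ((⁅V, A⁆ : Subgroup G) : Set G)) := by
      rw [e1]
      exact sup_le le_sup_right (sup_le le_sup_left (hCB.trans le_sup_right))
    have hinf : (A ⊓ Subgroup.centralizer ((⁅V, A⁆ : Subgroup G) : Set G)) ⊓
        (V ⊓ Subgroup.centralizer ((A ⊓ Subgroup.centralizer
          ((⁅V, A⁆ : Subgroup G) : Set G) : Subgroup G) : Set G)) ≤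
        V ⊓ Subgroup.centralizer (A : Set G) := by
      intro x hx
      refine Subgroup.mem_inf.2 ⟨(Subgroup.mem_inf.1 (Subgroup.mem_inf.1 hx).2).1, ?_⟩
      exact Helper3.elemAb_le_centralizer hA.1 (Subgroup.mem_inf.1 (Subgroup.mem_inf.1 hx).1).1
    have h3 := Helper3.card_mul_card_le_sup_mul_inf
      (A ⊓ Subgroup.centralizer ((⁅V, A⁆ : Subgroup G) : Set G))
      (V ⊓ Subgroup.centralizer ((A ⊓ Subgroup.centralizer
          ((⁅V, A⁆ : Subgroup G) : Set G) : Subgroup G) : Set G))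
    rw [← e2] at h3
    have h4 : Nat.card A * Nat.card ↥(V ⊓ Subgroup.centralizer (A : Set G)) ≤
        Nat.card ↥(⁅V, A⁆ ⊔ (A ⊓ Subgroup.centralizer ((⁅V, A⁆ : Subgroup G) : Set G)) :
          Subgroup G) * Nat.card ↥(V ⊓ Subgroup.centralizer (A : Set G)) :=
      h3.trans (Nat.mul_le_mul (Subgroup.card_le_of_le hsup) (Subgroup.card_le_of_le hinf))
    exact Nat.le_of_mul_le_mul_right h4 Nat.card_pos
  · -- quadratic
    have h1 : ⁅V, ⁅V, A⁆ ⊔ (A ⊓ Subgroup.centralizer ((⁅V, A⁆ : Subgroup G) : Set G))⁆ ≤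
        ⁅V, A⁆ := by
      rw [Subgroup.commutator_le]
      intro v hv x hx
      have hn : (A ⊓ Subgroup.centralizer ((⁅V, A⁆ : Subgroup G) : Set G)) ≤
          Subgroup.normalizer ((⁅V, A⁆ : Subgroup G) : Set G) :=
        inf_le_right.trans (Subgroup.centralizer_le_normalizer _)
      obtain ⟨w, hw, b, hb, rfl⟩ := Helper3.mem_sup_of_le_normalizer_right _ _ hn hx
      have hvb : ⁅v, b⁆ ∈ (⁅V, A⁆ : Subgroup G) := Subgroup.commutator_mem_commutator hv hb.1
      have hwv : w * v = v * w := hVc w (hVAV hw) v hv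
      have hwc : w * ⁅v, b⁆ = ⁅v, b⁆ * w := hVc w (hVAV hw) _ (hVAV hvb)
      have : ⁅v, w * b⁆ = ⁅v, b⁆ := by
        have e : ⁅v, w * b⁆ = (v * w) * b * v⁻¹ * b⁻¹ * w⁻¹ := by
          rw [commutatorElement_def]; group
        rw [e, ← hwv]
        have e' : w * v * b * v⁻¹ * b⁻¹ * w⁻¹ = (w * ⁅v, b⁆) * w⁻¹ := by
          rw [commutatorElement_def]; group
        rw [e', hwc, mul_inv_cancel_right]
      rw [this]
      exact hvb
    rw [eq_bot_iff]
    refine (Subgroup.commutator_mono h1 le_rfl).trans ?_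
    rw [le_bot_iff, Subgroup.commutator_eq_bot_iff_le_centralizer, Subgroup.le_centralizer_iff]
    exact hstar
  · intro hne hbot
    apply h599.2.2 hne
    rw [eq_bot_iff, ← hbot]
    exact Subgroup.commutator_mono le_rfl le_sup_right

end Cfsg.Agent.S0607
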