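import Cfsg.Statements.S0608
import Cfsg.Agent.Helper3.ThompJ
import Cfsg.Agent.Helper5.PIrr
import Cfsg.Agent.S0601

set_option autoImplicit false
open Cfsg

namespace Cfsg.Agent.S0608

/-- With trivial p'-core, Thompson factorizability is equivalent to J(G) centralizing the subgroup generated by all Ω₁(Z(S)), S Sylow. -/
theorem result {G : Type*} [Group G] [Finite G] {p : ℕ} [Fact p.Prime] (hO : Cfsg.pPrimeCore p G = ⊥) : Cfsg.IsThompsonFactorizable p G ↔ Cfsg.thompsonSubgroup p G ≤ Subgroup.centralizer ((⨆ S : Sylow p G, Cfsg.omegaOne p (((S : Subgroup G)) ⊓ Subgroup.centralizer ((S : Subgroup G) : Set G)) : Subgroup G) : Set G) := by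
  constructor
  · intro hTF
    refine sSup_le ?_
    intro A hA
    rw [Subgroup.le_centralizer_iff]
    refine iSup_le ?_
    intro S'
    refine (Subgroup.closure_le _).2 ?_
    rintro y ⟨hy1, hy2⟩
    obtain ⟨S, hAS⟩ := (Helper3.isPGroup_of_isElementaryAbelian p A hA.1).exists_le_sylow
    obtain ⟨h, rfl⟩ := MulAction.exists_smul_eq G S S'
    obtain ⟨x, hx, c, hc, n, hn, hg⟩ := hTF S h⁻¹
    rw [hO] at hx
    rw [Subgroup.mem_bot.1 hx, one_mul] at hg
    have hy0S : h⁻¹ * y * h ∈ (S : Subgroup G) :=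
      (Helper4.mem_smul_sylow_iff S h y).1 (Subgroup.mem_inf.1 hy1).1
    have hy0C : h⁻¹ * y * h ∈ Subgroup.centralizer ((S : Subgroup G) : Set G) := by
      refine Subgroup.mem_centralizer_iff.2 ?_
      intro s hs
      have hs' : h * s * h⁻¹ ∈ ((h • S : Sylow p G) : Subgroup G) := by
        rw [Helper4.mem_smul_sylow_iff]
        have : h⁻¹ * (h * s * h⁻¹) * h = s := by group
        rw [this]
        exact hs
      have h1 : h * s * h⁻¹ * y = y * (h * s * h⁻¹) :=
        Subgroup.mem_centralizer_iff.1 (Subgroup.mem_inf.1 hy1).2 _ hs'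
      have h2 : s * (h⁻¹ * y * h) = h⁻¹ * (h * s * h⁻¹ * y) * h := by group
      rw [h2, h1]
      group
    have hy0p : (h⁻¹ * y * h) ^ p = 1 := by
      have : h⁻¹ * y * h = h⁻¹ * y * h⁻¹⁻¹ := by rw [inv_inv]
      rw [this, conj_pow, hy2, mul_one, mul_inv_cancel]
    have hy0 : h⁻¹ * y * h ∈ Cfsg.omegaOne p ((S : Subgroup G) ⊓
        Subgroup.centralizer ((S : Subgroup G) : Set G)) :=
      Subgroup.subset_closure ⟨Subgroup.mem_inf.2 ⟨hy0S, hy0C⟩, hy0p⟩
    have e2 : (h⁻¹ * y * h) * c = c * (h⁻¹ * y * h) := Subgroup.mem_centralizer_iff.1 hc _ hy0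
    have hh : h = n⁻¹ * c⁻¹ := by
      rw [← mul_inv_rev, ← hg, inv_inv]
    have hy : y = n⁻¹ * (h⁻¹ * y * h) * n := by
      have h1 : y = h * (h⁻¹ * y * h) * h⁻¹ := by group
      have h2 : c⁻¹ * (h⁻¹ * y * h) * c = h⁻¹ * y * h := by
        rw [mul_assoc, e2, ← mul_assoc, inv_mul_cancel, one_mul]
      calc y = h * (h⁻¹ * y * h) * h⁻¹ := h1
        _ = n⁻¹ * c⁻¹ * (h⁻¹ * y * h) * (c * n) := by rw [← hg, ← hh]
        _ = n⁻¹ * (c⁻¹ * (h⁻¹ * y * h) * c) * n := by group
        _ = n⁻¹ * (h⁻¹ * y * h) * n := by rw [h2]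
    refine Subgroup.mem_centralizer_iff.2 ?_
    intro a ha
    have haJ : a ∈ Cfsg.thompsonSubgroupOf p (S : Subgroup G) :=
      Helper3.max_elemAb_le_thompsonOf hA hAS ha
    have h3 : n * a * n⁻¹ ∈ (S : Subgroup G) :=
      Helper3.thompsonOf_le_self p _ ((Subgroup.mem_normalizer_iff.1 hn a).1 haJ)
    have e3 : (n * a * n⁻¹) * (h⁻¹ * y * h) = (h⁻¹ * y * h) * (n * a * n⁻¹) :=
      Subgroup.mem_centralizer_iff.1 hy0C _ h3
    generalize h⁻¹ * y * h = y₀ at hy e3
    rw [hy]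
    calc a * (n⁻¹ * y₀ * n) = n⁻¹ * ((n * a * n⁻¹) * y₀) * n := by group
      _ = n⁻¹ * (y₀ * (n * a * n⁻¹)) * n := by rw [e3]
      _ = n⁻¹ * y₀ * n * a := by group
  · intro hJ S g
    haveI hWn := S0601.W_normal (G := G) (p := p)
    refine ⟨1, Subgroup.one_mem _, ?_⟩
    have hfr := Helper5.normalizer_inf_sup_eq_top S (Subgroup.centralizer
      ((⨆ S : Sylow p G, Cfsg.omegaOne p (((S : Subgroup G)) ⊓
        Subgroup.centralizer ((S : Subgroup G) : Set G)) : Subgroup G) : Set G))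
    have hg : g ∈ Subgroup.centralizer
      ((⨆ S : Sylow p G, Cfsg.omegaOne p (((S : Subgroup G)) ⊓
        Subgroup.centralizer ((S : Subgroup G) : Set G)) : Subgroup G) : Set G) ⊔
        Subgroup.normalizer ((((S : Subgroup G) ⊓ Subgroup.centralizer
      ((⨆ S : Sylow p G, Cfsg.omegaOne p (((S : Subgroup G)) ⊓
        Subgroup.centralizer ((S : Subgroup G) : Set G)) : Subgroup G) : Set G) : Subgroup G)) : Set G) := by
      rw [sup_comm, hfr]
      exact Subgroup.mem_top g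
    have hKn : (Subgroup.centralizer
      ((⨆ S : Sylow p G, Cfsg.omegaOne p (((S : Subgroup G)) ⊓
        Subgroup.centralizer ((S : Subgroup G) : Set G)) : Subgroup G) : Set G)).Normal :=
      inferInstance
    obtain ⟨c, hc, n, hn, hcn⟩ := Helper3.mem_sup_of_le_normalizer_right _ _
      (Helper3.le_normalizer_of_conj_mem _ _ (fun s _ d hd => hKn.conj_mem d hd s)) hg
    refine ⟨c, ?_, n, ?_, ?_⟩
    · refine Subgroup.centralizer_le ?_ hc
      exact le_iSup (fun S : Sylow p G => Cfsg.omegaOne p (((S : Subgroup G)) ⊓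
        Subgroup.centralizer ((S : Subgroup G) : Set G))) S
    · refine Helper3.normalizer_le_normalizer_thompsonOf (S : Subgroup G) _ ?_ inf_le_left hn
      exact le_inf (Helper3.thompsonOf_le_self p _) ((Helper3.thompsonOf_sylow_le S).trans hJ)
    · rw [one_mul, hcn]

end Cfsg.Agent.S0608
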