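import Cfsg.Statements.S0629
import Cfsg.Agent.Helper4.HHChain
import Cfsg.Agent.Helper4.StrClosed
import Cfsg.Agent.Helper3.PConstrained
import Cfsg.Agent.Helper8.GroupFusion

set_option autoImplicit false
open Cfsg

namespace Cfsg.Agent.S0629

theorem s0629_aux {G : Type*} [Group G] [Finite G] {p : ℕ} [Fact p.Prime] (P : Sylow p ↥(Cfsg.pPrimePCore p G)) (hsol : Cfsg.IsPSolvable p ↥(Subgroup.centralizer (((P : Subgroup ↥(Cfsg.pPrimePCore p G)).map (Cfsg.pPrimePCore p G).subtype : Subgroup G) : Set G))) :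
    Subgroup.centralizer (((P : Subgroup ↥(Cfsg.pPrimePCore p G)).map (Cfsg.pPrimePCore p G).subtype : Subgroup G) : Set G) ≤ Cfsg.pPrimePCore p G := by
  have hKn : (Cfsg.pPrimePCore p G).Normal :=
    Subgroup.Normal.comap (Cfsg.Agent.Helper5.pCore_normal p _) _
  have hNn : (Cfsg.pPrimeCore p G).Normal := Cfsg.Agent.Helper5.pPrimeCore_normal' p G
  have hO : Cfsg.pPrimeCore p (G ⧸ Cfsg.pPrimeCore p G) = ⊥ :=
    Cfsg.Agent.Helper3.pPrimeCore_quotient_eq_bot p G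
  have hsup := Cfsg.Agent.Helper3.pPrimePCore_le_sylow_sup p P
  have hfrat := Sylow.normalizer_sup_eq_top P
  generalize hPm : ((P : Subgroup ↥(Cfsg.pPrimePCore p G)).map (Cfsg.pPrimePCore p G).subtype : Subgroup G) = Pm at hsol hsup hfrat ⊢
  -- decomposition of elements of K
  have hdec : ∀ k ∈ Cfsg.pPrimePCore p G, ∃ q ∈ Pm, ∃ a ∈ Cfsg.pPrimeCore p G, k = q * a := by
    intro k hk
    have h1 : Pm ≤ Subgroup.normalizer ((Cfsg.pPrimeCore p G : Subgroup G) : Set G) := by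
      rw [Subgroup.normalizer_eq_top_iff.mpr hNn]; exact le_top
    exact Cfsg.Agent.Helper8.mem_sup_of_le_normalizer h1 (hsup hk)
  have hmkN : ∀ a ∈ Cfsg.pPrimeCore p G, (QuotientGroup.mk' (Cfsg.pPrimeCore p G)) a = 1 :=
    fun a ha => (QuotientGroup.eq_one_iff a).mpr ha
  -- the hom
  have hfC : ((QuotientGroup.mk' (Cfsg.pPrimeCore p G)).comp
      (Subgroup.centralizer (Pm : Set G)).subtype).range ≤
      Subgroup.centralizer (Cfsg.pCore p (G ⧸ Cfsg.pPrimeCore p G) : Set (G ⧸ Cfsg.pPrimeCore p G)) := by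
    intro x hx
    obtain ⟨c, rfl⟩ := MonoidHom.mem_range.mp hx
    rw [Subgroup.mem_centralizer_iff]
    intro y hy
    obtain ⟨k, rfl⟩ := QuotientGroup.mk'_surjective (Cfsg.pPrimeCore p G) y
    have hk : k ∈ Cfsg.pPrimePCore p G := hy
    obtain ⟨q, hq, a, ha, rfl⟩ := hdec k hk
    have h1 := Subgroup.mem_centralizer_iff.mp c.2 q hq
    rw [map_mul, hmkN a ha, mul_one]
    show (QuotientGroup.mk' (Cfsg.pPrimeCore p G)) q * (QuotientGroup.mk' (Cfsg.pPrimeCore p G)) (c : G)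
      = (QuotientGroup.mk' (Cfsg.pPrimeCore p G)) (c : G) * (QuotientGroup.mk' (Cfsg.pPrimeCore p G)) q
    rw [← map_mul, ← map_mul, h1]
  have hfn : ((QuotientGroup.mk' (Cfsg.pPrimeCore p G)).comp
      (Subgroup.centralizer (Pm : Set G)).subtype).range.Normal := by
    constructor
    intro x hx y
    obtain ⟨c, rfl⟩ := MonoidHom.mem_range.mp hx
    obtain ⟨g, rfl⟩ := QuotientGroup.mk'_surjective (Cfsg.pPrimeCore p G) y
    have hg : g ∈ Subgroup.normalizer (Pm : Set G) ⊔ Cfsg.pPrimePCore p G := by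
      rw [hfrat]; exact Subgroup.mem_top g
    have h1 : Subgroup.normalizer (Pm : Set G) ≤
        Subgroup.normalizer ((Cfsg.pPrimePCore p G : Subgroup G) : Set G) := by
      rw [Subgroup.normalizer_eq_top_iff.mpr hKn]; exact le_top
    obtain ⟨n, hn, k, hk, rfl⟩ := Cfsg.Agent.Helper8.mem_sup_of_le_normalizer h1 hg
    obtain ⟨q, hq, a, ha, rfl⟩ := hdec k hk
    have hqc := Subgroup.mem_centralizer_iff.mp c.2 q hq
    have hnc : n * (c : G) * n⁻¹ ∈ Subgroup.centralizer (Pm : Set G) :=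
      (Subgroup.mem_normalizer_iff.mp
        (Cfsg.Agent.Helper4.normalizer_le_normalizer_centralizer Pm hn) _).mp c.2
    refine MonoidHom.mem_range.mpr ⟨⟨_, hnc⟩, ?_⟩
    show (QuotientGroup.mk' (Cfsg.pPrimeCore p G)) (n * (c : G) * n⁻¹) =
      (QuotientGroup.mk' (Cfsg.pPrimeCore p G)) (n * (q * a)) *
        (QuotientGroup.mk' (Cfsg.pPrimeCore p G)) (c : G) *
        ((QuotientGroup.mk' (Cfsg.pPrimeCore p G)) (n * (q * a)))⁻¹
    have h2 : (QuotientGroup.mk' (Cfsg.pPrimeCore p G)) (n * (q * a)) =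
        (QuotientGroup.mk' (Cfsg.pPrimeCore p G)) (n * q) := by
      rw [← mul_assoc, map_mul, hmkN a ha, mul_one]
    rw [h2, ← map_inv, ← map_mul, ← map_mul]
    congr 1
    have h3 : n * q * (c : G) * (n * q)⁻¹ = n * (q * (c : G)) * q⁻¹ * n⁻¹ := by group
    rw [h3, hqc]
    group
  have hmain := Cfsg.Agent.Helper4.hh_hom hO hsol _ hfn hfC
  intro c hc
  have h1 : (QuotientGroup.mk' (Cfsg.pPrimeCore p G)) c ∈
      Cfsg.pCore p (G ⧸ Cfsg.pPrimeCore p G) :=
    hmain (MonoidHom.mem_range.mpr ⟨⟨c, hc⟩, rfl⟩)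
  exact h1

open scoped Pointwise in
/-- A group in which the centralizer of a Sylow p-subgroup of O_{p',p}(G) is p-solvable is p-constrained. -/
theorem result {G : Type*} [Group G] [Finite G] {p : ℕ} [Fact p.Prime] (P : Sylow p ↥(Cfsg.pPrimePCore p G)) (hsol : Cfsg.IsPSolvable p ↥(Subgroup.centralizer (((P : Subgroup ↥(Cfsg.pPrimePCore p G)).map (Cfsg.pPrimePCore p G).subtype : Subgroup G) : Set G))) : Cfsg.IsPConstrained p G := by
  classical
  have haux := s0629_aux P hsol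
  intro Q x hx
  obtain ⟨k, hk⟩ := MulAction.exists_smul_eq ↥(Cfsg.pPrimePCore p G) P Q
  have hKn : (Cfsg.pPrimePCore p G).Normal :=
    Subgroup.Normal.comap (Cfsg.Agent.Helper5.pCore_normal p _) _
  have h1 : (k : G)⁻¹ * x * (k : G) ∈ Subgroup.centralizer (((P : Subgroup ↥(Cfsg.pPrimePCore p G)).map (Cfsg.pPrimePCore p G).subtype : Subgroup G) : Set G) := by
    rw [Subgroup.mem_centralizer_iff]
    intro y hy
    obtain ⟨u, hu, rfl⟩ := Subgroup.mem_map.mp hy
    have h2 : k * u * k⁻¹ ∈ (Q : Subgroup ↥(Cfsg.pPrimePCore p G)) := by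
      rw [← hk, Sylow.coe_subgroup_smul]
      have h3 : MulAut.conj k • u ∈ MulAut.conj k • (P : Subgroup ↥(Cfsg.pPrimePCore p G)) :=
        Subgroup.smul_mem_pointwise_smul u (MulAut.conj k) _ hu
      rw [MulAut.smul_def, MulAut.conj_apply] at h3
      exact h3
    have h4 : ((k * u * k⁻¹ : ↥(Cfsg.pPrimePCore p G)) : G) ∈
        ((Q : Subgroup ↥(Cfsg.pPrimePCore p G)).map (Cfsg.pPrimePCore p G).subtype : Subgroup G) :=
      Subgroup.mem_map.mpr ⟨_, h2, rfl⟩
    have h5 := Subgroup.mem_centralizer_iff.mp hx _ h4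
    rw [Subgroup.coe_mul, Subgroup.coe_mul, Subgroup.coe_inv] at h5
    show (u : G) * ((k : G)⁻¹ * x * (k : G)) = (k : G)⁻¹ * x * (k : G) * (u : G)
    have h6 : (u : G) * ((k : G)⁻¹ * x * (k : G)) = (k : G)⁻¹ * ((k : G) * (u : G) * (k : G)⁻¹ * x) * (k : G) := by group
    rw [h6, h5]; group
  have h7 := haux h1
  have h8 := hKn.conj_mem _ h7 (k : G)
  have h9 : (k : G) * ((k : G)⁻¹ * x * (k : G)) * (k : G)⁻¹ = x := by group
  rwa [h9] at h8

end Cfsg.Agent.S0629
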