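import Cfsg.Statements.S0630
import Cfsg.Agent.Helper4.PCon

set_option autoImplicit false
open Cfsg

namespace Cfsg.Agent.S0630

/-- p-constraint passes to and from the quotient by the largest normal subgroup of order prime to p. -/
theorem result {G : Type*} [Group G] [Finite G] {p : ℕ} [Fact p.Prime] : Cfsg.IsPConstrained p G ↔ Cfsg.IsPConstrained p (G ⧸ Cfsg.pPrimeCore p G) := by
  have hO : Cfsg.pPrimeCore p (G ⧸ Cfsg.pPrimeCore p G) = ⊥ :=
    Cfsg.Agent.Helper3.pPrimeCore_quotient_eq_bot p G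
  have hker : Cfsg.pPrimeCore p (G ⧸ Cfsg.pPrimeCore p G) =
      (MonoidHom.id (G ⧸ Cfsg.pPrimeCore p G)).ker := by
    rw [hO, MonoidHom.ker_id]
  rw [Cfsg.Agent.Helper4.pcon_iff p (G := G),
    Cfsg.Agent.Helper4.pcon_iff p (G := G ⧸ Cfsg.pPrimeCore p G)]
  constructor
  · intro h
    exact Cfsg.Agent.Helper4.charp_of_mulEquiv p
      (QuotientGroup.liftEquiv (Cfsg.pPrimeCore p (G ⧸ Cfsg.pPrimeCore p G))
        Function.surjective_id hker).symm h
  · intro h
    exact Cfsg.Agent.Helper4.charp_of_mulEquiv p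
      (QuotientGroup.liftEquiv (Cfsg.pPrimeCore p (G ⧸ Cfsg.pPrimeCore p G))
        Function.surjective_id hker) h

end Cfsg.Agent.S0630
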