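import Cfsg.Statements.S0636
import Mathlib
import Cfsg.Agent.S0126

set_option autoImplicit false
open Cfsg

namespace Cfsg.Agent.S0636

open Cfsg.Agent.Lead

theorem exists_max_normal_abelian_in {G : Type*} [Group G] [Finite G] (S₀ : Subgroup G) :
    ∃ A : Subgroup G, A.Normal ∧ A ≤ S₀ ∧ (∀ x ∈ A, ∀ y ∈ A, x * y = y * x) ∧
      ∀ B : Subgroup G, B.Normal → B ≤ S₀ → (∀ x ∈ B, ∀ y ∈ B, x * y = y * x) → A ≤ B →
        B = A := by
  classical
  let T : Set (Subgroup G) := {A | A.Normal ∧ A ≤ S₀ ∧ ∀ x ∈ A, ∀ y ∈ A, x * y = y * x}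
  haveI : Nonempty T := ⟨⟨⊥, inferInstance, bot_le, fun x hx y hy => by
    rw [Subgroup.mem_bot] at hx hy; rw [hx, hy]⟩⟩
  obtain ⟨⟨A, hA⟩, hmax⟩ := Finite.exists_max (fun A : T => Nat.card (A : Subgroup G))
  refine ⟨A, hA.1, hA.2.1, hA.2.2, ?_⟩
  intro B hBn hBS hBc hAB
  have := hmax ⟨B, hBn, hBS, hBc⟩
  exact (Subgroup.eq_of_le_of_card_ge hAB this).symm

/-- For odd p, every non-cyclic normal subgroup of a p-group contains a normal elementary abelian subgroup of the whole group of order p². -/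
theorem result {R : Type*} [Group R] [Finite R] {p : ℕ} [Fact p.Prime] (hp : p ≠ 2) (hR : IsPGroup p R) (S : Subgroup R) [S.Normal] (hS : ¬ IsCyclic S) : ∃ A : Subgroup R, A ≤ S ∧ A.Normal ∧ Cfsg.IsElementaryAbelian p A ∧ Nat.card A = p ^ 2 := by
  classical
  have hpp : p.Prime := Fact.out
  haveI : Group.IsNilpotent R := hR.isNilpotent
  obtain ⟨A₀, hA₀n, hA₀S, hA₀c, hA₀max⟩ := exists_max_normal_abelian_in (G := R) S
  haveI := hA₀n
  by_cases hcyc : IsCyclic A₀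
  · have hA₀top : A₀ ≠ S := by
      intro h
      apply hS
      rw [← h]; exact hcyc
    obtain ⟨B, hBn, hA₀B, hBS, hBcard⟩ := S0126.exists_normal_ext hR A₀ S hA₀S hA₀top
    haveI := hBn
    have hBnc : ¬ IsCyclic B := by
      intro hBc
      have hBcomm : ∀ x ∈ B, ∀ y ∈ B, x * y = y * x := by
        intro x hx y hy
        obtain ⟨b', hb'⟩ := hBc.exists_generator
        obtain ⟨i, hi⟩ := Subgroup.mem_zpowers_iff.mp (hb' ⟨x, hx⟩)
        obtain ⟨j, hj⟩ := Subgroup.mem_zpowers_iff.mp (hb' ⟨y, hy⟩)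
        have hx' : x = (b' : R) ^ i := (congrArg Subtype.val hi).symm
        have hy' : y = (b' : R) ^ j := (congrArg Subtype.val hj).symm
        rw [hx', hy', ← zpow_add, ← zpow_add, add_comm]
      have hBA := hA₀max B hBn hBS hBcomm hA₀B
      rw [hBA] at hBcard
      have hpos : 0 < Nat.card A₀ := Nat.card_pos
      have h1 : Nat.card A₀ * 1 = Nat.card A₀ * p := by rw [mul_one]; exact hBcard
      have h2 := Nat.eq_of_mul_eq_mul_left hpos h1
      exact hpp.one_lt.ne h2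
    have hBp : IsPGroup p B := hR.to_subgroup B
    have hC'cyc : IsCyclic (A₀.subgroupOf B) := by
      have e := Subgroup.subgroupOfEquivOfLe hA₀B
      exact isCyclic_of_surjective e.symm e.symm.surjective
    have hC'idx : (A₀.subgroupOf B).index = p := by
      have h1 := Subgroup.card_mul_index (A₀.subgroupOf B)
      rw [Nat.card_congr (Subgroup.subgroupOfEquivOfLe hA₀B).toEquiv, hBcard] at h1
      exact Nat.eq_of_mul_eq_mul_left Nat.card_pos h1
    obtain ⟨E', hKE, hEp, hEcomm, hE'card⟩ :=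
      Cfsg.Agent.S0127.omega_struct hp hBp hBnc (A₀.subgroupOf B) hC'cyc hC'idx
    refine ⟨E'.map B.subtype, ?_, ?_, ⟨?_, ?_⟩, ?_⟩
    · intro y hy
      obtain ⟨x, hx, rfl⟩ := Subgroup.mem_map.mp hy
      exact hBS x.2
    · constructor
      intro y hy g
      obtain ⟨x, hx, rfl⟩ := Subgroup.mem_map.mp hy
      have hmem : g * (x : R) * g⁻¹ ∈ B := hBn.conj_mem x x.2 g
      refine Subgroup.mem_map.mpr ⟨⟨g * (x : R) * g⁻¹, hmem⟩, ?_, rfl⟩
      apply hKE
      apply Subtype.ext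
      show (g * (x : R) * g⁻¹) ^ p = 1
      have hxp : (x : R) ^ p = 1 := congrArg Subtype.val (hEp x hx)
      rw [conj_pow, hxp]; group
    · exact ⟨⟨fun a b => by
        obtain ⟨x, hx, hxa⟩ := Subgroup.mem_map.mp a.2
        obtain ⟨y, hy, hyb⟩ := Subgroup.mem_map.mp b.2
        apply Subtype.ext
        show (a : R) * (b : R) = (b : R) * (a : R)
        rw [← hxa, ← hyb]
        exact congrArg Subtype.val (hEcomm x hx y hy)⟩⟩
    · intro a ha
      obtain ⟨x, hx, rfl⟩ := Subgroup.mem_map.mp ha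
      exact congrArg Subtype.val (hEp x hx)
    · rw [Subgroup.card_map_of_injective B.subtype_injective]; exact hE'card
  · letI : CommGroup A₀ := { (inferInstance : Group A₀) with
      mul_comm := fun x y => Subtype.ext (hA₀c x x.2 y y.2) }
    obtain ⟨q, a, b, hq, haq, hbq, hb1, hab⟩ := exists_rank_two (A := A₀) hcyc
    haveI : Fact q.Prime := ⟨hq⟩
    have hbord : orderOf (b : R) = q := by
      rw [Subgroup.orderOf_coe]; exact orderOf_eq_prime hbq hb1
    obtain ⟨k, hk⟩ := hR (b : R)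
    have hqp : q = p := by
      have h1 : q ∣ p ^ k := hbord ▸ orderOf_dvd_of_pow_eq_one hk
      exact (Nat.prime_dvd_prime_iff_eq hq hpp).mp (hq.dvd_of_dvd_pow h1)
    rw [hqp] at haq hbq hbord
    have ha' : (a : R) ^ p = 1 := by exact_mod_cast congrArg Subtype.val haq
    have hb' : (b : R) ^ p = 1 := by exact_mod_cast congrArg Subtype.val hbq
    have hb1' : (b : R) ≠ 1 := fun h => hb1 (Subtype.ext h)
    have hab' : (a : R) ∉ Subgroup.zpowers (b : R) := by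
      intro hmem
      obtain ⟨t, ht⟩ := Subgroup.mem_zpowers_iff.mp hmem
      exact hab (Subgroup.mem_zpowers_iff.mpr
        ⟨t, Subtype.ext (by rw [Subgroup.coe_zpow]; exact ht)⟩)
    obtain ⟨Ω, hΩ⟩ : ∃ Ω : Subgroup R, ∀ x, x ∈ Ω ↔ (x ∈ A₀ ∧ x ^ p = 1) :=
      ⟨{ carrier := {x | x ∈ A₀ ∧ x ^ p = 1}
         one_mem' := ⟨A₀.one_mem, one_pow p⟩
         mul_mem' := by
           rintro x y ⟨hx, hxp⟩ ⟨hy, hyp⟩
           refine ⟨A₀.mul_mem hx hy, ?_⟩
           have hc : Commute x y := hA₀c x hx y hy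
           rw [hc.mul_pow, hxp, hyp, one_mul]
         inv_mem' := by
           rintro x ⟨hx, hxp⟩
           exact ⟨A₀.inv_mem hx, by rw [inv_pow, hxp, inv_one]⟩ }, fun x => Iff.rfl⟩
    haveI hΩn : Ω.Normal := ⟨fun x hx g => by
      rw [hΩ] at hx ⊢
      refine ⟨hA₀n.conj_mem x hx.1 g, ?_⟩
      rw [conj_pow, hx.2]; group⟩
    have haΩ : (a : R) ∈ Ω := (hΩ _).mpr ⟨a.2, ha'⟩
    have hbΩ : (b : R) ∈ Ω := (hΩ _).mpr ⟨b.2, hb'⟩
    have hbotΩ : (⊥ : Subgroup R) ≠ Ω := by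
      intro h
      rw [← h, Subgroup.mem_bot] at hbΩ
      exact hb1' hbΩ
    obtain ⟨B₁, hB₁n, -, hB₁Ω, hB₁card⟩ := S0126.exists_normal_ext hR ⊥ Ω bot_le hbotΩ
    rw [Subgroup.card_bot, one_mul] at hB₁card
    haveI := hB₁n
    have hB₁ne : B₁ ≠ Ω := by
      intro h
      rw [h] at hB₁card
      have hzb : Subgroup.zpowers (b : R) ≤ Ω := Subgroup.zpowers_le.mpr hbΩ
      have heq : Subgroup.zpowers (b : R) = Ω :=
        Subgroup.eq_of_le_of_card_ge hzb (by rw [Nat.card_zpowers, hbord, hB₁card])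
      exact hab' (heq ▸ haΩ)
    obtain ⟨B₂, hB₂n, -, hB₂Ω, hB₂card⟩ := S0126.exists_normal_ext hR B₁ Ω hB₁Ω hB₁ne
    rw [hB₁card] at hB₂card
    refine ⟨B₂, fun x hx => hA₀S ((hΩ _).mp (hB₂Ω hx)).1, hB₂n, ⟨?_, ?_⟩, ?_⟩
    · exact ⟨⟨fun x y => Subtype.ext
        (hA₀c x ((hΩ _).mp (hB₂Ω x.2)).1 y ((hΩ _).mp (hB₂Ω y.2)).1)⟩⟩
    · intro x hx
      exact ((hΩ _).mp (hB₂Ω hx)).2
    · rw [hB₂card, pow_two]


end Cfsg.Agent.S0636
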