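import Cfsg.Statements.S0641
import Mathlib

set_option autoImplicit false
open Cfsg

namespace Cfsg.Agent.S0641

/-- Regularity of a p-group passes to quotient groups. -/
theorem result {G : Type*} [Group G] {p : ℕ} [Fact p.Prime] (hG : Cfsg.IsRegularPGroup p G) (N : Subgroup G) [N.Normal] : Cfsg.IsRegularPGroup p (G ⧸ N) := by
  obtain ⟨hpG, hreg⟩ := hG
  refine ⟨hpG.to_quotient N, ?_⟩
  intro a b n
  obtain ⟨a, rfl⟩ := QuotientGroup.mk_surjective a
  obtain ⟨b, rfl⟩ := QuotientGroup.mk_surjective b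
  obtain ⟨c, hc, hcab⟩ := hreg a b n
  obtain ⟨π, hπ⟩ : ∃ π : G →* G ⧸ N, π = QuotientGroup.mk' N := ⟨_, rfl⟩
  have hπa : ∀ x : G, π x = (x : G ⧸ N) := fun x => by rw [hπ]; rfl
  refine ⟨π c, ?_, ?_⟩
  · have h1 : (⁅Subgroup.closure ({a, b} : Set G), Subgroup.closure ({a, b} : Set G)⁆).map π
        = ⁅Subgroup.closure ({π a, π b} : Set (G ⧸ N)),
            Subgroup.closure ({π a, π b} : Set (G ⧸ N))⁆ := by
      rw [Subgroup.map_commutator, MonoidHom.map_closure, Set.image_pair]
    have hmap : (Cfsg.powerClosure p n ⁅Subgroup.closure ({a, b} : Set G),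
          Subgroup.closure ({a, b} : Set G)⁆).map π
        ≤ Cfsg.powerClosure p n ⁅Subgroup.closure ({π a, π b} : Set (G ⧸ N)),
            Subgroup.closure ({π a, π b} : Set (G ⧸ N))⁆ := by
      unfold Cfsg.powerClosure
      rw [MonoidHom.map_closure, Subgroup.closure_le]
      rintro _ ⟨y, ⟨x, hx, rfl⟩, rfl⟩
      apply Subgroup.subset_closure
      refine ⟨π x, ?_, by rw [map_pow]⟩
      rw [← h1]; exact Subgroup.mem_map_of_mem _ hx
    have h2 := hmap (Subgroup.mem_map_of_mem _ hc)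
    rw [hπa a, hπa b] at h2
    exact h2
  · have h := congrArg π hcab
    rw [map_mul, map_mul, map_pow, map_pow, map_pow, map_mul, hπa a, hπa b] at h
    exact h


end Cfsg.Agent.S0641
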