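import Cfsg.Statements.S0642
import Mathlib

set_option autoImplicit false
open Cfsg

namespace Cfsg.Agent.S0642

open scoped commutatorElement

theorem comm_le_of_gen {G : Type*} [Group G] (a b : G) (M : Subgroup G)
    (hnorm : ∀ h ∈ Subgroup.closure ({a, b} : Set G), ∀ m ∈ M, h * m * h⁻¹ ∈ M)
    (hc : ⁅b⁻¹, a⁻¹⁆ ∈ M) :
    ⁅Subgroup.closure ({a, b} : Set G), Subgroup.closure ({a, b} : Set G)⁆ ≤ M := by
  obtain ⟨H, hHdef⟩ : ∃ H : Subgroup G, H = Subgroup.closure ({a, b} : Set G) := ⟨_, rfl⟩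
  rw [← hHdef] at hnorm ⊢
  have haH : a ∈ H := by rw [hHdef]; exact Subgroup.subset_closure (by simp)
  have hbH : b ∈ H := by rw [hHdef]; exact Subgroup.subset_closure (by simp)
  let W : G → Subgroup G := fun g =>
    { carrier := {x | x ∈ H ∧ ⁅x, g⁆ ∈ M}
      mul_mem' := by
        intro x y hx hy
        refine ⟨H.mul_mem hx.1 hy.1, ?_⟩
        have e : ⁅x * y, g⁆ = x * ⁅y, g⁆ * x⁻¹ * ⁅x, g⁆ := by
          simp only [commutatorElement_def]; group
        rw [e]
        exact M.mul_mem (hnorm x hx.1 _ hy.2) hx.2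
      one_mem' := ⟨H.one_mem, by rw [commutatorElement_one_left]; exact M.one_mem⟩
      inv_mem' := by
        intro x hx
        refine ⟨H.inv_mem hx.1, ?_⟩
        have e : ⁅x⁻¹, g⁆ = x⁻¹ * ⁅x, g⁆⁻¹ * x⁻¹⁻¹ := by
          simp only [commutatorElement_def]; group
        rw [e]
        exact hnorm x⁻¹ (H.inv_mem hx.1) _ (M.inv_mem hx.2) }
  have hW : ∀ g x, x ∈ W g ↔ x ∈ H ∧ ⁅x, g⁆ ∈ M := fun g x => Iff.rfl
  have hgen : ∀ g, a⁻¹ ∈ W g → b⁻¹ ∈ W g → H ≤ W g := by
    intro g ha hb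
    rw [hHdef, Subgroup.closure_le]
    intro u hu
    rcases hu with h | h
    · rw [h]
      have := (W g).inv_mem ha
      rwa [inv_inv] at this
    · rw [Set.mem_singleton_iff] at h
      rw [h]
      have := (W g).inv_mem hb
      rwa [inv_inv] at this
  have h1 : H ≤ W a⁻¹ := by
    apply hgen
    · rw [hW]
      exact ⟨H.inv_mem haH, by rw [commutatorElement_self]; exact M.one_mem⟩
    · rw [hW]
      exact ⟨H.inv_mem hbH, hc⟩
  have h2 : H ≤ W b⁻¹ := by
    apply hgen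
    · rw [hW]
      refine ⟨H.inv_mem haH, ?_⟩
      rw [← commutatorElement_inv]
      exact M.inv_mem hc
    · rw [hW]
      exact ⟨H.inv_mem hbH, by rw [commutatorElement_self]; exact M.one_mem⟩
  have h3 : ∀ x ∈ H, H ≤ W x := by
    intro x hx
    apply hgen
    · rw [hW]
      refine ⟨H.inv_mem haH, ?_⟩
      rw [← commutatorElement_inv]
      exact M.inv_mem ((hW _ _).mp (h1 hx)).2
    · rw [hW]
      refine ⟨H.inv_mem hbH, ?_⟩
      rw [← commutatorElement_inv]
      exact M.inv_mem ((hW _ _).mp (h2 hx)).2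
  rw [Subgroup.commutator_le]
  intro g₁ hg₁ g₂ hg₂
  exact ((hW _ _).mp (h3 g₂ hg₂ hg₁)).2

theorem agemo_lt {G : Type*} [Group G] [Finite G] (hG : IsPGroup 2 G) (K : Subgroup G)
    (hK : K ≤ Cfsg.powerClosure 2 1 K) : K = ⊥ := by
  by_contra hne
  have hKp : IsPGroup 2 K := hG.to_subgroup K
  obtain ⟨n, hn⟩ := IsPGroup.iff_card.mp hKp
  have hn0 : n ≠ 0 := by
    intro h0
    rw [h0, pow_zero] at hn
    exact hne ((Subgroup.eq_bot_iff_card K).mpr hn)
  obtain ⟨m, rfl⟩ : ∃ m, n = m + 1 := ⟨n - 1, by omega⟩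
  obtain ⟨N, hN⟩ := Sylow.exists_subgroup_card_pow_prime (G := K) 2
    (show 2 ^ m ∣ Nat.card K by rw [hn]; exact pow_dvd_pow 2 (Nat.le_succ m))
  have hidx : N.index = 2 := by
    have h := N.card_mul_index
    rw [hN, hn, pow_succ] at h
    exact Nat.eq_of_mul_eq_mul_left (pow_pos (by norm_num) m) h
  have hsq : ∀ x : K, x ^ 2 ∈ N := fun x => Subgroup.sq_mem_of_index_two hidx x
  have hM : Cfsg.powerClosure 2 1 K ≤ N.map K.subtype := by
    unfold Cfsg.powerClosure
    rw [Subgroup.closure_le]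
    rintro y ⟨x, hx, rfl⟩
    refine ⟨(⟨x, hx⟩ : K) ^ 2, hsq ⟨x, hx⟩, ?_⟩
    simp
  have htop : N = ⊤ := by
    rw [eq_top_iff]
    intro x _
    obtain ⟨y, hy, hyx⟩ := hM (hK x.2)
    have : y = x := Subtype.ext hyx
    rw [← this]; exact hy
  rw [htop, Subgroup.index_top] at hidx
  omega

/-- Among finite 2-groups the regular ones are exactly the abelian ones. -/
theorem result {G : Type*} [Group G] [Finite G] (hG : IsPGroup 2 G) : Cfsg.IsRegularPGroup 2 G ↔ ∀ a b : G, a * b = b * a := by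
  constructor
  · intro hreg a b
    obtain ⟨c, hcM, hceq⟩ := hreg.2 a b 1
    obtain ⟨H, hHdef⟩ : ∃ H : Subgroup G, H = Subgroup.closure ({a, b} : Set G) := ⟨_, rfl⟩
    rw [← hHdef] at hcM
    have haH : a ∈ H := by rw [hHdef]; exact Subgroup.subset_closure (by simp)
    have hbH : b ∈ H := by rw [hHdef]; exact Subgroup.subset_closure (by simp)
    have hKH : ⁅H, H⁆ ≤ H := by
      rw [Subgroup.commutator_le]
      intro g₁ h₁ g₂ h₂
      rw [commutatorElement_def]
      exact H.mul_mem (H.mul_mem (H.mul_mem h₁ h₂) (H.inv_mem h₁)) (H.inv_mem h₂)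
    have hKn : ∀ h ∈ H, ∀ k ∈ ⁅H, H⁆, h * k * h⁻¹ ∈ ⁅H, H⁆ := by
      intro h hh k hk
      have e : h * k * h⁻¹ = ⁅h, k⁆ * k := by
        rw [commutatorElement_def]; group
      rw [e]
      exact Subgroup.mul_mem _ (Subgroup.commutator_mem_commutator hh (hKH hk)) hk
    have hnorm : ∀ h ∈ H, ∀ m ∈ Cfsg.powerClosure 2 1 ⁅H, H⁆,
        h * m * h⁻¹ ∈ Cfsg.powerClosure 2 1 ⁅H, H⁆ := by
      intro h hh m hm
      unfold Cfsg.powerClosure at hm ⊢
      induction hm using Subgroup.closure_induction with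
      | mem y hy =>
        obtain ⟨x, hxK, rfl⟩ := hy
        apply Subgroup.subset_closure
        exact ⟨h * x * h⁻¹, hKn h hh x hxK, conj_pow.symm⟩
      | one =>
        have e : h * 1 * h⁻¹ = 1 := by group
        rw [e]; exact Subgroup.one_mem _
      | mul x y _ _ ihx ihy =>
        have e : h * (x * y) * h⁻¹ = (h * x * h⁻¹) * (h * y * h⁻¹) := by group
        rw [e]; exact Subgroup.mul_mem _ ihx ihy
      | inv x _ ih =>
        have e : h * x⁻¹ * h⁻¹ = (h * x * h⁻¹)⁻¹ := by group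
        rw [e]; exact Subgroup.inv_mem _ ih
    have hceq' : a * b * (a * b) = a * a * (b * b) * c := by
      have := hceq
      rw [pow_one, pow_two, pow_two, pow_two] at this
      exact this
    have hc' : c = b⁻¹ * b⁻¹ * a⁻¹ * b * a * b := by
      calc c = (a * a * (b * b))⁻¹ * (a * a * (b * b) * c) := (inv_mul_cancel_left _ _).symm
        _ = (a * a * (b * b))⁻¹ * (a * b * (a * b)) := by rw [hceq']
        _ = b⁻¹ * b⁻¹ * a⁻¹ * b * a * b := by
          simp only [mul_inv_rev, mul_assoc, inv_mul_cancel_left]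
    have hcomm : ⁅b⁻¹, a⁻¹⁆ ∈ Cfsg.powerClosure 2 1 ⁅H, H⁆ := by
      have e : ⁅b⁻¹, a⁻¹⁆ = b * c * b⁻¹ := by
        rw [commutatorElement_def, hc']
        simp only [inv_inv, mul_assoc, mul_inv_cancel_left, mul_inv_cancel, mul_one]
      rw [e]
      exact hnorm b hbH c hcM
    have hle : ⁅H, H⁆ ≤ Cfsg.powerClosure 2 1 ⁅H, H⁆ := by
      have := comm_le_of_gen a b (Cfsg.powerClosure 2 1 ⁅H, H⁆) (by rw [← hHdef]; exact hnorm) hcomm
      rw [← hHdef] at this
      exact this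
    have hbot := agemo_lt hG _ hle
    have hab : ⁅a, b⁆ ∈ ⁅H, H⁆ := Subgroup.commutator_mem_commutator haH hbH
    rw [hbot, Subgroup.mem_bot] at hab
    exact commutatorElement_eq_one_iff_mul_comm.mp hab
  · intro h
    refine ⟨hG, fun a b n => ⟨1, Subgroup.one_mem _, ?_⟩⟩
    rw [mul_one]
    exact (show Commute a b from h a b).mul_pow _


end Cfsg.Agent.S0642
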