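import Cfsg.Statements.S0643
import Cfsg.Agent.Helper8.RegularP2

set_option autoImplicit false
open Cfsg

namespace Cfsg.Agent.S0643

/-- Kemhadze's criterion: a finite p-group is regular exactly when (ab)^p = a^p b^p c^p always holds for some c in the derived subgroup of the subgroup generated by a and b. -/
theorem result {G : Type*} [Group G] [Finite G] {p : ℕ} [Fact p.Prime] (hG : IsPGroup p G) : Cfsg.IsRegularPGroup p G ↔ ∀ a b : G, ∃ c ∈ ⁅Subgroup.closure ({a, b} : Set G), Subgroup.closure ({a, b} : Set G)⁆, (a * b) ^ p = a ^ p * b ^ p * c ^ p := by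
  constructor
  · intro h a b
    obtain ⟨c', hc', e⟩ := h.2 a b 1
    obtain ⟨c, hc, rfl⟩ := (Cfsg.Agent.Helper8.RegP.mem_powerClosure_iff h.1
      (fun a b => h.2 a b 1) _ c').1 hc'
    refine ⟨c, hc, ?_⟩
    simp only [pow_one] at e
    exact e
  · intro h1'
    have h1 : Cfsg.Agent.Helper8.RegP.RegAt p 1 G := by
      intro a b
      obtain ⟨c, hc, e⟩ := h1' a b
      refine ⟨c ^ (p ^ 1), Cfsg.Agent.Helper8.RegP.pow_mem_powerClosure hc, ?_⟩
      simp only [pow_one]
      exact e
    exact ⟨hG, fun a b n => Cfsg.Agent.Helper8.RegP.regAt_of_one hG h1 n a b⟩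

end Cfsg.Agent.S0643
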