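import Cfsg.Statements.S0645
import Mathlib
import Cfsg.Agent.S0127

set_option autoImplicit false
open Cfsg

namespace Cfsg.Agent.S0645

open Cfsg.Agent.Lead

theorem one_add_pow_sq_zero {R : Type*} [CommRing R] (x : R) (hx : x * x = 0) (j : ℕ) :
    (1 + x) ^ j = 1 + (j : R) * x := by
  induction j with
  | zero => simp
  | succ j ih =>
    rw [pow_succ, ih]
    push_cast
    linear_combination (j : R) * hx

/-- Classification of p-groups with a cyclic maximal subgroup, odd p: a non-abelian one of order p^n has generators a of order p^(n-1) and b of order p, b outside the cyclic subgroup generated by a, with b a b⁻¹ = a^(1 + p^(n-2)). -/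
theorem result {G : Type*} [Group G] [Finite G] {p : ℕ} [Fact p.Prime] (hp : p ≠ 2) (n : ℕ) (hn : 3 ≤ n) (hG : Nat.card G = p ^ n) (C : Subgroup G) (hC : IsCyclic C) (hCi : C.index = p) (hna : ∃ x y : G, x * y ≠ y * x) : ∃ a b : G, orderOf a = p ^ (n - 1) ∧ orderOf b = p ∧ b ∉ Subgroup.zpowers a ∧ b * a * b⁻¹ = a ^ (1 + p ^ (n - 2)) := by
  classical
  have hpp : p.Prime := Fact.out
  have hPG : IsPGroup p G := IsPGroup.of_card hG
  have hnc : ¬ IsCyclic G := by
    intro hcyc
    obtain ⟨x, y, hxy⟩ := hna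
    obtain ⟨g, hg⟩ := hcyc.exists_generator
    obtain ⟨i, rfl⟩ := Subgroup.mem_zpowers_iff.mp (hg x)
    obtain ⟨j, rfl⟩ := Subgroup.mem_zpowers_iff.mp (hg y)
    exact hxy (zpow_mul_comm g i j)
  obtain ⟨E, hE1, hE2, hE3, hE4⟩ := S0127.omega_struct hp hPG hnc C hC hCi
  obtain ⟨c0, hc0⟩ := hC.exists_generator
  obtain ⟨c, hcdef⟩ : ∃ c : G, c = (c0 : G) := ⟨_, rfl⟩
  have hcC : c ∈ C := hcdef ▸ c0.2
  have hCz : C = Subgroup.zpowers c := by
    apply le_antisymm
    · intro x hx
      obtain ⟨i, hi⟩ := Subgroup.mem_zpowers_iff.mp (hc0 ⟨x, hx⟩)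
      refine Subgroup.mem_zpowers_iff.mpr ⟨i, ?_⟩
      have := congrArg Subtype.val hi
      rw [hcdef]
      simpa using this
    · exact Subgroup.zpowers_le.mpr hcC
  have hcardC : Nat.card C * p = p ^ n := by
    rw [← hG, ← hCi]; exact Subgroup.card_mul_index C
  have hN : p ^ (n - 1) = p ^ (n - 2) * p := by rw [← pow_succ]; congr 1; omega
  have hcardC' : Nat.card C = p ^ (n - 1) := by
    have h1 : p ^ n = p ^ (n - 1) * p := by rw [← pow_succ]; congr 1; omega
    rw [h1] at hcardC
    exact Nat.eq_of_mul_eq_mul_right hpp.pos hcardC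
  have hoc : orderOf c = p ^ (n - 1) := by
    rw [← hcardC', hCz]; exact (Nat.card_zpowers c).symm
  haveI hCn : C.Normal := Subgroup.normal_of_index_eq_minFac_card
    (by rw [hCi, hG, Nat.pow_minFac (by omega), hpp.minFac_eq])
  have hex : ∃ b ∈ E, b ∉ C := by
    by_contra hcon
    push_neg at hcon
    have hEC : E ≤ Subgroup.zpowers c := by rw [← hCz]; exact hcon
    haveI : IsCyclic E := Subgroup.isCyclic_of_le hEC
    obtain ⟨e, he⟩ := (inferInstance : IsCyclic E).exists_generator
    have hoe : orderOf e = p ^ 2 := by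
      rw [← hE4]; exact orderOf_eq_card_of_forall_mem_zpowers he
    have h1 : e ^ p = 1 := by
      apply Subtype.ext
      rw [Subgroup.coe_pow]
      exact hE2 _ e.2
    have h2 : p ^ 2 ∣ p := hoe ▸ orderOf_dvd_of_pow_eq_one h1
    have h3 := Nat.le_of_dvd hpp.pos h2
    have h4 : 2 ≤ p := hpp.two_le
    nlinarith
  obtain ⟨b, hbE, hbC⟩ := hex
  have hbp : b ^ p = 1 := hE2 b hbE
  have htop : Subgroup.zpowers c ⊔ Subgroup.zpowers b = ⊤ := by
    have hCK : C ≤ Subgroup.zpowers c ⊔ Subgroup.zpowers b := by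
      rw [hCz]; exact le_sup_left
    have h1 := Subgroup.relIndex_mul_index hCK
    rw [hCi] at h1
    have h2 : (Subgroup.zpowers c ⊔ Subgroup.zpowers b).index ∣ p := Dvd.intro_left _ h1
    rcases (Nat.dvd_prime hpp).mp h2 with h3 | h3
    · exact Subgroup.index_eq_one.mp h3
    · exfalso
      rw [h3] at h1
      have h4 : C.relIndex (Subgroup.zpowers c ⊔ Subgroup.zpowers b) = 1 :=
        Nat.eq_of_mul_eq_mul_right hpp.pos (h1.trans (one_mul p).symm)
      have h5 := Subgroup.relIndex_eq_one.mp h4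
      exact hbC (h5 (Subgroup.mem_sup_right (Subgroup.mem_zpowers b)))
  have hnorm : b * c * b⁻¹ ∈ Subgroup.zpowers c := by
    rw [← hCz]; exact hCn.conj_mem c hcC b
  obtain ⟨r, hr⟩ := exists_pow_of_mem_zpowers hnorm
  have hrel : b * c * b⁻¹ = c ^ r := hr.symm
  have h1 := S0127.conj_pow_iter c b r hrel p
  rw [hbp, one_mul, inv_one, mul_one] at h1
  have h3 : c ^ (r ^ p) = c ^ 1 := by rw [pow_one]; exact h1.symm
  rw [pow_eq_pow_iff_modEq, hoc] at h3
  have h4 := S0127.nt_lemma p (n - 1) r hp h3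
  have h5 : r ≡ 1 [MOD p ^ (n - 2)] := by
    apply Nat.ModEq.mul_right_cancel' hpp.ne_zero
    rw [← hN, one_mul]; exact h4
  have hr0 : 1 ≤ r := by
    rcases Nat.eq_zero_or_pos r with h | h
    · exfalso
      rw [h, pow_zero] at hrel
      have hc1 : c = 1 := conj_eq_one_iff.mp hrel
      rw [hc1, orderOf_one] at hoc
      have : 1 < p ^ (n - 1) := Nat.one_lt_pow (by omega) hpp.one_lt
      omega
    · exact h
  have h6 : p ^ (n - 2) ∣ r - 1 := (Nat.modEq_iff_dvd' hr0).mp h5.symm
  obtain ⟨k, hk⟩ := h6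
  have hrk : r = 1 + p ^ (n - 2) * k := by omega
  have hcomm_contra : b * c ≠ c * b := by
    intro hbc
    obtain ⟨x, y, hxy⟩ := hna
    have hD : ∀ z : G, z * c = c * z ∧ z * b = b * z := by
      intro z
      have hz : z ∈ Subgroup.zpowers c ⊔ Subgroup.zpowers b := by
        rw [htop]; exact Subgroup.mem_top z
      have hle : Subgroup.zpowers c ⊔ Subgroup.zpowers b ≤
          Subgroup.centralizer ({c} : Set G) ⊓ Subgroup.centralizer ({b} : Set G) := by
        apply sup_le
        · apply Subgroup.zpowers_le.mpr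
          refine Subgroup.mem_inf.mpr ⟨?_, ?_⟩
          · exact Subgroup.mem_centralizer_iff.mpr
              (fun g hg => by rw [Set.mem_singleton_iff.mp hg])
          · exact Subgroup.mem_centralizer_iff.mpr
              (fun g hg => by rw [Set.mem_singleton_iff.mp hg]; exact hbc)
        · apply Subgroup.zpowers_le.mpr
          refine Subgroup.mem_inf.mpr ⟨?_, ?_⟩
          · exact Subgroup.mem_centralizer_iff.mpr
              (fun g hg => by rw [Set.mem_singleton_iff.mp hg]; exact hbc.symm)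
          · exact Subgroup.mem_centralizer_iff.mpr
              (fun g hg => by rw [Set.mem_singleton_iff.mp hg])
      obtain ⟨ha, hb⟩ := Subgroup.mem_inf.mp (hle hz)
      exact ⟨(Subgroup.mem_centralizer_iff.mp ha c (Set.mem_singleton c)).symm,
        (Subgroup.mem_centralizer_iff.mp hb b (Set.mem_singleton b)).symm⟩
    have hle2 : Subgroup.zpowers c ⊔ Subgroup.zpowers b ≤
        Subgroup.centralizer ({x} : Set G) := by
      apply sup_le
      · apply Subgroup.zpowers_le.mpr
        exact Subgroup.mem_centralizer_iff.mpr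
          (fun g hg => by rw [Set.mem_singleton_iff.mp hg]; exact (hD x).1)
      · apply Subgroup.zpowers_le.mpr
        exact Subgroup.mem_centralizer_iff.mpr
          (fun g hg => by rw [Set.mem_singleton_iff.mp hg]; exact (hD x).2)
    have hy : y ∈ Subgroup.zpowers c ⊔ Subgroup.zpowers b := by
      rw [htop]; exact Subgroup.mem_top y
    exact hxy (Subgroup.mem_centralizer_iff.mp (hle2 hy) x (Set.mem_singleton x))
  have hpk : ¬ p ∣ k := by
    rintro ⟨k', hk'⟩
    apply hcomm_contra
    have e : c ^ r = c ^ 1 := by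
      rw [pow_eq_pow_iff_modEq, hoc, hrk, hk', hN]
      have e2 : 1 + p ^ (n - 2) * (p * k') = 1 + p ^ (n - 2) * p * k' := by ring
      rw [e2]
      exact Nat.add_mul_mod_self_left _ _ _
    rw [pow_one] at e
    rw [e] at hrel
    calc b * c = b * c * b⁻¹ * b := by group
      _ = c * b := by rw [hrel]
  have hcop : Nat.Coprime k p := ((Nat.Prime.coprime_iff_not_dvd hpp).mpr hpk).symm
  obtain ⟨j, -, hj⟩ := Nat.exists_mul_mod_eq_one_of_coprime hcop hpp.one_lt
  have hkj : k * j = p * (k * j / p) + 1 := by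
    have := Nat.div_add_mod (k * j) p
    rw [hj] at this
    exact this.symm
  obtain ⟨q, hq⟩ : ∃ q, k * j = p * q + 1 := ⟨_, hkj⟩
  have hbjC : b ^ j ∉ Subgroup.zpowers c := by
    intro hmem
    apply hbC
    rw [hCz]
    have e : b = (b ^ j) ^ k := by
      rw [← pow_mul, mul_comm, hq, pow_succ, pow_mul, hbp, one_pow, one_mul]
    rw [e]
    exact Subgroup.pow_mem _ hmem k
  refine ⟨c, b ^ j, hoc, ?_, hbjC, ?_⟩
  · apply orderOf_eq_prime
    · rw [← pow_mul, mul_comm, pow_mul, hbp, one_pow]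
    · intro h1
      apply hbjC
      rw [h1]; exact Subgroup.one_mem _
  · have h7 := S0127.conj_pow_iter c b r hrel j
    rw [h7, pow_eq_pow_iff_modEq, hoc, hrk]
    rw [← ZMod.natCast_eq_natCast_iff]
    push_cast
    have hx : ((p : ZMod (p ^ (n - 1))) ^ (n - 2) * (k : ZMod (p ^ (n - 1)))) *
        ((p : ZMod (p ^ (n - 1))) ^ (n - 2) * (k : ZMod (p ^ (n - 1)))) = 0 := by
      have hd : p ^ (n - 1) ∣ (p ^ (n - 2) * k) * (p ^ (n - 2) * k) := by
        have e0 : (p ^ (n - 2) * k) * (p ^ (n - 2) * k)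
            = p ^ (n - 1) * (p ^ (n - 3) * k * k) := by
          have e1 : p ^ (n - 2) = p ^ (n - 3) * p := by rw [← pow_succ]; congr 1; omega
          rw [hN, e1]; ring
        rw [e0]; exact Dvd.intro _ rfl
      have := (ZMod.natCast_eq_zero_iff _ _).mpr hd
      push_cast at this
      exact this
    rw [one_add_pow_sq_zero _ hx j]
    have hPp : ((p : ZMod (p ^ (n - 1))) ^ (n - 2) * (p : ZMod (p ^ (n - 1)))) = 0 := by
      have := (ZMod.natCast_eq_zero_iff (p ^ (n - 2) * p) (p ^ (n - 1))).mpr (by rw [hN])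
      push_cast at this
      exact this
    have hkj' : (k : ZMod (p ^ (n - 1))) * (j : ZMod (p ^ (n - 1)))
        = (p : ZMod (p ^ (n - 1))) * q + 1 := by
      have := congrArg (Nat.cast : ℕ → ZMod (p ^ (n - 1))) hq
      push_cast at this
      exact this
    linear_combination (p : ZMod (p ^ (n - 1))) ^ (n - 2) * hkj' + (q : ZMod (p ^ (n - 1))) * hPp


end Cfsg.Agent.S0645
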