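import Cfsg.Statements.S0660
import Mathlib
import Cfsg.Agent.Lead.CoprimeAbelian

set_option autoImplicit false
open Cfsg

namespace Cfsg.Agent.S0660

open scoped IsMulCommutative

attribute [local instance] Fintype.ofFinite

theorem proj_exists {V : Type*} [CommGroup V] (U W : Subgroup V)
    (h1 : ∀ x, x ∈ U → x ∈ W → x = 1) (h2 : ∀ v : V, ∃ u ∈ U, ∃ w ∈ W, v = u * w) :
    ∃ π : V →* V, (∀ v, π v ∈ U) ∧ (∀ u ∈ U, π u = u) := by
  let f : U →* V ⧸ W := (QuotientGroup.mk' W).comp U.subtype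
  have hinj : Function.Injective f := by
    rw [injective_iff_map_eq_one]
    intro u hu
    have : (u : V) ∈ W := (QuotientGroup.eq_one_iff (u : V)).mp hu
    exact Subtype.ext (h1 _ u.2 this)
  have hsurj : Function.Surjective f := by
    intro q
    obtain ⟨v, rfl⟩ := QuotientGroup.mk_surjective q
    obtain ⟨u, hu, w, hw, rfl⟩ := h2 v
    refine ⟨⟨u, hu⟩, ?_⟩
    show (QuotientGroup.mk u : V ⧸ W) = QuotientGroup.mk (u * w)
    rw [QuotientGroup.eq]
    simpa using hw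
  let φ : U ≃* V ⧸ W := MulEquiv.ofBijective f ⟨hinj, hsurj⟩
  refine ⟨U.subtype.comp (φ.symm.toMonoidHom.comp (QuotientGroup.mk' W)), ?_, ?_⟩
  · intro v
    show ((φ.symm (QuotientGroup.mk' W v) : U) : V) ∈ U
    exact SetLike.coe_mem _
  · intro u hu
    have : φ.symm (QuotientGroup.mk' W u) = ⟨u, hu⟩ := by
      rw [MulEquiv.symm_apply_eq]; rfl
    show ((φ.symm (QuotientGroup.mk' W u) : U) : V) = u
    rw [this]

/-- Under a coprime action on an abelian group, an invariant subgroup that is complemented admits an invariant complement. -/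
theorem result {G : Type*} [Group G] [Finite G] (V A U : Subgroup G) (hVab : IsMulCommutative V) (hAV : A ≤ Subgroup.normalizer (V : Set G)) (hcop : (Nat.card A).Coprime (Nat.card V)) (hUV : U ≤ V) (hAU : A ≤ Subgroup.normalizer (U : Set G)) (W : Subgroup G) (hWV : W ≤ V) (hUW : U ⊓ W = ⊥) (hUWV : U ⊔ W = V) : ∃ W' : Subgroup G, W' ≤ V ∧ A ≤ Subgroup.normalizer (W' : Set G) ∧ U ⊓ W' = ⊥ ∧ U ⊔ W' = V := by
  classical
  haveI := hVab
  have hsup' : U.subgroupOf V ⊔ W.subgroupOf V = ⊤ := by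
    rw [← Subgroup.subgroupOf_sup hUV hWV, hUWV, Subgroup.subgroupOf_self]
  have h1 : ∀ x : V, x ∈ U.subgroupOf V → x ∈ W.subgroupOf V → x = 1 := by
    intro x hxU hxW
    have : (x : G) ∈ U ⊓ W := ⟨Subgroup.mem_subgroupOf.mp hxU, Subgroup.mem_subgroupOf.mp hxW⟩
    rw [hUW, Subgroup.mem_bot] at this
    exact Subtype.ext this
  have h2 : ∀ v : V, ∃ u ∈ U.subgroupOf V, ∃ w ∈ W.subgroupOf V, v = u * w := by
    intro v
    have hv : v ∈ U.subgroupOf V ⊔ W.subgroupOf V := by rw [hsup']; exact Subgroup.mem_top v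
    obtain ⟨u, hu, w, hw, h⟩ := Subgroup.mem_sup.mp hv
    exact ⟨u, hu, w, hw, h.symm⟩
  obtain ⟨π, hπU, hπfix⟩ := proj_exists (U.subgroupOf V) (W.subgroupOf V) h1 h2
  obtain ⟨c, hcval⟩ : ∃ c : A → (V →* V), ∀ (a : A) (v : V),
      ((c a v : V) : G) = (a : G) * v * (a : G)⁻¹ :=
    ⟨fun a => Cfsg.Agent.Lead.cjHom A V hAV a, fun a v => rfl⟩
  have hcc : ∀ (a b : A) (v : V), c a (c b v) = c (a * b) v := by
    intro a b v
    apply Subtype.ext
    rw [hcval, hcval, hcval]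
    simp [mul_assoc]
  have hc1 : ∀ v : V, c 1 v = v := by
    intro v
    apply Subtype.ext
    rw [hcval]
    simp
  obtain ⟨θ, hθ⟩ : ∃ θ : V →* V, ∀ v, θ v = ∏ a : A, c a (π (c a⁻¹ v)) :=
    ⟨∏ a : A, (c a).comp (π.comp (c a⁻¹)), fun v => by rw [MonoidHom.finsetProd_apply]; rfl⟩
  have hcU : ∀ (a : A) (v : V), (v : G) ∈ U → ((c a v : V) : G) ∈ U := by
    intro a v hv
    rw [hcval]
    exact (Subgroup.mem_normalizer_iff.mp (hAU a.2) v).mp hv
  have hθU : ∀ v : V, ((θ v : V) : G) ∈ U := by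
    intro v
    rw [hθ]
    have : (∏ a : A, c a (π (c a⁻¹ v))) ∈ U.subgroupOf V := by
      apply Subgroup.prod_mem
      intro a _
      exact Subgroup.mem_subgroupOf.mpr (hcU a _ (Subgroup.mem_subgroupOf.mp (hπU _)))
    exact Subgroup.mem_subgroupOf.mp this
  have hθfix : ∀ u : V, (u : G) ∈ U → θ u = u ^ Nat.card A := by
    intro u hu
    rw [hθ]
    have : ∀ a : A, c a (π (c a⁻¹ u)) = u := by
      intro a
      rw [hπfix _ (Subgroup.mem_subgroupOf.mpr (hcU a⁻¹ u hu)), hcc, mul_inv_cancel, hc1]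
    simp_rw [this]
    rw [Finset.prod_const, Finset.card_univ, Nat.card_eq_fintype_card]
  have hθc : ∀ (b : A) (v : V), θ (c b v) = c b (θ v) := by
    intro b v
    rw [hθ, hθ, map_prod]
    have hF : ∀ a : A, c b (c a (π (c a⁻¹ v))) = c (b * a) (π (c (b * a)⁻¹ (c b v))) := by
      intro a
      rw [hcc, hcc]
      have : (b * a)⁻¹ * b = a⁻¹ := by group
      rw [this]
    simp_rw [hF]
    exact (Equiv.prod_comp (Equiv.mulLeft b) (fun a : A => c a (π (c a⁻¹ (c b v))))).symm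
  refine ⟨θ.ker.map V.subtype, ?_, ?_, ?_, ?_⟩
  · rintro x ⟨v, -, rfl⟩
    exact v.2
  · have hfwd : ∀ a ∈ A, ∀ x ∈ θ.ker.map V.subtype, a * x * a⁻¹ ∈ θ.ker.map V.subtype := by
      rintro a ha x ⟨v, hv, rfl⟩
      refine ⟨c ⟨a, ha⟩ v, ?_, ?_⟩
      · rw [SetLike.mem_coe, MonoidHom.mem_ker] at hv ⊢
        rw [hθc, hv, map_one]
      · rw [Subgroup.coe_subtype, hcval]
    intro a ha
    rw [Subgroup.mem_normalizer_iff]
    intro x
    constructor
    · exact hfwd a ha x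
    · intro hx
      have := hfwd a⁻¹ (A.inv_mem ha) _ hx
      have e : a⁻¹ * (a * x * a⁻¹) * a⁻¹⁻¹ = x := by group
      rw [e] at this
      exact this
  · rw [eq_bot_iff]
    rintro x ⟨hxU, v, hv, rfl⟩
    rw [Subgroup.mem_bot]
    rw [SetLike.mem_coe, MonoidHom.mem_ker, hθfix v hxU] at hv
    have h1 : orderOf v ∣ Nat.card A := orderOf_dvd_of_pow_eq_one hv
    have h2 : orderOf v ∣ Nat.card V := orderOf_dvd_natCard _
    have h3 : orderOf v = 1 := Nat.eq_one_of_dvd_coprimes hcop h1 h2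
    have h4 := orderOf_eq_one_iff.mp h3
    rw [h4]
    rfl
  · apply le_antisymm
    · exact sup_le hUV (by rintro x ⟨v, -, rfl⟩; exact v.2)
    · intro x hx
      obtain ⟨m, hm⟩ := exists_pow_eq_self_of_coprime (x := θ ⟨x, hx⟩) (n := Nat.card A)
        (Nat.Coprime.coprime_dvd_right (orderOf_dvd_natCard _) hcop)
      obtain ⟨u, hu⟩ : ∃ u : V, u = (θ ⟨x, hx⟩) ^ m := ⟨_, rfl⟩
      have huU : (u : G) ∈ U := by
        rw [hu, Subgroup.coe_pow]
        exact U.pow_mem (hθU _) m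
      have hθu : θ u = θ ⟨x, hx⟩ := by
        rw [hθfix u huU, hu, ← pow_mul, mul_comm, pow_mul]
        exact hm
      have hker : u⁻¹ * ⟨x, hx⟩ ∈ θ.ker := by
        rw [MonoidHom.mem_ker, map_mul, map_inv, hθu, inv_mul_cancel]
      have hxe : x = (u : G) * ((u⁻¹ * ⟨x, hx⟩ : V) : G) := by simp
      rw [hxe]
      exact Subgroup.mul_mem _ (Subgroup.mem_sup_left huU)
        (Subgroup.mem_sup_right ⟨_, hker, rfl⟩)


end Cfsg.Agent.S0660
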