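import Cfsg.Statements.S0661
import Cfsg.Agent.Helper4.CoprimeNorm
import Cfsg.Agent.Helper5.AxB
import Cfsg.Agent.Helper5.Cores
import Cfsg.Agent.Helper5.Stability
import Cfsg.Agent.Helper3.PComp

set_option autoImplicit false
open Cfsg

namespace Cfsg.Agent.S0661

theorem s0661_le {G : Type*} [Group G] [Finite G] {p : ℕ} [Fact p.Prime] (hc : Subgroup.centralizer (Cfsg.pCore p (G ⧸ Cfsg.pPrimeCore p G) : Set (G ⧸ Cfsg.pPrimeCore p G)) ≤ Cfsg.pCore p (G ⧸ Cfsg.pPrimeCore p G)) (P : Subgroup G) (hP : IsPGroup p P)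
    (v : ↥(Subgroup.normalizer (P : Set G))) (hv : v ∈ Cfsg.pPrimeCore p ↥(Subgroup.normalizer (P : Set G))) :
    (v : G) ∈ Cfsg.pPrimeCore p G := by
  have hpp : p.Prime := Fact.out
  have hNn : (Cfsg.pPrimeCore p G).Normal := Cfsg.Agent.Helper5.pPrimeCore_normal' p G
  have hNc : (Nat.card (Cfsg.pPrimeCore p G)).Coprime p := Cfsg.Agent.Helper3.pPrimeCore_coprime p G
  have hWn : (Cfsg.pPrimeCore p ↥(Subgroup.normalizer (P : Set G))).Normal :=
    Cfsg.Agent.Helper5.pPrimeCore_normal' p _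
  have hWc : (Nat.card (Cfsg.pPrimeCore p ↥(Subgroup.normalizer (P : Set G)))).Coprime p :=
    Cfsg.Agent.Helper3.pPrimeCore_coprime p _
  have hRn : (Cfsg.pCore p (G ⧸ Cfsg.pPrimeCore p G)).Normal := Cfsg.Agent.Helper5.pCore_normal p _
  have hRp : IsPGroup p (Cfsg.pCore p (G ⧸ Cfsg.pPrimeCore p G)) := Cfsg.Agent.Helper5.pCore_isPGroup
  -- orders of elements of W
  have hWord : ∀ z : ↥(Subgroup.normalizer (P : Set G)),
      z ∈ Cfsg.pPrimeCore p ↥(Subgroup.normalizer (P : Set G)) → (orderOf (z : G)).Coprime p := by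
    intro z hz
    rw [Subgroup.orderOf_coe]
    exact Nat.Coprime.coprime_dvd_left (Subgroup.orderOf_dvd_natCard _ hz) hWc
  -- commutators with elements of H
  have hcomm : ∀ a : G, ∀ ha : a ∈ Subgroup.normalizer (P : Set G),
      (orderOf ((v : G) * a * (v : G)⁻¹ * a⁻¹)).Coprime p := by
    intro a ha
    have h1 : v * (⟨a, ha⟩ * v⁻¹ * (⟨a, ha⟩ : ↥(Subgroup.normalizer (P : Set G)))⁻¹) ∈
        Cfsg.pPrimeCore p ↥(Subgroup.normalizer (P : Set G)) :=
      Subgroup.mul_mem _ hv (hWn.conj_mem _ (Subgroup.inv_mem _ hv) _)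
    have h2 := hWord _ h1
    have h3 : ((v * (⟨a, ha⟩ * v⁻¹ * (⟨a, ha⟩ : ↥(Subgroup.normalizer (P : Set G)))⁻¹) :
        ↥(Subgroup.normalizer (P : Set G))) : G) = (v : G) * a * (v : G)⁻¹ * a⁻¹ := by
      simp only [Subgroup.coe_mul, Subgroup.coe_inv]
      group
    rwa [h3] at h2
  -- v centralizes P
  have hvP : ∀ u ∈ P, (v : G) * u = u * (v : G) := by
    intro u hu
    have h1 := hcomm u (Subgroup.le_normalizer hu)
    have h2 : (v : G) * u * (v : G)⁻¹ * u⁻¹ ∈ P :=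
      P.mul_mem ((Subgroup.mem_normalizer_iff.mp v.2 u).mp hu) (P.inv_mem hu)
    have h3 := Cfsg.Agent.Helper5.eq_one_of_pow_coprime P hP _ h1 _ h2 (pow_orderOf_eq_one _)
    have h4 : (v : G) * u = ((v : G) * u * (v : G)⁻¹ * u⁻¹) * (u * (v : G)) := by group
    rw [h4, h3, one_mul]
  have hy : (orderOf ((QuotientGroup.mk' (Cfsg.pPrimeCore p G)) (v : G))).Coprime p :=
    Nat.Coprime.coprime_dvd_left (orderOf_map_dvd _ _) (hWord v hv)
  have hyB : ∀ b ∈ P.map (QuotientGroup.mk' (Cfsg.pPrimeCore p G)),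
      (QuotientGroup.mk' (Cfsg.pPrimeCore p G)) (v : G) * b =
        b * (QuotientGroup.mk' (Cfsg.pPrimeCore p G)) (v : G) := by
    intro b hb
    obtain ⟨u, hu, rfl⟩ := Subgroup.mem_map.mp hb
    rw [← map_mul, ← map_mul, hvP u hu]
  have hRtop : Subgroup.normalizer ((Cfsg.pCore p (G ⧸ Cfsg.pPrimeCore p G) : Subgroup (G ⧸ Cfsg.pPrimeCore p G)) : Set (G ⧸ Cfsg.pPrimeCore p G)) = ⊤ :=
    Subgroup.normalizer_eq_top_iff.mpr hRn
  have hcent : ∀ a ∈ Cfsg.pCore p (G ⧸ Cfsg.pPrimeCore p G),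
      (∀ b ∈ P.map (QuotientGroup.mk' (Cfsg.pPrimeCore p G)), a * b = b * a) →
      (QuotientGroup.mk' (Cfsg.pPrimeCore p G)) (v : G) * a =
        a * (QuotientGroup.mk' (Cfsg.pPrimeCore p G)) (v : G) := by
    intro abar habar hab
    obtain ⟨a, rfl⟩ := QuotientGroup.mk'_surjective (Cfsg.pPrimeCore p G) abar
    have h1 : ∀ u ∈ P, a * u * a⁻¹ * u⁻¹ ∈ Cfsg.pPrimeCore p G := by
      intro u hu
      apply (QuotientGroup.eq_one_iff _).mp
      have h0 := hab _ (Subgroup.mem_map.mpr ⟨u, hu, rfl⟩)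
      show (QuotientGroup.mk' (Cfsg.pPrimeCore p G)) (a * u * a⁻¹ * u⁻¹) = 1
      rw [map_mul, map_mul, map_mul, map_inv, map_inv, h0]
      group
    obtain ⟨n, hn, hna⟩ := Cfsg.Agent.Helper4.exists_mul_mem_normalizer _ P hNn hNc hP a h1
    have h2 := hcomm (n * a) hna
    have h3 : (QuotientGroup.mk' (Cfsg.pPrimeCore p G)) (n * a) =
        (QuotientGroup.mk' (Cfsg.pPrimeCore p G)) a := by
      have hn1 : (QuotientGroup.mk' (Cfsg.pPrimeCore p G)) n = 1 := (QuotientGroup.eq_one_iff n).mpr hn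
      rw [map_mul, hn1, one_mul]
    have h4 : (QuotientGroup.mk' (Cfsg.pPrimeCore p G)) ((v : G) * (n * a) * (v : G)⁻¹ * (n * a)⁻¹) ∈
        Cfsg.pCore p (G ⧸ Cfsg.pPrimeCore p G) := by
      rw [map_mul, map_mul, map_mul, map_inv, map_inv, h3]
      exact Subgroup.mul_mem _ (hRn.conj_mem _ habar _) (Subgroup.inv_mem _ habar)
    have h5 : (QuotientGroup.mk' (Cfsg.pPrimeCore p G)) ((v : G) * (n * a) * (v : G)⁻¹ * (n * a)⁻¹) ^
        orderOf ((v : G) * (n * a) * (v : G)⁻¹ * (n * a)⁻¹) = 1 := by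
      rw [← map_pow, pow_orderOf_eq_one, map_one]
    have h6 := Cfsg.Agent.Helper5.eq_one_of_pow_coprime _ hRp _ h2 _ h4 h5
    rw [map_mul, map_mul, map_mul, map_inv, map_inv, h3] at h6
    have h7 : (QuotientGroup.mk' (Cfsg.pPrimeCore p G)) (v : G) * (QuotientGroup.mk' (Cfsg.pPrimeCore p G)) a
        = ((QuotientGroup.mk' (Cfsg.pPrimeCore p G)) (v : G) * (QuotientGroup.mk' (Cfsg.pPrimeCore p G)) a *
          ((QuotientGroup.mk' (Cfsg.pPrimeCore p G)) (v : G))⁻¹ * ((QuotientGroup.mk' (Cfsg.pPrimeCore p G)) a)⁻¹) *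
          ((QuotientGroup.mk' (Cfsg.pPrimeCore p G)) a * (QuotientGroup.mk' (Cfsg.pPrimeCore p G)) (v : G)) := by
      group
    rw [h7, h6, one_mul]
  have hall := Cfsg.Agent.Helper5.thompson_AxB _ hy (P.map (QuotientGroup.mk' (Cfsg.pPrimeCore p G)))
    (hP.map _) hyB _ (Cfsg.pCore p (G ⧸ Cfsg.pPrimeCore p G)) rfl hRp
    (by rw [hRtop]; exact Subgroup.mem_top _) (by rw [hRtop]; exact le_top) hcent
  have hyR : (QuotientGroup.mk' (Cfsg.pPrimeCore p G)) (v : G) ∈ Cfsg.pCore p (G ⧸ Cfsg.pPrimeCore p G) :=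
    hc (Subgroup.mem_centralizer_iff.mpr (fun a ha => (hall a ha).symm))
  have h1 := Cfsg.Agent.Helper5.eq_one_of_pow_coprime _ hRp _ hy _ hyR (pow_orderOf_eq_one _)
  exact (QuotientGroup.eq_one_iff _).mp h1

/-- If, modulo the largest normal subgroup of order prime to p, the largest normal p-subgroup contains its centralizer, then for every p-subgroup P the p'-core of N_G(P) is just O_p'(G) ∩ N_G(P). -/
theorem result {G : Type*} [Group G] [Finite G] {p : ℕ} [Fact p.Prime] (hc : Subgroup.centralizer (Cfsg.pCore p (G ⧸ Cfsg.pPrimeCore p G) : Set (G ⧸ Cfsg.pPrimeCore p G)) ≤ Cfsg.pCore p (G ⧸ Cfsg.pPrimeCore p G)) (P : Subgroup G) (hP : IsPGroup p P) : (Cfsg.pPrimeCore p ↥(Subgroup.normalizer (P : Set G))).map (Subgroup.normalizer (P : Set G)).subtype = Cfsg.pPrimeCore p G ⊓ Subgroup.normalizer (P : Set G) := by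
  have hNn : (Cfsg.pPrimeCore p G).Normal := Cfsg.Agent.Helper5.pPrimeCore_normal' p G
  have hNc : (Nat.card (Cfsg.pPrimeCore p G)).Coprime p := Cfsg.Agent.Helper3.pPrimeCore_coprime p G
  apply le_antisymm
  · intro w hw
    obtain ⟨v, hv, rfl⟩ := Subgroup.mem_map.mp hw
    exact Subgroup.mem_inf.mpr ⟨s0661_le hc P hP v hv, v.2⟩
  · intro x hx
    obtain ⟨hxN, hxH⟩ := Subgroup.mem_inf.mp hx
    have h1 : ((Cfsg.pPrimeCore p G).subgroupOf (Subgroup.normalizer (P : Set G))).Normal :=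
      Subgroup.normal_subgroupOf
    have h2 : (Nat.card ((Cfsg.pPrimeCore p G).subgroupOf (Subgroup.normalizer (P : Set G)))).Coprime p := by
      rw [Cfsg.Agent.Helper3.coprime_card_iff_forall_orderOf_ne]
      intro z hz hord
      rw [← Subgroup.orderOf_coe] at hord
      exact (Cfsg.Agent.Helper3.coprime_card_iff_forall_orderOf_ne p _).mp hNc (z : G)
        (Subgroup.mem_subgroupOf.mp hz) hord
    have h3 := Cfsg.Agent.Helper5.le_pPrimeCore _ h1 h2
    exact Subgroup.mem_map.mpr ⟨⟨x, hxH⟩, h3 (Subgroup.mem_subgroupOf.mpr hxN), rfl⟩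

end Cfsg.Agent.S0661
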