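import Cfsg.Statements.S0666
import Cfsg.Agent.Helper4.FrobFix
import Cfsg.Agent.S0035

set_option autoImplicit false
open Cfsg

namespace Cfsg.Agent.S0666

/-- Conjugation action of a subgroup `F ≤ N_G(V)` on `V`. -/
def s0666conj {G : Type*} [Group G] (V F : Subgroup G)
    (hFV : F ≤ Subgroup.normalizer (V : Set G)) : ↥F →* MulAut ↥V :=
  MonoidHom.mk' (fun f =>
    { toFun := fun v => ⟨(f : G) * (v : G) * (f : G)⁻¹,
        (Subgroup.mem_normalizer_iff.mp (hFV f.2) (v : G)).mp v.2⟩
      invFun := fun v => ⟨(f : G)⁻¹ * (v : G) * (f : G),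
        (Subgroup.mem_normalizer_iff.mp (hFV f.2) _).mpr (by
          have h1 : (f : G) * ((f : G)⁻¹ * (v : G) * (f : G)) * (f : G)⁻¹ = (v : G) := by group
          rw [h1]; exact v.2)⟩
      left_inv := fun v => Subtype.ext (by
        show (f : G)⁻¹ * ((f : G) * (v : G) * (f : G)⁻¹) * (f : G) = (v : G)
        group)
      right_inv := fun v => Subtype.ext (by
        show (f : G) * ((f : G)⁻¹ * (v : G) * (f : G)) * (f : G)⁻¹ = (v : G)
        group)
      map_mul' := fun v w => Subtype.ext (by
        show (f : G) * ((v : G) * (w : G)) * (f : G)⁻¹ =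
          ((f : G) * (v : G) * (f : G)⁻¹) * ((f : G) * (w : G) * (f : G)⁻¹)
        group) })
    (fun f g => MulEquiv.ext (fun v => Subtype.ext (by
      show ((f : G) * (g : G)) * (v : G) * ((f : G) * (g : G))⁻¹ =
        (f : G) * ((g : G) * (v : G) * (g : G)⁻¹) * (f : G)⁻¹
      group)))

theorem s0666conj_apply {G : Type*} [Group G] (V F : Subgroup G)
    (hFV : F ≤ Subgroup.normalizer (V : Set G)) (f : ↥F) (v : ↥V) :
    ((s0666conj V F hFV f v : ↥V) : G) = (f : G) * (v : G) * (f : G)⁻¹ := rfl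

/-- A Frobenius group acting on a nontrivial abelian group of order prime to that of its kernel, with the kernel acting without nontrivial fixed points, has a complement with a nontrivial fixed point. -/
theorem result {G : Type*} [Group G] [Finite G] (V F : Subgroup G) (hVab : IsMulCommutative V) (hV1 : V ≠ ⊥) (hFV : F ≤ Subgroup.normalizer (V : Set G)) (H : Subgroup ↥F) (hH : Cfsg.IsFrobeniusComplement H) (hcop : (Nat.card V).Coprime (Nat.card (Cfsg.frobeniusKernel H))) (hCK : V ⊓ Subgroup.centralizer (Subtype.val '' Cfsg.frobeniusKernel H : Set G) = ⊥) : V ⊓ Subgroup.centralizer ((H.map F.subtype : Subgroup G) : Set G) ≠ ⊥ := by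
  intro hcon
  obtain ⟨N, hNK, hNn, hcompl⟩ := Cfsg.Agent.S0035.result H hH
  letI : CommGroup ↥V := { (inferInstance : Group ↥V) with mul_comm := fun a b => mul_comm' a b }
  have hcop' : (Nat.card ↥V).Coprime (Nat.card ↥N) := by
    have h0 : Nat.card ↥N = Nat.card ↥(Cfsg.frobeniusKernel H) := by
      rw [← hNK]; rfl
    rw [h0]; exact hcop
  have hfixN : ∀ v : ↥V, (∀ n ∈ N, s0666conj V F hFV n v = v) → v = 1 := by
    intro v hv
    have h1 : (v : G) ∈ V ⊓ Subgroup.centralizer (Subtype.val '' Cfsg.frobeniusKernel H : Set G) := by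
      refine Subgroup.mem_inf.mpr ⟨v.2, ?_⟩
      rw [Subgroup.mem_centralizer_iff]
      rintro y ⟨k, hk, rfl⟩
      have hkN : k ∈ N := by
        have : k ∈ (N : Set ↥F) := by rw [hNK]; exact hk
        exact this
      have h2 := congrArg Subtype.val (hv k hkN)
      rw [s0666conj_apply] at h2
      have h3 : (k : G) * (v : G) = ((k : G) * (v : G) * (k : G)⁻¹) * (k : G) := by group
      rw [h3, h2]
    rw [hCK] at h1
    exact Subtype.ext (Subgroup.mem_bot.mp h1)
  have hfixH : ∀ v : ↥V, (∀ h ∈ H, s0666conj V F hFV h v = v) → v = 1 := by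
    intro v hv
    have h1 : (v : G) ∈ V ⊓ Subgroup.centralizer ((H.map F.subtype : Subgroup G) : Set G) := by
      refine Subgroup.mem_inf.mpr ⟨v.2, ?_⟩
      rw [Subgroup.mem_centralizer_iff]
      intro y hy
      obtain ⟨k, hk, rfl⟩ := Subgroup.mem_map.mp hy
      have h2 := congrArg Subtype.val (hv k hk)
      rw [s0666conj_apply] at h2
      show (k : G) * (v : G) = (v : G) * (k : G)
      have h3 : (k : G) * (v : G) = ((k : G) * (v : G) * (k : G)⁻¹) * (k : G) := by group
      rw [h3, h2]
    rw [hcon] at h1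
    exact Subtype.ext (Subgroup.mem_bot.mp h1)
  have hall := Cfsg.Agent.Helper4.frob_fixed_trivial (s0666conj V F hFV) H N hH hNK hNn hcompl
    hcop' hfixN hfixH
  apply hV1
  rw [eq_bot_iff]
  intro x hx
  have h1 := hall ⟨x, hx⟩
  exact Subgroup.mem_bot.mpr (congrArg Subtype.val h1)

end Cfsg.Agent.S0666
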