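import Cfsg.Statements.S0681
import Mathlib

set_option autoImplicit false
open Cfsg

namespace Cfsg.Agent.S0681

/-- The affine maps `x ↦ x * a + b`, `a ≠ 0`, of a near-field form a sharply doubly transitive permutation group. -/
theorem result {F : Type*} [Cfsg.NearField F] : ∃ H : Subgroup (Equiv.Perm F), (∀ σ : Equiv.Perm F, σ ∈ H ↔ ∃ a b : F, a ≠ 0 ∧ ∀ x : F, σ x = x * a + b) ∧ MulAction.IsMultiplyPretransitive H F 2 ∧ ∀ x : Fin 2 ↪ F, MulAction.stabilizer H x = ⊥ := by
  classical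
  have hz : ∀ c : F, (0:F) * c = 0 := by
    intro c
    have h := Cfsg.NearField.right_distrib (0:F) 0 c
    rw [add_zero] at h
    exact add_eq_left.mp h.symm
  have hneg : ∀ a c : F, (-a) * c = -(a * c) := by
    intro a c
    have h := Cfsg.NearField.right_distrib (-a) a c
    rw [neg_add_cancel, hz] at h
    exact eq_neg_of_add_eq_zero_left h.symm
  have hsub : ∀ a b c : F, (a - b) * c = a * c - b * c := by
    intro a b c
    rw [sub_eq_add_neg, Cfsg.NearField.right_distrib, hneg, ← sub_eq_add_neg]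
  have hmul0 : ∀ a c : F, a ≠ 0 → c ≠ 0 → a * c ≠ 0 := by
    intro a c ha hc h
    obtain ⟨c', hc1, hc2⟩ := Cfsg.NearField.exists_inv c hc
    apply ha
    calc a = a * c * c' := by rw [mul_assoc, hc1, mul_one]
      _ = 0 := by rw [h, hz]
  have hinv0 : ∀ a a' : F, a * a' = 1 → a' ≠ 0 := by
    intro a a' h h0
    rw [h0, Cfsg.NearField.mul_zero] at h
    exact Cfsg.NearField.zero_ne_one h
  let H : Subgroup (Equiv.Perm F) :=
    { carrier := {σ | ∃ a b : F, a ≠ 0 ∧ ∀ x : F, σ x = x * a + b}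
      one_mem' := ⟨1, 0, (Cfsg.NearField.zero_ne_one).symm, fun x => by simp⟩
      mul_mem' := by
        rintro σ τ ⟨a, b, ha, hσ⟩ ⟨c, d, hc, hτ⟩
        refine ⟨c * a, d * a + b, hmul0 c a hc ha, fun x => ?_⟩
        rw [Equiv.Perm.mul_apply, hτ, hσ, Cfsg.NearField.right_distrib, mul_assoc, add_assoc]
      inv_mem' := by
        rintro σ ⟨a, b, ha, hσ⟩
        obtain ⟨a', h1, h2⟩ := Cfsg.NearField.exists_inv a ha
        refine ⟨a', (-b) * a', hinv0 a a' h1, fun y => ?_⟩
        rw [Equiv.Perm.inv_eq_iff_eq, hσ, Cfsg.NearField.right_distrib, mul_assoc, mul_assoc, h2,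
          mul_one, mul_one, add_assoc, neg_add_cancel, add_zero] }
  have hmk : ∀ a b : F, a ≠ 0 → ∃ σ : Equiv.Perm F, ∀ x, σ x = x * a + b := by
    intro a b ha
    obtain ⟨a', h1, h2⟩ := Cfsg.NearField.exists_inv a ha
    refine ⟨⟨fun x => x * a + b, fun y => (y - b) * a', ?_, ?_⟩, fun x => rfl⟩
    · intro x
      simp only
      rw [add_sub_cancel_right, mul_assoc, h1, mul_one]
    · intro y
      simp only
      rw [mul_assoc, h2, mul_one, sub_add_cancel]
  have hne : ∀ x : Fin 2 ↪ F, x 1 - x 0 ≠ 0 := by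
    intro x h
    have := x.injective (sub_eq_zero.mp h)
    exact absurd this (by decide)
  refine ⟨H, fun σ => Iff.rfl, ?_, ?_⟩
  · refine ⟨fun x y => ?_⟩
    have hx := hne x
    have hy := hne y
    obtain ⟨u', hu1, hu2⟩ := Cfsg.NearField.exists_inv _ hx
    have ha : u' * (y 1 - y 0) ≠ 0 := hmul0 _ _ (hinv0 _ _ hu1) hy
    obtain ⟨σ, hσ⟩ := hmk (u' * (y 1 - y 0)) (-(x 0 * (u' * (y 1 - y 0))) + y 0) ha
    refine ⟨⟨σ, _, _, ha, hσ⟩, ?_⟩
    ext i
    change σ (x i) = y i
    rw [hσ]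
    fin_cases i
    · simp
    · change x 1 * (u' * (y 1 - y 0)) + (-(x 0 * (u' * (y 1 - y 0))) + y 0) = y 1
      rw [← add_assoc, ← sub_eq_add_neg, ← hsub, ← mul_assoc, hu1, one_mul, sub_add_cancel]
  · intro x
    rw [eq_bot_iff]
    rintro ⟨σ, a, b, ha, hσ⟩ hs
    rw [MulAction.mem_stabilizer_iff] at hs
    have h0 : σ (x 0) = x 0 := congrFun (congrArg DFunLike.coe hs) 0
    have h1 : σ (x 1) = x 1 := congrFun (congrArg DFunLike.coe hs) 1
    rw [hσ] at h0 h1
    have hx := hne x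
    have hu : (x 1 - x 0) * a = x 1 - x 0 := by
      rw [hsub]
      have e1 : x 1 * a = x 1 - b := eq_sub_of_add_eq h1
      have e0 : x 0 * a = x 0 - b := eq_sub_of_add_eq h0
      rw [e1, e0, sub_sub_sub_cancel_right]
    obtain ⟨u', hu1, hu2⟩ := Cfsg.NearField.exists_inv _ hx
    have ha1 : a = 1 := by
      calc a = u' * ((x 1 - x 0) * a) := by rw [← mul_assoc, hu2, one_mul]
        _ = 1 := by rw [hu, hu2]
    have hb : b = 0 := by
      rw [ha1, mul_one] at h0
      exact add_eq_left.mp h0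
    rw [Subgroup.mem_bot]
    apply Subtype.ext
    ext y
    change σ y = y
    rw [hσ, ha1, hb, mul_one, add_zero]

end Cfsg.Agent.S0681
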