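import Cfsg.Statements.S0682
import Mathlib

set_option autoImplicit false
open Cfsg

namespace Cfsg.Agent.S0682

/-- A finite near-field has prime-power order; its additive group is commutative of prime exponent. -/
theorem result {F : Type*} [Cfsg.NearField F] [Finite F] : ∃ p j : ℕ, p.Prime ∧ 1 ≤ j ∧ Nat.card F = p ^ j ∧ (∀ x y : F, x + y = y + x) ∧ ∀ x : F, p • x = 0 := by
  classical
  have hz : ∀ c : F, (0:F) * c = 0 := by
    intro c
    have h := Cfsg.NearField.right_distrib (0:F) 0 c
    rw [add_zero] at h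
    exact add_eq_left.mp h.symm
  have hsmul : ∀ (n : ℕ) (x c : F), (n • x) * c = n • (x * c) := by
    intro n x c
    induction n with
    | zero => simp [hz]
    | succ k ih => rw [succ_nsmul, succ_nsmul, Cfsg.NearField.right_distrib, ih]
  have hNF : Nontrivial F := ⟨⟨0, 1, Cfsg.NearField.zero_ne_one⟩⟩
  have hcard : 1 < Nat.card F := Finite.one_lt_card
  obtain ⟨p, hp, hpd⟩ := Nat.exists_prime_and_dvd (show Nat.card F ≠ 1 by omega)
  have hFp : Fact p.Prime := ⟨hp⟩
  have hFin : Finite (Multiplicative F) := ‹Finite F›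
  have hNon : Nontrivial (Multiplicative F) := ‹Nontrivial F›
  obtain ⟨x₁, hx₁⟩ := exists_prime_orderOf_dvd_card' (G := Multiplicative F) p hpd
  have hx₀ : p • (Multiplicative.toAdd x₁) = 0 := by
    have h1 : x₁ ^ p = 1 := by rw [← hx₁]; exact pow_orderOf_eq_one _
    exact congrArg Multiplicative.toAdd h1
  have hx₀0 : Multiplicative.toAdd x₁ ≠ 0 := by
    intro h
    have h1 : x₁ = 1 := h
    rw [h1, orderOf_one] at hx₁
    exact hp.one_lt.ne hx₁
  have hpx : ∀ y : F, p • y = 0 := by
    intro y
    obtain ⟨b, hb1, hb2⟩ := Cfsg.NearField.exists_inv _ hx₀0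
    have : y = Multiplicative.toAdd x₁ * (b * y) := by rw [← mul_assoc, hb1, one_mul]
    rw [this, ← hsmul, hx₀, hz]
  have hP : IsPGroup p (Multiplicative F) := by
    intro g
    refine ⟨1, ?_⟩
    rw [pow_one]
    exact congrArg Multiplicative.ofAdd (hpx (Multiplicative.toAdd g))
  obtain ⟨j, hj⟩ := IsPGroup.iff_card.mp hP
  have hj' : Nat.card F = p ^ j := hj
  have hCN := hP.center_nontrivial
  obtain ⟨⟨z, hzc⟩, hz1⟩ := exists_ne (1 : Subgroup.center (Multiplicative F))
  have hz0 : Multiplicative.toAdd z ≠ 0 := by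
    intro h
    apply hz1
    apply Subtype.ext
    exact h
  have hzcomm : ∀ y : F, Multiplicative.toAdd z + y = y + Multiplicative.toAdd z := by
    intro y
    have := Subgroup.mem_center_iff.mp hzc (Multiplicative.ofAdd y)
    exact (congrArg Multiplicative.toAdd this).symm
  refine ⟨p, j, hp, ?_, hj', ?_, hpx⟩
  · rcases Nat.eq_zero_or_pos j with h0 | h0
    · rw [h0, pow_zero] at hj'
      omega
    · exact h0
  · intro x y
    by_cases hx : x = 0
    · rw [hx, zero_add, add_zero]
    obtain ⟨b, hb1, hb2⟩ := Cfsg.NearField.exists_inv _ hz0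
    have hxc : x = Multiplicative.toAdd z * (b * x) := by rw [← mul_assoc, hb1, one_mul]
    have hc0 : b * x ≠ 0 := by
      intro h
      rw [h, Cfsg.NearField.mul_zero] at hxc
      exact hx hxc
    obtain ⟨d, hd1, hd2⟩ := Cfsg.NearField.exists_inv _ hc0
    have hyc : y = (y * d) * (b * x) := by rw [mul_assoc, hd2, mul_one]
    rw [hxc, hyc, ← Cfsg.NearField.right_distrib, ← Cfsg.NearField.right_distrib, hzcomm]

end Cfsg.Agent.S0682
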