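import Cfsg.Statements.S0691
import Mathlib
import Cfsg.Agent.Helper6.M2
-- import your own Cfsg.Agent.* helpers here

set_option autoImplicit false
open Cfsg

namespace Cfsg.Agent.S0691

open Cfsg.Agent.Helper6.M2

def gens : List (List ℕ) := [[2, 0, 0, 3], [0, 4, 1, 0], [1, 2, 1, 3]]

def ginv : List (List ℕ) := [[3, 0, 0, 2], [0, 1, 4, 0], [3, 3, 4, 1]]

def L : List (List ℕ) := [
  [0, 1, 4, 0],
  [0, 2, 2, 0],
  [0, 3, 3, 0],
  [0, 4, 1, 0],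
  [1, 0, 0, 1],
  [1, 1, 2, 3],
  [1, 2, 1, 3],
  [1, 3, 4, 3],
  [1, 4, 3, 3],
  [2, 0, 0, 3],
  [2, 1, 2, 4],
  [2, 2, 1, 4],
  [2, 3, 4, 4],
  [2, 4, 3, 4],
  [3, 0, 0, 2],
  [3, 1, 2, 1],
  [3, 2, 1, 1],
  [3, 3, 4, 1],
  [3, 4, 3, 1],
  [4, 0, 0, 4],
  [4, 1, 2, 2],
  [4, 2, 1, 2],
  [4, 3, 4, 2],
  [4, 4, 3, 2]]

def W : List (List ℕ) := [
  [1, 0, 0],
  [1, 0],
  [0, 1],
  [1],
  [],
  [2, 1, 2],
  [2],
  [2, 0, 1],
  [2, 2, 0],
  [0],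
  [2, 0],
  [2, 2, 0, 0],
  [2, 1, 2, 0],
  [2, 1],
  [0, 0, 0],
  [1, 2, 0],
  [2, 2, 1],
  [2, 2],
  [0, 1, 2],
  [0, 0],
  [2, 0, 1, 2],
  [1, 2],
  [2, 0, 0],
  [2, 2, 0, 1]]

theorem one_mem : oneC ∈ L := by decide +kernel
theorem clos : ∀ c ∈ gens ++ ginv, ∀ d ∈ L, mulC 5 c d ∈ L := by decide +kernel
theorem hW : L = W.map (evalW 5 gens) := by decide +kernel
theorem hfix : ∀ c ∈ L, c = oneC ∨ fixdet 5 c % 5 ≠ 0 := by decide +kernel
theorem hcol : ∀ x < 5, ∀ y < 5, (x ≠ 0 ∨ y ≠ 0) → ∃ c ∈ L, g c 0 % 5 = x ∧ g c 2 % 5 = y := by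
  decide +kernel
theorem inv0 : mulC 5 [3, 0, 0, 2] [2, 0, 0, 3] = oneC := by decide +kernel
theorem inv1 : mulC 5 [0, 1, 4, 0] [0, 4, 1, 0] = oneC := by decide +kernel
theorem inv2 : mulC 5 [3, 3, 4, 1] [1, 2, 1, 3] = oneC := by decide +kernel

/-- An exceptional sharply doubly transitive group of degree 5^2: the listed matrices generate a subgroup of GL(2,5) of order 24 acting regularly on the non-zero vectors. -/
theorem result (A : Matrix.GeneralLinearGroup (Fin 2) (ZMod 5)) (B : Matrix.GeneralLinearGroup (Fin 2) (ZMod 5)) (C : Matrix.GeneralLinearGroup (Fin 2) (ZMod 5)) (hA : (A : Matrix (Fin 2) (Fin 2) (ZMod 5)) = !![2, 0; 0, -2]) (hB : (B : Matrix (Fin 2) (Fin 2) (ZMod 5)) = !![0, -1; 1, 0]) (hC : (C : Matrix (Fin 2) (Fin 2) (ZMod 5)) = !![1, 2; 1, -2]) : Nat.card (Subgroup.closure ({A, B, C} : Set (Matrix.GeneralLinearGroup (Fin 2) (ZMod 5)))) = 24 ∧ ∀ v w : Fin 2 →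 ZMod 5, v ≠ 0 → w ≠ 0 → ∃! h : Subgroup.closure ({A, B, C} : Set (Matrix.GeneralLinearGroup (Fin 2) (ZMod 5))), Matrix.mulVec ((h : Matrix.GeneralLinearGroup (Fin 2) (ZMod 5)) : Matrix (Fin 2) (Fin 2) (ZMod 5)) v = w := by
  haveI : Fact (Nat.Prime 5) := ⟨by norm_num⟩
  have eA : A.val = toMat 5 [2, 0, 0, 3] := by rw [hA]; decide
  have eB : B.val = toMat 5 [0, 4, 1, 0] := by rw [hB]; decide
  have eC : C.val = toMat 5 [1, 2, 1, 3] := by rw [hC]; decide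
  have hmain := main 5 ({A, B, C} : Set (GL2 5)) gens L W one_mem ?_ ?_ hW hfix hcol
  · exact hmain
  · intro s hs
    simp only [Set.mem_insert_iff, Set.mem_singleton_iff] at hs
    rcases hs with rfl | rfl | rfl
    · exact gen_ok 5 L _ _ _ eA inv0 (clos _ (by decide)) (clos _ (by decide))
    · exact gen_ok 5 L _ _ _ eB inv1 (clos _ (by decide)) (clos _ (by decide))
    · exact gen_ok 5 L _ _ _ eC inv2 (clos _ (by decide)) (clos _ (by decide))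
  · intro c hc
    simp only [gens, List.mem_cons, List.not_mem_nil, or_false] at hc
    rcases hc with rfl | rfl | rfl
    · exact ⟨A, by simp, eA⟩
    · exact ⟨B, by simp, eB⟩
    · exact ⟨C, by simp, eC⟩

end Cfsg.Agent.S0691
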