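import Cfsg.Statements.S0694
import Mathlib

set_option autoImplicit false
open Cfsg

namespace Cfsg.Agent.S0694

theorem conv (q d k : ℕ) (hq : 1 ≤ q) : q ^ k ≡ 1 [MOD d] ↔ d ∣ q ^ k - 1 := by
  rw [Nat.ModEq.comm, Nat.modEq_iff_dvd' (Nat.one_le_pow _ _ hq)]

theorem E_gcd (q d a b : ℕ) (ha : q ^ a ≡ 1 [MOD d]) (hb : q ^ b ≡ 1 [MOD d]) :
    q ^ (Nat.gcd a b) ≡ 1 [MOD d] := by
  rw [← ZMod.natCast_eq_natCast_iff] at ha hb ⊢
  push_cast at ha hb ⊢
  have h1 := orderOf_dvd_iff_pow_eq_one.mpr ha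
  have h2 := orderOf_dvd_iff_pow_eq_one.mpr hb
  exact orderOf_dvd_iff_pow_eq_one.mp (Nat.dvd_gcd h1 h2)

theorem E_of_dvd (q d a k : ℕ) (h : q ^ a ≡ 1 [MOD d]) (hak : a ∣ k) : q ^ k ≡ 1 [MOD d] := by
  obtain ⟨c, rfl⟩ := hak
  rw [pow_mul]
  have := h.pow c
  rwa [one_pow] at this

theorem lift (q p : ℕ) (hq : 1 ≤ q) (hp : p ∣ q - 1) (k : ℕ) :
    q ^ (p ^ k) ≡ 1 [MOD p ^ (k + 1)] := by
  rw [conv q _ _ hq]
  have h1 : ((p : ℕ) : ℤ) ∣ (q : ℤ) - 1 := by
    have := Int.natCast_dvd_natCast.mpr hp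
    rwa [Nat.cast_sub hq, Nat.cast_one] at this
  have h2 := dvd_sub_pow_of_dvd_sub h1 k
  rw [one_pow] at h2
  have h3 : (((p ^ (k + 1) : ℕ)) : ℤ) ∣ ((q ^ p ^ k - 1 : ℕ) : ℤ) := by
    rw [Nat.cast_sub (Nat.one_le_pow _ _ hq)]
    push_cast
    exact h2
  exact Int.natCast_dvd_natCast.mp h3

theorem combine (q N k : ℕ) (hq : 1 ≤ q)
    (h : ∀ p t : ℕ, p.Prime → 1 ≤ t → p ^ t ∣ N → q ^ k ≡ 1 [MOD p ^ t]) :
    q ^ k ≡ 1 [MOD N] := by
  rw [conv q N k hq, Nat.dvd_iff_prime_pow_dvd_dvd]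
  intro p t hp hpt
  rcases Nat.eq_zero_or_pos t with rfl | ht
  · simp
  · exact (conv q _ k hq).mp (h p t hp ht hpt)

theorem div_of_coprime (g r n : ℕ) (hg : g ∣ n) (hc : Nat.Coprime g r) (hr : r ∣ n) :
    g ∣ n / r := by
  have h1 : g ∣ r * (n / r) := by rw [Nat.mul_div_cancel' hr]; exact hg
  exact Nat.Coprime.dvd_of_dvd_mul_left hc h1

theorem fac (q : ℕ) (hq : 1 ≤ q) : q ^ 2 - 1 = (q - 1) * (q + 1) := by
  obtain ⟨c, rfl⟩ : ∃ c, q = c + 1 := ⟨q - 1, by omega⟩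
  have h : (c + 1) ^ 2 = c * (c + 1 + 1) + 1 := by ring
  rw [h]; simp

theorem decomp (q X : ℕ) (hq : 1 ≤ q) (hX : 1 ≤ X) :
    q * X - 1 = q * (X - 1) + (q - 1) := by
  obtain ⟨c, rfl⟩ : ∃ c, q = c + 1 := ⟨q - 1, by omega⟩
  obtain ⟨Y, rfl⟩ : ∃ Y, X = Y + 1 := ⟨X - 1, by omega⟩
  simp only [Nat.add_sub_cancel]
  have h : (c + 1) * (Y + 1) = (c + 1) * Y + c + 1 := by ring
  rw [h]; simp

theorem odd_val (q : ℕ) (hq : 2 ≤ q) (hq_odd : ¬ 2 ∣ q) (j : ℕ) :
    ¬ 2 ^ (padicValNat 2 (q - 1) + 1) ∣ q ^ (2 * j + 1) - 1 := by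
  intro hbig
  have hq1 : 1 ≤ q := by omega
  have hm0 : q - 1 ≠ 0 := by omega
  have hvd : 2 ^ (padicValNat 2 (q - 1)) ∣ q - 1 := pow_padicValNat_dvd
  have h2 : 2 ∣ q + 1 := by omega
  have hsq : 2 ^ (padicValNat 2 (q - 1) + 1) ∣ q ^ 2 - 1 := by
    rw [fac q hq1, pow_succ]
    exact mul_dvd_mul hvd h2
  have hsqj : 2 ^ (padicValNat 2 (q - 1) + 1) ∣ q ^ (2 * j) - 1 := by
    have := Nat.sub_one_dvd_pow_sub_one (q ^ 2) j
    rw [← pow_mul] at this
    exact hsq.trans this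
  have hp : q ^ (2 * j + 1) = q * q ^ (2 * j) := by ring
  rw [hp, decomp q _ hq1 (Nat.one_le_pow _ _ hq1)] at hbig
  have hq1' : 2 ^ (padicValNat 2 (q - 1) + 1) ∣ q - 1 :=
    (Nat.dvd_add_right (Dvd.dvd.mul_left hsqj q)).mp hbig
  have := (padicValNat_dvd_iff_le hm0).mp hq1'
  omega

theorem partOne (q n : ℕ) (hq : 2 ≤ q) (hn : 1 < n)
    (h1 : q ^ n ≡ 1 [MOD n * (q - 1)])
    (h2 : ∀ i : ℕ, 0 < i → i < n → ¬ q ^ i ≡ 1 [MOD n * (q - 1)]) :
    ∀ r : ℕ, r.Prime → r ∣ n → r ∣ q - 1 := by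
  intro r0 hr0p hr0n
  by_contra hr0m
  classical
  have hbound : ∀ r, (r.Prime ∧ r ∣ n ∧ ¬ r ∣ q - 1) → r ≤ n :=
    fun r hr => Nat.le_of_dvd (by omega) hr.2.1
  obtain ⟨r, ⟨hrp, hrn, hrm⟩, hmax⟩ : ∃ r, (r.Prime ∧ r ∣ n ∧ ¬ r ∣ q - 1) ∧
      ∀ r', (r'.Prime ∧ r' ∣ n ∧ ¬ r' ∣ q - 1) → r' ≤ r := by
    refine ⟨Nat.findGreatest (fun r => r.Prime ∧ r ∣ n ∧ ¬ r ∣ q - 1) n, ?_, ?_⟩
    · exact Nat.findGreatest_spec (P := fun r => r.Prime ∧ r ∣ n ∧ ¬ r ∣ q - 1)
        (hbound r0 ⟨hr0p, hr0n, hr0m⟩) ⟨hr0p, hr0n, hr0m⟩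
    · intro r' hr'
      exact Nat.le_findGreatest (P := fun r => r.Prime ∧ r ∣ n ∧ ¬ r ∣ q - 1) (hbound r' hr') hr'
  have hq1 : 1 ≤ q := by omega
  have hr2 : 2 ≤ r := hrp.two_le
  have hrle : r ≤ n := Nat.le_of_dvd (by omega) hrn
  have hnr_pos : 0 < n / r := Nat.div_pos hrle (by omega)
  have hnr_lt : n / r < n := Nat.div_lt_self (by omega) (by omega)
  apply h2 (n / r) hnr_pos hnr_lt
  apply combine q _ _ hq1
  intro p t hp ht hpt
  obtain ⟨s, rfl⟩ : ∃ s, t = s + 1 := ⟨t - 1, by omega⟩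
  have hEn : q ^ n ≡ 1 [MOD p ^ (s + 1)] := h1.of_dvd hpt
  have hpq : ¬ p ∣ q := by
    intro hpq
    have hd1 : p ∣ q ^ n - 1 :=
      (dvd_pow_self p (Nat.succ_ne_zero s)).trans ((conv q _ n hq1).mp hEn)
    have hd2 : p ∣ q ^ n := dvd_pow hpq (by omega)
    have h1le : 1 ≤ q ^ n := Nat.one_le_pow _ _ hq1
    have h3 : p ∣ 1 := by
      have := Nat.dvd_sub hd2 hd1
      rwa [Nat.sub_sub_self h1le] at this
    exact hp.not_dvd_one h3
  by_cases hpm : p ∣ q - 1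
  · have hE2 : q ^ (p ^ s) ≡ 1 [MOD p ^ (s + 1)] := lift q p hq1 hpm s
    have hg := E_gcd q _ _ _ hEn hE2
    have hpr : p ≠ r := fun h => hrm (h ▸ hpm)
    have hcop : Nat.Coprime (Nat.gcd n (p ^ s)) r :=
      Nat.Coprime.coprime_dvd_left (Nat.gcd_dvd_right _ _)
        (Nat.Coprime.pow_left _ ((Nat.coprime_primes hp hrp).mpr hpr))
    exact E_of_dvd q _ _ _ hg (div_of_coprime _ r n (Nat.gcd_dvd_left _ _) hcop hrn)
  · have hcop_q : Nat.Coprime q (p ^ (s + 1)) := Nat.Prime.coprime_pow_of_not_dvd hp hpq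
    have hE2 : q ^ (p ^ s * (p - 1)) ≡ 1 [MOD p ^ (s + 1)] := by
      have := Nat.ModEq.pow_totient hcop_q
      rw [Nat.totient_prime_pow hp (Nat.succ_pos s)] at this
      simpa using this
    have hg := E_gcd q _ _ _ hEn hE2
    have hptn : p ^ (s + 1) ∣ n :=
      Nat.Coprime.dvd_of_dvd_mul_right
        (Nat.Coprime.pow_left _ ((Nat.Prime.coprime_iff_not_dvd hp).mpr hpm)) hpt
    have hcp : Nat.Coprime (p - 1) p := by
      apply Nat.Coprime.symm
      rw [Nat.Prime.coprime_iff_not_dvd hp]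
      intro h
      have := Nat.le_of_dvd (by have := hp.two_le; omega) h
      have := hp.two_le
      omega
    by_cases hpr : p = r
    · obtain ⟨n₂, hn₂⟩ := hptn
      have hn' : n = p ^ s * (p * n₂) := by rw [hn₂, pow_succ, mul_assoc]
      have hgd : Nat.gcd n (p ^ s * (p - 1)) ∣ n / r := by
        have hg1 : Nat.gcd n (p ^ s * (p - 1)) = p ^ s * Nat.gcd (p * n₂) (p - 1) := by
          conv_lhs => rw [hn', Nat.gcd_mul_left]
        have hg2 : Nat.gcd (p * n₂) (p - 1) ∣ n₂ :=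
          Nat.Coprime.dvd_of_dvd_mul_left
            (Nat.Coprime.coprime_dvd_left (Nat.gcd_dvd_right _ _) hcp) (Nat.gcd_dvd_left _ _)
        have hdiv : n / r = p ^ s * n₂ := by
          rw [← hpr]
          apply Nat.div_eq_of_eq_mul_right hp.pos
          rw [hn₂, pow_succ]; ring
        rw [hg1, hdiv]
        exact Nat.mul_dvd_mul_left _ hg2
      exact E_of_dvd q _ _ _ hg hgd
    · have hpn : p ∣ n := (dvd_pow_self p (Nat.succ_ne_zero s)).trans hptn
      have hple : p ≤ r := hmax p ⟨hp, hpn, hpm⟩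
      have hplt : p < r := lt_of_le_of_ne hple hpr
      have hcop : Nat.Coprime (Nat.gcd n (p ^ s * (p - 1))) r := by
        apply Nat.Coprime.coprime_dvd_left (Nat.gcd_dvd_right _ _)
        apply Nat.Coprime.symm
        rw [Nat.Prime.coprime_iff_not_dvd hrp]
        intro hdvd
        rcases (Nat.Prime.dvd_mul hrp).mp hdvd with h | h
        · have := (Nat.prime_dvd_prime_iff_eq hrp hp).mp (hrp.dvd_of_dvd_pow h)
          omega
        · have := Nat.le_of_dvd (by have := hp.two_le; omega) h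
          omega
      exact E_of_dvd q _ _ _ hg (div_of_coprime _ r n (Nat.gcd_dvd_left _ _) hcop hrn)

theorem partTwo (q n : ℕ) (hq : 2 ≤ q) (hn : 1 < n)
    (h1 : q ^ n ≡ 1 [MOD n * (q - 1)])
    (h2 : ∀ i : ℕ, 0 < i → i < n → ¬ q ^ i ≡ 1 [MOD n * (q - 1)])
    (hA : ∀ r : ℕ, r.Prime → r ∣ n → r ∣ q - 1) : 4 ∣ n → 4 ∣ q - 1 := by
  intro h4n
  by_contra h4m
  have hq1 : 1 ≤ q := by omega
  have h2n : 2 ∣ n := by omega
  have h2m : 2 ∣ q - 1 := hA 2 Nat.prime_two h2n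
  have hpos : 0 < n / 2 := by omega
  have hlt : n / 2 < n := by omega
  apply h2 (n / 2) hpos hlt
  apply combine q _ _ hq1
  intro p t hp ht hpt
  obtain ⟨s, rfl⟩ : ∃ s, t = s + 1 := ⟨t - 1, by omega⟩
  have hEn : q ^ n ≡ 1 [MOD p ^ (s + 1)] := h1.of_dvd hpt
  have hpm : p ∣ q - 1 := by
    have hpN : p ∣ n * (q - 1) := (dvd_pow_self p (Nat.succ_ne_zero s)).trans hpt
    rcases (Nat.Prime.dvd_mul hp).mp hpN with h | h
    · exact hA p hp h
    · exact h
  by_cases hp2 : p = 2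
  · subst hp2
    have hn0 : n ≠ 0 := by omega
    have hm0 : q - 1 ≠ 0 := by omega
    have hq_odd : ¬ 2 ∣ q := by omega
    have hvN : s + 1 ≤ padicValNat 2 (n * (q - 1)) :=
      (padicValNat_dvd_iff_le (mul_ne_zero hn0 hm0)).mp hpt
    rw [padicValNat.mul hn0 hm0] at hvN
    have hvm : padicValNat 2 (q - 1) = 1 := by
      have h1' : 1 ≤ padicValNat 2 (q - 1) :=
        (padicValNat_dvd_iff_le hm0).mp (by simpa using h2m)
      have h2' : ¬ 2 ≤ padicValNat 2 (q - 1) := fun h =>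
        h4m (by simpa using (padicValNat_dvd_iff_le hm0).mpr h)
      omega
    have hn2 : n = 2 * (n / 2) := by omega
    have hhalf0 : n / 2 ≠ 0 := by omega
    have hvn : padicValNat 2 n = 1 + padicValNat 2 (n / 2) := by
      conv_lhs => rw [hn2]
      rw [padicValNat.mul (by norm_num) hhalf0, padicValNat_self]
    have heven : Even (n / 2) := by
      rw [Nat.even_iff]; omega
    have hlte := padicValNat.pow_two_sub_one (x := q) (n := n / 2) (by omega) hq_odd hhalf0 heven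
    have hvq1 : 2 ≤ padicValNat 2 (q + 1) :=
      (padicValNat_dvd_iff_le (by omega)).mp (by norm_num; omega)
    have hfin : s + 1 ≤ padicValNat 2 (q ^ (n / 2) - 1) := by omega
    rw [conv q _ _ hq1]
    have hne : q ^ (n / 2) - 1 ≠ 0 := by
      have : 2 ≤ q ^ (n / 2) := by
        calc 2 ≤ q := hq
          _ = q ^ 1 := (pow_one q).symm
          _ ≤ q ^ (n / 2) := Nat.pow_le_pow_right (by omega) (by omega)
      omega
    exact (padicValNat_dvd_iff_le hne).mpr hfin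
  · have hE2 : q ^ (p ^ s) ≡ 1 [MOD p ^ (s + 1)] := lift q p hq1 hpm s
    have hg := E_gcd q _ _ _ hEn hE2
    have hcop : Nat.Coprime (Nat.gcd n (p ^ s)) 2 :=
      Nat.Coprime.coprime_dvd_left (Nat.gcd_dvd_right _ _)
        (Nat.Coprime.pow_left _ ((Nat.coprime_primes hp Nat.prime_two).mpr hp2))
    exact E_of_dvd q _ _ _ hg (div_of_coprime _ 2 n (Nat.gcd_dvd_left _ _) hcop h2n)

theorem fwd (q n : ℕ) (hq : 2 ≤ q) (hn : 1 < n)
    (hA : ∀ r : ℕ, r.Prime → r ∣ n → r ∣ q - 1) (hA4 : 4 ∣ n → 4 ∣ q - 1) :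
    q ^ n ≡ 1 [MOD n * (q - 1)] ∧
      ∀ i : ℕ, 0 < i → i < n → ¬ q ^ i ≡ 1 [MOD n * (q - 1)] := by
  have hq1 : 1 ≤ q := by omega
  have hn0 : n ≠ 0 := by omega
  have hm0 : q - 1 ≠ 0 := by omega
  have hN0 : n * (q - 1) ≠ 0 := mul_ne_zero hn0 hm0
  have hpow_ne : ∀ k, k ≠ 0 → q ^ k - 1 ≠ 0 := by
    intro k hk
    have : 2 ≤ q ^ k := by
      calc 2 ≤ q := hq
        _ = q ^ 1 := (pow_one q).symm
        _ ≤ q ^ k := Nat.pow_le_pow_right (by omega) (by omega)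
    omega
  have hnotdvd : ∀ p, p.Prime → p ∣ q - 1 → ¬ p ∣ q := by
    intro p hp hpm hpq
    have h3 : p ∣ 1 := by
      have := Nat.dvd_sub hpq hpm
      rwa [Nat.sub_sub_self hq1] at this
    exact hp.not_dvd_one h3
  constructor
  · rw [conv q _ _ hq1, Nat.dvd_iff_prime_pow_dvd_dvd]
    intro p t hp hpt
    haveI : Fact p.Prime := ⟨hp⟩
    have hvN : t ≤ padicValNat p (n * (q - 1)) := (padicValNat_dvd_iff_le hN0).mp hpt
    rw [padicValNat.mul hn0 hm0] at hvN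
    apply (padicValNat_dvd_iff_le (hpow_ne n hn0)).mpr
    by_cases hpn : p ∣ n
    · have hpm := hA p hp hpn
      rcases hp.eq_two_or_odd' with rfl | hodd
      · have hq_odd : ¬ 2 ∣ q := hnotdvd 2 hp hpm
        have heven : Even n := by rw [Nat.even_iff]; omega
        have hlte := padicValNat.pow_two_sub_one (x := q) (n := n) (by omega) hq_odd hn0 heven
        have hvq1 : 1 ≤ padicValNat 2 (q + 1) :=
          (padicValNat_dvd_iff_le (by omega)).mp (by norm_num; omega)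
        omega
      · have hlte := padicValNat.pow_sub_pow hodd (by omega : 1 < q) hpm (hnotdvd p hp hpm) hn0
        rw [one_pow] at hlte
        omega
    · have hv0 : padicValNat p n = 0 := padicValNat.eq_zero_of_not_dvd hpn
      have hle : padicValNat p (q - 1) ≤ padicValNat p (q ^ n - 1) :=
        (padicValNat_dvd_iff_le (hpow_ne n hn0)).mp
          ((pow_padicValNat_dvd).trans (Nat.sub_one_dvd_pow_sub_one q n))
      omega
  · intro i hi hin hE
    rw [conv q _ _ hq1] at hE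
    have hi0 : i ≠ 0 := by omega
    have hni : n ∣ i := by
      rw [Nat.dvd_iff_prime_pow_dvd_dvd]
      intro p t hp hpt
      rcases Nat.eq_zero_or_pos t with rfl | ht
      · simp
      haveI : Fact p.Prime := ⟨hp⟩
      have hpn : p ∣ n := (dvd_pow_self p (by omega : t ≠ 0)).trans hpt
      have hpm := hA p hp hpn
      have hvn : t ≤ padicValNat p n := (padicValNat_dvd_iff_le hn0).mp hpt
      have hvE : padicValNat p n + padicValNat p (q - 1) ≤ padicValNat p (q ^ i - 1) := by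
        rw [← padicValNat.mul hn0 hm0]
        exact (padicValNat_dvd_iff_le (hpow_ne i hi0)).mp ((pow_padicValNat_dvd).trans hE)
      apply (padicValNat_dvd_iff_le hi0).mpr
      rcases hp.eq_two_or_odd' with rfl | hodd
      · have hq_odd : ¬ 2 ∣ q := hnotdvd 2 hp hpm
        rcases Nat.even_or_odd i with hev | hod
        · have hlte := padicValNat.pow_two_sub_one (x := q) (n := i) (by omega) hq_odd hi0 hev
          have hvi : 1 ≤ padicValNat 2 i :=
            (padicValNat_dvd_iff_le hi0).mp (by simpa using hev.two_dvd)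
          by_cases h4m : 4 ∣ q - 1
          · have hvq1 : padicValNat 2 (q + 1) = 1 := by
              have h1' : 1 ≤ padicValNat 2 (q + 1) :=
                (padicValNat_dvd_iff_le (by omega)).mp (by norm_num; omega)
              have h2' : ¬ 2 ≤ padicValNat 2 (q + 1) := fun h => by
                have h5 : 2 ^ 2 ∣ q + 1 := (padicValNat_dvd_iff_le (by omega)).mpr h
                norm_num at h5
                omega
              omega
            omega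
          · have h4n : ¬ 4 ∣ n := fun h => h4m (hA4 h)
            have hvn1 : ¬ 2 ≤ padicValNat 2 n := fun h =>
              h4n (by simpa using (padicValNat_dvd_iff_le hn0).mpr h)
            omega
        · exfalso
          have hv1 : 1 ≤ padicValNat 2 n :=
            (padicValNat_dvd_iff_le hn0).mp (by simpa using hpn)
          have hbig : 2 ^ (padicValNat 2 (q - 1) + 1) ∣ q ^ i - 1 :=
            (padicValNat_dvd_iff_le (hpow_ne i hi0)).mpr (by omega)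
          obtain ⟨j, hj⟩ := hod
          rw [hj] at hbig
          exact odd_val q hq hq_odd j hbig
      · have hlte := padicValNat.pow_sub_pow hodd (by omega : 1 < q) hpm (hnotdvd p hp hpm) hi0
        rw [one_pow] at hlte
        omega
    have := Nat.le_of_dvd hi hni
    omega

/-- The Dickson pair condition: for a prime power `q` and `n > 1`, (every prime factor of `n` divides `q - 1`, and `4 ∣ n → 4 ∣ q - 1`) holds exactly when `q ^ n ≡ 1` modulo `n * (q - 1)` but `q ^ i` is not, for `0 < i < n`. -/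
theorem result (q n : ℕ) (hq : IsPrimePow q) (hn : 1 < n) : ((∀ r : ℕ, r.Prime → r ∣ n → r ∣ q - 1) ∧ (4 ∣ n → 4 ∣ q - 1)) ↔ (q ^ n ≡ 1 [MOD n * (q - 1)] ∧ ∀ i : ℕ, 0 < i → i < n → ¬ q ^ i ≡ 1 [MOD n * (q - 1)]) := by
  have hq2 : 2 ≤ q := hq.two_le
  constructor
  · rintro ⟨hA, hA4⟩
    exact fwd q n hq2 hn hA hA4
  · rintro ⟨h1, h2⟩
    have hA := partOne q n hq2 hn h1 h2
    exact ⟨hA, partTwo q n hq2 hn h1 h2 hA⟩

end Cfsg.Agent.S0694
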