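import Mathlib
import Cfsg.Agent.Helper2.JordanNormal
import Cfsg.Statements.S0698

set_option autoImplicit false
open Cfsg

namespace Cfsg.Agent.S0698

/-- Jordan's Theorem on normal subgroups of multiply transitive groups: if `G` is `k`-transitive (`k > 1`) of degree greater than `k`, a non-trivial normal subgroup is `(k-1)`-transitive, except possibly for `k = 3` when it may be an elementary abelian 2-group. -/
theorem result {α : Type*} [Fintype α] [DecidableEq α] (G : Subgroup (Equiv.Perm α)) {k : ℕ} (hk : 1 < k) (hdeg : k < Fintype.card α) (hG : MulAction.IsMultiplyPretransitive G α k) (N : Subgroup G) [N.Normal] (hN : N ≠ ⊥) : MulAction.IsMultiplyPretransitive N α (k - 1) ∨ (k = 3 ∧ IsMulCommutative N ∧ ∀ n ∈ N, n ^ 2 = 1) := by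
  classical
  have hfaith : ∀ g : ↥G, (∀ x : α, g • x = x) → g = 1 := by
    intro g h
    apply Subtype.ext
    apply Equiv.ext
    intro x
    exact h x
  have hcard : k < Nat.card α := by
    rw [Nat.card_eq_fintype_card]; exact hdeg
  rcases Cfsg.Agent.Helper2.JordanNormal.main k hk ↥G α hfaith hG hcard N inferInstance hN with h | ⟨hk3, hexp, -, -⟩
  · exact Or.inl h
  · refine Or.inr ⟨hk3, ?_, hexp⟩
    refine isMulCommutative_iff.mpr ?_
    intro a b
    apply Subtype.ext
    exact Cfsg.Agent.Helper2.JordanNormal.comm_of_sq (hexp a a.2) (hexp b b.2)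
      (hexp (a * b) (N.mul_mem a.2 b.2))


end Cfsg.Agent.S0698
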