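import Cfsg.Statements.S0701
import Mathlib

set_option autoImplicit false
open Cfsg

namespace Cfsg.Agent.S0701

/-- The centraliser in the full symmetric group of a transitive permutation group `G` is semiregular, and it is transitive if and only if `G` is regular. -/
theorem result {α : Type*} (G : Subgroup (Equiv.Perm α)) [MulAction.IsPretransitive G α] : (∀ c ∈ Subgroup.centralizer (G : Set (Equiv.Perm α)), ∀ a : α, c a = a → c = 1) ∧ (MulAction.IsPretransitive (Subgroup.centralizer (G : Set (Equiv.Perm α))) α ↔ ∀ a : α, MulAction.stabilizer G a = ⊥) := by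
  refine ⟨?_, ?_, ?_⟩
  · intro c hc a hca
    ext b
    obtain ⟨g, rfl⟩ := MulAction.exists_smul_eq G a b
    have h1 := Subgroup.mem_centralizer_iff.mp hc (g : Equiv.Perm α) g.2
    have h2 := congrArg (fun σ : Equiv.Perm α => σ a) h1
    simp only [Equiv.Perm.coe_mul, Function.comp_apply] at h2
    rw [hca] at h2
    show c ((g : Equiv.Perm α) a) = (g : Equiv.Perm α) a
    exact h2.symm
  · intro htr a
    rw [Subgroup.eq_bot_iff_forall]
    intro g hg
    apply Subtype.ext
    ext b
    obtain ⟨c, rfl⟩ :=
      MulAction.exists_smul_eq (Subgroup.centralizer (G : Set (Equiv.Perm α))) a b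
    have h1 := Subgroup.mem_centralizer_iff.mp c.2 (g : Equiv.Perm α) g.2
    have h2 := congrArg (fun σ : Equiv.Perm α => σ a) h1
    simp only [Equiv.Perm.coe_mul, Function.comp_apply] at h2
    have hga : (g : Equiv.Perm α) a = a := hg
    rw [hga] at h2
    show (g : Equiv.Perm α) ((c : Equiv.Perm α) a) = (c : Equiv.Perm α) a
    exact h2
  · intro hreg
    have hinj : ∀ (y : α) (g h : G), g • y = h • y → g = h := by
      intro y g h hgh
      have hm : h⁻¹ * g ∈ MulAction.stabilizer G y := by
        rw [MulAction.mem_stabilizer_iff, mul_smul, hgh, inv_smul_smul]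
      rw [hreg y, Subgroup.mem_bot] at hm
      exact (inv_mul_eq_one.mp hm).symm
    constructor
    intro a b
    choose γ hγ using fun x => MulAction.exists_smul_eq G a x
    choose δ hδ using fun x => MulAction.exists_smul_eq G b x
    let c : Equiv.Perm α :=
      { toFun := fun x => γ x • b
        invFun := fun x => δ x • a
        left_inv := by
          intro x
          show δ (γ x • b) • a = x
          have e : δ (γ x • b) = γ x := hinj b _ _ (hδ _)
          rw [e, hγ]
        right_inv := by
          intro x
          show γ (δ x • a) • b = x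
          have e : γ (δ x • a) = δ x := hinj a _ _ (hγ _)
          rw [e, hδ] }
    have hcmem : c ∈ Subgroup.centralizer (G : Set (Equiv.Perm α)) := by
      rw [Subgroup.mem_centralizer_iff]
      intro h hh
      ext x
      show h (γ x • b) = γ (h x) • b
      have e : γ (h x) = ⟨h, hh⟩ * γ x := by
        apply hinj a
        rw [hγ, mul_smul, hγ]
        rfl
      rw [e, mul_smul]
      rfl
    refine ⟨⟨c, hcmem⟩, ?_⟩
    show γ a • b = b
    have e : γ a = 1 := hinj a _ _ (by rw [hγ, one_smul])
    rw [e, one_smul]


end Cfsg.Agent.S0701
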