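import Cfsg.Statements.S0703
import Mathlib

set_option autoImplicit false
open Cfsg

namespace Cfsg.Agent.S0703

/-- An abelian transitive minimal normal subgroup `M` of a permutation group on a finite set is self-centralising in the symmetric group, regular, elementary abelian, and is the unique minimal normal subgroup. -/
theorem result {α : Type*} [Finite α] (G : Subgroup (Equiv.Perm α)) (M : Subgroup G) [M.Normal] (hM : M ≠ ⊥) (hmin : ∀ L : Subgroup G, L.Normal → L ≤ M → L = ⊥ ∨ L = M) (hab : IsMulCommutative M) (htrans : MulAction.IsPretransitive M α) : Subgroup.centralizer ((M.map G.subtype : Subgroup (Equiv.Perm α)) : Set (Equiv.Perm α)) = M.map G.subtype ∧ (∀ a : α, MulAction.stabilizer M a = ⊥) ∧ (∃ p : ℕ, p.Prime ∧ ∀ m ∈ M, m ^ p = 1) ∧ ∀ L : Subgroup G, L.Normal → L ≠ ⊥ → (∀ L' : Subgroup G, L'.Normal → L' ≤ L → L' = ⊥ ∨ L' = L) → L = M := by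
  classical
  have hMn : M.Normal := inferInstance
  have hcomm : ∀ x ∈ M, ∀ y ∈ M, x * y = y * x := by
    intro x hx y hy
    have := mul_comm' (⟨x, hx⟩ : M) ⟨y, hy⟩
    exact congrArg Subtype.val this
  -- (b) stabilizers are trivial
  have hstab : ∀ a : α, MulAction.stabilizer M a = ⊥ := by
    intro a
    rw [eq_bot_iff]
    intro m hm
    rw [MulAction.mem_stabilizer_iff] at hm
    rw [Subgroup.mem_bot]
    apply Subtype.ext
    apply Subtype.ext
    apply Equiv.ext
    intro b
    obtain ⟨n, rfl⟩ := MulAction.exists_smul_eq M a b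
    show m • (n • a) = n • a
    rw [smul_smul, mul_comm' m n, ← smul_smul, hm]
  have hne : Nonempty α := by
    by_contra hempty
    rw [not_nonempty_iff] at hempty
    apply hM
    rw [eq_bot_iff]
    intro m _
    rw [Subgroup.mem_bot]
    apply Subtype.ext
    apply Equiv.ext
    intro b
    exact (hempty.false b).elim
  obtain ⟨a₀⟩ := hne
  have hcent : Subgroup.centralizer ((M.map G.subtype : Subgroup (Equiv.Perm α)) :
      Set (Equiv.Perm α)) = M.map G.subtype := by
    apply le_antisymm
    · intro c hc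
      rw [Subgroup.mem_centralizer_iff] at hc
      obtain ⟨n, hn⟩ := MulAction.exists_smul_eq M a₀ (c a₀)
      have hc1 : c = ((n : G) : Equiv.Perm α) := by
        apply Equiv.ext
        intro b
        obtain ⟨m, rfl⟩ := MulAction.exists_smul_eq M a₀ b
        have h1 : ((m : G) : Equiv.Perm α) * c = c * ((m : G) : Equiv.Perm α) :=
          hc _ ⟨(m : G), m.2, rfl⟩
        have h2 : c (((m : G) : Equiv.Perm α) a₀) = ((m : G) : Equiv.Perm α) (c a₀) := by
          have := congrArg (fun f : Equiv.Perm α => f a₀) h1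
          simpa [Equiv.Perm.mul_apply] using this.symm
        show c (((m : G) : Equiv.Perm α) a₀) = ((n : G) : Equiv.Perm α) (((m : G) : Equiv.Perm α) a₀)
        rw [h2, ← hn]
        show m • n • a₀ = n • m • a₀
        rw [smul_smul, smul_smul, mul_comm' m n]
      rw [hc1]
      exact ⟨(n : G), n.2, rfl⟩
    · rintro _ ⟨x, hx, rfl⟩
      rw [Subgroup.mem_centralizer_iff]
      rintro _ ⟨y, hy, rfl⟩
      show G.subtype y * G.subtype x = G.subtype x * G.subtype y
      rw [← map_mul, ← map_mul, hcomm y hy x hx]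
  refine ⟨hcent, hstab, ?_, ?_⟩
  · have hMnt : Nontrivial M := (Subgroup.nontrivial_iff_ne_bot M).mpr hM
    have hcard : 1 < Nat.card M := Finite.one_lt_card
    obtain ⟨p, hp, hpdvd⟩ := Nat.exists_prime_and_dvd (n := Nat.card M) (by omega)
    have : Fact p.Prime := ⟨hp⟩
    obtain ⟨x, hx⟩ := exists_prime_orderOf_dvd_card' p hpdvd
    let L : Subgroup G :=
      { carrier := {g | g ∈ M ∧ g ^ p = 1}
        one_mem' := ⟨M.one_mem, one_pow p⟩
        mul_mem' := fun {a b} ha hb => ⟨M.mul_mem ha.1 hb.1, by
          rw [(show Commute a b from hcomm a ha.1 b hb.1).mul_pow, ha.2, hb.2, one_mul]⟩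
        inv_mem' := fun {a} ha => ⟨M.inv_mem ha.1, by rw [inv_pow, ha.2, inv_one]⟩ }
    have hLn : L.Normal := ⟨fun l hl g => ⟨hMn.conj_mem l hl.1 g, by
      rw [conj_pow, hl.2, mul_one, mul_inv_cancel]⟩⟩
    have hLM : L ≤ M := fun l hl => hl.1
    have hLne : L ≠ ⊥ := by
      intro h
      have hxL : (x : G) ∈ L := by
        refine ⟨x.2, ?_⟩
        have h1 := pow_orderOf_eq_one x
        rw [hx] at h1
        have h2 := congrArg Subtype.val h1
        simpa using h2
      rw [h, Subgroup.mem_bot] at hxL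
      have h3 : x = 1 := Subtype.ext hxL
      rw [h3, orderOf_one] at hx
      exact hp.one_lt.ne hx
    have hLeq : L = M := (hmin L hLn hLM).resolve_left hLne
    refine ⟨p, hp, fun m hm => ?_⟩
    have hmL : m ∈ L := by rw [hLeq]; exact hm
    exact hmL.2
  · intro L hL hLne hLmin
    have hLMn : (L ⊓ M).Normal := Subgroup.normal_inf_normal L M
    rcases hLmin (L ⊓ M) hLMn inf_le_left with h0 | h1
    · exfalso
      apply hLne
      rw [eq_bot_iff]
      intro l hl
      have hlc : (G.subtype l) ∈ Subgroup.centralizer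
          ((M.map G.subtype : Subgroup (Equiv.Perm α)) : Set (Equiv.Perm α)) := by
        rw [Subgroup.mem_centralizer_iff]
        rintro _ ⟨y, hy, rfl⟩
        have hc := Subgroup.commute_of_normal_of_disjoint M L hMn hL
          (disjoint_iff.mpr (by rw [inf_comm]; exact h0)) y l hy hl
        show G.subtype y * G.subtype l = G.subtype l * G.subtype y
        rw [← map_mul, ← map_mul, hc.eq]
      rw [hcent] at hlc
      obtain ⟨m, hm, hml⟩ := hlc
      have hmeq : m = l := G.subtype_injective hml
      have hlM : l ∈ L ⊓ M := ⟨hl, hmeq ▸ hm⟩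
      rw [h0] at hlM
      exact hlM
    · have hLM : L ≤ M := by rw [← h1]; exact inf_le_right
      exact (hmin L hL hLM).resolve_left hLne

end Cfsg.Agent.S0703
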