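import Cfsg.Statements.S0704
import Mathlib

set_option autoImplicit false
open Cfsg

namespace Cfsg.Agent.S0704

/-- Two distinct transitive minimal normal subgroups `M`, `N` of a permutation group are regular, non-abelian, isomorphic, each other's centraliser in the symmetric group, and the only minimal normal subgroups. -/
theorem result {α : Type*} (G : Subgroup (Equiv.Perm α)) (M N : Subgroup G) [M.Normal] [N.Normal] (hM : M ≠ ⊥) (hN : N ≠ ⊥) (hMmin : ∀ L : Subgroup G, L.Normal → L ≤ M → L = ⊥ ∨ L = M) (hNmin : ∀ L : Subgroup G, L.Normal → L ≤ N → L = ⊥ ∨ L = N) (hMN : M ≠ N) (hMt : MulAction.IsPretransitive M α) (hNt : MulAction.IsPretransitive N α) : (∀ a : α, MulAction.stabilizer M a = ⊥) ∧ (∀ a : α, MulAction.stabilizer N a = ⊥) ∧ ¬ IsMulCommutative M ∧ Nonempty (M ≃* N) ∧ Subgroup.centralizer ((M.map G.subtype : Subgroup (Equiv.Perm α)) : Set (Equiv.Perm α)) = N.map G.subtype ∧ Subgroup.centralizer ((N.map G.subtype : Subgroup (Equiv.Perm α)) : Set (Equiv.Perm α)) = M.map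 G.subtype ∧ ∀ L : Subgroup G, L.Normal → L ≠ ⊥ → (∀ L' : Subgroup G, L'.Normal → L' ≤ L → L' = ⊥ ∨ L' = L) → L = M ∨ L = N := by
  classical
  have hMn : M.Normal := inferInstance
  have hNn : N.Normal := inferInstance
  -- `M ⊓ N = ⊥`
  have hdisj : M ⊓ N = ⊥ := by
    rcases hMmin (M ⊓ N) (Subgroup.normal_inf_normal M N) inf_le_left with h | h
    · exact h
    · exfalso
      have hMN' : M ≤ N := by rw [← h]; exact inf_le_right
      rcases hNmin M hMn hMN' with h1 | h1
      · exact hM h1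
      · exact hMN h1
  have hcomm : ∀ m ∈ M, ∀ n ∈ N, m * n = n * m := fun m hm n hn =>
    (Subgroup.commute_of_normal_of_disjoint M N hMn hNn (disjoint_iff.mpr hdisj) m n hm hn).eq
  have hMtr : ∀ a b : α, ∃ m ∈ M, m • a = b := by
    intro a b
    obtain ⟨m, hm⟩ := MulAction.exists_smul_eq M a b
    exact ⟨(m : G), m.2, hm⟩
  have hNtr : ∀ a b : α, ∃ n ∈ N, n • a = b := by
    intro a b
    obtain ⟨n, hn⟩ := MulAction.exists_smul_eq N a b
    exact ⟨(n : G), n.2, hn⟩
  have hGext : ∀ g : G, (∀ b : α, g • b = b) → g = 1 := by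
    intro g hg
    apply Subtype.ext
    apply Equiv.ext
    intro b
    exact hg b
  -- regularity
  have hMreg : ∀ m ∈ M, ∀ a : α, m • a = a → m = 1 := by
    intro m hm a hma
    apply hGext
    intro b
    obtain ⟨n, hn, rfl⟩ := hNtr a b
    rw [smul_smul, hcomm m hm n hn, ← smul_smul, hma]
  have hNreg : ∀ n ∈ N, ∀ a : α, n • a = a → n = 1 := by
    intro n hn a hna
    apply hGext
    intro b
    obtain ⟨m, hm, rfl⟩ := hMtr a b
    rw [smul_smul, ← hcomm m hm n hn, ← smul_smul, hna]
  have hMstab : ∀ a : α, MulAction.stabilizer M a = ⊥ := by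
    intro a
    rw [eq_bot_iff]
    intro m hm
    rw [MulAction.mem_stabilizer_iff] at hm
    rw [Subgroup.mem_bot]
    exact Subtype.ext (hMreg (m : G) m.2 a hm)
  have hNstab : ∀ a : α, MulAction.stabilizer N a = ⊥ := by
    intro a
    rw [eq_bot_iff]
    intro n hn
    rw [MulAction.mem_stabilizer_iff] at hn
    rw [Subgroup.mem_bot]
    exact Subtype.ext (hNreg (n : G) n.2 a hn)
  have hne : Nonempty α := by
    by_contra hempty
    rw [not_nonempty_iff] at hempty
    apply hM
    rw [eq_bot_iff]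
    intro m _
    rw [Subgroup.mem_bot]
    exact hGext m (fun b => (hempty.false b).elim)
  obtain ⟨a₀⟩ := hne
  -- centralizers
  have hcentM : Subgroup.centralizer ((M.map G.subtype : Subgroup (Equiv.Perm α)) :
      Set (Equiv.Perm α)) = N.map G.subtype := by
    apply le_antisymm
    · intro c hc
      rw [Subgroup.mem_centralizer_iff] at hc
      obtain ⟨n, hn, hna⟩ := hNtr a₀ (c a₀)
      have hc1 : c = (n : Equiv.Perm α) := by
        apply Equiv.ext
        intro b
        obtain ⟨m, hm, rfl⟩ := hMtr a₀ b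
        have h1 : (m : Equiv.Perm α) * c = c * (m : Equiv.Perm α) := hc _ ⟨m, hm, rfl⟩
        have h2 : c ((m : Equiv.Perm α) a₀) = (m : Equiv.Perm α) (c a₀) := by
          have := congrArg (fun f : Equiv.Perm α => f a₀) h1
          simpa [Equiv.Perm.mul_apply] using this.symm
        show c ((m : Equiv.Perm α) a₀) = (n : Equiv.Perm α) ((m : Equiv.Perm α) a₀)
        rw [h2, ← hna]
        show m • n • a₀ = n • m • a₀
        rw [smul_smul, smul_smul, hcomm m hm n hn]
      rw [hc1]
      exact ⟨n, hn, rfl⟩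
    · rintro _ ⟨x, hx, rfl⟩
      rw [Subgroup.mem_centralizer_iff]
      rintro _ ⟨y, hy, rfl⟩
      show G.subtype y * G.subtype x = G.subtype x * G.subtype y
      rw [← map_mul, ← map_mul, hcomm y hy x hx]
  have hcentN : Subgroup.centralizer ((N.map G.subtype : Subgroup (Equiv.Perm α)) :
      Set (Equiv.Perm α)) = M.map G.subtype := by
    apply le_antisymm
    · intro c hc
      rw [Subgroup.mem_centralizer_iff] at hc
      obtain ⟨m, hm, hma⟩ := hMtr a₀ (c a₀)
      have hc1 : c = (m : Equiv.Perm α) := by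
        apply Equiv.ext
        intro b
        obtain ⟨n, hn, rfl⟩ := hNtr a₀ b
        have h1 : (n : Equiv.Perm α) * c = c * (n : Equiv.Perm α) := hc _ ⟨n, hn, rfl⟩
        have h2 : c ((n : Equiv.Perm α) a₀) = (n : Equiv.Perm α) (c a₀) := by
          have := congrArg (fun f : Equiv.Perm α => f a₀) h1
          simpa [Equiv.Perm.mul_apply] using this.symm
        show c ((n : Equiv.Perm α) a₀) = (m : Equiv.Perm α) ((n : Equiv.Perm α) a₀)
        rw [h2, ← hma]
        show n • m • a₀ = m • n • a₀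
        rw [smul_smul, smul_smul, hcomm m hm n hn]
      rw [hc1]
      exact ⟨m, hm, rfl⟩
    · rintro _ ⟨x, hx, rfl⟩
      rw [Subgroup.mem_centralizer_iff]
      rintro _ ⟨y, hy, rfl⟩
      show G.subtype y * G.subtype x = G.subtype x * G.subtype y
      rw [← map_mul, ← map_mul, hcomm x hx y hy]
  refine ⟨hMstab, hNstab, ?_, ?_, hcentM, hcentN, ?_⟩
  · -- `M` is not abelian
    intro hab
    apply hM
    rw [eq_bot_iff, ← hdisj]
    intro m hm
    refine Subgroup.mem_inf.mpr ⟨hm, ?_⟩
    have h1 : G.subtype m ∈ Subgroup.centralizer ((M.map G.subtype : Subgroup (Equiv.Perm α)) :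
        Set (Equiv.Perm α)) := by
      rw [Subgroup.mem_centralizer_iff]
      rintro _ ⟨y, hy, rfl⟩
      show G.subtype y * G.subtype m = G.subtype m * G.subtype y
      rw [← map_mul, ← map_mul]
      have := mul_comm' (⟨y, hy⟩ : M) ⟨m, hm⟩
      have h2 : y * m = m * y := congrArg Subtype.val this
      rw [h2]
    rw [hcentM] at h1
    obtain ⟨n, hn, hnm⟩ := h1
    have : n = m := G.subtype_injective hnm
    rw [← this]; exact hn
  · -- the isomorphism
    have hex : ∀ m : M, ∃ n : N, (n : G) • a₀ = ((m : G))⁻¹ • a₀ := by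
      intro m
      obtain ⟨n, hn, hna⟩ := hNtr a₀ (((m : G))⁻¹ • a₀)
      exact ⟨⟨n, hn⟩, hna⟩
    choose φ hφ using hex
    have hNinj : ∀ n n' : N, (n : G) • a₀ = (n' : G) • a₀ → n = n' := by
      intro n n' h
      have h1 : ((n' : G)⁻¹ * (n : G)) • a₀ = a₀ := by
        rw [mul_smul, h, inv_smul_smul]
      have h2 := hNreg _ (N.mul_mem (N.inv_mem n'.2) n.2) a₀ h1
      apply Subtype.ext
      exact (inv_mul_eq_one.mp h2).symm
    have hmul : ∀ m₁ m₂ : M, φ (m₁ * m₂) = φ m₁ * φ m₂ := by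
      intro m₁ m₂
      apply hNinj
      rw [hφ]
      show ((m₁ : G) * (m₂ : G))⁻¹ • a₀ = ((φ m₁ : G) * (φ m₂ : G)) • a₀
      rw [mul_inv_rev, mul_smul, ← hφ m₁, smul_smul,
        hcomm _ (M.inv_mem m₂.2) _ (φ m₁).2, ← smul_smul, ← hφ m₂, smul_smul]
    refine ⟨MulEquiv.ofBijective (MonoidHom.mk' φ hmul) ⟨?_, ?_⟩⟩
    · intro m m' h
      have h' : φ m = φ m' := h
      have h1 : ((m : G))⁻¹ • a₀ = ((m' : G))⁻¹ • a₀ := by rw [← hφ m, ← hφ m', h']
      have h2 : ((m : G) * (m' : G)⁻¹) • a₀ = a₀ := by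
        rw [mul_smul, ← h1, smul_inv_smul]
      have h3 := hMreg _ (M.mul_mem m.2 (M.inv_mem m'.2)) a₀ h2
      apply Subtype.ext
      exact mul_inv_eq_one.mp h3
    · intro n
      obtain ⟨m', hm', hma⟩ := hMtr a₀ ((n : G) • a₀)
      refine ⟨⟨m'⁻¹, M.inv_mem hm'⟩, ?_⟩
      apply hNinj
      show (φ ⟨m'⁻¹, M.inv_mem hm'⟩ : G) • a₀ = (n : G) • a₀
      rw [hφ]
      show (m'⁻¹)⁻¹ • a₀ = (n : G) • a₀
      rw [inv_inv, hma]
  · intro L hL hLne hLmin
    by_cases hLM : L = M
    · exact Or.inl hLM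
    right
    have hLMdisj : L ⊓ M = ⊥ := by
      rcases hLmin (L ⊓ M) (Subgroup.normal_inf_normal L M) inf_le_left with h | h
      · exact h
      · exfalso
        have hLM' : L ≤ M := by rw [← h]; exact inf_le_right
        rcases hMmin L hL hLM' with h1 | h1
        · exact hLne h1
        · exact hLM h1
    have hLN : L ≤ N := by
      intro l hl
      have h1 : G.subtype l ∈ Subgroup.centralizer
          ((M.map G.subtype : Subgroup (Equiv.Perm α)) : Set (Equiv.Perm α)) := by
        rw [Subgroup.mem_centralizer_iff]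
        rintro _ ⟨y, hy, rfl⟩
        have hc := Subgroup.commute_of_normal_of_disjoint M L hMn hL
          (disjoint_iff.mpr (by rw [inf_comm]; exact hLMdisj)) y l hy hl
        show G.subtype y * G.subtype l = G.subtype l * G.subtype y
        rw [← map_mul, ← map_mul, hc.eq]
      rw [hcentM] at h1
      obtain ⟨n, hn, hnl⟩ := h1
      have : n = l := G.subtype_injective hnl
      rw [← this]; exact hn
    exact (hNmin L hL hLN).resolve_left hLne

end Cfsg.Agent.S0704
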