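import Cfsg.Statements.S0705
import Cfsg.Agent.Helper8.MultTrans

set_option autoImplicit false
open scoped Pointwise
open Cfsg

namespace Cfsg.Agent.S0705

/-- A generously `k`-transitive permutation group (every `(k+1)`-subset has its full symmetric group induced by the setwise stabiliser) of degree greater than `k` is `k`-transitive, and for a `k`-subset the setwise and pointwise stabilisers have the same orbits outside it. -/
theorem result {α : Type*} [Fintype α] [DecidableEq α] (G : Subgroup (Equiv.Perm α)) {k : ℕ} (hk : k < Fintype.card α) (hgen : ∀ s : Finset α, s.card = k + 1 → ∀ σ : Equiv.Perm ↥s, ∃ g ∈ G, ∀ x : ↥s, g (x : α) = σ x) : MulAction.IsMultiplyPretransitive G α k ∧ ∀ s : Finset α, s.card = k → ∀ a b : α, a ∉ s → b ∉ s → (∃ g ∈ G, g • s = s ∧ g a = b) → ∃ g ∈ G, (∀ x ∈ s, g x = x) ∧ g a = b := by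
  classical
  refine ⟨?_, ?_⟩
  · apply Cfsg.Agent.Helper8.MultTrans.conn hk
    intro x i β hβ
    have hβ' : β ∉ Finset.univ.map x := by
      intro h
      obtain ⟨l, -, hl⟩ := Finset.mem_map.mp h
      exact hβ ⟨l, hl⟩
    have hs : (insert β (Finset.univ.map x)).card = k + 1 := by
      rw [Finset.card_insert_of_notMem hβ', Finset.card_map, Finset.card_univ, Fintype.card_fin]
    have hmem : ∀ l : Fin k, x l ∈ insert β (Finset.univ.map x) := fun l =>
      Finset.mem_insert_of_mem (Finset.mem_map.mpr ⟨l, Finset.mem_univ _, rfl⟩)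
    have hβmem : β ∈ insert β (Finset.univ.map x) := Finset.mem_insert_self _ _
    obtain ⟨g, hg, hgs⟩ := hgen _ hs (Equiv.swap ⟨x i, hmem i⟩ ⟨β, hβmem⟩)
    refine ⟨⟨g, hg⟩, ?_, ?_⟩
    · change g (x i) = β
      have := hgs ⟨x i, hmem i⟩
      rw [Equiv.swap_apply_left] at this
      exact this
    · intro i' hi'
      change g (x i') = x i'
      have := hgs ⟨x i', hmem i'⟩
      rw [Equiv.swap_apply_of_ne_of_ne] at this
      · exact this
      · intro h
        exact hi' (x.injective (congrArg Subtype.val h))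
      · intro h
        exact hβ ⟨i', congrArg Subtype.val h⟩
  · intro s hs a b ha hb
    rintro ⟨g₀, hg₀, hg₀s, hg₀a⟩
    have hs' : (insert b s).card = k + 1 := by
      rw [Finset.card_insert_of_notMem hb, hs]
    have hg₀mem : ∀ z ∈ s, g₀ z ∈ s := by
      intro z hz
      rw [← hg₀s]
      exact Finset.smul_mem_smul_finset hz
    have hg₀inv : ∀ z ∈ s, g₀⁻¹ z ∈ s := by
      intro z hz
      rw [← hg₀s] at hz
      obtain ⟨y, hy, hyz⟩ := Finset.mem_smul_finset.mp hz
      have : g₀⁻¹ z = y := by
        rw [← hyz]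
        simp
      rw [this]
      exact hy
    have hne : ∀ z ∈ s, z ≠ a ∧ z ≠ b := fun z hz =>
      ⟨fun h => ha (h ▸ hz), fun h => hb (h ▸ hz)⟩
    have hf : ∀ z, (Equiv.swap a b * g₀⁻¹) z ∈ insert b s ↔ z ∈ insert b s := by
      intro z
      rw [Equiv.Perm.mul_apply, Finset.mem_insert, Finset.mem_insert]
      constructor
      · rintro (h | h)
        · left
          have h1 : g₀⁻¹ z = a := by
            have := congrArg (Equiv.swap a b) h
            rwa [Equiv.swap_apply_self, Equiv.swap_apply_right] at this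
          have h2 : z = g₀ a := by
            rw [← h1]
            simp
          rw [h2, hg₀a]
        · right
          have h1 : g₀⁻¹ z ∈ s := by
            have h2 := hne _ h
            have h3 : g₀⁻¹ z = Equiv.swap a b (Equiv.swap a b (g₀⁻¹ z)) := by simp
            rw [h3, Equiv.swap_apply_of_ne_of_ne h2.1 h2.2]
            exact h
          have := hg₀mem _ h1
          simpa using this
      · rintro (h | h)
        · left
          have h1 : g₀⁻¹ z = a := by
            rw [h, ← hg₀a]
            simp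
          rw [h1, Equiv.swap_apply_left]
        · right
          have h1 := hg₀inv z h
          rw [Equiv.swap_apply_of_ne_of_ne (hne _ h1).1 (hne _ h1).2]
          exact h1
    obtain ⟨g₁, hg₁, hg₁s⟩ := hgen _ hs' ((Equiv.swap a b * g₀⁻¹).subtypePerm hf)
    refine ⟨g₁ * g₀, mul_mem hg₁ hg₀, ?_, ?_⟩
    · intro z hz
      rw [Equiv.Perm.mul_apply]
      have h1 := hg₁s ⟨g₀ z, Finset.mem_insert_of_mem (hg₀mem z hz)⟩
      rw [Equiv.Perm.subtypePerm_apply] at h1
      simp only at h1
      rw [h1, Equiv.Perm.mul_apply]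
      have h3 : g₀⁻¹ (g₀ z) = z := by simp
      rw [h3]
      exact Equiv.swap_apply_of_ne_of_ne (hne z hz).1 (hne z hz).2
    · rw [Equiv.Perm.mul_apply, hg₀a]
      have h1 := hg₁s ⟨b, Finset.mem_insert_self _ _⟩
      rw [Equiv.Perm.subtypePerm_apply] at h1
      simp only at h1
      rw [h1, Equiv.Perm.mul_apply]
      have h2 : g₀⁻¹ b = a := by
        rw [← hg₀a]
        simp
      rw [h2, Equiv.swap_apply_left]

end Cfsg.Agent.S0705
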