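import Cfsg.Statements.S0707
import Mathlib

set_option autoImplicit false
open Cfsg

namespace Cfsg.Agent.S0707

theorem prime_card_of_subgroups {Γ : Type*} [Group Γ] [Nontrivial Γ]
    (h : ∀ H : Subgroup Γ, H = ⊥ ∨ H = ⊤) : (Nat.card Γ).Prime := by
  obtain ⟨g, hg⟩ := exists_ne (1 : Γ)
  have hz : Subgroup.zpowers g = ⊤ := (h _).resolve_left (Subgroup.zpowers_ne_bot.2 hg)
  haveI : IsCyclic Γ := ⟨⟨g, (Subgroup.eq_top_iff' _).1 hz⟩⟩
  letI : CommGroup Γ := IsCyclic.commGroup
  haveI : IsSimpleGroup Γ := ⟨fun H _ => h H⟩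
  exact IsSimpleGroup.prime_card

/-- In a primitive permutation group, distinct points have distinct stabilisers unless the group is regular of prime degree. -/
theorem result {α : Type*} (G : Subgroup (Equiv.Perm α)) [MulAction.IsPreprimitive G α] (h : ¬ (Nat.card α).Prime ∨ ∃ a : α, MulAction.stabilizer G a ≠ ⊥) {a b : α} (hab : a ≠ b) : MulAction.stabilizer G a ≠ MulAction.stabilizer G b := by
  intro heq
  haveI : Nontrivial α := ⟨a, b, hab⟩
  have hco : IsCoatom (MulAction.stabilizer G a) :=
    MulAction.IsPreprimitive.isCoatom_stabilizer_of_isPreprimitive (G := G) a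
  obtain ⟨g, hg⟩ := MulAction.exists_smul_eq G a b
  have hgK : g ∉ MulAction.stabilizer G a := by
    intro hmem
    rw [MulAction.mem_stabilizer_iff] at hmem
    exact hab (hmem.symm.trans hg)
  have hgN : g ∈ Subgroup.normalizer (MulAction.stabilizer G a : Set G) := by
    rw [Subgroup.mem_normalizer_iff_map_conj_eq]
    have h1 := MulAction.stabilizer_smul_eq_stabilizer_map_conj g a
    rw [hg, ← heq] at h1
    exact h1.symm
  have hNtop : Subgroup.normalizer (MulAction.stabilizer G a : Set G) = ⊤ := by
    apply hco.2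
    exact lt_of_le_of_ne Subgroup.le_normalizer (fun h => hgK (h ▸ hgN))
  have hnorm : (MulAction.stabilizer G a).Normal := Subgroup.normalizer_eq_top_iff.mp hNtop
  have hbot : MulAction.stabilizer G a = ⊥ := by
    rw [Subgroup.eq_bot_iff_forall]
    intro k hk
    apply Subtype.ext
    ext x
    obtain ⟨h, rfl⟩ := MulAction.exists_smul_eq G a x
    have h1 : h⁻¹ * k * h⁻¹⁻¹ ∈ MulAction.stabilizer G a := hnorm.conj_mem k hk h⁻¹
    rw [inv_inv, MulAction.mem_stabilizer_iff] at h1
    show k • h • a = h • a
    calc k • h • a = h • ((h⁻¹ * k * h) • a) := by simp [mul_smul]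
      _ = h • a := by rw [h1]
  have hall : ∀ x : α, MulAction.stabilizer G x = ⊥ := by
    intro x
    obtain ⟨h, rfl⟩ := MulAction.exists_smul_eq G a x
    rw [MulAction.stabilizer_smul_eq_stabilizer_map_conj, hbot, Subgroup.map_bot]
  rcases h with h | ⟨x, hx⟩
  · apply h
    have hcard : Nat.card α = Nat.card G := by
      symm
      apply Nat.card_eq_of_bijective (fun k : G => k • a)
      constructor
      · intro k k' hkk
        have hm : k'⁻¹ * k ∈ MulAction.stabilizer G a := by
          rw [MulAction.mem_stabilizer_iff, mul_smul]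
          simp only at hkk
          rw [hkk, inv_smul_smul]
        rw [hbot, Subgroup.mem_bot] at hm
        exact (inv_mul_eq_one.mp hm).symm
      · intro x
        exact MulAction.exists_smul_eq G a x
    rw [hcard]
    haveI : Nontrivial G := ⟨g, 1, fun h1 => hgK (h1 ▸ one_mem _)⟩
    apply prime_card_of_subgroups
    intro H
    by_cases hH : H = ⊥
    · left
      exact hH
    · right
      rw [hbot] at hco
      exact hco.2 H (bot_lt_iff_ne_bot.mpr hH)
  · exact hx (hall x)


end Cfsg.Agent.S0707
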