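import Cfsg.Statements.S0710
import Mathlib

set_option autoImplicit false
open Cfsg

namespace Cfsg.Agent.S0710

/-- No transitive permutation group on 13 points has order `13 * 12 * 11 * 10 * 9 * 8`. -/
theorem result {α : Type*} [Fintype α] [DecidableEq α] (hα : Fintype.card α = 13) (G : Subgroup (Equiv.Perm α)) [MulAction.IsPretransitive G α] : Nat.card G ≠ 13 * 12 * 11 * 10 * 9 * 8 := by
  classical
  intro hc
  haveI : Fact (Nat.Prime 13) := ⟨by norm_num⟩
  obtain ⟨P⟩ := (inferInstance : Nonempty (Sylow 13 G))
  have hPc : Nat.card (P : Subgroup G) = 13 := by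
    obtain ⟨k, hk⟩ := IsPGroup.iff_card.mp P.2
    have hmul := Subgroup.card_mul_index (P : Subgroup G)
    rw [hk, hc] at hmul
    have hnd := P.not_dvd_index
    have hk1 : k ≤ 1 := by
      by_contra hcon
      push Not at hcon
      have h169 : 13 ^ 2 ∣ 13 * 12 * 11 * 10 * 9 * 8 :=
        (pow_dvd_pow 13 hcon).trans (Dvd.intro _ hmul)
      norm_num at h169
    interval_cases k
    · exfalso
      norm_num at hmul
      omega
    · rw [hk]; norm_num
  haveI hcyc : IsCyclic ↥(P : Subgroup G) := isCyclic_of_prime_card hPc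
  obtain ⟨g, hg⟩ := IsCyclic.exists_generator (α := ↥(P : Subgroup G))
  have hgo : orderOf g = 13 := by rw [orderOf_eq_card_of_forall_mem_zpowers hg, hPc]
  have key := Subgroup.card_dvd_of_injective _
    (QuotientGroup.kerLift_injective (P : Subgroup G).normalizerMonoidHom)
  rw [Subgroup.normalizerMonoidHom_ker, ← Subgroup.index, ← Subgroup.relIndex,
    IsCyclic.card_mulAut, hPc, Nat.totient_prime (by norm_num)] at key
  have hmod : Nat.card (Sylow 13 G) % 13 = 1 := card_sylow_modEq_one 13 G
  have hidxN : Nat.card (Sylow 13 G) =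
      (Subgroup.normalizer ((P : Subgroup G) : Set G)).index := P.card_eq_index_normalizer
  rw [hidxN] at hmod
  have hso : orderOf (((g : G) : Equiv.Perm α)) = 13 := by
    rw [Subgroup.orderOf_coe, Subgroup.orderOf_coe, hgo]
  have hct : (((g : G) : Equiv.Perm α)).cycleType = {13} := by
    obtain ⟨k, hk⟩ := Equiv.Perm.cycleType_prime_order (σ := ((g : G) : Equiv.Perm α))
      (by rw [hso]; norm_num)
    rw [hso] at hk
    have hle := Equiv.Perm.sum_cycleType_le ((g : G) : Equiv.Perm α)
    rw [hk, Multiset.sum_replicate, smul_eq_mul, hα] at hle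
    have hk0 : k = 0 := by omega
    rw [hk, hk0]; rfl
  have hcs : Nat.card (Subgroup.centralizer ({((g : G) : Equiv.Perm α)} : Set (Equiv.Perm α)))
      = 13 := by
    rw [Equiv.Perm.nat_card_centralizer, hct, hα]
    simp
  have hPC : (P : Subgroup G) ≤ Subgroup.centralizer ((P : Subgroup G) : Set G) := by
    intro x hx
    rw [Subgroup.mem_centralizer_iff]
    intro y hy
    obtain ⟨a, ha⟩ := Subgroup.mem_zpowers_iff.mp (hg ⟨x, hx⟩)
    obtain ⟨b, hb⟩ := Subgroup.mem_zpowers_iff.mp (hg ⟨y, hy⟩)
    have hx' : x = (g : G) ^ a := by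
      have := congrArg Subtype.val ha
      simpa using this.symm
    have hy' : y = (g : G) ^ b := by
      have := congrArg Subtype.val hb
      simpa using this.symm
    rw [hx', hy']
    exact (Commute.zpow_zpow_self (g : G) b a).eq
  have hCle : Nat.card (Subgroup.centralizer ((P : Subgroup G) : Set G)) ≤ 13 := by
    let f : Subgroup.centralizer ((P : Subgroup G) : Set G) →
        Subgroup.centralizer ({((g : G) : Equiv.Perm α)} : Set (Equiv.Perm α)) :=
      fun x => ⟨((x : G) : Equiv.Perm α), by
        rw [Subgroup.mem_centralizer_iff]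
        intro h hh
        rw [Set.mem_singleton_iff] at hh
        rw [hh]
        have hx := x.2
        rw [Subgroup.mem_centralizer_iff] at hx
        have h1 := hx (g : G) g.2
        have h2 := congrArg Subtype.val h1
        simpa using h2⟩
    have hf : Function.Injective f := by
      intro x y hxy
      have := congrArg Subtype.val hxy
      exact Subtype.ext (Subtype.ext this)
    exact le_of_le_of_eq (Nat.card_le_card_of_injective f hf) hcs
  have h13 : 13 ≤ Nat.card (Subgroup.centralizer ((P : Subgroup G) : Set G)) :=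
    hPc.symm.le.trans (Subgroup.card_le_of_le hPC)
  have hCc : Nat.card (Subgroup.centralizer ((P : Subgroup G) : Set G)) = 13 :=
    le_antisymm hCle h13
  have hCN : Subgroup.centralizer ((P : Subgroup G) : Set G) ≤
      Subgroup.normalizer ((P : Subgroup G) : Set G) := Subgroup.centralizer_le_normalizer _
  have h1 := Subgroup.relIndex_mul_index hCN
  have h2 := Subgroup.card_mul_index (Subgroup.centralizer ((P : Subgroup G) : Set G))
  rw [hCc, hc] at h2
  have arith : ∀ k m c j : ℕ, 13 - 1 = k * j → k * m = c →
      13 * c = 13 * 12 * 11 * 10 * 9 * 8 → m % 13 = 1 → False := by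
    intro k m c j hj h1 h2 hmod
    have hk : k ≤ 12 := Nat.le_of_dvd (by norm_num) ⟨j, hj⟩
    interval_cases k <;> omega
  obtain ⟨j, hj⟩ := key
  exact arith _ _ _ j hj h1 h2 hmod

end Cfsg.Agent.S0710
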