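import Cfsg.Statements.S0712
import Mathlib

set_option autoImplicit false
open Cfsg

namespace Cfsg.Agent.S0712

open MulAction SubMulAction Subgroup
open scoped Pointwise

universe u v

theorem jordan_aux : ∀ (m : ℕ) {G : Type u} {α : Type v} [Group G] [MulAction G α] [Finite α]
    (_ : IsPreprimitive G α) (s : Set α) (_ : s.ncard = m) (_ : m + 2 ≤ Nat.card α)
    (_ : IsMultiplyPretransitive (fixingSubgroup G s) (ofFixingSubgroup G s) 2),
    IsMultiplyPretransitive G α (m + 2) := by
  intro m
  induction m with
  | zero =>
    intro G α _ _ _ hG s hsm hm h2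
    have hs : s = ∅ := (Set.ncard_eq_zero (Set.toFinite s)).mp hsm
    subst hs
    exact (IsPretransitive.of_embedding_congr of_fixingSubgroupEmpty_mapScalars_surjective
      ofFixingSubgroupEmpty_equivariantMap_bijective).mp h2
  | succ m ih =>
    intro G α _ _ _ hG s hsm hm h2
    have hsn' : m + 2 < Nat.card α := by omega
    have hprim : IsPreprimitive (fixingSubgroup G s) (ofFixingSubgroup G s) :=
      isPreprimitive_of_is_two_pretransitive h2
    have hG2 : IsMultiplyPreprimitive G α 2 := hG.is_two_preprimitive hsm hsn' hprim
    have hsne : s.Nonempty := by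
      rw [← Set.ncard_pos, hsm]; exact Nat.succ_pos m
    obtain ⟨a, ha⟩ := hsne
    obtain ⟨t, hst⟩ : ∃ t : Set (ofStabilizer G a), s = insert a (Subtype.val '' t) := by
      refine ⟨Subtype.val ⁻¹' s, ?_⟩
      ext x
      by_cases hx : x = a <;> simp [hx, mem_ofStabilizer_iff, ha]
    have ha' : a ∉ Subtype.val '' t := by
      intro h; rw [Set.mem_image] at h; obtain ⟨x, hx⟩ := h
      apply x.prop; rw [hx.right]; exact Set.mem_singleton a
    have ht_prim : IsPreprimitive (stabilizer G a) (ofStabilizer G a) := by
      rw [← is_one_preprimitive_iff]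
      rw [← isMultiplyPreprimitive_succ_iff_ofStabilizer]
      · exact hG2
      · norm_num
    subst hst
    have h2' : IsMultiplyPretransitive (fixingSubgroup (stabilizer G a) t)
        (ofFixingSubgroup (stabilizer G a) t) 2 :=
      (IsPretransitive.of_embedding_congr (fixingSubgroupInsertEquiv a t).surjective
        ofFixingSubgroup_insert_map_bijective).mp h2
    have htm : t.ncard = m := by
      rw [← Set.ncard_image_of_injective t Subtype.val_injective]
      apply Nat.add_right_cancel
      rw [← Set.ncard_insert_of_notMem ha', hsm]
    have hcard : m + 2 ≤ Nat.card (ofStabilizer G a) := by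
      have h1 := nat_card_ofStabilizer_add_one_eq G a
      omega
    have hIH := ih ht_prim t htm hcard h2'
    haveI : IsPretransitive G α := hG.toIsPretransitive
    exact (ofStabilizer.isMultiplyPretransitive (G := G) (α := α) (n := m + 2) (a := a)).mpr hIH

/-- Jordan: a primitive group in which the pointwise stabiliser of a set `s` is doubly transitive on the complement of `s` (which has at least 2 points) is `(|s| + 2)`-transitive. -/
theorem result {α : Type*} [Fintype α] [DecidableEq α] (G : Subgroup (Equiv.Perm α)) (hG : MulAction.IsPreprimitive G α) (s : Set α) {m : ℕ} (hsm : s.ncard = m) (hm : m + 2 ≤ Fintype.card α) (h2 : MulAction.IsMultiplyPretransitive (fixingSubgroup G s) (SubMulAction.ofFixingSubgroup G s) 2) : MulAction.IsMultiplyPretransitive G α (m + 2) := by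
  exact jordan_aux m hG s hsm (by rw [Nat.card_eq_fintype_card]; exact hm) h2


end Cfsg.Agent.S0712
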