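import Mathlib
import Cfsg.Agent.Helper2.MultFree
import Cfsg.Statements.S0718

set_option autoImplicit false
open Cfsg

namespace Cfsg.Agent.S0718

/-- Multiplicity-freeness of the permutation character is equivalent to commutativity of the centraliser ring, i.e. of the algebra of `G`-equivariant endomorphisms of the complex permutation module. -/
theorem result {G : Type*} [Group G] [Fintype G] {Ω : Type*} [Fintype Ω] [MulAction G Ω] : (∀ χ : G → ℂ, Cfsg.IsIrrCharacter G χ → Cfsg.classInner (fun g : G => (Nat.card (MulAction.fixedBy Ω g) : ℂ)) χ = 0 ∨ Cfsg.classInner (fun g : G => (Nat.card (MulAction.fixedBy Ω g) : ℂ)) χ = 1) ↔ ∀ S T : (Ω → ℂ) →ₗ[ℂ] (Ω → ℂ), S ∈ ((Cfsg.permRep ℂ G Ω).linHom (Cfsg.permRep ℂ G Ω)).invariants → T ∈ ((Cfsg.permRep ℂ G Ω).linHom (Cfsg.permRep ℂ G Ω)).invariants → S ∘ₗ T = T ∘ₗ S := by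
  have hπ : (fun g : G => (Nat.card (MulAction.fixedBy Ω g) : ℂ))
      = (Cfsg.permRep ℂ G Ω).character := by
    funext g
    exact (Cfsg.Agent.Helper2.MultFree.permRep_char G Ω g).symm
  rw [hπ]
  constructor
  · intro h S T hS hT
    exact Cfsg.Agent.Helper2.MultFree.comm_of_multfree _ (Cfsg.permRep ℂ G Ω) h S T
      (fun g x => ((Representation.mem_linHom_invariants_iff_isIntertwining S).mp
        (fun g => hS g)).isIntertwining g x)
      (fun g x => ((Representation.mem_linHom_invariants_iff_isIntertwining T).mp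
        (fun g => hT g)).isIntertwining g x)
  · intro h χ hχ
    by_contra hc
    push_neg at hc
    obtain ⟨A, B, hA, hB, hAB⟩ := Cfsg.Agent.Helper2.MultFree.not_comm_of_mult
      (Cfsg.permRep ℂ G Ω) χ hχ hc.1 hc.2
    exact hAB (h A B
      (fun g => (Representation.mem_linHom_invariants_iff_isIntertwining A).mpr ⟨hA⟩ g)
      (fun g => (Representation.mem_linHom_invariants_iff_isIntertwining B).mpr ⟨hB⟩ g))


end Cfsg.Agent.S0718
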