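import Cfsg.Statements.S0721
import Mathlib
import Cfsg.Agent.Helper4.DirProd
import Cfsg.Agent.Helper4.Wielandt
import Cfsg.Agent.Helper4.SupMul

set_option autoImplicit false
open Cfsg

namespace Cfsg.Agent.S0721

universe u

theorem s0721_inv_sup {H : Type*} [Group H] (N X Y : Subgroup H)
    (hX : ∀ n ∈ N, ∀ x ∈ X, n * x * n⁻¹ ∈ X) (hY : ∀ n ∈ N, ∀ x ∈ Y, n * x * n⁻¹ ∈ Y) :
    ∀ n ∈ N, ∀ x ∈ X ⊔ Y, n * x * n⁻¹ ∈ X ⊔ Y := by
  intro n hn x hx
  have h1 : (X ⊔ Y).map (MulAut.conj n).toMonoidHom ≤ X ⊔ Y := by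
    rw [Subgroup.map_sup]
    apply sup_le_sup
    · rintro _ ⟨x, hx, rfl⟩; exact hX n hn x hx
    · rintro _ ⟨x, hx, rfl⟩; exact hY n hn x hx
  exact h1 ⟨x, hx, rfl⟩

open scoped Pointwise in
theorem s0721_smul {H : Type*} [Group H] (N : Subgroup H) [hNn : N.Normal] (X : Subgroup H)
    (hXN : X ≤ N) (hX : ∀ n ∈ N, ∀ x ∈ X, n * x * n⁻¹ ∈ X) (h : H) :
    MulAut.conj h • X ≤ N ∧ ∀ n ∈ N, ∀ x ∈ MulAut.conj h • X, n * x * n⁻¹ ∈ MulAut.conj h • X := by
  refine ⟨?_, ?_⟩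
  · intro x hx
    obtain ⟨t, ht, rfl⟩ := (Subgroup.mem_smul_pointwise_iff_exists _ _ _).mp hx
    rw [MulAut.smul_def, MulAut.conj_apply]
    exact hNn.conj_mem t (hXN ht) h
  · intro n hn x hx
    obtain ⟨t, ht, rfl⟩ := (Subgroup.mem_smul_pointwise_iff_exists _ _ _).mp hx
    have hn' : h⁻¹ * n * h ∈ N := by
      have := hNn.conj_mem n hn h⁻¹
      rwa [inv_inv] at this
    have h1 := hX _ hn' t ht
    refine (Subgroup.mem_smul_pointwise_iff_exists _ _ _).mpr ⟨_, h1, ?_⟩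
    rw [MulAut.smul_def, MulAut.conj_apply, MulAut.smul_def, MulAut.conj_apply]
    group

open scoped Pointwise in
theorem s0721_main {H : Type u} [Group H] [Finite H] (N : Subgroup H) [hNn : N.Normal] (hN : N ≠ ⊥)
    (hmin : ∀ M : Subgroup H, M.Normal → M ≤ N → M = ⊥ ∨ M = N) :
    ∃ (T : Subgroup H) (m : ℕ), IsSimpleGroup ↥T ∧ 0 < m ∧ Nonempty (↥N ≃* (Fin m → ↥T)) := by
  classical
  obtain ⟨T, hT𝒯, hTmin⟩ := (wellFounded_lt (α := Subgroup H)).has_min
    {X : Subgroup H | X ≤ N ∧ X ≠ ⊥ ∧ ∀ n ∈ N, ∀ x ∈ X, n * x * n⁻¹ ∈ X}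
    ⟨N, le_rfl, hN, fun n hn x hx => N.mul_mem (N.mul_mem hn hx) (N.inv_mem hn)⟩
  obtain ⟨hTN, hT1, hTinv⟩ := hT𝒯
  have hTmin' : ∀ X : Subgroup H, X ≤ T → (∀ n ∈ N, ∀ x ∈ X, n * x * n⁻¹ ∈ X) →
      X = ⊥ ∨ X = T := by
    intro X hXT hXinv
    by_cases hX : X = ⊥
    · exact Or.inl hX
    · right
      by_contra hne
      exact hTmin X ⟨hXT.trans hTN, hX, hXinv⟩ (lt_of_le_of_ne hXT hne)
  -- conjugates of T are minimal too
  have hconjmin : ∀ (h : H) (X : Subgroup H), X ≤ MulAut.conj h • T →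
      (∀ n ∈ N, ∀ x ∈ X, n * x * n⁻¹ ∈ X) → X = ⊥ ∨ X = MulAut.conj h • T := by
    intro h X hX hXinv
    have hXN : X ≤ N := hX.trans (s0721_smul N T hTN hTinv h).1
    obtain ⟨-, h2⟩ := s0721_smul N X hXN hXinv h⁻¹
    have h1 : MulAut.conj h⁻¹ • X ≤ T := by
      rw [map_inv]
      have := (Subgroup.pointwise_smul_le_pointwise_smul_iff (a := (MulAut.conj h)⁻¹)).mpr hX
      rwa [inv_smul_smul] at this
    have hback : MulAut.conj h • (MulAut.conj h⁻¹ • X) = X := by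
      rw [map_inv, smul_inv_smul]
    rcases hTmin' _ h1 h2 with h3 | h3
    · left
      rw [← hback, h3, eq_bot_iff]
      intro y hy
      obtain ⟨s, hs, rfl⟩ := (Subgroup.mem_smul_pointwise_iff_exists _ _ _).mp hy
      rw [Subgroup.mem_bot] at hs
      rw [hs, smul_one]; exact Subgroup.one_mem _
    · right
      rw [← hback, h3]
  -- maximal complement
  obtain ⟨C, hCgood, hCmax⟩ := (wellFounded_gt (α := Subgroup H)).has_min
    {C : Subgroup H | C ≤ N ∧ (∀ n ∈ N, ∀ x ∈ C, n * x * n⁻¹ ∈ C) ∧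
      (∀ c ∈ C, ∀ t ∈ T, c * t = t * c) ∧ T ⊓ C = ⊥ ∧
      ∃ k : ℕ, Nonempty (↥C ≃* (Fin k → ↥T))}
    ⟨⊥, bot_le, fun n hn x hx => by
        rw [Subgroup.mem_bot] at hx ⊢; rw [hx]; group,
      fun c hc t ht => by rw [Subgroup.mem_bot] at hc; rw [hc, one_mul, mul_one],
      inf_bot_eq _, 0, ⟨MulEquiv.ofUnique⟩⟩
  obtain ⟨hCN, hCinv, hCT, hTC, k, ⟨eC⟩⟩ := hCgood
  have hM : T ⊔ C = N := by
    by_contra hne
    have hlt : T ⊔ C < N := lt_of_le_of_ne (sup_le hTN hCN) hne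
    have hex : ∃ h : H, ¬ (MulAut.conj h • T ≤ T ⊔ C) := by
      by_contra hall
      push Not at hall
      have hncl : Subgroup.normalClosure (T : Set H) ≤ T ⊔ C := by
        rw [Subgroup.normalClosure, Subgroup.closure_le]
        intro a ha
        obtain ⟨b, hb, hab⟩ := Group.mem_conjugatesOfSet_iff.mp ha
        obtain ⟨c, rfl⟩ := isConj_iff.mp hab
        exact hall c ((Subgroup.mem_smul_pointwise_iff_exists _ _ _).mpr
          ⟨b, hb, by rw [MulAut.smul_def, MulAut.conj_apply]⟩)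
      rcases hmin _ Subgroup.normalClosure_normal (hncl.trans hlt.le) with h0 | h0
      · apply hT1
        rw [eq_bot_iff, ← h0]
        exact Subgroup.subset_normalClosure
      · rw [h0] at hncl
        exact lt_irrefl _ (lt_of_le_of_lt hncl hlt)
    obtain ⟨h, hh⟩ := hex
    obtain ⟨T', hT'⟩ : ∃ T' : Subgroup H, T' = MulAut.conj h • T := ⟨_, rfl⟩
    rw [← hT'] at hh
    obtain ⟨hT'N, hT'inv⟩ : T' ≤ N ∧ ∀ n ∈ N, ∀ x ∈ T', n * x * n⁻¹ ∈ T' := by
      rw [hT']; exact s0721_smul N T hTN hTinv h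
    have hInvM := s0721_inv_sup N T C hTinv hCinv
    have hdisj : T' ⊓ (T ⊔ C) = ⊥ := by
      have h1 : T' ⊓ (T ⊔ C) ≤ MulAut.conj h • T := by rw [← hT']; exact inf_le_left
      rcases hconjmin h (T' ⊓ (T ⊔ C)) h1
        (fun n hn x hx => ⟨hT'inv n hn x hx.1, hInvM n hn x hx.2⟩) with h0 | h0
      · exact h0
      · rw [← hT'] at h0
        exact absurd (inf_eq_left.mp h0) hh
    have hcomm : ∀ a ∈ T', ∀ b ∈ T ⊔ C, a * b = b * a := by
      intro a ha b hb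
      have h1 : a * b * a⁻¹ * b⁻¹ ∈ T' ⊓ (T ⊔ C) := by
        constructor
        · have h2 := hT'inv b (sup_le hTN hCN hb) a⁻¹ (inv_mem ha)
          have h3 := T'.mul_mem ha h2
          have e : a * b * a⁻¹ * b⁻¹ = a * (b * a⁻¹ * b⁻¹) := by group
          rw [e]; exact h3
        · have h2 := hInvM a (hT'N ha) b hb
          exact (T ⊔ C).mul_mem h2 (inv_mem hb)
      rw [hdisj, Subgroup.mem_bot] at h1
      calc a * b = (a * b * a⁻¹ * b⁻¹) * (b * a) := by group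
        _ = b * a := by rw [h1, one_mul]
    have hCT'N : C ≤ Subgroup.normalizer (T' : Set H) :=
      Cfsg.Agent.Helper4.le_normalizer_of_conj_mem' C T' (fun c hc x hx => hT'inv c (hCN hc) x hx)
    have hgood' : C ⊔ T' ∈ {C : Subgroup H | C ≤ N ∧ (∀ n ∈ N, ∀ x ∈ C, n * x * n⁻¹ ∈ C) ∧
        (∀ c ∈ C, ∀ t ∈ T, c * t = t * c) ∧ T ⊓ C = ⊥ ∧
        ∃ k : ℕ, Nonempty (↥C ≃* (Fin k → ↥T))} := by
      refine ⟨sup_le hCN hT'N, s0721_inv_sup N C T' hCinv hT'inv, ?_, ?_, k + 1, ?_⟩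
      · have hle : C ⊔ T' ≤ Subgroup.centralizer (T : Set H) := by
          apply sup_le
          · intro c hc
            rw [Subgroup.mem_centralizer_iff]
            intro t ht
            exact (hCT c hc t ht).symm
          · intro a ha
            rw [Subgroup.mem_centralizer_iff]
            intro t ht
            exact (hcomm a ha t ((le_sup_left : T ≤ T ⊔ C) ht)).symm
        intro c hc t ht
        exact (Subgroup.mem_centralizer_iff.mp (hle hc) t ht).symm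
      · rw [eq_bot_iff]
        rintro x ⟨hxT, hxC'⟩
        obtain ⟨c, hc, t', ht', rfl⟩ :=
          Cfsg.Agent.Helper4.exists_mul_of_mem_sup_of_le_normalizer hCT'N hxC'
        have ht'1 : t' = 1 := by
          have h1 : t' ∈ T' ⊓ (T ⊔ C) := by
            refine ⟨ht', ?_⟩
            have e : t' = c⁻¹ * (c * t') := by group
            rw [e]
            exact (T ⊔ C).mul_mem ((T ⊔ C).inv_mem ((le_sup_right : C ≤ T ⊔ C) hc))
              ((le_sup_left : T ≤ T ⊔ C) hxT)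
          rwa [hdisj, Subgroup.mem_bot] at h1
        rw [ht'1, mul_one] at hxT ⊢
        have h2 : c ∈ T ⊓ C := ⟨hxT, hc⟩
        rwa [hTC] at h2
      · have hCT' : C ⊓ T' = ⊥ := by
          rw [eq_bot_iff, ← hdisj]
          exact le_inf inf_le_right (inf_le_left.trans le_sup_right)
        obtain ⟨e1⟩ := Cfsg.Agent.Helper4.nonempty_prod_mulEquiv_sup C T'
          (fun c hc a ha => (hcomm a ha c ((le_sup_right : C ≤ T ⊔ C) hc)).symm) hCT'
        obtain ⟨e2⟩ := Cfsg.Agent.Helper4.nonempty_snoc_mulEquiv ↥T k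
        have e3 : ↥T' ≃* ↥T :=
          (MulEquiv.subgroupCongr hT').trans (Subgroup.equivSMul (MulAut.conj h) T).symm
        exact ⟨e1.symm.trans ((MulEquiv.prodCongr eC e3).trans e2)⟩
    have hlt' : C < C ⊔ T' := by
      apply lt_of_le_of_ne le_sup_left
      intro heq
      apply hh
      calc T' ≤ C ⊔ T' := le_sup_right
        _ = C := heq.symm
        _ ≤ T ⊔ C := le_sup_right
    exact hCmax _ hgood' hlt'
  -- the isomorphism
  obtain ⟨e1⟩ := Cfsg.Agent.Helper4.nonempty_prod_mulEquiv_sup C T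
    (fun c hc t ht => hCT c hc t ht) (by rw [inf_comm]; exact hTC)
  obtain ⟨e2⟩ := Cfsg.Agent.Helper4.nonempty_snoc_mulEquiv ↥T k
  have e3 : ↥N ≃* ↥(C ⊔ T) := MulEquiv.subgroupCongr (by rw [sup_comm]; exact hM.symm)
  refine ⟨T, k + 1, ?_, Nat.succ_pos k,
    ⟨e3.trans (e1.symm.trans ((MulEquiv.prodCongr eC (MulEquiv.refl _)).trans e2))⟩⟩
  haveI : Nontrivial ↥T := (Subgroup.nontrivial_iff_ne_bot T).mpr hT1
  refine { toNontrivial := inferInstance, eq_bot_or_eq_top_of_normal := fun X hX => ?_ }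
  have hXT : X.map T.subtype ≤ T := by
    rintro _ ⟨x, -, rfl⟩; exact x.2
  have hTnorm : T ≤ Subgroup.normalizer ((X.map T.subtype : Subgroup H) : Set H) := by
    apply Cfsg.Agent.Helper4.le_normalizer_of_conj_mem'
    rintro t ht _ ⟨x, hx, rfl⟩
    exact ⟨⟨t, ht⟩ * x * ⟨t, ht⟩⁻¹, hX.conj_mem x hx ⟨t, ht⟩, rfl⟩
  have hCnorm : C ≤ Subgroup.normalizer ((X.map T.subtype : Subgroup H) : Set H) := by
    apply Cfsg.Agent.Helper4.le_normalizer_of_conj_mem'
    rintro c hc _ ⟨x, hx, rfl⟩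
    have h1 : c * (x : H) * c⁻¹ = (x : H) := by
      have := hCT c hc (x : H) x.2
      rw [this, mul_inv_cancel_right]
    show c * T.subtype x * c⁻¹ ∈ _
    rw [Subgroup.coe_subtype, h1]
    exact ⟨x, hx, rfl⟩
  have hXinv : ∀ n ∈ N, ∀ x ∈ X.map T.subtype, n * x * n⁻¹ ∈ X.map T.subtype := by
    intro n hn x hx
    have hn' : n ∈ Subgroup.normalizer ((X.map T.subtype : Subgroup H) : Set H) := by
      rw [← hM] at hn
      exact (sup_le hTnorm hCnorm) hn
    exact (Subgroup.mem_normalizer_iff.mp hn' x).mp hx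
  rcases hTmin' _ hXT hXinv with h0 | h0
  · left
    exact (Subgroup.map_eq_bot_iff_of_injective X T.subtype_injective).mp h0
  · right
    rw [eq_top_iff]
    intro t _
    have ht : (t : H) ∈ X.map T.subtype := by rw [h0]; exact t.2
    obtain ⟨y, hy, hyt⟩ := ht
    have : y = t := Subtype.ext hyt
    rw [← this]; exact hy


/-- A minimal normal subgroup of a finite group is isomorphic to a direct power `T ^ m` of a simple group `T` (possibly of prime order). -/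
theorem result {H : Type*} [Group H] [Finite H] (N : Subgroup H) [N.Normal] (hN : N ≠ ⊥) (hmin : ∀ M : Subgroup H, M.Normal → M ≤ N → M = ⊥ ∨ M = N) : ∃ (T : Type) (_ : Group T) (m : ℕ), IsSimpleGroup T ∧ 0 < m ∧ Nonempty (N ≃* (Fin m → T)) := by
  obtain ⟨T, m, hs, hm, ⟨e⟩⟩ := s0721_main N hN hmin
  haveI := hs
  have g : Shrink.{0} ↥T ≃* ↥T := Shrink.mulEquiv
  exact ⟨Shrink.{0} ↥T, inferInstance, m, g.isSimpleGroup, hm,
    ⟨e.trans (MulEquiv.piCongrRight fun _ => g.symm)⟩⟩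

end Cfsg.Agent.S0721
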