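import Cfsg.Statements.S0722
import Mathlib
import Cfsg.Agent.Helper4.SupMul

set_option autoImplicit false
open Cfsg

namespace Cfsg.Agent.S0722

/-- In a primitive group `H`, with `N` a minimal normal subgroup and `K` a point stabiliser, `K ⊓ N` is maximal among proper `K`-invariant subgroups of `N`. -/
theorem result {α : Type*} [Finite α] (H : Subgroup (Equiv.Perm α)) [MulAction.IsPreprimitive H α] (N : Subgroup H) [N.Normal] (hN : N ≠ ⊥) (hmin : ∀ M : Subgroup H, M.Normal → M ≤ N → M = ⊥ ∨ M = N) (a : α) (X : Subgroup H) (hX : X ≤ N) (hKX : MulAction.stabilizer H a ⊓ N ≤ X) (hinv : MulAction.stabilizer H a ≤ Subgroup.normalizer (X : Set H)) : X = MulAction.stabilizer H a ⊓ N ∨ X = N := by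
  classical
  have hnt : Nontrivial α := by
    obtain ⟨n, hn⟩ := Subgroup.ne_bot_iff_exists_ne_one.mp hN
    have h1 : ((n : H) : Equiv.Perm α) ≠ 1 := fun h => hn (Subtype.ext (Subtype.ext h))
    obtain ⟨b, hb⟩ : ∃ b, ((n : H) : Equiv.Perm α) b ≠ b := by
      by_contra hcon
      push Not at hcon
      exact h1 (Equiv.ext hcon)
    exact ⟨⟨_, b, hb⟩⟩
  have hK : IsCoatom (MulAction.stabilizer H a) :=
    MulAction.IsPreprimitive.isCoatom_stabilizer_of_isPreprimitive H a
  rcases hK.le_iff.mp (le_sup_right : MulAction.stabilizer H a ≤ X ⊔ MulAction.stabilizer H a)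
    with htop | heq
  · right
    apply le_antisymm hX
    intro n hn
    have hmem : n ∈ MulAction.stabilizer H a ⊔ X := by rw [sup_comm, htop]; trivial
    obtain ⟨k, hk, x, hx, rfl⟩ :=
      Cfsg.Agent.Helper4.exists_mul_of_mem_sup_of_le_normalizer hinv hmem
    have hkN : k ∈ N := by
      have := N.mul_mem hn (N.inv_mem (hX hx))
      simpa using this
    exact X.mul_mem (hKX (Subgroup.mem_inf.mpr ⟨hk, hkN⟩)) hx
  · left
    apply le_antisymm _ hKX
    have h1 : X ≤ MulAction.stabilizer H a := by rw [← heq]; exact le_sup_left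
    exact le_inf h1 hX

end Cfsg.Agent.S0722
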