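import Mathlib
import Cfsg.Statements.S0724

set_option autoImplicit false
open Cfsg

namespace Cfsg.Agent.S0724

/-- Blichfeldt's Theorem: if a finite set `L` of natural numbers contains the number of fixed points of every non-identity element of a permutation group `G` of degree `n`, then the order of `G` divides `∏ (n - l)` over `l ∈ L`. -/
theorem result {α : Type*} [Fintype α] [DecidableEq α] (G : Subgroup (Equiv.Perm α)) (L : Finset ℕ) (hL : ∀ g ∈ G, g ≠ 1 → Nat.card (MulAction.fixedBy α g) ∈ L) : Nat.card G ∣ ∏ l ∈ L, (Fintype.card α - l) := by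
  classical
  haveI : Fintype G := Fintype.ofFinite G
  let π : G → ℤ := fun g => (Nat.card (MulAction.fixedBy α g) : ℤ)
  have hpow : ∀ k : ℕ, (Fintype.card G : ℤ) ∣ ∑ g : G, π g ^ k := by
    intro k
    have hB := MulAction.sum_card_fixedBy_eq_card_orbits_mul_card_group G (Fin k → α)
    have hfix : ∀ g : G, Fintype.card (MulAction.fixedBy (Fin k → α) g)
        = Nat.card (MulAction.fixedBy α g) ^ k := by
      intro g
      rw [Nat.card_eq_fintype_card]
      have h1 : Fintype.card (Fin k → MulAction.fixedBy α g)
          = Fintype.card (MulAction.fixedBy α g) ^ k := by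
        rw [Fintype.card_fun, Fintype.card_fin]
      rw [← h1]
      apply Fintype.card_congr
      exact
        { toFun := fun f i => ⟨f.1 i, by
            have := congrFun f.2 i
            exact this⟩
          invFun := fun f => ⟨fun i => (f i).1, by
            show g • (fun i => ((f i).1 : α)) = fun i => ((f i).1 : α)
            funext i
            exact (f i).2⟩
          left_inv := fun f => rfl
          right_inv := fun f => rfl }
    have h2 : ∑ g : G, π g ^ k
        = ((∑ g : G, Fintype.card (MulAction.fixedBy (Fin k → α) g) : ℕ) : ℤ) := by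
      rw [Nat.cast_sum]
      refine Finset.sum_congr rfl (fun g _ => ?_)
      rw [hfix g]
      push_cast
      rfl
    rw [h2, hB]
    push_cast
    exact dvd_mul_left _ _
  have hS : ∀ (L' : Finset ℕ) (k : ℕ),
      (Fintype.card G : ℤ) ∣ ∑ g : G, π g ^ k * ∏ l ∈ L', (π g - (l : ℤ)) := by
    intro L'
    induction L' using Finset.induction_on with
    | empty =>
      intro k
      simpa using hpow k
    | insert a s ha ih =>
      intro k
      have h1 : ∀ g : G, π g ^ k * ∏ l ∈ insert a s, (π g - (l : ℤ))
          = π g ^ (k + 1) * ∏ l ∈ s, (π g - (l : ℤ))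
            - (a : ℤ) * (π g ^ k * ∏ l ∈ s, (π g - (l : ℤ))) := by
        intro g
        rw [Finset.prod_insert ha]
        ring
      rw [Finset.sum_congr rfl (fun g _ => h1 g), Finset.sum_sub_distrib, ← Finset.mul_sum]
      exact dvd_sub (ih (k + 1)) (dvd_mul_of_dvd_right (ih k) _)
  have h0 := hS L 0
  simp only [pow_zero, one_mul] at h0
  have hπ1 : π 1 = (Fintype.card α : ℤ) := by
    show (Nat.card (MulAction.fixedBy α (1 : G)) : ℤ) = _
    rw [MulAction.fixedBy_one_eq_univ, Nat.card_congr (Equiv.Set.univ α),
      Nat.card_eq_fintype_card]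
  have hsum : ∑ g : G, ∏ l ∈ L, (π g - (l : ℤ)) = ∏ l ∈ L, ((Fintype.card α : ℤ) - l) := by
    rw [Finset.sum_eq_single (1 : G)]
    · rw [hπ1]
    · intro g _ hg
      have hmem : Nat.card (MulAction.fixedBy α g) ∈ L :=
        hL (g : Equiv.Perm α) g.2 (fun h => hg (Subtype.ext h))
      exact Finset.prod_eq_zero hmem (sub_self _)
    · intro h
      exact absurd (Finset.mem_univ _) h
  rw [hsum] at h0
  by_cases hle : ∀ l ∈ L, l ≤ Fintype.card α
  · have hcast : ((∏ l ∈ L, (Fintype.card α - l) : ℕ) : ℤ)
        = ∏ l ∈ L, ((Fintype.card α : ℤ) - l) := by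
      rw [Nat.cast_prod]
      exact Finset.prod_congr rfl (fun l hl => Nat.cast_sub (hle l hl))
    rw [Nat.card_eq_fintype_card]
    exact Int.natCast_dvd_natCast.mp (by rw [hcast]; exact h0)
  · push_neg at hle
    obtain ⟨l, hl, hlt⟩ := hle
    rw [Finset.prod_eq_zero hl (Nat.sub_eq_zero_of_le hlt.le)]
    exact dvd_zero _


end Cfsg.Agent.S0724
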