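import Cfsg.Statements.S0726
import Mathlib

set_option autoImplicit false
open Cfsg

namespace Cfsg.Agent.S0726

/-- The left and right regular permutation representations of a group are each other's centralisers in the symmetric group: the centraliser of the left regular image is the right regular image, and a transitive subgroup centralising the left regular image is the whole right regular image. -/
theorem result {G : Type*} [Group G] : Subgroup.centralizer ((MulAction.toPermHom G G).range : Set (Equiv.Perm G)) = (MulAction.toPermHom Gᵐᵒᵖ G).range ∧ ∀ H : Subgroup (Equiv.Perm G), H ≤ Subgroup.centralizer ((MulAction.toPermHom G G).range : Set (Equiv.Perm G)) → MulAction.IsPretransitive H G → H = (MulAction.toPermHom Gᵐᵒᵖ G).range := by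
  have hc : Subgroup.centralizer ((MulAction.toPermHom G G).range : Set (Equiv.Perm G)) =
      (MulAction.toPermHom Gᵐᵒᵖ G).range := by
    ext c
    constructor
    · intro hc
      refine ⟨MulOpposite.op (c 1), ?_⟩
      ext x
      have h1 := Subgroup.mem_centralizer_iff.mp hc (MulAction.toPermHom G G x) ⟨x, rfl⟩
      have h2 := congrArg (fun σ : Equiv.Perm G => σ 1) h1
      simp only [Equiv.Perm.coe_mul, Function.comp_apply, MulAction.toPermHom_apply,
        MulAction.toPerm_apply, smul_eq_mul, mul_one] at h2
      simp only [MulAction.toPermHom_apply, MulAction.toPerm_apply, MulOpposite.smul_eq_mul_unop,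
        MulOpposite.unop_op]
      exact h2
    · rintro ⟨g, rfl⟩
      rw [Subgroup.mem_centralizer_iff]
      rintro _ ⟨x, rfl⟩
      ext y
      simp [mul_assoc]
  refine ⟨hc, ?_⟩
  intro H hH htr
  apply le_antisymm (hc ▸ hH)
  rintro _ ⟨g, rfl⟩
  obtain ⟨h, hh⟩ := htr.exists_smul_eq (1 : G) (MulOpposite.unop g)
  have hmem : (h : Equiv.Perm G) ∈ (MulAction.toPermHom Gᵐᵒᵖ G).range := hc ▸ hH h.2
  obtain ⟨g', hg'⟩ := hmem
  have hgg : g' = g := by
    have h3 := congrArg (fun σ : Equiv.Perm G => σ 1) hg'
    simp only [MulAction.toPermHom_apply, MulAction.toPerm_apply, MulOpposite.smul_eq_mul_unop,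
      one_mul] at h3
    apply MulOpposite.unop_injective
    rw [h3]
    exact hh
  rw [← hgg, hg']
  exact h.2


end Cfsg.Agent.S0726
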