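import Cfsg.Statements.S0728
import Mathlib

set_option autoImplicit false
open Cfsg

namespace Cfsg.Agent.S0728

theorem count_aux {Γ α : Type*} [Group Γ] [MulAction Γ α] [Fintype α] [DecidableEq α]
    (hsharp : ∀ (g : Γ) (p₁ p₂ p₃ : α), p₁ ≠ p₂ → p₁ ≠ p₃ → p₂ ≠ p₃ →
      g • p₁ = p₁ → g • p₂ = p₂ → g • p₃ = p₃ → g = 1)
    (h2t : ∀ a b c d : α, a ≠ b → c ≠ d → ∃ g : Γ, g • a = c ∧ g • b = d)
    (a b c : α) (hab : a ≠ b) (hac : a ≠ c) (hbc : b ≠ c)
    (X : Finset Γ) (hX : 3 ≤ X.card) (hx1 : ∀ x ∈ X, x ≠ 1) (hx3 : ∀ x ∈ X, x ^ 3 = 1)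
    (hxa : ∀ x ∈ X, x • a = a) (hxb : ∀ x ∈ X, x • b = b) : False := by
  classical
  have hγ : ∀ p : α × α, ∃ g : Γ, p.1 ≠ p.2 → (g • a = p.1 ∧ g • b = p.2) := by
    intro p
    by_cases h : p.1 ≠ p.2
    · obtain ⟨g, hg⟩ := h2t a b p.1 p.2 hab h
      exact ⟨g, fun _ => hg⟩
    · exact ⟨1, fun h' => absurd h' h⟩
  choose γ hγ' using hγ
  have hpick : ∀ g : Γ, ∃ d : α, (∃ d' : α, g • d' = d') → g • d = d := by
    intro g
    by_cases h : ∃ d' : α, g • d' = d'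
    · obtain ⟨d, hd⟩ := h
      exact ⟨d, fun _ => hd⟩
    · exact ⟨a, fun h' => absurd h' h⟩
  choose pick hpick' using hpick
  let S : Finset (α × α) := Finset.univ.filter (fun p => p.1 ≠ p.2 ∧ p.1 ≠ c ∧ p.2 ≠ c)
  have hS : ∀ p : α × α, p ∈ S ↔ (p.1 ≠ p.2 ∧ p.1 ≠ c ∧ p.2 ≠ c) := by
    intro p
    show p ∈ Finset.univ.filter _ ↔ _
    rw [Finset.mem_filter]
    exact ⟨fun h => h.2, fun h => ⟨Finset.mem_univ p, h⟩⟩
  let F : (α × α) × Γ → Γ := fun q => γ q.1 * q.2 * (γ q.1)⁻¹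
  let f : (α × α) × Γ → (α × α) × Bool := fun q =>
    ((F q • c, F q • (F q • c)), decide (q.1.1 = pick (F q)))
  have key : ∀ p : α × α, p ∈ S → ∀ x ∈ X,
      (γ p * x * (γ p)⁻¹) • p.1 = p.1 ∧ (γ p * x * (γ p)⁻¹) • p.2 = p.2 ∧
      (γ p * x * (γ p)⁻¹) ≠ 1 ∧ (γ p * x * (γ p)⁻¹) ^ 3 = 1 := by
    intro p hp x hx
    obtain ⟨h12, h1c, h2c⟩ := (hS p).mp hp
    obtain ⟨hga, hgb⟩ := hγ' p h12
    have e1 : (γ p)⁻¹ • p.1 = a := by rw [inv_smul_eq_iff]; exact hga.symm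
    have e2 : (γ p)⁻¹ • p.2 = b := by rw [inv_smul_eq_iff]; exact hgb.symm
    refine ⟨?_, ?_, ?_, ?_⟩
    · rw [mul_smul, mul_smul, e1, hxa x hx, hga]
    · rw [mul_smul, mul_smul, e2, hxb x hx, hgb]
    · intro h
      apply hx1 x hx
      have h' : (γ p)⁻¹ * (γ p * x * (γ p)⁻¹) * γ p = x := by group
      rw [← h', h]; group
    · rw [conj_pow, hx3 x hx, mul_one, mul_inv_cancel]
  have fixfact : ∀ (k : Γ) (p1 p2 d : α), p1 ≠ p2 → k • p1 = p1 → k • p2 = p2 → k ≠ 1 →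
      k • d = d → d = p1 ∨ d = p2 := by
    intro k p1 p2 d h12 h1 h2 hk hd
    by_contra hno
    push_neg at hno
    exact hk (hsharp k p1 p2 d h12 (Ne.symm hno.1) (Ne.symm hno.2) h1 h2 hd)
  have cube : ∀ (k : Γ) (d : α), k ^ 3 = 1 → k • (k • (k • d)) = d := by
    intro k d hk
    have h : (k ^ 3) • d = d := by rw [hk, one_smul]
    have e : k ^ 3 = k * k * k := by
      have e' := pow_succ k 2
      rw [pow_two] at e'
      exact e'
    rw [e, mul_smul, mul_smul] at h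
    exact h
  have movefact : ∀ (k : Γ) (p1 p2 : α), p1 ≠ p2 → p1 ≠ c → p2 ≠ c → k • p1 = p1 →
      k • p2 = p2 → k ≠ 1 → k ^ 3 = 1 →
      k • c ≠ c ∧ k • (k • c) ≠ c ∧ k • c ≠ k • (k • c) := by
    intro k p1 p2 h12 h1c h2c h1 h2 hk hk3
    have hc : k • c ≠ c := by
      intro h
      rcases fixfact k p1 p2 c h12 h1 h2 hk h with h' | h'
      · exact h1c h'.symm
      · exact h2c h'.symm
    refine ⟨hc, ?_, ?_⟩
    · intro h
      apply hc
      have h3 := cube k c hk3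
      rw [h] at h3
      exact h3
    · intro h
      exact hc (smul_left_cancel k h).symm
  have hmaps : ∀ q ∈ S ×ˢ X, f q ∈ S ×ˢ (Finset.univ : Finset Bool) := by
    intro q hq
    obtain ⟨hqS, hqX⟩ := Finset.mem_product.mp hq
    obtain ⟨h12, h1c, h2c⟩ := (hS q.1).mp hqS
    obtain ⟨k1, k2, k3, k4⟩ := key q.1 hqS q.2 hqX
    obtain ⟨m1, m2, m3⟩ := movefact _ q.1.1 q.1.2 h12 h1c h2c k1 k2 k3 k4
    exact Finset.mem_product.mpr ⟨(hS _).mpr ⟨m3, m1, m2⟩, Finset.mem_univ _⟩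
  have hinj : Set.InjOn f (S ×ˢ X : Finset ((α × α) × Γ)) := by
    intro q hq q' hq' hff
    have hq := Finset.mem_coe.mp hq
    have hq' := Finset.mem_coe.mp hq'
    obtain ⟨hqS, hqX⟩ := Finset.mem_product.mp hq
    obtain ⟨hqS', hqX'⟩ := Finset.mem_product.mp hq'
    obtain ⟨h12, h1c, h2c⟩ := (hS q.1).mp hqS
    obtain ⟨h12', h1c', h2c'⟩ := (hS q'.1).mp hqS'
    obtain ⟨k1, k2, k3, k4⟩ := key q.1 hqS q.2 hqX
    obtain ⟨k1', k2', k3', k4'⟩ := key q'.1 hqS' q'.2 hqX'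
    obtain ⟨m1, m2, m3⟩ := movefact _ q.1.1 q.1.2 h12 h1c h2c k1 k2 k3 k4
    have hf1 : (γ q.1 * q.2 * (γ q.1)⁻¹) • c = (γ q'.1 * q'.2 * (γ q'.1)⁻¹) • c :=
      congrArg (fun r => r.1.1) hff
    have hf2 : (γ q.1 * q.2 * (γ q.1)⁻¹) • ((γ q.1 * q.2 * (γ q.1)⁻¹) • c) =
        (γ q'.1 * q'.2 * (γ q'.1)⁻¹) • ((γ q'.1 * q'.2 * (γ q'.1)⁻¹) • c) :=
      congrArg (fun r => r.1.2) hff
    have hf3 : decide (q.1.1 = pick (γ q.1 * q.2 * (γ q.1)⁻¹)) =
        decide (q'.1.1 = pick (γ q'.1 * q'.2 * (γ q'.1)⁻¹)) :=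
      congrArg (fun r => r.2) hff
    obtain ⟨k, hkdef⟩ : ∃ k : Γ, k = γ q.1 * q.2 * (γ q.1)⁻¹ := ⟨_, rfl⟩
    obtain ⟨k', hk'def⟩ : ∃ k' : Γ, k' = γ q'.1 * q'.2 * (γ q'.1)⁻¹ := ⟨_, rfl⟩
    rw [← hkdef] at k1 k2 k3 k4 m1 m2 m3 hf1 hf2 hf3
    rw [← hk'def] at k1' k2' k3' k4' hf1 hf2 hf3
    have hkk : k = k' := by
      have hw : k'⁻¹ * k = 1 := by
        apply hsharp (k'⁻¹ * k) c (k • c) (k • (k • c)) (Ne.symm m1) (Ne.symm m2) m3
        · rw [mul_smul, hf1, inv_smul_smul]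
        · rw [mul_smul, hf2, inv_smul_smul, hf1]
        · rw [mul_smul, cube k c k4, inv_smul_eq_iff, hf2, cube k' c k4']
      exact (inv_mul_eq_one.mp hw).symm
    rw [← hkk] at k1' k2' hf3
    have hpk : k • pick k = pick k := hpick' k ⟨q.1.1, k1⟩
    have hpk' : pick k = q.1.1 ∨ pick k = q.1.2 :=
      fixfact k q.1.1 q.1.2 (pick k) h12 k1 k2 k3 hpk
    have ha' : q'.1.1 = q.1.1 ∨ q'.1.1 = q.1.2 :=
      fixfact k q.1.1 q.1.2 q'.1.1 h12 k1 k2 k3 k1'
    have hb' : q'.1.2 = q.1.1 ∨ q'.1.2 = q.1.2 :=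
      fixfact k q.1.1 q.1.2 q'.1.2 h12 k1 k2 k3 k2'
    have hiff : (q.1.1 = pick k) ↔ (q'.1.1 = pick k) := decide_eq_decide.mp hf3
    have h1eq : q'.1.1 = q.1.1 := by
      rcases hpk' with hp | hp
      · exact (hiff.mp hp.symm).trans hp
      · rcases ha' with h | h
        · exact h
        · exfalso
          have h5 : q.1.1 = pick k := hiff.mpr (h.trans hp.symm)
          exact h12 (h5.trans hp)
    have h2eq : q'.1.2 = q.1.2 := by
      rcases hb' with h | h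
      · exfalso
        exact h12' (h1eq.trans h.symm)
      · exact h
    have hpeq : q.1 = q'.1 := Prod.ext h1eq.symm h2eq.symm
    have hxeq : q.2 = q'.2 := by
      have h := hkk
      rw [hkdef, hk'def, ← hpeq] at h
      exact mul_left_cancel (mul_right_cancel h)
    exact Prod.ext hpeq hxeq
  have hcard := Finset.card_le_card_of_injOn f hmaps hinj
  rw [Finset.card_product, Finset.card_product, Finset.card_univ, Fintype.card_bool] at hcard
  have hSpos : 0 < S.card := Finset.card_pos.mpr ⟨(a, b), (hS _).mpr ⟨hab, hac, hbc⟩⟩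
  have h3 := Nat.mul_le_mul_left S.card hX
  omega

/-- In a sharply triply transitive group of even degree at least 6 (degree `q + 1`, `q` odd), a two-point stabiliser has at most one subgroup of order 3. -/
theorem result {α : Type*} [Fintype α] [DecidableEq α] (heven : Even (Fintype.card α)) (h6 : 6 ≤ Fintype.card α) (G : Subgroup (Equiv.Perm α)) (h3 : MulAction.IsMultiplyPretransitive G α 3) (hsharp : ∀ x : Fin 3 ↪ α, MulAction.stabilizer G x = ⊥) {a b : α} (hab : a ≠ b) (A B : Subgroup G) (hA : A ≤ MulAction.stabilizer G a ⊓ MulAction.stabilizer G b) (hB : B ≤ MulAction.stabilizer G a ⊓ MulAction.stabilizer G b) (hA3 : Nat.card A = 3) (hB3 : Nat.card B = 3) : A = B := by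
  classical
  by_contra hne
  have hsh : ∀ (g : G) (p₁ p₂ p₃ : α), p₁ ≠ p₂ → p₁ ≠ p₃ → p₂ ≠ p₃ →
      g • p₁ = p₁ → g • p₂ = p₂ → g • p₃ = p₃ → g = 1 := by
    intro g p₁ p₂ p₃ h12 h13 h23 h1 h2 h3'
    have hinj : Function.Injective ![p₁, p₂, p₃] := by
      intro i j hij
      fin_cases i <;> fin_cases j <;> simp_all
    have hx : g ∈ MulAction.stabilizer G (⟨![p₁, p₂, p₃], hinj⟩ : Fin 3 ↪ α) := by
      rw [MulAction.mem_stabilizer_iff]
      ext i
      fin_cases i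
      · exact h1
      · exact h2
      · exact h3'
    rw [hsharp] at hx
    exact Subgroup.mem_bot.mp hx
  have hcard6 : 3 ≤ Nat.card α := by rw [Nat.card_eq_fintype_card]; omega
  haveI : MulAction.IsMultiplyPretransitive G α 2 :=
    MulAction.isMultiplyPretransitive_of_le (n := 3) (by norm_num) hcard6
  have h2t : ∀ a b c d : α, a ≠ b → c ≠ d → ∃ g : G, g • a = c ∧ g • b = d := by
    intro a b c d hab hcd
    exact MulAction.is_two_pretransitive_iff.mp inferInstance hab hcd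
  obtain ⟨c, hca, hcb⟩ : ∃ c : α, c ≠ a ∧ c ≠ b := by
    by_contra hno
    push_neg at hno
    have hsub : (Finset.univ : Finset α) ⊆ {a, b} := by
      intro d _
      by_cases hda : d = a
      · simp [hda]
      · simp [hno d hda]
    have h1 := Finset.card_le_card hsub
    have h2 : ({a, b} : Finset α).card ≤ 2 := Finset.card_le_two
    rw [Finset.card_univ] at h1
    omega
  have hBA : ¬ B ≤ A := by
    intro hle
    exact hne (Subgroup.eq_of_le_of_card_ge hle (by rw [hA3, hB3])).symm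
  obtain ⟨y, hyB, hyA⟩ := SetLike.not_le_iff_exists.mp hBA
  obtain ⟨x, hxA, hx1⟩ : ∃ x ∈ A, x ≠ 1 := by
    by_contra hno
    push_neg at hno
    have hbot : A = ⊥ := (Subgroup.eq_bot_iff_forall A).mpr hno
    rw [hbot, Subgroup.card_bot] at hA3
    norm_num at hA3
  have hx3 : x ^ 3 = 1 := by
    have h := congrArg Subtype.val (pow_card_eq_one' (x := (⟨x, hxA⟩ : A)))
    rw [hA3] at h
    exact h
  have hy3 : y ^ 3 = 1 := by
    have h := congrArg Subtype.val (pow_card_eq_one' (x := (⟨y, hyB⟩ : B)))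
    rw [hB3] at h
    exact h
  have hy1 : y ≠ 1 := fun h => hyA (by rw [h]; exact A.one_mem)
  have hxx1 : x ^ 2 ≠ 1 := by
    intro h
    have e : x ^ 3 = x ^ 2 * x := pow_succ x 2
    rw [hx3, h, one_mul] at e
    exact hx1 e.symm
  have h12 : x ≠ x ^ 2 := by
    intro h
    apply hx1
    have e : x * x = x * 1 := by rw [mul_one, ← pow_two]; exact h.symm
    exact mul_left_cancel e
  have h13 : x ≠ y := fun h => hyA (by rw [← h]; exact hxA)
  have h23 : x ^ 2 ≠ y := fun h => hyA (by rw [← h]; exact A.pow_mem hxA 2)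
  have hXcard : ({x, x ^ 2, y} : Finset G).card = 3 :=
    Finset.card_eq_three.mpr ⟨x, x ^ 2, y, h12, h13, h23, rfl⟩
  have hfix : ∀ z : G, z ∈ A ∨ z ∈ B → z • a = a ∧ z • b = b := by
    intro z hz
    rcases hz with hz | hz
    · exact ⟨MulAction.mem_stabilizer_iff.mp (hA hz).1,
        MulAction.mem_stabilizer_iff.mp (hA hz).2⟩
    · exact ⟨MulAction.mem_stabilizer_iff.mp (hB hz).1,
        MulAction.mem_stabilizer_iff.mp (hB hz).2⟩
  have hXmem : ∀ z ∈ ({x, x ^ 2, y} : Finset G), (z = x ∨ z = x ^ 2 ∨ z = y) := by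
    intro z hz
    simpa using hz
  refine count_aux hsh h2t a b c hab (Ne.symm hca) (Ne.symm hcb) ({x, x ^ 2, y} : Finset G)
    (le_of_eq hXcard.symm) ?_ ?_ ?_ ?_
  · intro z hz
    rcases hXmem z hz with h | h | h
    · rw [h]; exact hx1
    · rw [h]; exact hxx1
    · rw [h]; exact hy1
  · intro z hz
    rcases hXmem z hz with h | h | h
    · rw [h]; exact hx3
    · rw [h, ← pow_mul, mul_comm, pow_mul, hx3, one_pow]
    · rw [h]; exact hy3
  · intro z hz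
    rcases hXmem z hz with h | h | h
    · rw [h]; exact (hfix _ (Or.inl hxA)).1
    · rw [h]; exact (hfix _ (Or.inl (A.pow_mem hxA 2))).1
    · rw [h]; exact (hfix _ (Or.inr hyB)).1
  · intro z hz
    rcases hXmem z hz with h | h | h
    · rw [h]; exact (hfix _ (Or.inl hxA)).2
    · rw [h]; exact (hfix _ (Or.inl (A.pow_mem hxA 2))).2
    · rw [h]; exact (hfix _ (Or.inr hyB)).2


end Cfsg.Agent.S0728
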