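import Cfsg.Statements.S0733
import Mathlib

set_option autoImplicit false
open Cfsg

namespace Cfsg.Agent.S0733

/-- A permutation group of affine type — generated by the translations of a finite vector space `V` over `ZMod p` together with a group `G₀` of linear automorphisms — is primitive on `V` if and only if `G₀` is irreducible on `V`. -/
theorem result {p : ℕ} [Fact p.Prime] {V : Type*} [AddCommGroup V] [Module (ZMod p) V] [Finite V] [Nontrivial V] (G₀ : Subgroup (V ≃ₗ[ZMod p] V)) (G : Subgroup (Equiv.Perm V)) (hG : ∀ σ : Equiv.Perm V, σ ∈ G ↔ ∃ g ∈ G₀, ∃ b : V, ∀ x : V, σ x = (g : V ≃ₗ[ZMod p] V) x + b) : MulAction.IsPreprimitive G V ↔ ∀ W : Submodule (ZMod p) V, (∀ g ∈ G₀, ∀ v ∈ W, (g : V ≃ₗ[ZMod p] V) v ∈ W) → W = ⊥ ∨ W = ⊤ := by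
  have hsmul : ∀ (σ : G) (x : V), σ • x = (σ : Equiv.Perm V) x := fun σ x => rfl
  constructor
  · intro hprim W hW
    have hblock : MulAction.IsBlock G (W : Set V) := by
      rw [MulAction.isBlock_iff_smul_eq_of_mem]
      intro σ a ha hσa
      obtain ⟨g, hg, b, hgb⟩ := (hG σ).mp σ.2
      rw [hsmul, hgb] at hσa
      have hb : b ∈ W := by
        have h1 := W.sub_mem hσa (hW g hg a ha)
        simpa using h1
      ext x
      rw [Set.mem_smul_set]
      constructor
      · rintro ⟨w, hw, rfl⟩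
        rw [hsmul, hgb]
        exact W.add_mem (hW g hg w hw) hb
      · intro hx
        refine ⟨g⁻¹ (x - b), hW g⁻¹ (inv_mem hg) _ (W.sub_mem hx hb), ?_⟩
        rw [hsmul, hgb]
        have h2 : g (g⁻¹ (x - b)) = x - b := by
          show (g * g⁻¹) (x - b) = x - b
          rw [mul_inv_cancel]; rfl
        rw [h2, sub_add_cancel]
    rcases hblock.subsingleton_or_eq_univ with h | h
    · left
      rw [eq_bot_iff]
      intro w hw
      rw [Submodule.mem_bot]
      exact h hw W.zero_mem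
    · right
      rw [eq_top_iff]
      intro w _
      have h3 : w ∈ (W : Set V) := by rw [h]; trivial
      exact h3
  · intro hirr
    have htransl : ∀ b : V, ∃ σ : G, ∀ x, (σ : Equiv.Perm V) x = x + b := by
      intro b
      refine ⟨⟨Equiv.addRight b, (hG _).mpr ⟨1, one_mem _, b, fun x => ?_⟩⟩, fun x => rfl⟩
      rfl
    have hlin : ∀ g ∈ G₀, ∃ σ : G, ∀ x, (σ : Equiv.Perm V) x = (g : V ≃ₗ[ZMod p] V) x := by
      intro g hg
      refine ⟨⟨(g : V ≃ₗ[ZMod p] V).toEquiv, (hG _).mpr ⟨g, hg, 0, fun x => ?_⟩⟩, fun x => rfl⟩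
      rw [add_zero]; rfl
    haveI : MulAction.IsPretransitive G V := by
      constructor
      intro x y
      obtain ⟨σ, hσ⟩ := htransl (y - x)
      exact ⟨σ, by rw [hsmul, hσ]; abel⟩
    apply MulAction.IsPreprimitive.of_isTrivialBlock_base (0 : V)
    intro B h0 hB
    rw [MulAction.isBlock_iff_smul_eq_of_mem] at hB
    have hsub : ∀ x ∈ B, ∀ y ∈ B, x + -y ∈ B := by
      intro x hx y hy
      obtain ⟨σ, hσ⟩ := htransl y
      have h1 := hB (g := σ) h0 (by rw [hsmul, hσ, zero_add]; exact hy)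
      rw [← h1] at hx
      obtain ⟨z, hz, rfl⟩ := hx
      show ((σ : Equiv.Perm V) z) + -y ∈ B
      rw [hσ]
      simpa using hz
    let A : AddSubgroup V := AddSubgroup.ofSub B ⟨0, h0⟩ hsub
    let W : Submodule (ZMod p) V := AddSubgroup.toZModSubmodule p A
    have hWB : ∀ v, v ∈ W ↔ v ∈ B := fun v => Iff.rfl
    have hWinv : ∀ g ∈ G₀, ∀ v ∈ W, (g : V ≃ₗ[ZMod p] V) v ∈ W := by
      intro g hg v hv
      obtain ⟨σ, hσ⟩ := hlin g hg
      have h1 := hB (g := σ) h0 (by rw [hsmul, hσ, map_zero]; exact h0)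
      rw [hWB] at hv ⊢
      rw [← h1]
      exact ⟨v, hv, hσ v⟩
    rcases hirr W hWinv with h | h
    · left
      intro x hx y hy
      have hx' : x ∈ W := (hWB x).mpr hx
      have hy' : y ∈ W := (hWB y).mpr hy
      rw [h, Submodule.mem_bot] at hx' hy'
      rw [hx', hy']
    · right
      ext x
      simp only [Set.mem_univ, iff_true]
      rw [← hWB, h]; trivial

end Cfsg.Agent.S0733
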