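import Cfsg.Statements.S0734
import Mathlib

set_option autoImplicit false
open Cfsg

namespace Cfsg.Agent.S0734

/-- Higman's criterion for primitivity: a transitive action on a finite set is primitive if and only if every non-trivial orbital graph (edges = images of a fixed pair of distinct points) is connected. -/
theorem result {G : Type*} [Group G] {Ω : Type*} [Finite Ω] [MulAction G Ω] [MulAction.IsPretransitive G Ω] [Nontrivial Ω] : MulAction.IsPreprimitive G Ω ↔ ∀ a b : Ω, a ≠ b → (SimpleGraph.fromRel fun x y : Ω => ∃ g : G, g • a = x ∧ g • b = y).Connected := by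
  classical
  constructor
  · intro hprim a b hab
    have hadj : ∀ (g : G) (x y : Ω),
        (SimpleGraph.fromRel fun x y : Ω => ∃ g : G, g • a = x ∧ g • b = y).Adj x y →
        (SimpleGraph.fromRel fun x y : Ω => ∃ g : G, g • a = x ∧ g • b = y).Adj (g • x) (g • y) := by
      intro g x y hxy
      rw [SimpleGraph.fromRel_adj] at hxy ⊢
      refine ⟨fun h => hxy.1 (MulAction.injective g h), ?_⟩
      rcases hxy.2 with ⟨k, rfl, rfl⟩ | ⟨k, rfl, rfl⟩
      · left
        exact ⟨g * k, mul_smul _ _ _, mul_smul _ _ _⟩
      · right
        exact ⟨g * k, mul_smul _ _ _, mul_smul _ _ _⟩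
    have hreach : ∀ (g : G) (x y : Ω),
        (SimpleGraph.fromRel fun x y : Ω => ∃ g : G, g • a = x ∧ g • b = y).Reachable x y →
        (SimpleGraph.fromRel fun x y : Ω => ∃ g : G, g • a = x ∧ g • b = y).Reachable
          (g • x) (g • y) := by
      intro g x y hxy
      obtain ⟨w⟩ := hxy
      induction w with
      | nil => exact SimpleGraph.Reachable.refl _
      | cons hadj' _ ih => exact (hadj g _ _ hadj').reachable.trans ih
    have hblock : MulAction.IsBlock G
        {x | (SimpleGraph.fromRel fun x y : Ω => ∃ g : G, g • a = x ∧ g • b = y).Reachable a x} := by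
      rw [MulAction.isBlock_iff_smul_eq_of_mem]
      intro g z hz hgz
      have h1 : (SimpleGraph.fromRel fun x y : Ω => ∃ g : G, g • a = x ∧ g • b = y).Reachable
          a (g • a) := SimpleGraph.Reachable.trans hgz (hreach g a z hz).symm
      ext x
      constructor
      · rintro ⟨y, hy, rfl⟩
        exact h1.trans (hreach g a y hy)
      · intro hx
        refine ⟨g⁻¹ • x, ?_, smul_inv_smul g x⟩
        have := hreach g⁻¹ _ _ (h1.symm.trans hx)
        rwa [inv_smul_smul] at this
    have hab_adj : (SimpleGraph.fromRel fun x y : Ω => ∃ g : G, g • a = x ∧ g • b = y).Adj a b := by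
      rw [SimpleGraph.fromRel_adj]
      exact ⟨hab, Or.inl ⟨1, one_smul _ _, one_smul _ _⟩⟩
    rcases hprim.isTrivialBlock_of_isBlock hblock with hsub | huniv
    · exact absurd (hsub (SimpleGraph.Reachable.refl a) hab_adj.reachable) hab
    · have hall : ∀ x, (SimpleGraph.fromRel fun x y : Ω => ∃ g : G, g • a = x ∧ g • b = y).Reachable
          a x := fun x => by
        have : x ∈ {x | (SimpleGraph.fromRel fun x y : Ω =>
            ∃ g : G, g • a = x ∧ g • b = y).Reachable a x} := by
          rw [huniv]
          trivial
        exact this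
      exact (SimpleGraph.connected_iff _).mpr ⟨fun x y => (hall x).symm.trans (hall y), inferInstance⟩
  · intro hconn
    refine { isTrivialBlock_of_isBlock := ?_ }
    intro B hB
    by_contra htriv
    unfold MulAction.IsTrivialBlock at htriv
    push Not at htriv
    obtain ⟨hns, hnu⟩ := htriv
    obtain ⟨a, ha, b, hb, hab⟩ := hns
    apply hnu
    have hc := hconn a b hab
    have hclosed : ∀ x y,
        (SimpleGraph.fromRel fun x y : Ω => ∃ g : G, g • a = x ∧ g • b = y).Adj x y →
        x ∈ B → y ∈ B := by
      intro x y hxy hx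
      rw [SimpleGraph.fromRel_adj] at hxy
      rw [MulAction.isBlock_iff_smul_eq_of_mem] at hB
      rcases hxy.2 with ⟨g, rfl, rfl⟩ | ⟨g, rfl, rfl⟩
      · have := hB ha hx
        rw [← this]
        exact Set.smul_mem_smul_set hb
      · have := hB hb hx
        rw [← this]
        exact Set.smul_mem_smul_set ha
    have hwalk : ∀ (u v : Ω)
        (w : (SimpleGraph.fromRel fun x y : Ω => ∃ g : G, g • a = x ∧ g • b = y).Walk u v),
        u ∈ B → v ∈ B := by
      intro u v w
      induction w with
      | nil => exact id
      | cons hadj _ ih => exact fun hu => ih (hclosed _ _ hadj hu)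
    ext x
    simp only [Set.mem_univ, iff_true]
    obtain ⟨w⟩ := hc.preconnected a x
    exact hwalk a x w ha

end Cfsg.Agent.S0734
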