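import Cfsg.Statements.S0735
import Mathlib

set_option autoImplicit false
open Cfsg

namespace Cfsg.Agent.S0735

/-- A 2-homogeneous permutation group (transitive on 2-subsets) of even order is doubly transitive; a non-trivial 2-homogeneous group is primitive. -/
theorem result {α : Type*} [Fintype α] [DecidableEq α] (G : Subgroup (Equiv.Perm α)) (h2 : MulAction.IsPretransitive G (Set.powersetCard α 2)) (hα : 3 ≤ Fintype.card α) : (Even (Nat.card G) → MulAction.IsMultiplyPretransitive G α 2) ∧ (G ≠ ⊥ → MulAction.IsPreprimitive G α) := by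
  classical
  have H : ∀ a b c d : α, a ≠ b → c ≠ d →
      ∃ g : G, (g • a = c ∧ g • b = d) ∨ (g • a = d ∧ g • b = c) := by
    intro a b c d hab hcd
    let s : Set.powersetCard α 2 := ⟨{a, b}, Finset.card_pair hab⟩
    let t : Set.powersetCard α 2 := ⟨{c, d}, Finset.card_pair hcd⟩
    obtain ⟨g, hg⟩ := MulAction.exists_smul_eq G s t
    refine ⟨g, ?_⟩
    have hg0 : ((g • s : Set.powersetCard α 2) : Finset α) = {c, d} := congrArg Subtype.val hg
    have hg' := (Set.powersetCard.coe_smul (g := g) (s := s)).symm.trans hg0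
    have ha : g • a ∈ ({c, d} : Finset α) := by
      rw [← hg']; exact Finset.smul_mem_smul_finset (Finset.mem_insert_self a _)
    have hb : g • b ∈ ({c, d} : Finset α) := by
      rw [← hg']; exact Finset.smul_mem_smul_finset (Finset.mem_insert_of_mem (Finset.mem_singleton_self b))
    have hne : g • a ≠ g • b := fun h => hab (smul_left_cancel g h)
    rw [Finset.mem_insert, Finset.mem_singleton] at ha hb
    rcases ha with ha | ha <;> rcases hb with hb | hb
    · exact absurd (ha.trans hb.symm) hne
    · exact Or.inl ⟨ha, hb⟩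
    · exact Or.inr ⟨ha, hb⟩
    · exact absurd (ha.trans hb.symm) hne
  refine ⟨?_, ?_⟩
  · intro heven
    haveI : Fact (Nat.Prime 2) := ⟨Nat.prime_two⟩
    obtain ⟨t, ht⟩ := exists_prime_orderOf_dvd_card' (G := ↥G) 2 heven.two_dvd
    have htt : t * t = 1 := by rw [← pow_two, ← ht]; exact pow_orderOf_eq_one t
    have ht1 : t ≠ 1 := by intro h; rw [h, orderOf_one] at ht; omega
    obtain ⟨a, ha⟩ : ∃ a : α, t • a ≠ a := by
      by_contra hcon
      push Not at hcon
      apply ht1
      apply Subtype.ext
      apply Equiv.Perm.ext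
      intro x
      exact hcon x
    obtain ⟨b, hb⟩ : ∃ b : α, b = t • a := ⟨_, rfl⟩
    have htb : t • b = a := by rw [hb, ← mul_smul, htt, one_smul]
    have hab : a ≠ b := by rw [hb]; exact Ne.symm ha
    have key : ∀ c d : α, c ≠ d → ∃ g : G, g • a = c ∧ g • b = d := by
      intro c d hcd
      obtain ⟨g, hg | hg⟩ := H a b c d hab hcd
      · exact ⟨g, hg⟩
      · refine ⟨g * t, ?_, ?_⟩
        · rw [mul_smul, ← hb]; exact hg.2
        · rw [mul_smul, htb]; exact hg.1
    rw [MulAction.is_two_pretransitive_iff]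
    intro c d e f hcd hef
    obtain ⟨g₁, hg₁⟩ := key c d hcd
    obtain ⟨g₂, hg₂⟩ := key e f hef
    refine ⟨g₂ * g₁⁻¹, ?_, ?_⟩
    · rw [mul_smul, ← hg₁.1, inv_smul_smul]; exact hg₂.1
    · rw [mul_smul, ← hg₁.2, inv_smul_smul]; exact hg₂.2
  · intro _
    have htr : MulAction.IsPretransitive G α := by
      constructor
      intro x y
      by_cases hxy : x = y
      · exact ⟨1, by rw [one_smul, hxy]⟩
      obtain ⟨z, hzx, hzy⟩ : ∃ z : α, z ≠ x ∧ z ≠ y := by
        by_contra hcon
        push Not at hcon
        have hsub : (Finset.univ : Finset α) ⊆ {x, y} := by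
          intro z _
          by_cases hzx : z = x
          · simp [hzx]
          · simp [hcon z hzx]
        have h1 := Finset.card_le_card hsub
        have h2 : ({x, y} : Finset α).card ≤ 2 := Finset.card_le_two
        rw [Finset.card_univ] at h1
        omega
      obtain ⟨g₁, h1 | h1⟩ := H x z y x (Ne.symm hzx) (Ne.symm hxy)
      · exact ⟨g₁, h1.1⟩
      obtain ⟨g₂, h2 | h2⟩ := H x y z y hxy hzy
      · exact ⟨g₁ * g₂, by rw [mul_smul, h2.1]; exact h1.2⟩
      · exact ⟨g₂, h2.1⟩
    refine { toIsPretransitive := htr, isTrivialBlock_of_isBlock := ?_ }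
    intro B hB
    by_cases hsub : B.Subsingleton
    · exact Or.inl hsub
    right
    rw [Set.not_subsingleton_iff] at hsub
    obtain ⟨a, ha, b, hb, hab⟩ := hsub
    rw [Set.eq_univ_iff_forall]
    intro c
    by_cases hca : c = a
    · rw [hca]; exact ha
    obtain ⟨g, hg⟩ := H a b a c hab (Ne.symm hca)
    have hga := Set.smul_mem_smul_set (a := g) ha
    have hgb := Set.smul_mem_smul_set (a := g) hb
    rcases hB.smul_eq_or_disjoint g with h | h
    · rw [← h]
      rcases hg with hg | hg
      · rw [hg.2] at hgb; exact hgb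
      · rw [hg.1] at hga; exact hga
    · exfalso
      rcases hg with hg | hg
      · rw [hg.1] at hga; exact Set.disjoint_left.mp h hga ha
      · rw [hg.2] at hgb; exact Set.disjoint_left.mp h hgb ha

end Cfsg.Agent.S0735
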