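import Cfsg.Statements.S0740
import Mathlib

set_option autoImplicit false
open Cfsg

namespace Cfsg.Agent.S0740

/-- In a finite Zassenhaus group any two points `a ≠ b` are swapped by an involution; every such involution has exactly one fixed point when the degree is odd and 0 or 2 fixed points when the degree is even; and if the two-point stabiliser has even order, some such involution has exactly 2 fixed points. -/
theorem result {G Ω : Type*} [Group G] [Finite G] [MulAction G Ω] [Fintype Ω] (hZ : Cfsg.IsZassenhausGroup G Ω) {a b : Ω} (hab : a ≠ b) : (∃ s : G, orderOf s = 2 ∧ s • a = b ∧ s • b = a) ∧ (∀ s : G, orderOf s = 2 → s • a = b → s • b = a → (Odd (Fintype.card Ω) → Nat.card (MulAction.fixedBy Ω s) = 1) ∧ (Even (Fintype.card Ω) → Nat.card (MulAction.fixedBy Ω s) = 0 ∨ Nat.card (MulAction.fixedBy Ω s) = 2)) ∧ (Even (Fintype.card Ω) → Even (Nat.card ↥(MulAction.stabilizer G a ⊓ MulAction.stabilizer G b)) → ∃ s : G, orderOf s = 2 ∧ s • a = b ∧ s • b = a ∧ Nat.card (MulAction.fixedBy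 Ω s) = 2) := by
  classical
  obtain ⟨hfaith, h2, h3fix, -, -⟩ := hZ
  haveI : Fact (Nat.Prime 2) := ⟨Nat.prime_two⟩
  have hcardΩ : Nat.card Ω = Fintype.card Ω := Nat.card_eq_fintype_card
  have h2t : ∀ a b c d : Ω, a ≠ b → c ≠ d → ∃ g : G, g • a = c ∧ g • b = d :=
    fun a b c d h h' => MulAction.is_two_pretransitive_iff.mp h2 h h'
  have hconj : ∀ (t : G) (c : Ω), orderOf t = 2 → t • c ≠ c →
      ∃ h : G, orderOf (h * t * h⁻¹) = 2 ∧ (h * t * h⁻¹) • a = b ∧ (h * t * h⁻¹) • b = a := by
    intro t c ht hc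
    have ht2 : t ^ 2 = 1 := by rw [← ht]; exact pow_orderOf_eq_one t
    have ht1 : t ≠ 1 := by
      intro h1
      rw [h1, orderOf_one] at ht
      norm_num at ht
    have htd : t • (t • c) = c := by
      rw [← mul_smul, ← pow_two, ht2, one_smul]
    obtain ⟨h, hhc, hhd⟩ := h2t c (t • c) a b (Ne.symm hc) hab
    have e1 : h⁻¹ • a = c := by rw [inv_smul_eq_iff]; exact hhc.symm
    have e2 : h⁻¹ • b = t • c := by rw [inv_smul_eq_iff]; exact hhd.symm
    refine ⟨h, ?_, ?_, ?_⟩
    · exact orderOf_eq_prime (by rw [conj_pow, ht2, mul_one, mul_inv_cancel])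
        (fun h1 => ht1 (conj_eq_one_iff.mp h1))
    · rw [mul_smul, mul_smul, e1, hhd]
    · rw [mul_smul, mul_smul, e2, htd, hhc]
  have hfixcount : ∀ s : G, orderOf s = 2 → Nat.card (MulAction.fixedBy Ω s) ≤ 2 ∧
      Nat.card Ω % 2 = Nat.card (MulAction.fixedBy Ω s) % 2 := by
    intro s hs
    have hs1 : s ≠ 1 := by
      intro h1
      rw [h1, orderOf_one] at hs
      norm_num at hs
    constructor
    · by_contra hgt
      push_neg at hgt
      rw [Nat.card_eq_fintype_card, ← Set.toFinset_card] at hgt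
      obtain ⟨x, hx, y, hy, z, hz, hxy, hxz, hyz⟩ := Finset.two_lt_card.mp hgt
      rw [Set.mem_toFinset] at hx hy hz
      exact hs1 (h3fix s x y z hxy hyz hxz hx hy hz)
    · have hP : IsPGroup 2 (Subgroup.zpowers s) :=
        IsPGroup.of_card (n := 1) (by rw [Nat.card_zpowers, hs, pow_one])
      have hmod := hP.card_modEq_card_fixedPoints Ω
      have hset : MulAction.fixedPoints (Subgroup.zpowers s) Ω = MulAction.fixedBy Ω s := by
        ext x
        constructor
        · intro hx
          exact hx ⟨s, Subgroup.mem_zpowers s⟩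
        · intro hx g
          obtain ⟨j, hj⟩ := Subgroup.mem_zpowers_iff.mp g.2
          have h1 : (g : G) • x = x := by rw [← hj]; exact MulAction.mem_fixedBy_zpow hx j
          exact h1
      rw [hset] at hmod
      exact hmod
  -- an involution moving a point
  obtain ⟨g, hga, hgb⟩ := h2t a b b a hab (Ne.symm hab)
  have hg2a : g ^ 2 • a = a := by rw [pow_two, mul_smul, hga, hgb]
  have hg2b : g ^ 2 • b = b := by rw [pow_two, mul_smul, hgb, hga]
  have hpa : ∀ k : ℕ, g ^ (2 * k) • a = a := by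
    intro k
    induction k with
    | zero => rw [mul_zero, pow_zero, one_smul]
    | succ k ih => rw [mul_add, mul_one, pow_add, mul_smul, hg2a, ih]
  have hodd : ∀ k : ℕ, g ^ (2 * k + 1) • a = b := by
    intro k
    have hpb : ∀ k : ℕ, g ^ (2 * k) • b = b := by
      intro k
      induction k with
      | zero => rw [mul_zero, pow_zero, one_smul]
      | succ k ih => rw [mul_add, mul_one, pow_add, mul_smul, hg2b, ih]
    rw [pow_succ, mul_smul, hga, hpb k]
  have heven : Even (orderOf g) := by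
    by_contra hne
    obtain ⟨m, hm⟩ := Nat.not_even_iff_odd.mp hne
    have h1 := pow_orderOf_eq_one g
    rw [hm] at h1
    have h2' := hodd m
    rw [h1, one_smul] at h2'
    exact hab h2'
  obtain ⟨m, hm⟩ := heven
  have hmpos : 0 < orderOf g := orderOf_pos g
  have ht2 : (g ^ m) ^ 2 = 1 := by
    rw [← pow_mul, mul_two, ← hm]; exact pow_orderOf_eq_one g
  have ht1 : g ^ m ≠ 1 := pow_ne_one_of_lt_orderOf (by omega) (by omega)
  have htord : orderOf (g ^ m) = 2 := orderOf_eq_prime ht2 ht1
  obtain ⟨c, hc⟩ : ∃ c : Ω, g ^ m • c ≠ c := by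
    by_contra hno
    push_neg at hno
    exact ht1 (hfaith.eq_of_smul_eq_smul (fun c => by rw [hno c, one_smul]))
  obtain ⟨h, ho, hsa, hsb⟩ := hconj (g ^ m) c htord hc
  refine ⟨⟨_, ho, hsa, hsb⟩, ?_, ?_⟩
  · intro s hs _ _
    obtain ⟨hle, hmod⟩ := hfixcount s hs
    rw [hcardΩ] at hmod
    constructor
    · intro hodd'
      have h5 := Nat.odd_iff.mp hodd'
      omega
    · intro hev
      have h5 := Nat.even_iff.mp hev
      omega
  · intro hev hHev
    obtain ⟨z', hz'⟩ := exists_prime_orderOf_dvd_card'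
      (G := ↥(MulAction.stabilizer G a ⊓ MulAction.stabilizer G b)) 2
      (even_iff_two_dvd.mp hHev)
    have hz2 : orderOf (z' : G) = 2 := by rw [Subgroup.orderOf_coe]; exact hz'
    have hza : (z' : G) • a = a := MulAction.mem_stabilizer_iff.mp z'.2.1
    have hzb : (z' : G) • b = b := MulAction.mem_stabilizer_iff.mp z'.2.2
    have hz1 : (z' : G) ≠ 1 := by
      intro h1
      rw [h1, orderOf_one] at hz2
      norm_num at hz2
    obtain ⟨c', hca, hcb⟩ : ∃ c' : Ω, c' ≠ a ∧ c' ≠ b := by
      by_contra hno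
      push_neg at hno
      apply hz1
      apply hfaith.eq_of_smul_eq_smul
      intro e
      rw [one_smul]
      by_cases he : e = a
      · rw [he]; exact hza
      · rw [hno e he]; exact hzb
    have hzc : (z' : G) • c' ≠ c' := by
      intro h'
      exact hz1 (h3fix _ a b c' hab (Ne.symm hcb) (Ne.symm hca) hza hzb h')
    obtain ⟨h₂, ho₂, hsa₂, hsb₂⟩ := hconj (z' : G) c' hz2 hzc
    refine ⟨h₂ * (z' : G) * h₂⁻¹, ho₂, hsa₂, hsb₂, ?_⟩
    obtain ⟨hle, hmod⟩ := hfixcount _ ho₂
    have hpos : 0 < Nat.card (MulAction.fixedBy Ω (h₂ * (z' : G) * h₂⁻¹)) := by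
      haveI : Nonempty (MulAction.fixedBy Ω (h₂ * (z' : G) * h₂⁻¹)) :=
        ⟨⟨h₂ • a, by
          show (h₂ * (z' : G) * h₂⁻¹) • (h₂ • a) = h₂ • a
          rw [mul_smul, mul_smul, inv_smul_smul, hza]⟩⟩
      exact Nat.card_pos
    rw [hcardΩ] at hmod
    have h5 := Nat.even_iff.mp hev
    omega


end Cfsg.Agent.S0740
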