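import Cfsg.Statements.S0743
import Cfsg.Agent.Helper8.MultTrans
import Cfsg.Agent.Helper8.Gleason

set_option autoImplicit false
open Cfsg

namespace Cfsg.Agent.S0743

/-- Gleason's Lemma: let `p` be a prime and `1 ≤ k < n`; if every `k`-subset of the `n` points is exactly the fixed-point set of some `p`-subgroup of `G`, then `G` is `k`-transitive. -/
theorem result {α : Type*} [Fintype α] [DecidableEq α] (G : Subgroup (Equiv.Perm α)) {p k : ℕ} (hp : p.Prime) (hk : 1 ≤ k) (hkn : k < Fintype.card α) (h : ∀ s : Finset α, s.card = k → ∃ P : Subgroup G, IsPGroup p P ∧ MulAction.fixedPoints P α = (s : Set α)) : MulAction.IsMultiplyPretransitive G α k := by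
  classical
  haveI : Fact p.Prime := ⟨hp⟩
  apply Cfsg.Agent.Helper8.MultTrans.conn hkn
  intro x i β hβ
  have hcardt : ((Finset.univ.erase i).map x).card = k - 1 := by
    rw [Finset.card_map, Finset.card_erase_of_mem (Finset.mem_univ i), Finset.card_univ,
      Fintype.card_fin]
  have hmemt : ∀ z, z ∈ (Finset.univ.erase i).map x ↔ ∃ l, l ≠ i ∧ x l = z := by
    intro z
    rw [Finset.mem_map]
    constructor
    · rintro ⟨l, hl, rfl⟩
      exact ⟨l, Finset.ne_of_mem_erase hl, rfl⟩
    · rintro ⟨l, hl, rfl⟩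
      exact ⟨l, Finset.mem_erase.mpr ⟨hl, Finset.mem_univ _⟩, rfl⟩
  let H : Subgroup (Equiv.Perm α) :=
    { carrier := {g | g ∈ G ∧ ∀ z ∈ (Finset.univ.erase i).map x, g z = z}
      one_mem' := ⟨one_mem _, fun z _ => rfl⟩
      mul_mem' := by
        rintro a b ⟨ha, ha'⟩ ⟨hb, hb'⟩
        refine ⟨mul_mem ha hb, fun z hz => ?_⟩
        rw [Equiv.Perm.mul_apply, hb' z hz, ha' z hz]
      inv_mem' := by
        rintro a ⟨ha, ha'⟩
        refine ⟨inv_mem ha, fun z hz => ?_⟩
        rw [Equiv.Perm.inv_eq_iff_eq, ha' z hz] }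
  have hxi : x i ∉ (((Finset.univ.erase i).map x : Finset α) : Set α) := by
    intro hmem
    obtain ⟨l, hl, hlx⟩ := (hmemt _).mp hmem
    exact hl (x.injective hlx)
  have hβt : β ∉ (((Finset.univ.erase i).map x : Finset α) : Set α) := by
    intro hmem
    obtain ⟨l, hl, hlx⟩ := (hmemt _).mp hmem
    exact hβ ⟨l, hlx⟩
  obtain ⟨g, hg, hgβ⟩ := Cfsg.Agent.Helper8.Gleason.gleason (p := p) H
    (((Finset.univ.erase i).map x : Finset α) : Set α) (fun g hg z hz => hg.2 z hz) (by
      intro γ hγ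
      have hγ' : γ ∉ (Finset.univ.erase i).map x := hγ
      have hs : (insert γ ((Finset.univ.erase i).map x)).card = k := by
        rw [Finset.card_insert_of_notMem hγ', hcardt]
        omega
      obtain ⟨P, hPp, hPfix⟩ := h _ hs
      refine ⟨P.map G.subtype, ?_, hPp.map _, ?_⟩
      · rintro _ ⟨q, hq, rfl⟩
        refine ⟨q.2, fun z hz => ?_⟩
        have hz' : z ∈ MulAction.fixedPoints ↥P α := by
          rw [hPfix]
          exact Finset.mem_insert_of_mem hz
        exact hz' ⟨q, hq⟩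
      · intro y
        have h1 : (∀ g ∈ P.map G.subtype, g y = y) ↔ y ∈ MulAction.fixedPoints ↥P α := by
          constructor
          · intro hy q
            exact hy _ ⟨q, q.2, rfl⟩
          · rintro hy _ ⟨q, hq, rfl⟩
            exact hy ⟨q, hq⟩
        rw [h1, hPfix]
        simp) (x i) β hxi hβt
  refine ⟨⟨g, hg.1⟩, hgβ, fun i' hi' => ?_⟩
  exact hg.2 (x i') ((hmemt _).mpr ⟨i', hi', rfl⟩)

end Cfsg.Agent.S0743
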