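import Cfsg.Statements.S0744
import Cfsg.Agent.Helper8.MultTrans
import Cfsg.Agent.Helper8.FixOrb

set_option autoImplicit false
open Cfsg

namespace Cfsg.Agent.S0744

/-- If for some `k > 1` the pointwise stabilisers of all `(k-1)`-subsets have the same order `> 1` and those of all `k`-subsets have the same order, then the group is `(k-1)`-transitive. -/
theorem result {α : Type*} [Fintype α] [DecidableEq α] (G : Subgroup (Equiv.Perm α)) {k : ℕ} (hk : 1 < k) (hkn : k ≤ Fintype.card α) (l m : ℕ) (hl : 1 < l) (hkm1 : ∀ s : Finset α, s.card = k - 1 → Nat.card (fixingSubgroup G (s : Set α)) = l) (hkm : ∀ s : Finset α, s.card = k → Nat.card (fixingSubgroup G (s : Set α)) = m) : MulAction.IsMultiplyPretransitive G α (k - 1) := by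
  classical
  apply Cfsg.Agent.Helper8.MultTrans.conn (by omega)
  intro x i β hβ
  have hcardt : ((Finset.univ.erase i).map x).card = k - 2 := by
    rw [Finset.card_map, Finset.card_erase_of_mem (Finset.mem_univ i), Finset.card_univ,
      Fintype.card_fin]
    omega
  have hmemt : ∀ z, z ∈ (Finset.univ.erase i).map x ↔ ∃ l, l ≠ i ∧ x l = z := by
    intro z
    rw [Finset.mem_map]
    constructor
    · rintro ⟨l, hl, rfl⟩
      exact ⟨l, Finset.ne_of_mem_erase hl, rfl⟩
    · rintro ⟨l, hl, rfl⟩
      exact ⟨l, Finset.mem_erase.mpr ⟨hl, Finset.mem_univ _⟩, rfl⟩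
  have hxi : x i ∉ (((Finset.univ.erase i).map x : Finset α) : Set α) := by
    intro hmem
    obtain ⟨l, hl, hlx⟩ := (hmemt _).mp hmem
    exact hl (x.injective hlx)
  have hβt : β ∉ (((Finset.univ.erase i).map x : Finset α) : Set α) := by
    intro hmem
    obtain ⟨l, hl, hlx⟩ := (hmemt _).mp hmem
    exact hβ ⟨l, hlx⟩
  obtain ⟨g, hg, hgβ⟩ := Cfsg.Agent.Helper8.FixOrb.trans_of_cards (Γ := ↥G)
    (((Finset.univ.erase i).map x : Finset α) : Set α) l m hl (by
      intro a ha
      have ha' : a ∉ (Finset.univ.erase i).map x := ha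
      have := hkm1 (insert a ((Finset.univ.erase i).map x)) (by
        rw [Finset.card_insert_of_notMem ha', hcardt]
        omega)
      rwa [Finset.coe_insert] at this) (by
      intro a ha b hb hab
      have ha' : a ∉ (Finset.univ.erase i).map x := ha
      have hb' : b ∉ insert a ((Finset.univ.erase i).map x) := by
        intro h
        rcases Finset.mem_insert.mp h with h | h
        · exact hab h.symm
        · exact hb h
      have := hkm (insert b (insert a ((Finset.univ.erase i).map x))) (by
        rw [Finset.card_insert_of_notMem hb', Finset.card_insert_of_notMem ha', hcardt]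
        omega)
      rwa [Finset.coe_insert, Finset.coe_insert] at this) (x i) β hxi hβt
  refine ⟨g, hgβ, fun i' hi' => ?_⟩
  exact (mem_fixingSubgroup_iff ↥G).mp hg (x i') ((hmemt _).mpr ⟨i', hi', rfl⟩)

end Cfsg.Agent.S0744
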