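import Cfsg.Statements.S0750
import Mathlib
import Cfsg.Agent.S0751

set_option autoImplicit false
open Cfsg

namespace Cfsg.Agent.S0750

section WittQuad

variable {F V : Type*} [Field F] [AddCommGroup V] [Module F V]

/-- the polar form -/
abbrev PB (Q : QuadraticForm F V) : LinearMap.BilinForm F V := QuadraticMap.polarBilin Q

lemma hpolar (Q : QuadraticForm F V) (u v : V) : Q (u + v) = Q u + Q v + PB Q u v :=
  QuadraticMap.map_add (⇑Q) u v

lemma hsmul (Q : QuadraticForm F V) (c : F) (v : V) : Q (c • v) = c * c * Q v := by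
  rw [QuadraticMap.map_smul, smul_eq_mul]

lemma hsymm (Q : QuadraticForm F V) (u v : V) : PB Q u v = PB Q v u :=
  QuadraticMap.polar_comm Q u v

lemma hself (Q : QuadraticForm F V) (v : V) : PB Q v v = 2 * Q v := by
  show QuadraticMap.polar Q v v = _
  rw [QuadraticMap.polar_self, nsmul_eq_mul]
  norm_num

lemma Q_lin2 (Q : QuadraticForm F V) (v a : V) (t : F) :
    Q (v + t • a) = Q v + t * t * Q a + t * PB Q v a := by
  rw [hpolar, hsmul, map_smul, smul_eq_mul]

lemma Q_lin3 (Q : QuadraticForm F V) (v p q : V) (s t : F) :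
    Q (v + s • p + t • q) = Q v + s * s * Q p + t * t * Q q + s * PB Q v p + t * PB Q v q +
      s * t * PB Q p q := by
  rw [Q_lin2 Q (v + s • p) q t, Q_lin2 Q v p s, map_add, LinearMap.add_apply, map_smul,
    LinearMap.smul_apply, smul_eq_mul]
  ring

lemma PB_of_isom (Q : QuadraticForm F V) (T : V →ₗ[F] V) (hT : ∀ v, Q (T v) = Q v) (u v : V) :
    PB Q (T u) (T v) = PB Q u v := by
  have h1 := hpolar Q (T u) (T v)
  rw [← map_add, hT, hT, hT, hpolar] at h1
  linear_combination (-1 : F) * h1

/-- identity plus two rank one maps -/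
def gm (L1 L2 : V →ₗ[F] F) (p q : V) : V →ₗ[F] V :=
  LinearMap.id + L1.smulRight p + L2.smulRight q

lemma gm_apply (L1 L2 : V →ₗ[F] F) (p q v : V) : gm L1 L2 p q v = v + L1 v • p + L2 v • q := rfl

lemma Q_gm (Q : QuadraticForm F V) (L1 L2 : V →ₗ[F] F) (p q v : V) :
    Q (gm L1 L2 p q v) = Q v + L1 v * L1 v * Q p + L2 v * L2 v * Q q + L1 v * PB Q v p +
      L2 v * PB Q v q + L1 v * L2 v * PB Q p q := by
  rw [gm_apply, Q_lin3]

lemma refl_move (Q : QuadraticForm F V) (X' : Submodule F V) (x y : V) (hQxy : Q x = Q y)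
    (hxy : ∀ x' ∈ X', PB Q (x - y) x' = 0) (hne : Q (x - y) ≠ 0) :
    ∃ T : V →ₗ[F] V, (∀ v, Q (T v) = Q v) ∧ (∀ x' ∈ X', T x' = x') ∧ T x = y := by
  refine ⟨gm ((-(Q (x - y))⁻¹) • PB Q (x - y)) 0 (x - y) 0, ?_, ?_, ?_⟩
  · intro v
    rw [Q_gm]
    simp only [LinearMap.smul_apply, smul_eq_mul, LinearMap.zero_apply]
    rw [hsymm Q v (x - y)]
    field_simp
    ring
  · intro x' hx'
    rw [gm_apply]
    simp only [LinearMap.smul_apply, smul_eq_mul, LinearMap.zero_apply]
    rw [hxy x' hx']
    simp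
  · rw [gm_apply]
    simp only [LinearMap.smul_apply, smul_eq_mul, LinearMap.zero_apply]
    have h1 : PB Q (x - y) x = Q (x - y) := by
      have e1 : Q (x - y + y) = Q (x - y) + Q y + PB Q (x - y) y := hpolar Q (x - y) y
      rw [sub_add_cancel] at e1
      have e2 : PB Q (x - y) x = PB Q (x - y) (x - y) + PB Q (x - y) y := by
        rw [← map_add, sub_add_cancel]
      rw [e2, hself]
      linear_combination hQxy - e1
    rw [h1]
    have h2 : -(Q (x - y))⁻¹ * Q (x - y) = -1 := by field_simp
    rw [h2]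
    module

lemma wx_zero (Q : QuadraticForm F V) (x y : V) (hQxy : Q x = Q y) (h0 : Q (x - y) = 0) :
    PB Q (x - y) x = 0 := by
  have e1 : Q (x - y + y) = Q (x - y) + Q y + PB Q (x - y) y := hpolar Q (x - y) y
  rw [sub_add_cancel] at e1
  have e2 : PB Q (x - y) x = PB Q (x - y) (x - y) + PB Q (x - y) y := by
    rw [← map_add, sub_add_cancel]
  rw [e2, hself, h0]
  linear_combination hQxy - e1 - h0

lemma siegel_move (Q : QuadraticForm F V) (X' : Submodule F V) (x y : V) (hQxy : Q x = Q y)
    (hxy : ∀ x' ∈ X', PB Q (x - y) x' = 0) (h0 : Q (x - y) = 0) (b : V)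
    (hb : ∀ x' ∈ X', PB Q b x' = 0) (hwb : PB Q (x - y) b = 0) (hxb : PB Q b x = 1) :
    ∃ T : V →ₗ[F] V, (∀ v, Q (T v) = Q v) ∧ (∀ x' ∈ X', T x' = x') ∧ T x = y := by
  refine ⟨gm (PB Q (x - y)) (-(PB Q b + Q b • PB Q (x - y))) b (x - y), ?_, ?_, ?_⟩
  · intro v
    rw [Q_gm]
    simp only [LinearMap.neg_apply, LinearMap.add_apply, LinearMap.smul_apply, smul_eq_mul]
    rw [h0, hsymm Q b (x - y), hwb, hsymm Q v b, hsymm Q v (x - y)]
    ring
  · intro x' hx'
    rw [gm_apply]
    simp only [LinearMap.neg_apply, LinearMap.add_apply, LinearMap.smul_apply, smul_eq_mul]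
    rw [hxy x' hx', hb x' hx']
    simp
  · rw [gm_apply]
    simp only [LinearMap.neg_apply, LinearMap.add_apply, LinearMap.smul_apply, smul_eq_mul]
    rw [wx_zero Q x y hQxy h0, hxb]
    module

lemma delta_move (Q : QuadraticForm F V) (X' : Submodule F V) (x y : V) (hQxy : Q x = Q y)
    (hxy : ∀ x' ∈ X', PB Q (x - y) x' = 0) (h0 : Q (x - y) = 0) (f : V)
    (hf : ∀ x' ∈ X', PB Q f x' = 0) (hQf : Q f = 0) (hwf : PB Q (x - y) f = 1)
    (l : F) (hl : PB Q f x = l) (hl0 : l ≠ 0) (hl1 : l ≠ 1) :
    ∃ T : V →ₗ[F] V, (∀ v, Q (T v) = Q v) ∧ (∀ x' ∈ X', T x' = x') ∧ T x = y := by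
  have hm : 1 - l⁻¹ ≠ 0 := by
    intro h
    apply hl1
    field_simp at h
    linear_combination h
  refine ⟨gm (((1 - l⁻¹) - 1) • PB Q f) (((1 - l⁻¹)⁻¹ - 1) • PB Q (x - y)) (x - y) f, ?_, ?_, ?_⟩
  · intro v
    rw [Q_gm]
    simp only [LinearMap.smul_apply, smul_eq_mul]
    rw [h0, hQf, hwf, hsymm Q v (x - y), hsymm Q v f]
    field_simp
    ring
  · intro x' hx'
    rw [gm_apply]
    simp only [LinearMap.smul_apply, smul_eq_mul]
    rw [hxy x' hx', hf x' hx']
    simp
  · rw [gm_apply]
    simp only [LinearMap.smul_apply, smul_eq_mul]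
    rw [wx_zero Q x y hQxy h0, hl]
    have h2 : (1 - l⁻¹ - 1) * l = -1 := by field_simp; ring
    rw [h2]
    module

lemma qexists_move [Finite F] [FiniteDimensional F V] (Q : QuadraticForm F V)
    (hQ : (QuadraticMap.polarBilin Q).Nondegenerate) (X' : Submodule F V) (x y : V)
    (hx : x ∉ X') (hy : y ∉ X') (hQxy : Q x = Q y) (hxy : ∀ x' ∈ X', PB Q (x - y) x' = 0) :
    ∃ T : V →ₗ[F] V, (∀ v, Q (T v) = Q v) ∧ (∀ x' ∈ X', T x' = x') ∧ T x = y := by
  by_cases h0 : Q (x - y) = 0
  · by_cases hB1 : ∃ b, (∀ x' ∈ X', PB Q b x' = 0) ∧ PB Q (x - y) b = 0 ∧ PB Q b x ≠ 0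
    · obtain ⟨b, hb, hwb, hbx⟩ := hB1
      refine siegel_move Q X' x y hQxy hxy h0 ((PB Q b x)⁻¹ • b) ?_ ?_ ?_
      · intro x' hx'
        rw [map_smul, LinearMap.smul_apply, hb x' hx', smul_zero]
      · rw [map_smul, hwb, smul_zero]
      · rw [map_smul, LinearMap.smul_apply, smul_eq_mul, inv_mul_cancel₀ hbx]
    · push_neg at hB1
      obtain ⟨u, hu, hux⟩ := Cfsg.Agent.S0751.exists_perp (σ := RingHom.id F) (PB Q) hQ X' x hx
      have hwu : PB Q (x - y) u ≠ 0 := fun h => hux (hB1 u hu h)
      obtain ⟨f0, hf0def⟩ : ∃ f0, f0 = (PB Q (x - y) u)⁻¹ • u := ⟨_, rfl⟩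
      have hf0 : ∀ x' ∈ X', PB Q f0 x' = 0 := by
        intro x' hx'
        rw [hf0def, map_smul, LinearMap.smul_apply, hu x' hx', smul_zero]
      have hwf0 : PB Q (x - y) f0 = 1 := by
        rw [hf0def, map_smul, smul_eq_mul, inv_mul_cancel₀ hwu]
      have hww : PB Q (x - y) (x - y) = 0 := by rw [hself, h0, mul_zero]
      obtain ⟨f, hfdef⟩ : ∃ f, f = f0 + (-(Q f0)) • (x - y) := ⟨_, rfl⟩
      have hf : ∀ x' ∈ X', PB Q f x' = 0 := by
        intro x' hx'
        rw [hfdef, map_add, LinearMap.add_apply, map_smul, LinearMap.smul_apply, hf0 x' hx',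
          hxy x' hx', smul_zero, add_zero]
      have hQf : Q f = 0 := by
        rw [hfdef, Q_lin2, h0, hsymm Q f0 (x - y), hwf0]
        ring
      have hwf : PB Q (x - y) f = 1 := by
        rw [hfdef, map_add, map_smul, hww, hwf0, smul_zero, add_zero]
      have hclaim : ∀ b, (∀ x' ∈ X', PB Q b x' = 0) → PB Q b x = PB Q f x * PB Q (x - y) b := by
        intro b hb
        have h1 := hB1 (b + (-(PB Q (x - y) b)) • f) (by
          intro x' hx'
          rw [map_add, LinearMap.add_apply, map_smul, LinearMap.smul_apply, hb x' hx',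
            hf x' hx', smul_zero, add_zero]) (by
          rw [map_add, map_smul, hwf, smul_eq_mul]
          ring)
        rw [map_add, LinearMap.add_apply, map_smul, LinearMap.smul_apply, smul_eq_mul] at h1
        linear_combination h1
      have hl0 : PB Q f x ≠ 0 := by
        intro h
        apply hux
        rw [hclaim u hu, h, zero_mul]
      have hl1 : PB Q f x ≠ 1 := by
        intro h
        obtain ⟨u', hu', hu'y⟩ := Cfsg.Agent.S0751.exists_perp (σ := RingHom.id F) (PB Q) hQ X' y hy
        apply hu'y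
        have e1 : PB Q u' y = PB Q u' x - PB Q u' (x - y) := by
          rw [map_sub]
          ring
        rw [e1, hclaim u' hu', h, hsymm Q u' (x - y)]
        ring
      exact delta_move Q X' x y hQxy hxy h0 f hf hQf hwf (PB Q f x) rfl hl0 hl1
  · exact refl_move Q X' x y hQxy hxy h0

end WittQuad

/-- Witt's Lemma for quadratic forms over a finite field, in any characteristic: if Q is a quadratic form on a finite-dimensional space V whose polar bilinear form is non-degenerate, then every linear equivalence between subspaces X, Y of V that preserves Q extends to a Q-preserving linear automorphism of V. (In odd characteristic this is the symmetric-bilinear case; in characteristic two it is the statement for non-degenerate quadratic forms.) -/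
theorem result {F V : Type*} [Field F] [Finite F] [AddCommGroup V] [Module F V] [FiniteDimensional F V] (Q : QuadraticForm F V) (hQ : (QuadraticMap.polarBilin Q).Nondegenerate) (X Y : Submodule F V) (φ : X ≃ₗ[F] Y) (hφ : ∀ x : X, Q (φ x : V) = Q (x : V)) : ∃ g : V ≃ₗ[F] V, (∀ v : V, Q (g v) = Q v) ∧ ∀ x : X, g (x : V) = (φ x : V) := by
  classical
  let b := Module.finBasis F X
  have hv : LinearIndependent F (fun i => (b i : V)) :=
    b.linearIndependent.map' X.subtype (Submodule.ker_subtype X)
  have hw : LinearIndependent F (fun i => (φ (b i) : V)) :=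
    b.linearIndependent.map' (Y.subtype.comp φ.toLinearMap) (by
      rw [LinearMap.ker_comp, Submodule.ker_subtype, Submodule.comap_bot]
      exact φ.ker)
  have hφB : ∀ a c : X, PB Q (φ a : V) (φ c : V) = PB Q (a : V) (c : V) := by
    intro a c
    have h1 := hpolar Q (φ a : V) (φ c : V)
    have h2 : ((φ a : V) + (φ c : V)) = ((φ (a + c) : Y) : V) := by
      rw [map_add]
      rfl
    rw [h2, hφ, hφ, hφ] at h1
    have h3 : ((a + c : X) : V) = (a : V) + (c : V) := rfl
    rw [h3, hpolar] at h1
    linear_combination (-1 : F) * h1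
  have key : ∀ k ≤ Module.finrank F X, ∃ g : V ≃ₗ[F] V, (∀ v, Q (g v) = Q v) ∧
      ∀ i : Fin (Module.finrank F X), i.val < k → g (b i : V) = (φ (b i) : V) := by
    intro k
    induction k with
    | zero =>
      intro _
      exact ⟨LinearEquiv.refl F V, fun v => rfl, fun i hi => absurd hi (Nat.not_lt_zero _)⟩
    | succ k ih =>
      intro hk
      obtain ⟨g', hg', hg'b⟩ := ih (by omega)
      have hk' : k < Module.finrank F X := by omega
      have hg'B : ∀ u v, PB Q (g' u) (g' v) = PB Q u v :=
        fun u v => PB_of_isom Q g'.toLinearMap hg' u v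
      obtain ⟨X', hX'⟩ : ∃ X' : Submodule F V, X' = Submodule.span F
          ((fun i : Fin (Module.finrank F X) => (b i : V)) '' {i | i.val < k}) := ⟨_, rfl⟩
      obtain ⟨x, hxdef⟩ : ∃ x : V, x = (b ⟨k, hk'⟩ : V) := ⟨_, rfl⟩
      obtain ⟨y, hydef⟩ : ∃ y : V, y = g'.symm (φ (b ⟨k, hk'⟩) : V) := ⟨_, rfl⟩
      have hx : x ∉ X' := by
        rw [hX', hxdef]
        exact hv.notMem_span_image (s := {i | i.val < k}) (x := ⟨k, hk'⟩) (by simp)
      have hy : y ∉ X' := by
        intro hyX
        have h1 : ∀ z ∈ X', (g' z) ∈ Submodule.span F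
            ((fun i : Fin (Module.finrank F X) => (φ (b i) : V)) '' {i | i.val < k}) := by
          intro z hz
          rw [hX'] at hz
          refine Submodule.span_induction (p := fun z _ => g' z ∈ Submodule.span F
            ((fun i : Fin (Module.finrank F X) => (φ (b i) : V)) '' {i | i.val < k}))
            ?_ ?_ ?_ ?_ hz
          · rintro _ ⟨i, hi, rfl⟩
            show g' (b i : V) ∈ _
            rw [hg'b i hi]
            exact Submodule.subset_span ⟨i, hi, rfl⟩
          · rw [map_zero]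
            exact Submodule.zero_mem _
          · intro a c _ _ ha hc
            rw [map_add]
            exact Submodule.add_mem _ ha hc
          · intro c a _ ha
            rw [map_smul]
            exact Submodule.smul_mem _ c ha
        have h2 := h1 y hyX
        rw [hydef, g'.apply_symm_apply] at h2
        exact hw.notMem_span_image (s := {i | i.val < k}) (x := ⟨k, hk'⟩) (by simp) h2
      have hxy : ∀ x' ∈ X', PB Q (x - y) x' = 0 := by
        intro x' hx'
        rw [hX'] at hx'
        refine Submodule.span_induction (p := fun z _ => PB Q (x - y) z = 0) ?_ ?_ ?_ ?_ hx'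
        · rintro _ ⟨i, hi, rfl⟩
          show PB Q (x - y) (b i : V) = 0
          rw [map_sub, LinearMap.sub_apply, sub_eq_zero, ← hg'B y (b i : V), hg'b i hi, hydef,
            g'.apply_symm_apply, hφB, hxdef]
        · exact map_zero _
        · intro a c _ _ ha hc
          rw [map_add, ha, hc, add_zero]
        · intro c a _ ha
          rw [map_smul, ha, smul_zero]
      have hQxy : Q x = Q y := by
        rw [← hg' y, hydef, g'.apply_symm_apply, hφ, hxdef]
      obtain ⟨T, hT, hTf, hTx⟩ := qexists_move Q hQ X' x y hx hy hQxy hxy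
      have hTinj : Function.Injective T := by
        rw [← LinearMap.ker_eq_bot, LinearMap.ker_eq_bot']
        intro v hv0
        apply hQ.2 v
        intro u
        have h1 := PB_of_isom Q T hT u v
        rw [hv0, map_zero] at h1
        exact h1.symm
      refine ⟨(LinearEquiv.ofInjectiveEndo T hTinj).trans g', ?_, ?_⟩
      · intro v
        rw [LinearEquiv.trans_apply, hg']
        exact hT v
      · intro i hik
        rw [LinearEquiv.trans_apply]
        show g' (T (b i : V)) = _
        by_cases hlt : i.val < k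
        · rw [hTf _ (by rw [hX']; exact Submodule.subset_span ⟨i, hlt, rfl⟩), hg'b i hlt]
        · have hik' : i = ⟨k, hk'⟩ := Fin.ext (by simp only; omega)
          rw [hik', ← hxdef, hTx, hydef, g'.apply_symm_apply]
  obtain ⟨g, hg, hgb⟩ := key (Module.finrank F X) le_rfl
  refine ⟨g, hg, ?_⟩
  have hext : (g.toLinearMap.comp X.subtype) = (Y.subtype.comp φ.toLinearMap) :=
    b.ext (fun i => hgb i i.2)
  intro x
  exact LinearMap.congr_fun hext x

end Cfsg.Agent.S0750
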