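import Cfsg.Statements.S0753

set_option autoImplicit false
open Cfsg

namespace Cfsg.Agent.S0753

/-- If σ is a ring endomorphism of the field F other than the identity and B is a σ-sesquilinear conjugate-symmetric form with B v v = 0 for every v, then B = 0. -/
theorem result {F V : Type*} [Field F] [AddCommGroup V] [Module F V] (σ : F →+* F) (hσ : σ ≠ RingHom.id F) (B : V →ₛₗ[σ] V →ₗ[F] F) (hS : B.IsSymm) (h0 : ∀ v : V, B v v = 0) : B = 0 := by
  have hsymm : ∀ x y : V, σ (B x y) = B y x := fun x y => hS.eq x y
  have hanti : ∀ u v : V, B u v + B v u = 0 := by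
    intro u v
    have h := h0 (u + v)
    simp only [map_add, LinearMap.add_apply, h0, zero_add, add_zero] at h
    rw [add_comm]; exact h
  by_contra hB
  have : ∃ u v : V, B u v ≠ 0 := by
    by_contra hcon
    simp only [not_exists, not_not] at hcon
    apply hB
    ext u v
    simpa using hcon u v
  obtain ⟨u, v, huv⟩ := this
  apply hσ
  ext a
  -- B (a • u) v = σ a * B u v
  have h1 : B (a • u) v = σ a * B u v := by simp
  have h2 : σ (B (a • u) v) = - B (a • u) v := by
    rw [hsymm]; linear_combination hanti (a • u) v
  have h3 : σ (B u v) = - B u v := by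
    rw [hsymm]; linear_combination hanti u v
  rw [h1, map_mul, h3] at h2
  have h4 : (σ (σ a) - σ a) * B u v = 0 := by linear_combination -h2
  have h5 : σ (σ a) = σ a := by
    rcases mul_eq_zero.mp h4 with h | h
    · exact sub_eq_zero.mp h
    · exact absurd h huv
  exact σ.injective h5
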