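import Mathlib
import Cfsg.Statements.S0754

set_option autoImplicit false
open Cfsg

namespace Cfsg.Agent.S0754

/-- In a field F with q^2 elements, every non-zero μ with μ^q = μ (that is, μ in the subfield of order q) has exactly q + 1 solutions λ of λ^(q+1) = μ. -/
theorem result {F : Type*} [Field F] [Fintype F] {q : ℕ} (hF : Fintype.card F = q ^ 2) (μ : F) (hμ : μ ≠ 0) (hμq : μ ^ q = μ) : Nat.card {x : F // x ^ (q + 1) = μ} = q + 1 := by
  classical
  have hq : 2 ≤ q := by
    by_contra h
    have h1 : q ≤ 1 := by omega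
    have h2 : q ^ 2 ≤ 1 := by
      interval_cases q <;> simp
    have h3 := Fintype.one_lt_card (α := F)
    omega
  obtain ⟨r, rfl⟩ : ∃ r, q = r + 2 := ⟨q - 2, by omega⟩
  have hR : ∀ (n : ℕ) (a : F), 0 < n → (Finset.univ.filter (fun x : F => x ^ n = a)).card ≤ n := by
    intro n a hn
    calc (Finset.univ.filter (fun x : F => x ^ n = a)).card
        ≤ (Polynomial.nthRoots n a).toFinset.card := by
          apply Finset.card_le_card
          intro x hx
          rw [Multiset.mem_toFinset, Polynomial.mem_nthRoots hn]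
          exact (Finset.mem_filter.mp hx).2
      _ ≤ Multiset.card (Polynomial.nthRoots n a) := Multiset.toFinset_card_le _
      _ ≤ n := Polynomial.card_nthRoots n a
  obtain ⟨S, hS⟩ : ∃ S : Finset F, S = Finset.univ.erase 0 := ⟨_, rfl⟩
  obtain ⟨T, hT⟩ : ∃ T : Finset F, T = Finset.univ.filter (fun y : F => y ^ (r + 1) = 1) := ⟨_, rfl⟩
  have hScard : S.card = (r + 1) * (r + 3) := by
    rw [hS, Finset.card_erase_of_mem (Finset.mem_univ _), Finset.card_univ, hF]
    have : (r + 2) ^ 2 = (r + 1) * (r + 3) + 1 := by ring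
    omega
  have hmap : ∀ x ∈ S, x ^ (r + 2 + 1) ∈ T := by
    intro x hx
    have hx0 : x ≠ 0 := by
      rw [hS] at hx; exact Finset.ne_of_mem_erase hx
    rw [hT, Finset.mem_filter]
    refine ⟨Finset.mem_univ _, ?_⟩
    have h1 := FiniteField.pow_card_sub_one_eq_one x hx0
    rw [hF] at h1
    rw [← pow_mul, ← h1]
    congr 1
    have : (r + 2) ^ 2 = (r + 2 + 1) * (r + 1) + 1 := by ring
    omega
  have hsum := Finset.card_eq_sum_card_fiberwise hmap
  have hμT : μ ∈ T := by
    rw [hT, Finset.mem_filter]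
    refine ⟨Finset.mem_univ _, ?_⟩
    have h1 : μ * μ ^ (r + 1) = μ * 1 := by rw [mul_one, ← pow_succ']; exact hμq
    exact mul_left_cancel₀ hμ h1
  have hTcard : T.card ≤ r + 1 := by rw [hT]; exact hR (r + 1) 1 (by omega)
  have hfib : ∀ y : F, (S.filter (fun x => x ^ (r + 2 + 1) = y)).card ≤ r + 2 + 1 := by
    intro y
    calc (S.filter (fun x => x ^ (r + 2 + 1) = y)).card
        ≤ (Finset.univ.filter (fun x : F => x ^ (r + 2 + 1) = y)).card := by
          apply Finset.card_le_card
          intro x hx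
          rw [Finset.mem_filter] at hx ⊢
          exact ⟨Finset.mem_univ _, hx.2⟩
      _ ≤ r + 2 + 1 := hR _ y (by omega)
  rw [← Finset.add_sum_erase T _ hμT] at hsum
  have hrest : ∑ y ∈ T.erase μ, (S.filter (fun x => x ^ (r + 2 + 1) = y)).card
      ≤ (T.erase μ).card • (r + 2 + 1) :=
    Finset.sum_le_card_nsmul _ _ _ (fun y _ => hfib y)
  have hTe : (T.erase μ).card ≤ r := by
    rw [Finset.card_erase_of_mem hμT]; omega
  have hrest' : ∑ y ∈ T.erase μ, (S.filter (fun x => x ^ (r + 2 + 1) = y)).card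
      ≤ r * (r + 2 + 1) := by
    refine hrest.trans ?_
    rw [smul_eq_mul]
    exact Nat.mul_le_mul_right _ hTe
  have hge : r + 2 + 1 ≤ (S.filter (fun x => x ^ (r + 2 + 1) = μ)).card := by
    nlinarith [hScard, hsum, hrest']
  have hfibμ : (S.filter (fun x => x ^ (r + 2 + 1) = μ)).card = r + 2 + 1 :=
    le_antisymm (hfib μ) hge
  rw [Nat.card_eq_fintype_card, Fintype.card_subtype]
  have hset : (Finset.univ.filter (fun x : F => x ^ (r + 2 + 1) = μ)) =
      S.filter (fun x => x ^ (r + 2 + 1) = μ) := by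
    ext x
    simp only [Finset.mem_filter, Finset.mem_univ, true_and, hS, Finset.mem_erase, ne_eq, and_true]
    constructor
    · intro hx
      refine ⟨?_, hx⟩
      rintro rfl
      rw [zero_pow (by omega)] at hx
      exact hμ hx.symm
    · rintro ⟨_, hx⟩; exact hx
  rw [hset]; exact hfibμ


end Cfsg.Agent.S0754
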