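import Mathlib
import Cfsg.Agent.Helper2.Quad
import Cfsg.Statements.S0757

set_option autoImplicit false
open Cfsg

namespace Cfsg.Agent.S0757

/-- The two diagonal forms Σ x_i^2 and Σ_(i<n) x_i^2 + α x_n^2 on F^(n+1), with α a non-square and 2 ≠ 0 in F, are inequivalent quadratic forms (so over a finite field of odd order there are exactly two classes of non-singular symmetric bilinear forms in each dimension). -/
theorem result {F : Type*} [Field F] (h2 : (2 : F) ≠ 0) (n : ℕ) (α : F) (hα : ¬ IsSquare α) : ¬ (QuadraticMap.weightedSumSquares F (fun _ : Fin (n + 1) => (1 : F))).Equivalent (QuadraticMap.weightedSumSquares F (fun i : Fin (n + 1) => if i = Fin.last n then α else (1 : F))) := by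
  classical
  haveI : Invertible (2 : F) := invertibleOfNonzero h2
  rintro ⟨e⟩
  have hcomp : QuadraticMap.weightedSumSquares F (fun _ : Fin (n + 1) => (1 : F)) =
      (QuadraticMap.weightedSumSquares F
        (fun i : Fin (n + 1) => if i = Fin.last n then α else (1 : F))).comp
        (e.toLinearEquiv : (Fin (n + 1) → F) →ₗ[F] (Fin (n + 1) → F)) := by
    ext v
    exact (e.map_app v).symm
  have hd := QuadraticForm.discr'_comp
    (Q := QuadraticMap.weightedSumSquares F
        (fun i : Fin (n + 1) => if i = Fin.last n then α else (1 : F)))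
    (e.toLinearEquiv : (Fin (n + 1) → F) →ₗ[F] (Fin (n + 1) → F))
  rw [← hcomp, Cfsg.Agent.Helper2.wss_discr', Cfsg.Agent.Helper2.wss_discr'] at hd
  have d1 : (∏ _i : Fin (n + 1), (1 : F)) = 1 := by simp
  have d2 : (∏ i : Fin (n + 1), (if i = Fin.last n then α else (1 : F))) = α := by simp
  rw [d1, d2] at hd
  obtain ⟨d, hdd⟩ : ∃ d : F, d = (LinearMap.toMatrix'
    (e.toLinearEquiv : (Fin (n + 1) → F) →ₗ[F] (Fin (n + 1) → F))).det := ⟨_, rfl⟩
  rw [← hdd] at hd
  have hd0 : d ≠ 0 := by
    rintro rfl
    simp at hd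
  apply hα
  refine ⟨d⁻¹, ?_⟩
  field_simp
  first | linear_combination (-1 : F) * hd | linear_combination hd


end Cfsg.Agent.S0757
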