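import Mathlib
import Cfsg.Statements.S0758

set_option autoImplicit false
open Cfsg

namespace Cfsg.Agent.S0758

/-- For a finite field F of odd order q and a non-square α: the form x² + y² is isotropic iff q ≡ 1 mod 4, and the form x² + α y² is isotropic iff q ≡ 3 mod 4. -/
theorem result {F : Type*} [Field F] [Fintype F] (h2 : (2 : F) ≠ 0) (α : F) (hα : ¬ IsSquare α) : ((∃ x y : F, (x ≠ 0 ∨ y ≠ 0) ∧ x ^ 2 + y ^ 2 = 0) ↔ Fintype.card F % 4 = 1) ∧ ((∃ x y : F, (x ≠ 0 ∨ y ≠ 0) ∧ x ^ 2 + α * y ^ 2 = 0) ↔ Fintype.card F % 4 = 3) := by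
  classical
  have hc : ringChar F ≠ 2 := by
    intro h
    apply h2
    haveI : CharP F 2 := h ▸ ringChar.charP F
    exact_mod_cast CharP.cast_eq_zero F 2
  have hodd := FiniteField.odd_card_of_char_ne_two hc
  have hm1 := FiniteField.isSquare_neg_one_iff (F := F)
  have hα0 : α ≠ 0 := by
    rintro rfl; exact hα ⟨0, by simp⟩
  have hA : ∀ c : F, (∃ x y : F, (x ≠ 0 ∨ y ≠ 0) ∧ x ^ 2 + c * y ^ 2 = 0) ↔ IsSquare (-c) := by
    intro c
    constructor
    · rintro ⟨x, y, hxy, h⟩
      have hy : y ≠ 0 := by
        rintro rfl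
        have hx : x = 0 := by simpa using h
        rcases hxy with h' | h'
        · exact h' hx
        · exact h' rfl
      refine ⟨x / y, ?_⟩
      field_simp
      first | linear_combination (-1 : F) * h | linear_combination h
    · rintro ⟨r, hr⟩
      refine ⟨r, 1, Or.inr one_ne_zero, ?_⟩
      linear_combination (-1 : F) * hr
  constructor
  · have := hA 1
    simp only [one_mul] at this
    rw [this, hm1]; omega
  · rw [hA α]
    constructor
    · intro hs
      by_contra h3
      have h1 : IsSquare (-1 : F) := hm1.mpr h3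
      obtain ⟨r, hr⟩ := h1
      obtain ⟨s, hs⟩ := hs
      have hr0 : r ≠ 0 := by
        rintro rfl
        simp at hr
      apply hα
      refine ⟨s / r, ?_⟩
      field_simp
      first | linear_combination (-α) * hr + hs | linear_combination α * hr - hs
    · intro h3
      have h1 : ¬ IsSquare (-1 : F) := by rw [hm1]; omega
      have e1 : quadraticChar F (-1) = -1 := quadraticChar_neg_one_iff_not_isSquare.mpr h1
      have e2 : quadraticChar F α = -1 := quadraticChar_neg_one_iff_not_isSquare.mpr hα
      have e3 : quadraticChar F (-α) = 1 := by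
        rw [show -α = (-1) * α by ring, map_mul, e1, e2]; norm_num
      exact (quadraticChar_one_iff_isSquare (neg_ne_zero.mpr hα0)).mp e3


end Cfsg.Agent.S0758
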