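import Mathlib
import Cfsg.Statements.S0761

set_option autoImplicit false
open Cfsg

namespace Cfsg.Agent.S0761

/-- Hyperbolic partners: let B be a non-degenerate bilinear form on a finite-dimensional space, either alternating, or symmetric with 2 ≠ 0. If Z is a subspace on which B vanishes, x ∉ Z is isotropic and orthogonal to Z, then there is an isotropic y with B x y = 1 which is orthogonal to Z. -/
theorem result {F V : Type*} [Field F] [AddCommGroup V] [Module F V] [FiniteDimensional F V] (B : LinearMap.BilinForm F V) (hB : B.Nondegenerate) (hform : B.IsAlt ∨ (B.IsSymm ∧ (2 : F) ≠ 0)) (x : V) (Z : Submodule F V) (hxZ : x ∉ Z) (hx : B x x = 0) (hxz : ∀ z ∈ Z, B x z = 0) (hZ : ∀ z ∈ Z, ∀ z' ∈ Z, B z z' = 0) : ∃ y : V, B y y = 0 ∧ B x y = 1 ∧ ∀ z ∈ Z, B z y = 0 := by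
  obtain ⟨f, hfx, hfZ⟩ := Submodule.exists_le_ker_of_notMem hxZ
  let f' : V →ₗ[F] F := (f x)⁻¹ • f
  have hf'x : f' x = 1 := by
    simp only [f', LinearMap.smul_apply, smul_eq_mul]
    exact inv_mul_cancel₀ hfx
  have hf'Z : ∀ z ∈ Z, f' z = 0 := by
    intro z hz
    have := LinearMap.mem_ker.mp (hfZ hz)
    simp only [f', LinearMap.smul_apply, smul_eq_mul, this, mul_zero]
  let y₀ := (B.flip.toDual hB.flip).symm f'
  have hy₀ : ∀ v, B v y₀ = f' v := by
    intro v
    have := LinearMap.BilinForm.apply_toDual_symm_apply (hB := hB.flip) f' v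
    rw [LinearMap.BilinForm.flip_apply] at this
    exact this
  have h1 : B x y₀ = 1 := by rw [hy₀, hf'x]
  have h2 : ∀ z ∈ Z, B z y₀ = 0 := fun z hz => by rw [hy₀, hf'Z z hz]
  rcases hform with hAlt | ⟨hSymm, h2ne⟩
  · exact ⟨y₀, hAlt y₀, h1, h2⟩
  · have hs : B y₀ x = 1 := by rw [hSymm.eq y₀ x]; exact h1
    refine ⟨y₀ - (B y₀ y₀ / 2) • x, ?_, ?_, ?_⟩
    · simp only [map_sub, map_smul, LinearMap.sub_apply, LinearMap.smul_apply, smul_eq_mul, hs, h1, hx]
      field_simp
      ring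
    · simp only [map_sub, map_smul, smul_eq_mul, h1, hx, mul_zero, sub_zero]
    · intro z hz
      have hzx : B z x = 0 := by rw [hSymm.eq z x]; exact hxz z hz
      simp only [map_sub, map_smul, smul_eq_mul, h2 z hz, hzx, mul_zero, sub_zero]


end Cfsg.Agent.S0761
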