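import Mathlib
import Cfsg.Statements.S0762

set_option autoImplicit false
open Cfsg

namespace Cfsg.Agent.S0762

/-- In characteristic two over a finite field, a quadratic form on a space of dimension at least 3 vanishes on some non-zero vector. -/
theorem result {F V : Type*} [Field F] [Finite F] [CharP F 2] [AddCommGroup V] [Module F V] [FiniteDimensional F V] (Q : QuadraticForm F V) (h3 : 3 ≤ Module.finrank F V) : ∃ v : V, v ≠ 0 ∧ Q v = 0 := by
  classical
  have hnt : Nontrivial V := Module.nontrivial_of_finrank_pos (R := F) (by omega)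
  obtain ⟨u, hu⟩ := exists_ne (0 : V)
  by_cases hQu : Q u = 0
  · exact ⟨u, hu, hQu⟩
  obtain ⟨φ, hφ⟩ : ∃ φ : V →ₗ[F] F, ∀ w, φ w = QuadraticMap.polar Q u w :=
    ⟨QuadraticMap.polarBilin Q u, fun w => rfl⟩
  have hker : 2 ≤ Module.finrank F (LinearMap.ker φ) := by
    have h1 := LinearMap.finrank_range_add_finrank_ker φ
    have h2 : Module.finrank F (LinearMap.range φ) ≤ 1 := by
      have := Submodule.finrank_le (LinearMap.range φ)
      rwa [Module.finrank_self] at this
    omega
  have hspan : Module.finrank F (Submodule.span F {u}) = 1 := finrank_span_singleton hu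
  have hnle : ¬ LinearMap.ker φ ≤ Submodule.span F {u} := by
    intro hle
    have := Submodule.finrank_mono hle
    omega
  obtain ⟨v, hvker, hvspan⟩ := SetLike.not_le_iff_exists.mp hnle
  have hpol : QuadraticMap.polar Q u v = 0 := by rw [← hφ]; exact LinearMap.mem_ker.mp hvker
  obtain ⟨x, hx⟩ : IsSquare (Q v / Q u) := FiniteField.isSquare_of_char_two (ringChar.eq F 2) _
  refine ⟨x • u + v, ?_, ?_⟩
  · intro h0
    apply hvspan
    have : v = (-x) • u := by
      rw [neg_smul]; exact eq_neg_of_add_eq_zero_right h0
    rw [this]; exact Submodule.smul_mem _ _ (Submodule.mem_span_singleton_self u)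
  · have h1 : Q (x • u + v) = Q (x • u) + Q v + QuadraticMap.polar Q (x • u) v := by
      unfold QuadraticMap.polar; ring
    rw [h1, QuadraticMap.polar_smul_left, hpol, QuadraticMap.map_smul, smul_zero, add_zero,
      smul_eq_mul, ← hx, div_mul_cancel₀ _ hQu]
    exact CharTwo.add_self_eq_zero _


end Cfsg.Agent.S0762
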