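import Cfsg.Statements.S0769
import Mathlib

set_option autoImplicit false
open Cfsg

namespace Cfsg.Agent.S0769

/-- Order of the Borel subgroup of GL_n(q): the invertible lower-triangular n × n matrices over a field with q elements number q^(n(n-1)/2) (q-1)^n (unitriangular part times the diagonal torus). -/
theorem result {F : Type*} [Field F] [Fintype F] {q : ℕ} (hF : Fintype.card F = q) (n : ℕ) : Nat.card {g : Matrix.GeneralLinearGroup (Fin n) F // ∀ i j : Fin n, i < j → (g : Matrix (Fin n) (Fin n) F) i j = 0} = q ^ (n * (n - 1) / 2) * (q - 1) ^ n := by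
  classical
  have hdet : ∀ M : Matrix (Fin n) (Fin n) F, (∀ i j : Fin n, i < j → M i j = 0) → M.det = ∏ i, M i i := by
    intro M hM
    apply Matrix.det_of_isLowerTriangular
    intro i j hij
    exact hM i j hij
  let e : {g : Matrix.GeneralLinearGroup (Fin n) F // ∀ i j : Fin n, i < j → (g : Matrix (Fin n) (Fin n) F) i j = 0} ≃
      {M : Fin n → Fin n → F // (∀ i j : Fin n, i < j → M i j = 0) ∧ ∀ i, M i i ≠ 0} :=
    { toFun := fun g => ⟨fun i j => (g.1 : Matrix (Fin n) (Fin n) F) i j, g.2, by
        have h1 : (g.1 : Matrix (Fin n) (Fin n) F).det ≠ 0 := by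
          have := Matrix.GeneralLinearGroup.det_ne_zero g.1
          exact this
        rw [hdet _ g.2] at h1
        intro i hi
        exact h1 (Finset.prod_eq_zero (Finset.mem_univ i) hi)⟩
      invFun := fun M => ⟨Matrix.GeneralLinearGroup.mkOfDetNeZero (Matrix.of M.1) (by
        rw [hdet (Matrix.of M.1) M.2.1]
        exact Finset.prod_ne_zero_iff.mpr (fun i _ => M.2.2 i)), M.2.1⟩
      left_inv := by
        intro g
        apply Subtype.ext
        apply Matrix.GeneralLinearGroup.ext
        intro i j
        rfl
      right_inv := by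
        intro M
        rfl }
  rw [Nat.card_congr e]
  let A : Fin n → Fin n → Finset F := fun i j =>
    if i < j then {0} else if i = j then Finset.univ.erase 0 else Finset.univ
  have hset : ∀ M : Fin n → Fin n → F,
      ((∀ i j : Fin n, i < j → M i j = 0) ∧ ∀ i, M i i ≠ 0) ↔
      M ∈ Fintype.piFinset (fun i => Fintype.piFinset (fun j => A i j)) := by
    intro M
    simp only [Fintype.mem_piFinset]
    constructor
    · rintro ⟨h1, h2⟩ i j
      show M i j ∈ A i j
      simp only [A]
      split_ifs with hij hij'
      · rw [Finset.mem_singleton]; exact h1 i j hij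
      · subst hij'
        rw [Finset.mem_erase]; exact ⟨h2 i, Finset.mem_univ _⟩
      · exact Finset.mem_univ _
    · intro h
      refine ⟨fun i j hij => ?_, fun i => ?_⟩
      · have := h i j
        simp only [A, if_pos hij, Finset.mem_singleton] at this
        exact this
      · have := h i i
        simp only [A, lt_irrefl, if_false, if_true, Finset.mem_erase] at this
        exact this.1
  rw [Nat.card_eq_fintype_card, Fintype.card_subtype]
  have hfilter : (Finset.univ.filter (fun M : Fin n → Fin n → F =>
      (∀ i j : Fin n, i < j → M i j = 0) ∧ ∀ i, M i i ≠ 0)) =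
      Fintype.piFinset (fun i => Fintype.piFinset (fun j => A i j)) := by
    ext M
    rw [Finset.mem_filter]
    constructor
    · rintro ⟨-, h⟩; exact (hset M).mp h
    · intro h; exact ⟨Finset.mem_univ _, (hset M).mpr h⟩
  rw [hfilter, Fintype.card_piFinset]
  have hq : 0 < q := by rw [← hF]; exact Fintype.card_pos
  have hrow : ∀ i : Fin n, (Fintype.piFinset (fun j => A i j)).card = (q - 1) * q ^ (i : ℕ) := by
    intro i
    rw [Fintype.card_piFinset]
    have h1 : ∀ j : Fin n, (A i j).card = (if i = j then (q - 1) else 1) * (if j < i then q else 1) := by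
      intro j
      simp only [A]
      rcases lt_trichotomy i j with h | h | h
      · rw [if_pos h, if_neg (ne_of_lt h), if_neg (not_lt.mpr h.le)]
        simp
      · subst h
        rw [if_neg (lt_irrefl _), if_pos rfl, if_pos rfl, if_neg (lt_irrefl _),
          Finset.card_erase_of_mem (Finset.mem_univ _), Finset.card_univ, hF, mul_one]
      · rw [if_neg (not_lt.mpr h.le), if_neg (ne_of_gt h), if_neg (ne_of_gt h), if_pos h,
          Finset.card_univ, hF, one_mul]
    rw [Finset.prod_congr rfl (fun j _ => h1 j), Finset.prod_mul_distrib,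
      Finset.prod_ite_eq Finset.univ i (fun _ => q - 1), if_pos (Finset.mem_univ _),
      Finset.prod_ite, Finset.prod_const_one, mul_one, Finset.prod_const]
    congr 2
    have : (Finset.univ.filter (fun j : Fin n => j < i)) = Finset.Iio i := by
      ext j; simp
    rw [this, Fin.card_Iio]
  rw [Finset.prod_congr rfl (fun i _ => hrow i), Finset.prod_mul_distrib, Finset.prod_const,
    Finset.card_univ, Fintype.card_fin, Finset.prod_pow_eq_pow_sum,
    Fin.sum_univ_eq_sum_range (fun i => i) n, Finset.sum_range_id, mul_comm]

end Cfsg.Agent.S0769
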