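import Cfsg.Statements.S0770
import Mathlib
import Cfsg.Agent.Helper4.GL2

set_option autoImplicit false
open Cfsg

namespace Cfsg.Agent.S0770

/-- The diagonal embedding. -/
noncomputable def dg {F : Type*} [Field F] (n : ℕ) : (Fin n → F)ˣ →* Matrix.GeneralLinearGroup (Fin n) F :=
  Units.map (Matrix.diagonalRingHom (Fin n) F).toMonoidHom

theorem dg_val {F : Type*} [Field F] (n : ℕ) (u : (Fin n → F)ˣ) :
    ((dg n u : Matrix.GeneralLinearGroup (Fin n) F) : Matrix (Fin n) (Fin n) F) =
      Matrix.diagonal (u : Fin n → F) := rfl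

theorem mono {F : Type*} [Field F] (n : ℕ) (g : Matrix.GeneralLinearGroup (Fin n) F)
    (σ : Fin n → Fin n) (hσ : ∀ i j, j ≠ σ i → (g : Matrix (Fin n) (Fin n) F) i j = 0)
    (u w : (Fin n → F)ˣ) (hw : ∀ i, (w : Fin n → F) i = (u : Fin n → F) (σ i)) :
    g * dg n u = dg n w * g := by
  apply Units.ext
  rw [Units.val_mul, Units.val_mul, dg_val, dg_val]
  ext i j
  rw [Matrix.mul_diagonal, Matrix.diagonal_mul, hw i]
  by_cases hj : j = σ i
  · subst hj
    exact mul_comm _ _
  · rw [hσ i j hj, zero_mul, mul_zero]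

/-- For a field with at least 3 elements, an invertible matrix normalises the subgroup of invertible diagonal matrices of GL_n if and only if it is monomial (exactly one non-zero entry in each row). -/
theorem result {F : Type*} [Field F] (hF : ∃ a : F, a ≠ 0 ∧ a ≠ 1) (n : ℕ) (g : Matrix.GeneralLinearGroup (Fin n) F) : g ∈ Subgroup.normalizer ((Units.map (Matrix.diagonalRingHom (Fin n) F).toMonoidHom).range : Subgroup (Matrix.GeneralLinearGroup (Fin n) F)) ↔ ∀ i : Fin n, ∃! j : Fin n, (g : Matrix (Fin n) (Fin n) F) i j ≠ 0 := by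
  classical
  obtain ⟨a, ha0, ha1⟩ := hF
  show g ∈ Subgroup.normalizer (((dg n).range : Subgroup (Matrix.GeneralLinearGroup (Fin n) F)) :
    Set (Matrix.GeneralLinearGroup (Fin n) F)) ↔ _
  constructor
  · intro hN i
    have hex : ∃ j, (g : Matrix (Fin n) (Fin n) F) i j ≠ 0 := by
      by_contra hcon
      push Not at hcon
      exact Matrix.GeneralLinearGroup.det_ne_zero g (Matrix.det_eq_zero_of_row_eq_zero i hcon)
    obtain ⟨j, hj⟩ := hex
    refine ⟨j, hj, ?_⟩
    intro k hk
    by_contra hkj
    have hd := (Subgroup.mem_normalizer_iff.1 hN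
      (dg n (MulEquiv.piUnits.symm (Function.update (fun _ => 1) j (Units.mk0 a ha0))))).1 ⟨_, rfl⟩
    obtain ⟨w, hw⟩ := hd
    have hcomm : g * dg n (MulEquiv.piUnits.symm (Function.update (fun _ => 1) j (Units.mk0 a ha0))) =
        dg n w * g := by
      rw [hw]
      group
    have e1 := congrArg (fun M : Matrix.GeneralLinearGroup (Fin n) F =>
      (M : Matrix (Fin n) (Fin n) F) i j) hcomm
    have e2 := congrArg (fun M : Matrix.GeneralLinearGroup (Fin n) F =>
      (M : Matrix (Fin n) (Fin n) F) i k) hcomm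
    simp only [Units.val_mul, dg_val, Matrix.mul_diagonal, Matrix.diagonal_mul] at e1 e2
    have v1 : ((MulEquiv.piUnits.symm (Function.update (fun _ => 1) j (Units.mk0 a ha0)) :
        (Fin n → F)ˣ) : Fin n → F) j = a := by
      show ((Function.update (fun _ => (1 : Fˣ)) j (Units.mk0 a ha0)) j : F) = a
      rw [Function.update_self]
      rfl
    have v2 : ((MulEquiv.piUnits.symm (Function.update (fun _ => 1) j (Units.mk0 a ha0)) :
        (Fin n → F)ˣ) : Fin n → F) k = 1 := by
      show ((Function.update (fun _ => (1 : Fˣ)) j (Units.mk0 a ha0)) k : F) = 1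
      rw [Function.update_of_ne hkj]
      rfl
    rw [v1] at e1
    rw [v2, mul_one] at e2
    have h1 : (w : Fin n → F) i = 1 := by
      have : ((w : Fin n → F) i - 1) * (g : Matrix (Fin n) (Fin n) F) i k = 0 := by
        linear_combination -e2
      exact sub_eq_zero.1 ((mul_eq_zero.1 this).resolve_right hk)
    rw [h1, one_mul] at e1
    apply ha1
    have : (a - 1) * (g : Matrix (Fin n) (Fin n) F) i j = 0 := by linear_combination e1
    exact sub_eq_zero.1 ((mul_eq_zero.1 this).resolve_right hj)
  · intro h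
    have h' : ∀ i, ∃ j, (g : Matrix (Fin n) (Fin n) F) i j ≠ 0 ∧
        ∀ k, (g : Matrix (Fin n) (Fin n) F) i k ≠ 0 → k = j := fun i => h i
    choose σ hσ hσ' using h'
    have hz : ∀ i j, j ≠ σ i → (g : Matrix (Fin n) (Fin n) F) i j = 0 := by
      intro i j hj
      by_contra hne
      exact hj (hσ' i j hne)
    have hsurj : Function.Surjective σ := by
      intro j₀
      by_contra hcon
      push Not at hcon
      apply Matrix.GeneralLinearGroup.det_ne_zero g
      apply Matrix.det_eq_zero_of_column_eq_zero j₀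
      intro i
      exact hz i j₀ (fun h0 => hcon i h0.symm)
    have hbij : Function.Bijective σ := ⟨Finite.injective_iff_surjective.2 hsurj, hsurj⟩
    rw [Subgroup.mem_normalizer_iff]
    intro x
    constructor
    · rintro ⟨u, rfl⟩
      have h1 := mono n g σ hz u (MulEquiv.piUnits.symm (fun i => MulEquiv.piUnits u (σ i)))
        (fun i => rfl)
      rw [h1, mul_inv_cancel_right]
      exact ⟨_, rfl⟩
    · rintro ⟨w, hw⟩
      have h1 := mono n g σ hz
        (MulEquiv.piUnits.symm (fun j => MulEquiv.piUnits w ((Equiv.ofBijective σ hbij).symm j))) w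
        (fun i => by
          show (w : Fin n → F) i = (w : Fin n → F) ((Equiv.ofBijective σ hbij).symm (σ i))
          rw [Equiv.ofBijective_symm_apply_apply])
      have h2 : g * x = dg n w * g := by
        rw [hw]
        group
      have h3 : x = dg n (MulEquiv.piUnits.symm
          (fun j => MulEquiv.piUnits w ((Equiv.ofBijective σ hbij).symm j))) :=
        mul_left_cancel (h2.trans h1.symm)
      rw [h3]
      exact ⟨_, rfl⟩

end Cfsg.Agent.S0770
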