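import Cfsg.Statements.S0771
import Mathlib

set_option autoImplicit false
open Cfsg

namespace Cfsg.Agent.S0771

open Matrix

variable {F : Type*} [Field F] [Fintype F]

/-- block lower-left zero condition -/
def LL (n k : ℕ) (M : Matrix (Fin n) (Fin n) F) : Prop :=
  ∀ i j : Fin n, k ≤ (i : ℕ) → (j : ℕ) < k → M i j = 0

theorem mem_stab_iff (n k : ℕ) (g : GL (Fin n) F) :
    g ∈ Cfsg.stabilizing (Cfsg.glToMat (Fin n) F)
      {v : Fin n → F | ∀ i : Fin n, k ≤ (i : ℕ) → v i = 0} ↔ LL n k g.1 := by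
  classical
  have h3 : (g⁻¹).1 * g.1 = 1 := by
    rw [← Units.val_mul, inv_mul_cancel]; rfl
  constructor
  · intro h i j hi hj
    have h' : ∀ v : Fin n → F, (∀ i : Fin n, k ≤ (i : ℕ) → v i = 0) ↔
        (∀ i : Fin n, k ≤ (i : ℕ) → (g.1 *ᵥ v) i = 0) := h
    have h1 := (h' (Pi.single j 1)).1 (by
      intro i' hi'
      have : i' ≠ j := by
        intro e; rw [e] at hi'; omega
      simp [Pi.single_apply, this])
    have h2 : (g.1 *ᵥ Pi.single j 1) i = 0 := h1 i hi
    rw [Matrix.mulVec_single_one] at h2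
    exact h2
  · intro h
    have fwd : ∀ v : Fin n → F, (∀ i : Fin n, k ≤ (i : ℕ) → v i = 0) →
        ∀ i : Fin n, k ≤ (i : ℕ) → (g.1 *ᵥ v) i = 0 := by
      intro v hv i hi
      show ∑ j, g.1 i j * v j = 0
      apply Finset.sum_eq_zero
      intro j _
      by_cases hj : (j : ℕ) < k
      · rw [h i j hi hj, zero_mul]
      · rw [hv j (by omega), mul_zero]
    show ∀ v : Fin n → F, (∀ i : Fin n, k ≤ (i : ℕ) → v i = 0) ↔
        (∀ i : Fin n, k ≤ (i : ℕ) → (g.1 *ᵥ v) i = 0)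
    intro v
    constructor
    · intro hv; exact fwd v hv
    · intro hv
      let φ : {v : Fin n → F // ∀ i : Fin n, k ≤ (i : ℕ) → v i = 0} →
          {v : Fin n → F // ∀ i : Fin n, k ≤ (i : ℕ) → v i = 0} :=
        fun w => ⟨g.1 *ᵥ w.1, fwd w.1 w.2⟩
      have hinj : Function.Injective φ := by
        intro a b hab
        have h1 : g.1 *ᵥ a.1 = g.1 *ᵥ b.1 := congrArg Subtype.val hab
        have h2 := congrArg (fun x => (g⁻¹).1 *ᵥ x) h1
        simp only [Matrix.mulVec_mulVec] at h2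
        rw [h3, Matrix.one_mulVec, Matrix.one_mulVec] at h2
        exact Subtype.ext h2
      have hsurj := Finite.surjective_of_injective hinj
      obtain ⟨w, hw⟩ := hsurj ⟨g.1 *ᵥ v, hv⟩
      have h1 : g.1 *ᵥ w.1 = g.1 *ᵥ v := congrArg Subtype.val hw
      have h2 := congrArg (fun x => (g⁻¹).1 *ᵥ x) h1
      simp only [Matrix.mulVec_mulVec] at h2
      rw [h3, Matrix.one_mulVec, Matrix.one_mulVec] at h2
      rw [← h2]; exact w.2

/-- the splitting of indices -/
def eS (n k : ℕ) (hk : k ≤ n) : Fin k ⊕ Fin (n - k) ≃ Fin n :=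
  finSumFinEquiv.trans (finCongr (by omega))

theorem eS_inl (n k : ℕ) (hk : k ≤ n) (i : Fin k) :
    ((eS n k hk (Sum.inl i) : Fin n) : ℕ) = i := by
  simp [eS]

theorem eS_inr (n k : ℕ) (hk : k ≤ n) (j : Fin (n - k)) :
    ((eS n k hk (Sum.inr j) : Fin n) : ℕ) = k + j := by
  simp [eS]

theorem blk21 (n k : ℕ) (hk : k ≤ n) (M : Matrix (Fin n) (Fin n) F) (h : LL n k M) :
    (M.submatrix (eS n k hk) (eS n k hk)).toBlocks₂₁ = 0 := by
  ext i j
  show M (eS n k hk (Sum.inr i)) (eS n k hk (Sum.inl j)) = 0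
  apply h
  · rw [eS_inr]; omega
  · rw [eS_inl]; exact j.2

theorem LLinv (n k : ℕ) (hk : k ≤ n) (A : Matrix (Fin k) (Fin k) F)
    (B : Matrix (Fin k) (Fin (n - k)) F) (D : Matrix (Fin (n - k)) (Fin (n - k)) F) :
    LL n k ((fromBlocks A B 0 D).submatrix (eS n k hk).symm (eS n k hk).symm) := by
  intro i j hi hj
  show fromBlocks A B 0 D ((eS n k hk).symm i) ((eS n k hk).symm j) = 0
  rcases hi' : (eS n k hk).symm i with a | b
  · exfalso
    have h1 : i = eS n k hk (Sum.inl a) := by rw [← hi', Equiv.apply_symm_apply]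
    have h2 := eS_inl n k hk a
    rw [← h1] at h2
    have := a.2
    omega
  · rcases hj' : (eS n k hk).symm j with c | d
    · rfl
    · exfalso
      have h1 : j = eS n k hk (Sum.inr d) := by rw [← hj', Equiv.apply_symm_apply]
      have h2 := eS_inr n k hk d
      rw [← h1] at h2
      omega

theorem det_blk {m₁ m₂ : Type} [Fintype m₁] [Fintype m₂] [DecidableEq m₁] [DecidableEq m₂]
    (N : Matrix (m₁ ⊕ m₂) (m₁ ⊕ m₂) F) (h : N.toBlocks₂₁ = 0) :
    N.det = N.toBlocks₁₁.det * N.toBlocks₂₂.det := by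
  rw [← Matrix.det_fromBlocks_zero₂₁ N.toBlocks₁₁ N.toBlocks₁₂ N.toBlocks₂₂, ← h,
    Matrix.fromBlocks_toBlocks]

theorem det11 (n k : ℕ) (hk : k ≤ n) (g : GL (Fin n) F) (h : LL n k g.1) :
    (g.1.submatrix (eS n k hk) (eS n k hk)).toBlocks₁₁.det ≠ 0 := by
  have h1 := Matrix.GeneralLinearGroup.det_ne_zero g
  rw [← Matrix.det_submatrix_equiv_self (eS n k hk), det_blk _ (blk21 n k hk g.1 h)] at h1
  exact left_ne_zero_of_mul h1

theorem det22 (n k : ℕ) (hk : k ≤ n) (g : GL (Fin n) F) (h : LL n k g.1) :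
    (g.1.submatrix (eS n k hk) (eS n k hk)).toBlocks₂₂.det ≠ 0 := by
  have h1 := Matrix.GeneralLinearGroup.det_ne_zero g
  rw [← Matrix.det_submatrix_equiv_self (eS n k hk), det_blk _ (blk21 n k hk g.1 h)] at h1
  exact right_ne_zero_of_mul h1

theorem detInv (n k : ℕ) (hk : k ≤ n) (A : GL (Fin k) F) (B : Matrix (Fin k) (Fin (n - k)) F)
    (D : GL (Fin (n - k)) F) :
    ((fromBlocks A.1 B 0 D.1).submatrix (eS n k hk).symm (eS n k hk).symm).det ≠ 0 := by
  rw [Matrix.det_submatrix_equiv_self, Matrix.det_fromBlocks_zero₂₁]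
  exact mul_ne_zero (Matrix.GeneralLinearGroup.det_ne_zero A)
    (Matrix.GeneralLinearGroup.det_ne_zero D)

/-- the parabolic as Levi times radical -/
noncomputable def parEquiv (n k : ℕ) (hk : k ≤ n) :
    {g : GL (Fin n) F // LL n k g.1} ≃
      GL (Fin k) F × Matrix (Fin k) (Fin (n - k)) F × GL (Fin (n - k)) F where
  toFun g := (Matrix.GeneralLinearGroup.mkOfDetNeZero
      (g.1.1.submatrix (eS n k hk) (eS n k hk)).toBlocks₁₁ (det11 n k hk g.1 g.2),
     (g.1.1.submatrix (eS n k hk) (eS n k hk)).toBlocks₁₂,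
     Matrix.GeneralLinearGroup.mkOfDetNeZero
      (g.1.1.submatrix (eS n k hk) (eS n k hk)).toBlocks₂₂ (det22 n k hk g.1 g.2))
  invFun x := ⟨Matrix.GeneralLinearGroup.mkOfDetNeZero
      ((fromBlocks x.1.1 x.2.1 0 x.2.2.1).submatrix (eS n k hk).symm (eS n k hk).symm)
      (detInv n k hk x.1 x.2.1 x.2.2), LLinv n k hk _ _ _⟩
  left_inv g := by
    apply Subtype.ext
    apply Units.ext
    show (fromBlocks (g.1.1.submatrix (eS n k hk) (eS n k hk)).toBlocks₁₁
      (g.1.1.submatrix (eS n k hk) (eS n k hk)).toBlocks₁₂ 0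
      (g.1.1.submatrix (eS n k hk) (eS n k hk)).toBlocks₂₂).submatrix
        (eS n k hk).symm (eS n k hk).symm = g.1.1
    rw [← blk21 n k hk g.1.1 g.2, Matrix.fromBlocks_toBlocks, Matrix.submatrix_submatrix]
    simp
  right_inv x := by
    obtain ⟨A, B, D⟩ := x
    have hN : ((fromBlocks A.1 B 0 D.1).submatrix (eS n k hk).symm (eS n k hk).symm).submatrix
        (eS n k hk) (eS n k hk) = fromBlocks A.1 B 0 D.1 := by
      rw [Matrix.submatrix_submatrix]; simp
    refine Prod.ext (Units.ext ?_) (Prod.ext ?_ (Units.ext ?_))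
    · show (((fromBlocks A.1 B 0 D.1).submatrix (eS n k hk).symm (eS n k hk).symm).submatrix
        (eS n k hk) (eS n k hk)).toBlocks₁₁ = A.1
      rw [hN, Matrix.toBlocks_fromBlocks₁₁]
    · show (((fromBlocks A.1 B 0 D.1).submatrix (eS n k hk).symm (eS n k hk).symm).submatrix
        (eS n k hk) (eS n k hk)).toBlocks₁₂ = B
      rw [hN, Matrix.toBlocks_fromBlocks₁₂]
    · show (((fromBlocks A.1 B 0 D.1).submatrix (eS n k hk).symm (eS n k hk).symm).submatrix
        (eS n k hk) (eS n k hk)).toBlocks₂₂ = D.1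
      rw [hN, Matrix.toBlocks_fromBlocks₂₂]

/-- Maximal parabolic of GL_n(q): the stabiliser of the coordinate subspace spanned by the first k basis vectors has order q^(k(n-k)) · |GL_k(q)| · |GL_(n-k)(q)| (unipotent radical of order q^(k(n-k)) and Levi complement GL_k × GL_(n-k)). -/
theorem result {F : Type*} [Field F] [Fintype F] {q : ℕ} (hF : Fintype.card F = q) (n k : ℕ) (hk : k ≤ n) : Nat.card ↥(Cfsg.stabilizing (Cfsg.glToMat (Fin n) F) {v : Fin n → F | ∀ i : Fin n, k ≤ (i : ℕ) → v i = 0}) = q ^ (k * (n - k)) * (∏ i : Fin k, (q ^ k - q ^ (i : ℕ))) * ∏ i : Fin (n - k), (q ^ (n - k) - q ^ (i : ℕ)) := by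
  classical
  subst hF
  have h1 : Nat.card ↥(Cfsg.stabilizing (Cfsg.glToMat (Fin n) F)
      {v : Fin n → F | ∀ i : Fin n, k ≤ (i : ℕ) → v i = 0}) =
      Nat.card {g : GL (Fin n) F // LL n k g.1} :=
    Nat.card_congr (Equiv.subtypeEquivRight (fun g => mem_stab_iff n k g))
  have h2 : Nat.card (Matrix (Fin k) (Fin (n - k)) F) = Fintype.card F ^ (k * (n - k)) := by
    show Nat.card (Fin k → Fin (n - k) → F) = _
    rw [Nat.card_fun, Nat.card_fun, Nat.card_fin, Nat.card_fin, Nat.card_eq_fintype_card,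
      ← pow_mul, mul_comm]
  rw [h1, Nat.card_congr (parEquiv n k hk), Nat.card_prod, Nat.card_prod, Matrix.card_GL_field,
    Matrix.card_GL_field, h2]
  ring

end Cfsg.Agent.S0771
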