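import Cfsg.Statements.S0773
import Mathlib
import Cfsg.Agent.S0771

set_option autoImplicit false
open Cfsg

namespace Cfsg.Agent.S0773

open Matrix

variable {F : Type*} [Field F]

/-- the anti-involution: transpose and reverse -/
def theta (n : ℕ) (M : Matrix (Fin n) (Fin n) F) : Matrix (Fin n) (Fin n) F :=
  Mᵀ.submatrix Fin.revPerm Fin.revPerm

theorem theta_apply (n : ℕ) (M : Matrix (Fin n) (Fin n) F) (i l : Fin n) :
    theta n M i l = M (Fin.rev l) (Fin.rev i) := rfl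

theorem theta_mul (n : ℕ) (A B : Matrix (Fin n) (Fin n) F) :
    theta n A * theta n B = theta n (B * A) := by
  unfold theta
  rw [Matrix.submatrix_mul_equiv, ← Matrix.transpose_mul]

theorem theta_one (n : ℕ) : theta n (1 : Matrix (Fin n) (Fin n) F) = 1 := by
  unfold theta
  rw [Matrix.transpose_one, Matrix.submatrix_one_equiv]

theorem theta_theta (n : ℕ) (M : Matrix (Fin n) (Fin n) F) : theta n (theta n M) = M := by
  ext i l
  rw [theta_apply, theta_apply, Fin.rev_rev, Fin.rev_rev]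

/-- the inverse transpose reversed automorphism -/
def psi (n : ℕ) (g : GL (Fin n) F) : GL (Fin n) F :=
  ⟨theta n (g⁻¹).1, theta n g.1, by rw [theta_mul, Units.mul_inv, theta_one],
    by rw [theta_mul, Units.inv_mul, theta_one]⟩

theorem psi_val (n : ℕ) (g : GL (Fin n) F) : (psi n g).1 = theta n (g⁻¹).1 := rfl

theorem psi_mul (n : ℕ) (g h : GL (Fin n) F) : psi n (g * h) = psi n g * psi n h := by
  apply Units.ext
  rw [Units.val_mul, psi_val, psi_val, psi_val, theta_mul, _root_.mul_inv_rev, Units.val_mul]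

theorem psi_psi (n : ℕ) (g : GL (Fin n) F) : psi n (psi n g) = g := by
  apply Units.ext
  show theta n ((psi n g)⁻¹).1 = g.1
  have h : ((psi n g)⁻¹).1 = theta n g.1 := rfl
  rw [h, theta_theta]

theorem thetaLL (n k k' : ℕ) (h : k + k' = n) (M : Matrix (Fin n) (Fin n) F)
    (hM : Cfsg.Agent.S0771.LL n k M) : Cfsg.Agent.S0771.LL n k' (theta n M) := by
  intro i l hi hl
  rw [theta_apply]
  apply hM
  · rw [Fin.val_rev]; omega
  · rw [Fin.val_rev]; have := i.2; omega

theorem part_a [Fintype F] (n k : ℕ) (hkn : k < n) :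
    Nonempty (↥(Cfsg.stabilizing (Cfsg.glToMat (Fin n) F)
      {v : Fin n → F | ∀ i : Fin n, k ≤ (i : ℕ) → v i = 0}) ≃*
      ↥(Cfsg.stabilizing (Cfsg.glToMat (Fin n) F)
      {v : Fin n → F | ∀ i : Fin n, n - k ≤ (i : ℕ) → v i = 0})) := by
  have h1 : ∀ g : GL (Fin n) F, g ∈ Cfsg.stabilizing (Cfsg.glToMat (Fin n) F)
      {v : Fin n → F | ∀ i : Fin n, k ≤ (i : ℕ) → v i = 0} →
      psi n g ∈ Cfsg.stabilizing (Cfsg.glToMat (Fin n) F)
      {v : Fin n → F | ∀ i : Fin n, n - k ≤ (i : ℕ) → v i = 0} := by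
    intro g hg
    rw [Cfsg.Agent.S0771.mem_stab_iff]
    have hg' := (Cfsg.Agent.S0771.mem_stab_iff n k g⁻¹).1 (Subgroup.inv_mem _ hg)
    exact thetaLL n k (n - k) (by omega) _ hg'
  have h2 : ∀ g : GL (Fin n) F, g ∈ Cfsg.stabilizing (Cfsg.glToMat (Fin n) F)
      {v : Fin n → F | ∀ i : Fin n, n - k ≤ (i : ℕ) → v i = 0} →
      psi n g ∈ Cfsg.stabilizing (Cfsg.glToMat (Fin n) F)
      {v : Fin n → F | ∀ i : Fin n, k ≤ (i : ℕ) → v i = 0} := by
    intro g hg
    rw [Cfsg.Agent.S0771.mem_stab_iff]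
    have hg' := (Cfsg.Agent.S0771.mem_stab_iff n (n - k) g⁻¹).1 (Subgroup.inv_mem _ hg)
    exact thetaLL n (n - k) k (by omega) _ hg'
  exact ⟨{ toFun := fun p => ⟨psi n p.1, h1 p.1 p.2⟩
           invFun := fun p => ⟨psi n p.1, h2 p.1 p.2⟩
           left_inv := fun p => Subtype.ext (psi_psi n p.1)
           right_inv := fun p => Subtype.ext (psi_psi n p.1)
           map_mul' := fun p p' => Subtype.ext (psi_mul n p.1 p'.1) }⟩

theorem trans_mem [Fintype F] (n j : ℕ) (a b : Fin n) (hab : a ≠ b)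
    (h : (a : ℕ) < j ∨ j ≤ (b : ℕ)) :
    ∃ T : GL (Fin n) F, T ∈ Cfsg.stabilizing (Cfsg.glToMat (Fin n) F)
      {v : Fin n → F | ∀ i : Fin n, j ≤ (i : ℕ) → v i = 0} ∧
      ∀ x : Fin n → F, T.1 *ᵥ x = x + x b • (Pi.single a 1 : Fin n → F) := by
  classical
  have hdet : (Matrix.transvection a b (1 : F)).det ≠ 0 := by
    rw [Matrix.det_transvection_of_ne a b hab]; exact one_ne_zero
  refine ⟨Matrix.GeneralLinearGroup.mkOfDetNeZero _ hdet, ?_, ?_⟩
  · rw [Cfsg.Agent.S0771.mem_stab_iff]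
    intro i l hi hl
    show Matrix.transvection a b (1 : F) i l = 0
    have hil : i ≠ l := by intro e; rw [e] at hi; omega
    rw [Matrix.transvection, Matrix.add_apply, Matrix.one_apply_ne hil, Matrix.single_apply,
      zero_add, if_neg]
    rintro ⟨rfl, rfl⟩
    omega
  · intro x
    show Matrix.transvection a b (1 : F) *ᵥ x = _
    have e : Matrix.single a b (1 : F) *ᵥ x = x b • (Pi.single a 1 : Fin n → F) := by
      rw [Matrix.single_mulVec]
      ext i
      by_cases hi : i = a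
      · subst hi; simp
      · simp [hi]
    rw [Matrix.transvection, Matrix.add_mulVec, Matrix.one_mulVec, e]

theorem card_Sk [Fintype F] (n k : ℕ) (hk : k ≤ n) :
    Nat.card {v : Fin n → F // ∀ i : Fin n, k ≤ (i : ℕ) → v i = 0} = Fintype.card F ^ k := by
  classical
  have e : {v : Fin n → F // ∀ i : Fin n, k ≤ (i : ℕ) → v i = 0} ≃ (Fin k → F) :=
    { toFun := fun v i => v.1 (Fin.castLE hk i)
      invFun := fun f => ⟨fun i => if h : (i : ℕ) < k then f ⟨i, h⟩ else 0, by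
        intro i hi
        show (if h : (i : ℕ) < k then f ⟨i, h⟩ else 0) = 0
        rw [dif_neg (by omega)]⟩
      left_inv := by
        intro v
        apply Subtype.ext
        funext i
        show (if h : (i : ℕ) < k then v.1 (Fin.castLE hk ⟨i, h⟩) else 0) = v.1 i
        by_cases h : (i : ℕ) < k
        · rw [dif_pos h] <;> rfl
        · rw [dif_neg h]; exact (v.2 i (by omega)).symm
      right_inv := by
        intro f
        funext i
        show (if h : ((Fin.castLE hk i : Fin n) : ℕ) < k then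
          f ⟨((Fin.castLE hk i : Fin n) : ℕ), h⟩ else 0) = f i
        rw [dif_pos (show ((Fin.castLE hk i : Fin n) : ℕ) < k from i.2)] <;> rfl }
  rw [Nat.card_congr e, Nat.card_fun, Nat.card_fin, Nat.card_eq_fintype_card]

theorem part_b [Fintype F] (n k : ℕ) (hk0 : 0 < k) (hkn : k < n) (h2 : 2 * k ≠ n)
    (g : GL (Fin n) F) :
    (Cfsg.stabilizing (Cfsg.glToMat (Fin n) F)
      {v : Fin n → F | ∀ i : Fin n, k ≤ (i : ℕ) → v i = 0}).map (MulAut.conj g).toMonoidHom ≠
    Cfsg.stabilizing (Cfsg.glToMat (Fin n) F)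
      {v : Fin n → F | ∀ i : Fin n, n - k ≤ (i : ℕ) → v i = 0} := by
  classical
  intro hEq
  let S : Submodule F (Fin n → F) :=
    { carrier := {x | ∀ i : Fin n, k ≤ (i : ℕ) → ((g⁻¹).1 *ᵥ x) i = 0}
      add_mem' := by
        intro x y hx hy i hi
        rw [Matrix.mulVec_add, Pi.add_apply, hx i hi, hy i hi, add_zero]
      zero_mem' := by
        intro i hi
        rw [Matrix.mulVec_zero]; rfl
      smul_mem' := by
        intro c x hx i hi
        rw [Matrix.mulVec_smul, Pi.smul_apply, hx i hi, smul_zero] }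
  have hS : ∀ x, x ∈ S ↔ ∀ i : Fin n, k ≤ (i : ℕ) → ((g⁻¹).1 *ᵥ x) i = 0 := fun x => Iff.rfl
  have hinv : ∀ p' : GL (Fin n) F, p' ∈ Cfsg.stabilizing (Cfsg.glToMat (Fin n) F)
      {v : Fin n → F | ∀ i : Fin n, n - k ≤ (i : ℕ) → v i = 0} → ∀ x ∈ S, p'.1 *ᵥ x ∈ S := by
    intro p' hp' x hx
    rw [← hEq] at hp'
    obtain ⟨p, hp, rfl⟩ := Subgroup.mem_map.1 hp'
    have hp1 : ∀ v : Fin n → F, (∀ i : Fin n, k ≤ (i : ℕ) → v i = 0) ↔
        (∀ i : Fin n, k ≤ (i : ℕ) → (p.1 *ᵥ v) i = 0) := hp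
    rw [hS] at hx ⊢
    have e0 : g⁻¹ * ((MulAut.conj g).toMonoidHom p) = p * g⁻¹ := by
      show g⁻¹ * (g * p * g⁻¹) = p * g⁻¹
      group
    have e : (g⁻¹).1 *ᵥ (((MulAut.conj g).toMonoidHom p).1 *ᵥ x) = p.1 *ᵥ ((g⁻¹).1 *ᵥ x) := by
      rw [Matrix.mulVec_mulVec x (g⁻¹).1 ((MulAut.conj g).toMonoidHom p).1,
        Matrix.mulVec_mulVec x p.1 (g⁻¹).1, ← Units.val_mul, ← Units.val_mul, e0]
    rw [e]
    exact (hp1 _).1 hx
  have hstar : ∀ x ∈ S, ∀ a b : Fin n, a ≠ b → ((a : ℕ) < n - k ∨ n - k ≤ (b : ℕ)) →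
      x b • (Pi.single a 1 : Fin n → F) ∈ S := by
    intro x hx a b hab hc
    obtain ⟨T, hT, hTx⟩ := trans_mem (F := F) n (n - k) a b hab hc
    have h1 := hinv T hT x hx
    rw [hTx] at h1
    have h3 := S.sub_mem h1 hx
    rwa [add_sub_cancel_left] at h3
  have hdecomp : ∀ y : Fin n → F, y = ∑ a, y a • (Pi.single a 1 : Fin n → F) := by
    intro y
    ext i
    simp [Finset.sum_apply, Pi.single_apply]
  have hbasis : ∀ x ∈ S, ∀ b : Fin n, x b ≠ 0 →
      (∀ a, a ≠ b → x a • (Pi.single a 1 : Fin n → F) ∈ S) →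
      (Pi.single b 1 : Fin n → F) ∈ S := by
    intro x hx b hb hall
    have h1 : x b • (Pi.single b 1 : Fin n → F) +
        ∑ a ∈ Finset.univ.erase b, x a • (Pi.single a 1 : Fin n → F) =
        ∑ a, x a • (Pi.single a 1 : Fin n → F) :=
      Finset.add_sum_erase Finset.univ (fun a => x a • (Pi.single a 1 : Fin n → F))
        (Finset.mem_univ b)
    rw [← hdecomp x] at h1
    have h3 : x b • (Pi.single b 1 : Fin n → F) ∈ S := by
      have h2 : x b • (Pi.single b 1 : Fin n → F) =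
          x - ∑ a ∈ Finset.univ.erase b, x a • (Pi.single a 1 : Fin n → F) := by
        rw [eq_sub_iff_add_eq]; exact h1
      rw [h2]
      exact S.sub_mem hx (S.sum_mem (fun a ha => hall a (Finset.ne_of_mem_erase ha)))
    have h4 := S.smul_mem (x b)⁻¹ h3
    rwa [smul_smul, inv_mul_cancel₀ hb, one_smul] at h4
  have hn0 : 0 < n := by omega
  have hx0 : g.1 *ᵥ (Pi.single (⟨0, hn0⟩ : Fin n) 1 : Fin n → F) ∈ S := by
    rw [hS]
    intro i hi
    rw [Matrix.mulVec_mulVec, Units.inv_mul, Matrix.one_mulVec, Pi.single_apply, if_neg]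
    intro e
    rw [e] at hi
    simp at hi
    omega
  have hx0ne : g.1 *ᵥ (Pi.single (⟨0, hn0⟩ : Fin n) 1 : Fin n → F) ≠ 0 := by
    intro h0
    have h1 := congrArg (fun v => (g⁻¹).1 *ᵥ v) h0
    simp only [Matrix.mulVec_mulVec, Units.inv_mul, Matrix.one_mulVec, Matrix.mulVec_zero] at h1
    have h3 := congrFun h1 ⟨0, hn0⟩
    simp at h3
  by_cases hI : ∃ x ∈ S, ∃ b : Fin n, n - k ≤ (b : ℕ) ∧ x b ≠ 0
  · obtain ⟨x, hx, b, hb, hxb⟩ := hI
    have he : ∀ a, a ≠ b → (Pi.single a 1 : Fin n → F) ∈ S := by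
      intro a hab
      have h1 := hstar x hx a b hab (Or.inr hb)
      have h3 := S.smul_mem (x b)⁻¹ h1
      rwa [smul_smul, inv_mul_cancel₀ hxb, one_smul] at h3
    have heb : (Pi.single b 1 : Fin n → F) ∈ S :=
      hbasis x hx b hxb (fun a hab => S.smul_mem _ (he a hab))
    have hall : ∀ a, (Pi.single a 1 : Fin n → F) ∈ S := by
      intro a
      by_cases hab : a = b
      · rw [hab]; exact heb
      · exact he a hab
    have hy : ∀ y : Fin n → F, y ∈ S := by
      intro y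
      rw [hdecomp y]
      exact S.sum_mem (fun a _ => S.smul_mem _ (hall a))
    have hlast := (hS _).1 (hy (g.1 *ᵥ (Pi.single (⟨n - 1, by omega⟩ : Fin n) 1 : Fin n → F)))
      ⟨n - 1, by omega⟩ (by show k ≤ n - 1; omega)
    rw [Matrix.mulVec_mulVec, Units.inv_mul, Matrix.one_mulVec, Pi.single_apply, if_pos rfl]
      at hlast
    exact one_ne_zero hlast
  · push Not at hI
    obtain ⟨b, hb⟩ : ∃ b, (g.1 *ᵥ (Pi.single (⟨0, hn0⟩ : Fin n) 1 : Fin n → F)) b ≠ 0 := by
      by_contra hcon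
      push Not at hcon
      exact hx0ne (funext hcon)
    have hbj : (b : ℕ) < n - k := by
      by_contra hcon
      exact hb (hI _ hx0 b (by omega))
    have he : ∀ a : Fin n, (a : ℕ) < n - k → a ≠ b → (Pi.single a 1 : Fin n → F) ∈ S := by
      intro a ha hab
      have h1 := hstar _ hx0 a b hab (Or.inl ha)
      have h3 := S.smul_mem
        ((g.1 *ᵥ (Pi.single (⟨0, hn0⟩ : Fin n) 1 : Fin n → F)) b)⁻¹ h1
      rwa [smul_smul, inv_mul_cancel₀ hb, one_smul] at h3
    have heb : (Pi.single b 1 : Fin n → F) ∈ S := by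
      refine hbasis _ hx0 b hb (fun a hab => ?_)
      by_cases ha : (a : ℕ) < n - k
      · exact S.smul_mem _ (he a ha hab)
      · rw [hI _ hx0 a (by omega), zero_smul]
        exact S.zero_mem
    have hall : ∀ a : Fin n, (a : ℕ) < n - k → (Pi.single a 1 : Fin n → F) ∈ S := by
      intro a ha
      by_cases hab : a = b
      · rw [hab]; exact heb
      · exact he a ha hab
    have hSj : ∀ x : Fin n → F, x ∈ S ↔ ∀ i : Fin n, n - k ≤ (i : ℕ) → x i = 0 := by
      intro x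
      constructor
      · intro hx i hi
        exact hI x hx i hi
      · intro hx
        rw [hdecomp x]
        refine S.sum_mem (fun a _ => ?_)
        by_cases ha : (a : ℕ) < n - k
        · exact S.smul_mem _ (hall a ha)
        · rw [hx a (by omega), zero_smul]
          exact S.zero_mem
    have hcard : Nat.card {v : Fin n → F // ∀ i : Fin n, k ≤ (i : ℕ) → v i = 0} =
        Nat.card {v : Fin n → F // ∀ i : Fin n, n - k ≤ (i : ℕ) → v i = 0} := by
      refine Nat.card_congr ⟨fun v => ⟨g.1 *ᵥ v.1, ?_⟩, fun x => ⟨(g⁻¹).1 *ᵥ x.1, ?_⟩, ?_, ?_⟩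
      · apply (hSj _).1
        rw [hS]
        intro i hi
        rw [Matrix.mulVec_mulVec, Units.inv_mul, Matrix.one_mulVec]
        exact v.2 i hi
      · exact (hS _).1 ((hSj _).2 x.2)
      · intro v
        apply Subtype.ext
        show (g⁻¹).1 *ᵥ (g.1 *ᵥ v.1) = v.1
        rw [Matrix.mulVec_mulVec, Units.inv_mul, Matrix.one_mulVec]
      · intro x
        apply Subtype.ext
        show g.1 *ᵥ ((g⁻¹).1 *ᵥ x.1) = x.1
        rw [Matrix.mulVec_mulVec, Units.mul_inv, Matrix.one_mulVec]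
    rw [card_Sk n k (by omega), card_Sk n (n - k) (by omega)] at hcard
    have hq : 2 ≤ Fintype.card F := Fintype.one_lt_card
    have := Nat.pow_right_injective hq hcard
    omega

/-- The stabilisers in GL_n(F), F finite, of the coordinate subspaces of dimensions k and n − k are isomorphic groups, but when 2k ≠ n (and 0 < k < n) no element of GL_n conjugates one onto the other. -/
theorem result {F : Type*} [Field F] [Finite F] (n k : ℕ) (hk0 : 0 < k) (hkn : k < n) (h2 : 2 * k ≠ n) : Nonempty (↥(Cfsg.stabilizing (Cfsg.glToMat (Fin n) F) {v : Fin n → F | ∀ i : Fin n, k ≤ (i : ℕ) → v i = 0}) ≃* ↥(Cfsg.stabilizing (Cfsg.glToMat (Fin n) F) {v : Fin n → F | ∀ i : Fin n, n - k ≤ (i : ℕ) → v i = 0})) ∧ ∀ g : Matrix.GeneralLinearGroup (Fin n) F, (Cfsg.stabilizing (Cfsg.glToMat (Fin n) F) {v : Fin n → F | ∀ i : Fin n, k ≤ (i : ℕ) → v i = 0}).map (MulAut.conj g).toMonoidHom ≠ Cfsg.stabilizing (Cfsg.glToMat (Fin n) F) {v : Fin n → F | ∀ i : Fin n, n -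 k ≤ (i : ℕ) → v i = 0} := by
  haveI := Fintype.ofFinite F
  exact ⟨part_a n k hkn, fun g => part_b n k hk0 hkn h2 g⟩

end Cfsg.Agent.S0773
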