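import Cfsg.Statements.S0774
import Mathlib

set_option autoImplicit false
open Cfsg

namespace Cfsg.Agent.S0774

open Matrix

variable {F : Type*} [Field F]

/-- shape of the elements of the Borel subgroup -/
def BB (m : ℕ) (M : Matrix (Fin m ⊕ Fin m) (Fin m ⊕ Fin m) F) : Prop :=
  (∀ i j : Fin m, M (Sum.inr i) (Sum.inl j) = 0) ∧
  (∀ i j : Fin m, j < i → M (Sum.inl i) (Sum.inl j) = 0)

/-- the Borel subgroup -/
abbrev Bor (F : Type*) [Field F] (m : ℕ) : Subgroup (Matrix.symplecticGroup (Fin m) F) :=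
  ⨅ k : Fin m, Cfsg.stabilizing (Cfsg.spToMat m F) {v : Fin m ⊕ Fin m → F | (∀ i : Fin m, (k : ℕ) < (i : ℕ) → v (Sum.inl i) = 0) ∧ ∀ i : Fin m, v (Sum.inr i) = 0}

/-- parameter pairs -/
abbrev TT (F : Type*) [Field F] (m : ℕ) : Type _ :=
  {p : Matrix (Fin m) (Fin m) F × Matrix (Fin m) (Fin m) F //
    (∀ i j, j < i → p.1 i j = 0) ∧ (∀ i, p.1 i i ≠ 0) ∧ p.2ᵀ = p.2}

theorem mulVec_sum (m : ℕ) (M : Matrix (Fin m ⊕ Fin m) (Fin m ⊕ Fin m) F)
    (v : Fin m ⊕ Fin m → F) (x : Fin m ⊕ Fin m) :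
    (M *ᵥ v) x = ∑ j, M x (Sum.inl j) * v (Sum.inl j) + ∑ j, M x (Sum.inr j) * v (Sum.inr j) := by
  show ∑ y, M x y * v y = _
  rw [Fintype.sum_sum_type]

theorem fwd (m : ℕ) (M : Matrix (Fin m ⊕ Fin m) (Fin m ⊕ Fin m) F) (h : BB m M) (k : Fin m)
    (v : Fin m ⊕ Fin m → F)
    (hv : (∀ i : Fin m, (k : ℕ) < (i : ℕ) → v (Sum.inl i) = 0) ∧ ∀ i : Fin m, v (Sum.inr i) = 0) :
    (∀ i : Fin m, (k : ℕ) < (i : ℕ) → (M *ᵥ v) (Sum.inl i) = 0) ∧
      ∀ i : Fin m, (M *ᵥ v) (Sum.inr i) = 0 := by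
  obtain ⟨hv1, hv2⟩ := hv
  have hz : ∀ x, ∑ j, M x (Sum.inr j) * v (Sum.inr j) = 0 := by
    intro x; apply Finset.sum_eq_zero; intro j _; rw [hv2, mul_zero]
  constructor
  · intro i hi
    rw [mulVec_sum, hz, add_zero]
    apply Finset.sum_eq_zero
    intro j _
    by_cases hj : (k : ℕ) < (j : ℕ)
    · rw [hv1 j hj, mul_zero]
    · rw [h.2 i j (by rw [Fin.lt_def]; omega), zero_mul]
  · intro i
    rw [mulVec_sum, hz, add_zero]
    apply Finset.sum_eq_zero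
    intro j _
    rw [h.1, zero_mul]

theorem mem_B_iff [Fintype F] (m : ℕ) (g : Matrix.symplecticGroup (Fin m) F) :
    g ∈ Bor F m ↔ BB m g.1 := by
  classical
  rw [Subgroup.mem_iInf]
  have h3 : (g⁻¹).1 * g.1 = 1 := by
    have h : g⁻¹ * g = 1 := inv_mul_cancel g
    exact congrArg Subtype.val h
  constructor
  · intro h
    have h' : ∀ k : Fin m, ∀ v : Fin m ⊕ Fin m → F,
        ((∀ i : Fin m, (k : ℕ) < (i : ℕ) → v (Sum.inl i) = 0) ∧ ∀ i : Fin m, v (Sum.inr i) = 0) ↔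
        ((∀ i : Fin m, (k : ℕ) < (i : ℕ) → (g.1 *ᵥ v) (Sum.inl i) = 0) ∧
          ∀ i : Fin m, (g.1 *ᵥ v) (Sum.inr i) = 0) := h
    have key : ∀ j : Fin m, (∀ i : Fin m, (j : ℕ) < (i : ℕ) → g.1 (Sum.inl i) (Sum.inl j) = 0) ∧
        ∀ i : Fin m, g.1 (Sum.inr i) (Sum.inl j) = 0 := by
      intro j
      have h1 := (h' j (Pi.single (Sum.inl j) 1)).1 ⟨by
        intro i hi
        have hne : i ≠ j := by intro e; rw [e] at hi; omega
        simp [Pi.single_apply, hne], by intro i; simp⟩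
      rw [Matrix.mulVec_single_one] at h1
      exact h1
    exact ⟨fun i j => (key j).2 i, fun i j hij => (key j).1 i hij⟩
  · intro h k
    have fw := fwd m g.1 h k
    show ∀ v : Fin m ⊕ Fin m → F,
        ((∀ i : Fin m, (k : ℕ) < (i : ℕ) → v (Sum.inl i) = 0) ∧ ∀ i : Fin m, v (Sum.inr i) = 0) ↔
        ((∀ i : Fin m, (k : ℕ) < (i : ℕ) → (g.1 *ᵥ v) (Sum.inl i) = 0) ∧
          ∀ i : Fin m, (g.1 *ᵥ v) (Sum.inr i) = 0)
    intro v
    constructor
    · exact fw v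
    · intro hv
      let φ : {v : Fin m ⊕ Fin m → F // (∀ i : Fin m, (k : ℕ) < (i : ℕ) → v (Sum.inl i) = 0) ∧
            ∀ i : Fin m, v (Sum.inr i) = 0} →
          {v : Fin m ⊕ Fin m → F // (∀ i : Fin m, (k : ℕ) < (i : ℕ) → v (Sum.inl i) = 0) ∧
            ∀ i : Fin m, v (Sum.inr i) = 0} :=
        fun w => ⟨g.1 *ᵥ w.1, fw w.1 w.2⟩
      have hinj : Function.Injective φ := by
        intro a b hab
        have h1 : g.1 *ᵥ a.1 = g.1 *ᵥ b.1 := congrArg Subtype.val hab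
        have h2 := congrArg (fun x => (g⁻¹).1 *ᵥ x) h1
        simp only [Matrix.mulVec_mulVec] at h2
        rw [h3, Matrix.one_mulVec, Matrix.one_mulVec] at h2
        exact Subtype.ext h2
      have hsurj := Finite.surjective_of_injective hinj
      obtain ⟨w, hw⟩ := hsurj ⟨g.1 *ᵥ v, hv⟩
      have h1 : g.1 *ᵥ w.1 = g.1 *ᵥ v := congrArg Subtype.val hw
      have h2 := congrArg (fun x => (g⁻¹).1 *ᵥ x) h1
      simp only [Matrix.mulVec_mulVec] at h2
      rw [h3, Matrix.one_mulVec, Matrix.one_mulVec] at h2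
      rw [← h2]; exact w.2

theorem blk_symp2 {m : ℕ} (A Bm D : Matrix (Fin m) (Fin m) F) (h1 : A * Dᵀ = 1)
    (h2 : Bm * Aᵀ = A * Bmᵀ) :
    Matrix.fromBlocks A Bm 0 D ∈ Matrix.symplecticGroup (Fin m) F := by
  rw [SymplecticGroup.mem_iff]
  have h1' : D * Aᵀ = 1 := by
    have h := congrArg Matrix.transpose h1
    rwa [Matrix.transpose_mul, Matrix.transpose_transpose, Matrix.transpose_one] at h
  rw [Matrix.J, Matrix.fromBlocks_transpose, Matrix.fromBlocks_multiply,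
    Matrix.fromBlocks_multiply]
  simp only [Matrix.mul_zero, Matrix.zero_mul, Matrix.mul_one, Matrix.mul_neg, Matrix.neg_mul,
    Matrix.transpose_zero, add_zero, zero_add, h1, h1', neg_zero]
  rw [h2, add_neg_cancel]

theorem blk_symp2_inv {m : ℕ} (A Bm D : Matrix (Fin m) (Fin m) F)
    (h : Matrix.fromBlocks A Bm 0 D ∈ Matrix.symplecticGroup (Fin m) F) :
    A * Dᵀ = 1 ∧ Bm * Aᵀ = A * Bmᵀ := by
  rw [SymplecticGroup.mem_iff, Matrix.J, Matrix.fromBlocks_transpose, Matrix.fromBlocks_multiply,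
    Matrix.fromBlocks_multiply] at h
  simp only [Matrix.mul_zero, Matrix.zero_mul, Matrix.mul_one, Matrix.mul_neg, Matrix.neg_mul,
    Matrix.transpose_zero, add_zero, zero_add, neg_zero] at h
  have h' := Matrix.fromBlocks_inj.1 h
  exact ⟨neg_injective h'.2.1, add_neg_eq_zero.1 h'.1⟩

theorem ut_det {m : ℕ} (A : Matrix (Fin m) (Fin m) F) (h : ∀ i j, j < i → A i j = 0) :
    A.det = ∏ i, A i i :=
  Matrix.det_of_isUpperTriangular (fun i j hij => h i j hij)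

theorem ut_isUnit {m : ℕ} (A : Matrix (Fin m) (Fin m) F) (h : ∀ i j, j < i → A i j = 0)
    (hd : ∀ i, A i i ≠ 0) : IsUnit A.det := by
  rw [ut_det A h]
  exact isUnit_iff_ne_zero.2 (Finset.prod_ne_zero_iff.2 fun i _ => hd i)

theorem ut_diag {m : ℕ} (A : Matrix (Fin m) (Fin m) F) (h : ∀ i j, j < i → A i j = 0)
    (hu : IsUnit A.det) (i : Fin m) : A i i ≠ 0 := by
  rw [ut_det A h] at hu
  exact Finset.prod_ne_zero_iff.1 hu.ne_zero i (Finset.mem_univ i)

theorem dec {m : ℕ} (g : Matrix.symplecticGroup (Fin m) F) (h : BB m g.1) :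
    Matrix.fromBlocks g.1.toBlocks₁₁ g.1.toBlocks₁₂ 0 g.1.toBlocks₂₂ = g.1 := by
  have h21 : g.1.toBlocks₂₁ = 0 := by ext i j; exact h.1 i j
  have h1 := Matrix.fromBlocks_toBlocks g.1
  rw [h21] at h1
  exact h1

theorem dec2 {m : ℕ} (g : Matrix.symplecticGroup (Fin m) F) (h : BB m g.1) :
    g.1.toBlocks₁₁ * g.1.toBlocks₂₂ᵀ = 1 ∧
      g.1.toBlocks₁₂ * g.1.toBlocks₁₁ᵀ = g.1.toBlocks₁₁ * g.1.toBlocks₁₂ᵀ := by
  apply blk_symp2_inv
  rw [dec g h]; exact g.2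

theorem fprop {m : ℕ} (g : Matrix.symplecticGroup (Fin m) F) (h : BB m g.1) :
    (∀ i j, j < i → g.1.toBlocks₁₁ i j = 0) ∧ (∀ i, g.1.toBlocks₁₁ i i ≠ 0) ∧
      (g.1.toBlocks₁₂ * g.1.toBlocks₁₁ᵀ)ᵀ = g.1.toBlocks₁₂ * g.1.toBlocks₁₁ᵀ := by
  obtain ⟨hAD, hBA⟩ := dec2 g h
  have hUT : ∀ i j, j < i → g.1.toBlocks₁₁ i j = 0 := fun i j hij => h.2 i j hij
  refine ⟨hUT, fun i => ut_diag _ hUT (Matrix.isUnit_det_of_right_inverse hAD) i, ?_⟩
  rw [Matrix.transpose_mul, Matrix.transpose_transpose]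
  exact hBA.symm

theorem rec' {m : ℕ} (g : Matrix.symplecticGroup (Fin m) F) (h : BB m g.1) :
    g.1 = Matrix.fromBlocks g.1.toBlocks₁₁
      (g.1.toBlocks₁₂ * g.1.toBlocks₁₁ᵀ * (g.1.toBlocks₁₁⁻¹)ᵀ) 0 (g.1.toBlocks₁₁⁻¹)ᵀ := by
  obtain ⟨hAD, hBA⟩ := dec2 g h
  have hu : IsUnit g.1.toBlocks₁₁.det := Matrix.isUnit_det_of_right_inverse hAD
  have hinv : g.1.toBlocks₁₁⁻¹ = g.1.toBlocks₂₂ᵀ := Matrix.inv_eq_right_inv hAD
  have e1 : g.1.toBlocks₁₂ * g.1.toBlocks₁₁ᵀ * (g.1.toBlocks₁₁⁻¹)ᵀ = g.1.toBlocks₁₂ := by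
    rw [Matrix.mul_assoc, ← Matrix.transpose_mul, Matrix.nonsing_inv_mul _ hu,
      Matrix.transpose_one, Matrix.mul_one]
  have e2 : (g.1.toBlocks₁₁⁻¹)ᵀ = g.1.toBlocks₂₂ := by
    rw [hinv, Matrix.transpose_transpose]
  rw [e1, e2]; exact (dec g h).symm

/-- second stage: parameter pairs against diagonal units and arbitrary matrices -/
noncomputable def e2 (F : Type*) [Field F] (m : ℕ) :
    TT F m ≃ (Fin m → Fˣ) × Matrix (Fin m) (Fin m) F where
  toFun p := (fun i => Units.mk0 (p.1.1 i i) (p.2.2.1 i),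
    Matrix.of fun i j => if i < j then p.1.1 i j else p.1.2 i j)
  invFun x := ⟨(Matrix.of fun i j => if i = j then (x.1 i : F) else if i < j then x.2 i j else 0,
      Matrix.of fun i j => if j ≤ i then x.2 i j else x.2 j i), by
    refine ⟨?_, ?_, ?_⟩
    · intro i j hij
      show (if i = j then (x.1 i : F) else if i < j then x.2 i j else 0) = 0
      rw [if_neg (ne_of_lt hij).symm, if_neg (lt_asymm hij)]
    · intro i
      show (if i = i then (x.1 i : F) else if i < i then x.2 i i else 0) ≠ 0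
      rw [if_pos rfl]; exact (x.1 i).ne_zero
    · ext i j
      show (if i ≤ j then x.2 j i else x.2 i j) = (if j ≤ i then x.2 i j else x.2 j i)
      rcases lt_trichotomy i j with h | h | h
      · rw [if_pos h.le, if_neg (not_le.2 h)]
      · subst h; rfl
      · rw [if_neg (not_le.2 h), if_pos h.le]⟩
  left_inv p := by
    obtain ⟨⟨A, S⟩, hUT, hd, hS⟩ := p
    apply Subtype.ext
    apply Prod.ext
    · ext i j
      show (if i = j then ((Units.mk0 (A i i) (hd i) : Fˣ) : F) else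
        if i < j then (if i < j then A i j else S i j) else 0) = A i j
      rcases lt_trichotomy i j with h | h | h
      · rw [if_neg (ne_of_lt h), if_pos h, if_pos h]
      · subst h; rw [if_pos rfl]; rfl
      · rw [if_neg (ne_of_lt h).symm, if_neg (lt_asymm h)]; exact (hUT i j h).symm
    · ext i j
      show (if j ≤ i then (if i < j then A i j else S i j) else
        (if j < i then A j i else S j i)) = S i j
      by_cases h : j ≤ i
      · rw [if_pos h, if_neg (not_lt.2 h)]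
      · rw [if_neg h, if_neg (fun h' => h h'.le)]
        have h1 := congrFun (congrFun hS i) j
        exact h1
  right_inv x := by
    obtain ⟨d, M⟩ := x
    apply Prod.ext
    · funext i
      apply Units.ext
      show (if i = i then (d i : F) else if i < i then M i i else 0) = d i
      rw [if_pos rfl]
    · ext i j
      show (if i < j then (if i = j then (d i : F) else if i < j then M i j else 0) else
        (if j ≤ i then M i j else M j i)) = M i j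
      by_cases h : i < j
      · rw [if_pos h, if_neg (ne_of_lt h), if_pos h]
      · rw [if_neg h, if_pos (not_lt.1 h)]

/-- Borel subgroup of the symplectic group: the elements of Sp_2m(q) stabilising each of the totally isotropic coordinate subspaces ⟨e_0, ..., e_k⟩ (k < m) form a subgroup of order q^(m²) (q − 1)^m. -/
theorem result {F : Type*} [Field F] [Fintype F] {q : ℕ} (hF : Fintype.card F = q) (m : ℕ) : Nat.card ↥(⨅ k : Fin m, Cfsg.stabilizing (Cfsg.spToMat m F) {v : Fin m ⊕ Fin m → F | (∀ i : Fin m, (k : ℕ) < (i : ℕ) → v (Sum.inl i) = 0) ∧ ∀ i : Fin m, v (Sum.inr i) = 0}) = q ^ (m ^ 2) * (q - 1) ^ m := by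
  classical
  show Nat.card ↥(Bor F m) = _
  have hmem := mem_B_iff (F := F) m
  let f : ↥(Bor F m) → TT F m := fun g =>
    ⟨(g.1.1.toBlocks₁₁, g.1.1.toBlocks₁₂ * g.1.1.toBlocks₁₁ᵀ), fprop g.1 ((hmem g.1).1 g.2)⟩
  have hinj : Function.Injective f := by
    intro g g' hgg
    have hg := (hmem g.1).1 g.2
    have hg' := (hmem g'.1).1 g'.2
    have h0 : (g.1.1.toBlocks₁₁, g.1.1.toBlocks₁₂ * g.1.1.toBlocks₁₁ᵀ) =
        (g'.1.1.toBlocks₁₁, g'.1.1.toBlocks₁₂ * g'.1.1.toBlocks₁₁ᵀ) := congrArg Subtype.val hgg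
    have hA : g.1.1.toBlocks₁₁ = g'.1.1.toBlocks₁₁ := congrArg Prod.fst h0
    have hS : g.1.1.toBlocks₁₂ * g.1.1.toBlocks₁₁ᵀ = g'.1.1.toBlocks₁₂ * g'.1.1.toBlocks₁₁ᵀ :=
      congrArg Prod.snd h0
    have r := rec' g.1 hg
    have r' := rec' g'.1 hg'
    apply Subtype.ext; apply Subtype.ext
    rw [r, r', hS, hA]
  have hsurj : Function.Surjective f := by
    rintro ⟨⟨A, S⟩, hUT, hd, hS⟩
    have hUT' : ∀ i j, j < i → A i j = 0 := hUT
    have hS' : Sᵀ = S := hS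
    have hu : IsUnit A.det := ut_isUnit A hUT' hd
    have hsymp : Matrix.fromBlocks A (S * (A⁻¹)ᵀ) 0 (A⁻¹)ᵀ ∈
        Matrix.symplecticGroup (Fin m) F := by
      apply blk_symp2
      · rw [Matrix.transpose_transpose]; exact Matrix.mul_nonsing_inv A hu
      · rw [Matrix.mul_assoc, ← Matrix.transpose_mul, Matrix.mul_nonsing_inv A hu,
          Matrix.transpose_one, Matrix.mul_one, Matrix.transpose_mul,
          Matrix.transpose_transpose, hS', ← Matrix.mul_assoc, Matrix.mul_nonsing_inv A hu,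
          Matrix.one_mul]
    have hBB : BB m (Matrix.fromBlocks A (S * (A⁻¹)ᵀ) 0 (A⁻¹)ᵀ) :=
      ⟨fun i j => rfl, fun i j hij => hUT' i j hij⟩
    refine ⟨⟨⟨_, hsymp⟩, (hmem ⟨_, hsymp⟩).2 hBB⟩, ?_⟩
    apply Subtype.ext
    show ((Matrix.fromBlocks A (S * (A⁻¹)ᵀ) 0 (A⁻¹)ᵀ).toBlocks₁₁,
      (Matrix.fromBlocks A (S * (A⁻¹)ᵀ) 0 (A⁻¹)ᵀ).toBlocks₁₂ *
        (Matrix.fromBlocks A (S * (A⁻¹)ᵀ) 0 (A⁻¹)ᵀ).toBlocks₁₁ᵀ) = (A, S)
    rw [Matrix.toBlocks_fromBlocks₁₁, Matrix.toBlocks_fromBlocks₁₂, Matrix.mul_assoc,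
      ← Matrix.transpose_mul, Matrix.mul_nonsing_inv A hu, Matrix.transpose_one, Matrix.mul_one]
  rw [Nat.card_congr (Equiv.ofBijective f ⟨hinj, hsurj⟩), Nat.card_congr (e2 F m),
    Nat.card_prod, Nat.card_fun]
  have hM : Nat.card (Matrix (Fin m) (Fin m) F) = q ^ (m * m) := by
    show Nat.card (Fin m → Fin m → F) = _
    rw [Nat.card_fun, Nat.card_fun, Nat.card_eq_fintype_card (α := F), hF,
      Nat.card_eq_fintype_card (α := Fin m), Fintype.card_fin, ← pow_mul]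
  rw [hM, Nat.card_eq_fintype_card (α := Fˣ), Fintype.card_units, hF,
    Nat.card_eq_fintype_card (α := Fin m), Fintype.card_fin, pow_two, mul_comm]

end Cfsg.Agent.S0774
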