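import Cfsg.Statements.S0776
import Mathlib
import Cfsg.Agent.S0271
import Cfsg.Agent.Helper5.SpEmbed

set_option autoImplicit false
open Cfsg

namespace Cfsg.Agent.S0776

open Matrix

variable {F : Type*} [Field F]

theorem sf_zero_right (m : ℕ) (x : Fin m ⊕ Fin m → F) : Cfsg.sympForm m F x 0 = 0 := by
  unfold Cfsg.sympForm; rw [Matrix.mulVec_zero, dotProduct_zero]

theorem mat_ext {n : Type*} [Fintype n] [DecidableEq n] (M N : Matrix n n F)
    (h : ∀ v, M *ᵥ v = N *ᵥ v) : M = N :=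
  Matrix.toLin'.injective (LinearMap.ext h)

theorem mv_zero {n : Type*} [Fintype n] [DecidableEq n] (Y Z : Matrix n n F) (h : Z * Y = 1)
    (u : n → F) : Y *ᵥ u = 0 ↔ u = 0 := by
  constructor
  · intro hu
    have h1 := congrArg (fun x => Z *ᵥ x) hu
    simp only [Matrix.mulVec_mulVec, h, Matrix.one_mulVec, Matrix.mulVec_zero] at h1
    exact h1
  · intro hu; rw [hu, Matrix.mulVec_zero]

theorem coords (m k : ℕ) (W : Submodule F (Fin m ⊕ Fin m → F))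
    (hWk : Module.finrank F W = 2 * k)
    (hW : ∀ u ∈ W, (∀ v ∈ W, Cfsg.sympForm m F u v = 0) → u = 0) :
    ∃ E : (Fin m ⊕ Fin m → F) ≃ₗ[F] ((Fin k ⊕ Fin k → F) × (Fin (m - k) ⊕ Fin (m - k) → F)),
      (∀ u v, Cfsg.sympForm m F u v = Cfsg.sympForm k F (E u).1 (E v).1 +
        Cfsg.sympForm (m - k) F (E u).2 (E v).2) ∧
      (∀ v, v ∈ W ↔ (E v).2 = 0) := by
  classical
  obtain ⟨B, hB⟩ : ∃ B : LinearMap.BilinForm F (Fin m ⊕ Fin m → F),
      ∀ u v, B u v = Cfsg.sympForm m F u v :=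
    ⟨Matrix.toBilin' (Matrix.J (Fin m) F), fun u v => by rw [Matrix.toBilin'_apply']; rfl⟩
  have hAlt : B.IsAlt := fun x => by rw [hB]; exact Cfsg.Agent.S0271.sf_self m x
  have hRefl : B.IsRefl := hAlt.isRefl
  have hswap : ∀ u v, B u v = - B v u := fun u v => by
    rw [hB, hB]; exact Cfsg.Agent.S0271.sf_swap m u v
  have hsepL : ∀ u, (∀ v, B u v = 0) → u = 0 := by
    intro u hu
    by_contra hne
    obtain ⟨z, hz⟩ := Cfsg.Agent.S0271.sf_nondeg m u hne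
    exact hz (by rw [← hB]; exact hu z)
  have hBnd : B.Nondegenerate := by
    refine ⟨hsepL, ?_⟩
    intro u hu
    apply hsepL
    intro v
    rw [hswap, hu v, neg_zero]
  have hWnd : (B.restrict W).Nondegenerate := by
    constructor
    · intro u hu
      apply Subtype.ext
      apply hW u.1 u.2
      intro v hv
      have h1 : B u.1 v = 0 := hu ⟨v, hv⟩
      rw [← hB]; exact h1
    · intro u hu
      apply Subtype.ext
      apply hW u.1 u.2
      intro v hv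
      have h1 : B v u.1 = 0 := hu ⟨v, hv⟩
      rw [← hB, hswap, h1, neg_zero]
  have hC : IsCompl W (B.orthogonal W) :=
    LinearMap.BilinForm.isCompl_orthogonal_of_restrict_nondegenerate hRefl hWnd
  have hle : 2 * k ≤ 2 * m := by
    have h1 := Submodule.finrank_le W
    rw [hWk, Module.finrank_fintype_fun_eq_card] at h1
    simp only [Fintype.card_sum, Fintype.card_fin] at h1
    omega
  have hW'k : Module.finrank F (B.orthogonal W) = 2 * (m - k) := by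
    rw [LinearMap.BilinForm.finrank_orthogonal hBnd W, hWk, Module.finrank_fintype_fun_eq_card]
    simp only [Fintype.card_sum, Fintype.card_fin]
    omega
  have hW'nd : (B.restrict (B.orthogonal W)).Nondegenerate := by
    have key : ∀ u : ↥(B.orthogonal W), (∀ v : ↥(B.orthogonal W), B u.1 v.1 = 0) → u = 0 := by
      intro u hu
      apply Subtype.ext
      apply hsepL
      intro v
      have hv : v ∈ W ⊔ B.orthogonal W := by rw [hC.sup_eq_top]; exact Submodule.mem_top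
      obtain ⟨y, hy, z, hz, rfl⟩ := Submodule.mem_sup.1 hv
      have h1 : B y u.1 = 0 := (LinearMap.BilinForm.mem_orthogonal_iff.1 u.2) y hy
      rw [map_add, hu ⟨z, hz⟩, add_zero, hswap, h1, neg_zero]
    constructor
    · intro u hu
      exact key u (fun v => hu v)
    · intro u hu
      apply key u
      intro v
      have h1 : B v.1 u.1 = 0 := hu v
      rw [hswap, h1, neg_zero]
  have hAltW : (B.restrict W).IsAlt := fun x => hAlt x.1
  have hAltW' : (B.restrict (B.orthogonal W)).IsAlt := fun x => hAlt x.1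
  obtain ⟨E₁, hE₁⟩ := Cfsg.Agent.Helper5.alt_std (B.restrict W) hAltW hWnd hWk
  obtain ⟨E₂, hE₂⟩ := Cfsg.Agent.Helper5.alt_std (B.restrict (B.orthogonal W)) hAltW' hW'nd hW'k
  have key : ∀ a b : ↥W × ↥(B.orthogonal W),
      Cfsg.sympForm m F (Submodule.prodEquivOfIsCompl W (B.orthogonal W) hC a)
        (Submodule.prodEquivOfIsCompl W (B.orthogonal W) hC b) =
      Cfsg.sympForm k F (E₁ a.1) (E₁ b.1) + Cfsg.sympForm (m - k) F (E₂ a.2) (E₂ b.2) := by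
    intro a b
    rw [hE₁, hE₂, ← hB, Submodule.coe_prodEquivOfIsCompl', Submodule.coe_prodEquivOfIsCompl']
    show B (a.1.1 + a.2.1) (b.1.1 + b.2.1) = B a.1.1 b.1.1 + B a.2.1 b.2.1
    have h1 : B a.1.1 b.2.1 = 0 := (LinearMap.BilinForm.mem_orthogonal_iff.1 b.2.2) a.1.1 a.1.2
    have h2 : B a.2.1 b.1.1 = 0 := by
      rw [hswap, (LinearMap.BilinForm.mem_orthogonal_iff.1 a.2.2) b.1.1 b.1.2, neg_zero]
    simp only [map_add, LinearMap.add_apply]
    rw [h1, h2, add_zero, zero_add]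
  refine ⟨(Submodule.prodEquivOfIsCompl W (B.orthogonal W) hC).symm.trans (E₁.prodCongr E₂),
    ?_, ?_⟩
  · intro u v
    have h1 := key ((Submodule.prodEquivOfIsCompl W (B.orthogonal W) hC).symm u)
      ((Submodule.prodEquivOfIsCompl W (B.orthogonal W) hC).symm v)
    rw [LinearEquiv.apply_symm_apply, LinearEquiv.apply_symm_apply] at h1
    exact h1
  · intro v
    show v ∈ W ↔ E₂ ((Submodule.prodEquivOfIsCompl W (B.orthogonal W) hC).symm v).2 = 0
    rw [LinearEquiv.map_eq_zero_iff, Submodule.prodEquivOfIsCompl_symm_apply_snd_eq_zero]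

/-- the matrix of the block map -/
noncomputable def PsiM {m k l : ℕ}
    (E : (Fin m ⊕ Fin m → F) ≃ₗ[F] ((Fin k ⊕ Fin k → F) × (Fin l ⊕ Fin l → F)))
    (A : Matrix (Fin k ⊕ Fin k) (Fin k ⊕ Fin k) F) (B : Matrix (Fin l ⊕ Fin l) (Fin l ⊕ Fin l) F) :
    Matrix (Fin m ⊕ Fin m) (Fin m ⊕ Fin m) F :=
  LinearMap.toMatrix' (E.symm.toLinearMap ∘ₗ
    ((Matrix.toLin' A).prodMap (Matrix.toLin' B)) ∘ₗ E.toLinearMap)

theorem PsiM_mulVec {m k l : ℕ}
    (E : (Fin m ⊕ Fin m → F) ≃ₗ[F] ((Fin k ⊕ Fin k → F) × (Fin l ⊕ Fin l → F)))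
    (A : Matrix (Fin k ⊕ Fin k) (Fin k ⊕ Fin k) F) (B : Matrix (Fin l ⊕ Fin l) (Fin l ⊕ Fin l) F)
    (v : Fin m ⊕ Fin m → F) :
    PsiM E A B *ᵥ v = E.symm (A *ᵥ (E v).1, B *ᵥ (E v).2) := by
  unfold PsiM
  rw [LinearMap.toMatrix'_mulVec]
  rfl

theorem PsiM_one {m k l : ℕ}
    (E : (Fin m ⊕ Fin m → F) ≃ₗ[F] ((Fin k ⊕ Fin k → F) × (Fin l ⊕ Fin l → F))) :
    PsiM E 1 1 = 1 := by
  apply mat_ext; intro v
  rw [PsiM_mulVec, Matrix.one_mulVec, Matrix.one_mulVec, Matrix.one_mulVec]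
  exact E.symm_apply_apply v

theorem PsiM_mul {m k l : ℕ}
    (E : (Fin m ⊕ Fin m → F) ≃ₗ[F] ((Fin k ⊕ Fin k → F) × (Fin l ⊕ Fin l → F)))
    (A A' : Matrix (Fin k ⊕ Fin k) (Fin k ⊕ Fin k) F)
    (B B' : Matrix (Fin l ⊕ Fin l) (Fin l ⊕ Fin l) F) :
    PsiM E (A * A') (B * B') = PsiM E A B * PsiM E A' B' := by
  apply mat_ext; intro v
  rw [← Matrix.mulVec_mulVec, PsiM_mulVec, PsiM_mulVec, PsiM_mulVec,
    LinearEquiv.apply_symm_apply, ← Matrix.mulVec_mulVec, ← Matrix.mulVec_mulVec]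

theorem PsiM_mem {m k l : ℕ}
    (E : (Fin m ⊕ Fin m → F) ≃ₗ[F] ((Fin k ⊕ Fin k → F) × (Fin l ⊕ Fin l → F)))
    (hE : ∀ u v, Cfsg.sympForm m F u v = Cfsg.sympForm k F (E u).1 (E v).1 +
        Cfsg.sympForm l F (E u).2 (E v).2)
    (A : Matrix.symplecticGroup (Fin k) F) (B : Matrix.symplecticGroup (Fin l) F) :
    PsiM E A.1 B.1 ∈ Matrix.symplecticGroup (Fin m) F := by
  apply Cfsg.Agent.Helper5.symp_mem_of_form
  intro u v
  rw [PsiM_mulVec, PsiM_mulVec, hE, LinearEquiv.apply_symm_apply, LinearEquiv.apply_symm_apply,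
    hE u v]
  show Cfsg.sympForm k F (A.1 *ᵥ (E u).1) (A.1 *ᵥ (E v).1) +
    Cfsg.sympForm l F (B.1 *ᵥ (E u).2) (B.1 *ᵥ (E v).2) = _
  rw [Cfsg.Agent.S0271.sf_mulVec, Cfsg.Agent.S0271.sf_mulVec]

theorem PsiM_inj {m k l : ℕ}
    (E : (Fin m ⊕ Fin m → F) ≃ₗ[F] ((Fin k ⊕ Fin k → F) × (Fin l ⊕ Fin l → F)))
    (A A' : Matrix (Fin k ⊕ Fin k) (Fin k ⊕ Fin k) F)
    (B B' : Matrix (Fin l ⊕ Fin l) (Fin l ⊕ Fin l) F)
    (h : PsiM E A B = PsiM E A' B') : A = A' ∧ B = B' := by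
  have key : ∀ x : (Fin k ⊕ Fin k → F) × (Fin l ⊕ Fin l → F),
      (A *ᵥ x.1, B *ᵥ x.2) = (A' *ᵥ x.1, B' *ᵥ x.2) := by
    intro x
    have h1 := congrArg (fun M => M *ᵥ (E.symm x)) h
    simp only [PsiM_mulVec, LinearEquiv.apply_symm_apply] at h1
    exact E.symm.injective h1
  constructor
  · apply mat_ext; intro v
    exact congrArg Prod.fst (key (v, 0))
  · apply mat_ext; intro v
    exact congrArg Prod.snd (key (0, v))

/-- the block embedding -/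
noncomputable def Psi {m k l : ℕ}
    (E : (Fin m ⊕ Fin m → F) ≃ₗ[F] ((Fin k ⊕ Fin k → F) × (Fin l ⊕ Fin l → F)))
    (hE : ∀ u v, Cfsg.sympForm m F u v = Cfsg.sympForm k F (E u).1 (E v).1 +
        Cfsg.sympForm l F (E u).2 (E v).2) :
    Matrix.symplecticGroup (Fin k) F × Matrix.symplecticGroup (Fin l) F →*
      Matrix.symplecticGroup (Fin m) F where
  toFun p := ⟨PsiM E p.1.1 p.2.1, PsiM_mem E hE p.1 p.2⟩
  map_one' := Subtype.ext (PsiM_one E)
  map_mul' p p' := Subtype.ext (PsiM_mul E p.1.1 p'.1.1 p.2.1 p'.2.1)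

theorem Psi_val {m k l : ℕ}
    (E : (Fin m ⊕ Fin m → F) ≃ₗ[F] ((Fin k ⊕ Fin k → F) × (Fin l ⊕ Fin l → F)))
    (hE : ∀ u v, Cfsg.sympForm m F u v = Cfsg.sympForm k F (E u).1 (E v).1 +
        Cfsg.sympForm l F (E u).2 (E v).2)
    (p : Matrix.symplecticGroup (Fin k) F × Matrix.symplecticGroup (Fin l) F) :
    (Psi E hE p).1 = PsiM E p.1.1 p.2.1 := rfl

theorem Psi_range {m k l : ℕ}
    (E : (Fin m ⊕ Fin m → F) ≃ₗ[F] ((Fin k ⊕ Fin k → F) × (Fin l ⊕ Fin l → F)))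
    (hE1 : ∀ u v, Cfsg.sympForm m F u v = Cfsg.sympForm k F (E u).1 (E v).1 +
        Cfsg.sympForm l F (E u).2 (E v).2)
    (W : Submodule F (Fin m ⊕ Fin m → F)) (hE2 : ∀ v, v ∈ W ↔ (E v).2 = 0) :
    (Psi E hE1).range =
      Cfsg.stabilizing (Cfsg.spToMat m F) (W : Set (Fin m ⊕ Fin m → F)) := by
  classical
  ext g
  constructor
  · rintro ⟨p, rfl⟩
    intro v
    show v ∈ W ↔ (PsiM E p.1.1 p.2.1) *ᵥ v ∈ W
    have hinv : (p.2⁻¹).1 * p.2.1 = 1 := congrArg Subtype.val (inv_mul_cancel p.2)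
    rw [hE2, hE2, PsiM_mulVec, LinearEquiv.apply_symm_apply]
    show (E v).2 = 0 ↔ p.2.1 *ᵥ (E v).2 = 0
    exact (mv_zero p.2.1 (p.2⁻¹).1 hinv ((E v).2)).symm
  · intro hg
    have hg' : ∀ v : Fin m ⊕ Fin m → F, v ∈ W ↔ g.1 *ᵥ v ∈ W := hg
    have hginv' : g.1 * (g⁻¹).1 = 1 := congrArg Subtype.val (mul_inv_cancel g)
    have F1 : ∀ x, (E (g.1 *ᵥ E.symm (x, 0))).2 = 0 := by
      intro x
      rw [← hE2, ← hg', hE2, LinearEquiv.apply_symm_apply]
    have F2 : ∀ y, (E (g.1 *ᵥ E.symm (0, y))).1 = 0 := by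
      intro y
      by_contra hne
      obtain ⟨x, hx⟩ := Cfsg.Agent.S0271.sf_nondeg k _ hne
      have hw1 : E.symm (x, 0) ∈ W := by rw [hE2, LinearEquiv.apply_symm_apply]
      have hw0 : (g⁻¹).1 *ᵥ E.symm (x, 0) ∈ W := by
        rw [hg', Matrix.mulVec_mulVec, hginv', Matrix.one_mulVec]; exact hw1
      have e1 := Cfsg.Agent.S0271.sf_mulVec m g (E.symm (0, y)) ((g⁻¹).1 *ᵥ E.symm (x, 0))
      rw [Matrix.mulVec_mulVec, hginv', Matrix.one_mulVec] at e1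
      rw [hE1, hE1, LinearEquiv.apply_symm_apply, LinearEquiv.apply_symm_apply,
        (hE2 _).1 hw0] at e1
      simp only [Cfsg.Agent.S0271.sf_zero_left, sf_zero_right, add_zero] at e1
      exact hx e1
    obtain ⟨A₀, hA₀⟩ : ∃ A₀ : Matrix (Fin k ⊕ Fin k) (Fin k ⊕ Fin k) F,
        ∀ x, A₀ *ᵥ x = (E (g.1 *ᵥ E.symm (x, 0))).1 :=
      ⟨LinearMap.toMatrix' ((LinearMap.fst F _ _) ∘ₗ E.toLinearMap ∘ₗ Matrix.toLin' g.1 ∘ₗ
        E.symm.toLinearMap ∘ₗ (LinearMap.inl F _ _)), fun x => by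
          rw [LinearMap.toMatrix'_mulVec]; rfl⟩
    obtain ⟨B₀, hB₀⟩ : ∃ B₀ : Matrix (Fin l ⊕ Fin l) (Fin l ⊕ Fin l) F,
        ∀ y, B₀ *ᵥ y = (E (g.1 *ᵥ E.symm (0, y))).2 :=
      ⟨LinearMap.toMatrix' ((LinearMap.snd F _ _) ∘ₗ E.toLinearMap ∘ₗ Matrix.toLin' g.1 ∘ₗ
        E.symm.toLinearMap ∘ₗ (LinearMap.inr F _ _)), fun y => by
          rw [LinearMap.toMatrix'_mulVec]; rfl⟩
    have hA : A₀ ∈ Matrix.symplecticGroup (Fin k) F := by
      apply Cfsg.Agent.Helper5.symp_mem_of_form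
      intro x x'
      rw [hA₀, hA₀]
      have e1 := Cfsg.Agent.S0271.sf_mulVec m g (E.symm (x, 0)) (E.symm (x', 0))
      rw [hE1, hE1, LinearEquiv.apply_symm_apply, LinearEquiv.apply_symm_apply, F1 x, F1 x'] at e1
      simp only [Cfsg.Agent.S0271.sf_zero_left, add_zero] at e1
      exact e1
    have hB : B₀ ∈ Matrix.symplecticGroup (Fin l) F := by
      apply Cfsg.Agent.Helper5.symp_mem_of_form
      intro y y'
      rw [hB₀, hB₀]
      have e1 := Cfsg.Agent.S0271.sf_mulVec m g (E.symm (0, y)) (E.symm (0, y'))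
      rw [hE1, hE1, LinearEquiv.apply_symm_apply, LinearEquiv.apply_symm_apply, F2 y, F2 y'] at e1
      simp only [Cfsg.Agent.S0271.sf_zero_left, zero_add] at e1
      exact e1
    have hadd : ∀ (x : Fin k ⊕ Fin k → F) (y : Fin l ⊕ Fin l → F),
        E (g.1 *ᵥ E.symm (x, y)) =
          E (g.1 *ᵥ E.symm (x, 0)) + E (g.1 *ᵥ E.symm (0, y)) := by
      intro x y
      have h1 : ((x, y) : (Fin k ⊕ Fin k → F) × (Fin l ⊕ Fin l → F)) = (x, 0) + (0, y) :=
        Prod.ext (by simp) (by simp)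
      conv_lhs => rw [h1]
      rw [map_add, Matrix.mulVec_add, map_add]
    have hfin : PsiM E A₀ B₀ = g.1 := by
      apply mat_ext; intro v
      rw [PsiM_mulVec, hA₀, hB₀]
      apply E.injective
      rw [LinearEquiv.apply_symm_apply]
      have h3 : E (g.1 *ᵥ v) =
          E (g.1 *ᵥ E.symm ((E v).1, 0)) + E (g.1 *ᵥ E.symm (0, (E v).2)) := by
        have h2 := hadd (E v).1 (E v).2
        have h4 : E.symm ((E v).1, (E v).2) = v := E.symm_apply_apply v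
        rw [h4] at h2; exact h2
      rw [h3]
      apply Prod.ext
      · show (E (g.1 *ᵥ E.symm ((E v).1, 0))).1 =
          (E (g.1 *ᵥ E.symm ((E v).1, 0))).1 + (E (g.1 *ᵥ E.symm (0, (E v).2))).1
        rw [F2, add_zero]
      · show (E (g.1 *ᵥ E.symm (0, (E v).2))).2 =
          (E (g.1 *ᵥ E.symm ((E v).1, 0))).2 + (E (g.1 *ᵥ E.symm (0, (E v).2))).2
        rw [F1, zero_add]
    exact ⟨(⟨A₀, hA⟩, ⟨B₀, hB⟩), Subtype.ext hfin⟩

/-- If W ≤ F^(2m) is a 2k-dimensional subspace on which the symplectic form is non-degenerate, then the stabiliser of W in Sp_2m(F) is isomorphic to Sp_2k(F) × Sp_(2m−2k)(F). -/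
theorem result {F : Type*} [Field F] (m k : ℕ) (hk : k ≤ m) (W : Submodule F (Fin m ⊕ Fin m → F)) (hWk : Module.finrank F W = 2 * k) (hW : ∀ u ∈ W, (∀ v ∈ W, Cfsg.sympForm m F u v = 0) → u = 0) : Nonempty (↥(Cfsg.stabilizing (Cfsg.spToMat m F) (W : Set (Fin m ⊕ Fin m → F))) ≃* Matrix.symplecticGroup (Fin k) F × Matrix.symplecticGroup (Fin (m - k)) F) := by
  classical
  obtain ⟨E, hE1, hE2⟩ := coords m k W hWk hW
  have hinj : Function.Injective (Psi E hE1) := by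
    intro p p' h
    have h1 : PsiM E p.1.1 p.2.1 = PsiM E p'.1.1 p'.2.1 := congrArg Subtype.val h
    obtain ⟨ha, hb⟩ := PsiM_inj E _ _ _ _ h1
    exact Prod.ext (Subtype.ext ha) (Subtype.ext hb)
  have hrange := Psi_range E hE1 W hE2
  exact ⟨((MonoidHom.ofInjective hinj).trans (MulEquiv.subgroupCongr hrange)).symm⟩

end Cfsg.Agent.S0776
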