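import Cfsg.Statements.S0777
import Mathlib
import Cfsg.Agent.S0775
import Cfsg.Agent.Helper7.SympGen
import Cfsg.Agent.Helper7.SympStab

set_option autoImplicit false
open Cfsg

namespace Cfsg.Agent.S0777

open Matrix Cfsg.Agent.Helper7.SympTrans

section helpers

variable {F : Type*} [Field F] (m : ℕ)

/-- Basis vector. -/
def bv (a : Fin m ⊕ Fin m) : Fin m ⊕ Fin m → F := Pi.single a 1

/-- Sign of the pairing of a basis vector with its partner. -/
def sg (a : Fin m ⊕ Fin m) : F := Sum.elim (fun _ => -1) (fun _ => 1) a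

lemma sg_swap (a : Fin m ⊕ Fin m) : sg (F := F) m (Sum.swap a) = - sg m a := by
  rcases a with a | a <;> simp [sg]

lemma sg_mul_self (a : Fin m ⊕ Fin m) : sg (F := F) m a * sg m a = 1 := by
  rcases a with a | a <;> simp [sg]

lemma sg_ne_zero (a : Fin m ⊕ Fin m) : sg (F := F) m a ≠ 0 := by
  intro h
  have := sg_mul_self (F := F) m a
  rw [h, mul_zero] at this
  exact zero_ne_one this

lemma form_bv (a b : Fin m ⊕ Fin m) :
    Cfsg.sympForm m F (bv m a) (bv m b) = if b = Sum.swap a then sg m a else 0 := by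
  rcases b with b | b
  · rw [bv, bv, Cfsg.Agent.Helper7.SympGen.form_single_inl]
    rcases a with a | a
    · simp [sg]
    · by_cases h : b = a
      · subst h; simp [sg]
      · simp [sg, h, Ne.symm h]
  · rw [bv, bv, Cfsg.Agent.Helper7.SympGen.form_single_inr]
    rcases a with a | a
    · by_cases h : b = a
      · subst h; simp [sg]
      · simp [sg, h, Ne.symm h]
    · simp [sg]

lemma symp_of_basis (A : Matrix (Fin m ⊕ Fin m) (Fin m ⊕ Fin m) F)
    (h : ∀ a b, Cfsg.sympForm m F (A *ᵥ bv m a) (A *ᵥ bv m b) =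
      Cfsg.sympForm m F (bv m a) (bv m b)) :
    A ∈ Matrix.symplecticGroup (Fin m) F := by
  rw [SymplecticGroup.mem_iff']
  ext i j
  have := h i j
  unfold Cfsg.sympForm bv at this
  rw [← Matrix.vecMul_transpose, ← Matrix.dotProduct_mulVec, Matrix.mulVec_mulVec,
    Matrix.mulVec_mulVec] at this
  simpa [Matrix.mulVec_single_one] using this

/-- Scaled permutation matrix. -/
def mono (σ : Equiv.Perm (Fin m ⊕ Fin m)) (ε : Fin m ⊕ Fin m → F) :
    Matrix (Fin m ⊕ Fin m) (Fin m ⊕ Fin m) F :=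
  Matrix.of fun b a => if b = σ a then ε a else 0

lemma mono_mulVec_bv (σ : Equiv.Perm (Fin m ⊕ Fin m)) (ε : Fin m ⊕ Fin m → F)
    (a : Fin m ⊕ Fin m) : mono m σ ε *ᵥ bv m a = ε a • bv m (σ a) := by
  ext b
  rw [bv, Matrix.mulVec_single_one]
  simp [mono, bv, Pi.single_apply]

lemma mono_mem (σ : Equiv.Perm (Fin m ⊕ Fin m)) (ε : Fin m ⊕ Fin m → F)
    (hσ : ∀ a, σ (Sum.swap a) = Sum.swap (σ a))
    (hε : ∀ a, ε a * (ε (Sum.swap a) * sg m (σ a)) = sg m a) :
    mono m σ ε ∈ Matrix.symplecticGroup (Fin m) F := by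
  apply symp_of_basis
  intro a b
  rw [mono_mulVec_bv, mono_mulVec_bv, Cfsg.Agent.Helper7.SympStab.form_smul_left,
    Cfsg.Agent.Helper7.SympCard.form_smul_right, form_bv, form_bv]
  by_cases hb : b = Sum.swap a
  · subst hb
    rw [if_pos (hσ a), if_pos rfl]
    exact hε a
  · rw [if_neg hb, if_neg (fun h => hb (σ.injective (h.trans (hσ a).symm))), mul_zero, mul_zero]

/-- The torus. -/
def Tor : Subgroup (Matrix.symplecticGroup (Fin m) F) :=
  ⨅ i : Fin m ⊕ Fin m, Cfsg.stabilizing (Cfsg.spToMat m F)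
    ((Submodule.span F {(Pi.single i (1 : F) : Fin m ⊕ Fin m → F)} :
      Submodule F (Fin m ⊕ Fin m → F)) : Set (Fin m ⊕ Fin m → F))

lemma mem_Tor [Finite F] (g : Matrix.symplecticGroup (Fin m) F) :
    g ∈ Tor m ↔ ∀ a, ∃ c : F,
      (g : Matrix (Fin m ⊕ Fin m) (Fin m ⊕ Fin m) F) *ᵥ bv m a = c • bv m a := by
  rw [Tor, Subgroup.mem_iInf]
  constructor
  · intro h a
    have h1 := (h a (bv m a)).mp (Submodule.mem_span_singleton_self _)
    obtain ⟨c, hc⟩ := Submodule.mem_span_singleton.mp h1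
    exact ⟨c, hc.symm⟩
  · intro h a
    apply Cfsg.Agent.S0775.mem_stab_of_maps
    intro v hv
    obtain ⟨d, rfl⟩ := Submodule.mem_span_singleton.mp hv
    obtain ⟨c, hc⟩ := h a
    rw [Matrix.mulVec_smul]
    have hc' : (g : Matrix (Fin m ⊕ Fin m) (Fin m ⊕ Fin m) F) *ᵥ Pi.single a 1 =
        c • Pi.single a 1 := hc
    rw [hc']
    exact Submodule.smul_mem _ _ (Submodule.smul_mem _ _ (Submodule.mem_span_singleton_self _))

lemma exists_sq_ne_one [Fintype F] (hq : 4 ≤ Fintype.card F) : ∃ x : F, x ≠ 0 ∧ x * x ≠ 1 := by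
  classical
  by_contra hcon
  push Not at hcon
  have h : ∀ x : F, x = 0 ∨ x = 1 ∨ x = -1 := by
    intro x
    by_cases hx : x = 0
    · exact Or.inl hx
    · right
      have h1 := hcon x hx
      have h2 : (x - 1) * (x + 1) = 0 := by ring_nf; rw [pow_two, h1]; ring
      rcases mul_eq_zero.mp h2 with h | h
      · left; exact sub_eq_zero.mp h
      · right; exact eq_neg_of_add_eq_zero_left h
  have h3 : Fintype.card F ≤ 3 := by
    calc Fintype.card F = (Finset.univ : Finset F).card := rfl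
      _ ≤ ({0, 1, -1} : Finset F).card := Finset.card_le_card (fun x _ => by
          rcases h x with h | h | h <;> simp [h])
      _ ≤ 3 := Finset.card_le_three
  omega

/-- Diagonal entries of the basic torus elements. -/
def dvec (x : F) (i : Fin m) (a : Fin m ⊕ Fin m) : F :=
  if a = Sum.inl i then x else if a = Sum.inr i then x⁻¹ else 1

lemma dvec_mul (x : F) (hx : x ≠ 0) (i : Fin m) (a : Fin m ⊕ Fin m) :
    dvec m x i a * dvec m x i (Sum.swap a) = 1 := by
  rcases a with a | a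
  · by_cases h : a = i
    · subst h; simp [dvec, hx]
    · simp [dvec, h]
  · by_cases h : a = i
    · subst h; simp [dvec, hx]
    · simp [dvec, h]

lemma mono_one_mem (t : Fin m ⊕ Fin m → F) (ht : ∀ a, t a * t (Sum.swap a) = 1) :
    mono m 1 t ∈ Matrix.symplecticGroup (Fin m) F := by
  apply mono_mem
  · intro a; rfl
  · intro a
    rw [← mul_assoc, ht a, one_mul]; rfl

lemma mono_one_eq (t : Fin m ⊕ Fin m → F) : mono m 1 t = Matrix.diagonal t := by
  ext b a
  simp only [mono, Matrix.of_apply, Equiv.Perm.coe_one, id_eq, Matrix.diagonal_apply]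
  by_cases h : b = a
  · subst h; simp
  · simp [h]

lemma mono_one_mulVec (t : Fin m ⊕ Fin m → F) (v : Fin m ⊕ Fin m → F) (b : Fin m ⊕ Fin m) :
    (mono m 1 t *ᵥ v) b = t b * v b := by
  rw [mono_one_eq, Matrix.mulVec_diagonal]

lemma mono_one_mem_Tor [Finite F] (t : Fin m ⊕ Fin m → F) (ht : ∀ a, t a * t (Sum.swap a) = 1) :
    (⟨mono m 1 t, mono_one_mem m t ht⟩ : Matrix.symplecticGroup (Fin m) F) ∈ Tor m := by
  rw [mem_Tor]
  intro a
  exact ⟨t a, mono_mulVec_bv m 1 t a⟩


lemma smul_bv_inj (c c' : F) (b b' : Fin m ⊕ Fin m) (hc : c ≠ 0)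
    (h : c • bv (F := F) m b = c' • bv m b') : b = b' := by
  by_contra hne
  have h1 := congrFun h b
  simp [bv, Pi.single_apply, hne] at h1
  exact hc h1

lemma normalizer_mono [Fintype F] (hq : 4 ≤ Fintype.card F)
    (g : Matrix.symplecticGroup (Fin m) F)
    (hg : g ∈ Subgroup.normalizer (Tor (F := F) m : Set (Matrix.symplecticGroup (Fin m) F)))
    (a : Fin m ⊕ Fin m) :
    ∃ b, ∃ c : F, c ≠ 0 ∧
      (g : Matrix (Fin m ⊕ Fin m) (Fin m ⊕ Fin m) F) *ᵥ bv m a = c • bv m b := by
  classical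
  set v := (g : Matrix (Fin m ⊕ Fin m) (Fin m ⊕ Fin m) F) *ᵥ bv m a with hv
  have hv0 : v ≠ 0 := by
    intro h0
    have h1 : bv (F := F) m a = 0 := Cfsg.Agent.S0775.symp_mulVec_injective m g (by
      show (g : Matrix (Fin m ⊕ Fin m) (Fin m ⊕ Fin m) F) *ᵥ bv m a =
        (g : Matrix (Fin m ⊕ Fin m) (Fin m ⊕ Fin m) F) *ᵥ 0
      rw [← hv, h0, Matrix.mulVec_zero])
    have h2 := congrFun h1 a
    simp [bv] at h2
  obtain ⟨b, hb⟩ : ∃ b, v b ≠ 0 := by
    by_contra hcon; push Not at hcon; exact hv0 (funext hcon)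
  refine ⟨b, v b, hb, ?_⟩
  funext b'
  by_cases hbb : b' = b
  · subst hbb; simp [bv]
  · rw [Pi.smul_apply, bv, Pi.single_apply, if_neg hbb, smul_zero]
    by_contra hvb'
    obtain ⟨x, hx0, hx1⟩ := exists_sq_ne_one hq
    obtain ⟨i, hi⟩ : ∃ i : Fin m, b = Sum.inl i ∨ b = Sum.inr i := by
      rcases b with i | i
      · exact ⟨i, Or.inl rfl⟩
      · exact ⟨i, Or.inr rfl⟩
    have hD := mono_one_mem_Tor m (dvec m x i) (dvec_mul m x hx0 i)
    obtain ⟨D, hDdef⟩ : ∃ D : Matrix.symplecticGroup (Fin m) F,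
        D = ⟨mono m 1 (dvec m x i), mono_one_mem m _ (dvec_mul m x hx0 i)⟩ := ⟨_, rfl⟩
    rw [← hDdef] at hD
    have hconj : g⁻¹ * D * g ∈ Tor m := by
      have h1 := (Subgroup.mem_normalizer_iff.mp (Subgroup.inv_mem _ hg) D).mp hD
      rwa [inv_inv] at h1
    obtain ⟨c, hc⟩ := (mem_Tor m _).mp hconj a
    have hDv : (D : Matrix (Fin m ⊕ Fin m) (Fin m ⊕ Fin m) F) *ᵥ v = c • v := by
      have h2 : ((g⁻¹ * D * g : Matrix.symplecticGroup (Fin m) F) :
          Matrix (Fin m ⊕ Fin m) (Fin m ⊕ Fin m) F) *ᵥ bv m a =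
          ((g⁻¹ : Matrix.symplecticGroup (Fin m) F) : Matrix (Fin m ⊕ Fin m) (Fin m ⊕ Fin m) F) *ᵥ
            ((D : Matrix (Fin m ⊕ Fin m) (Fin m ⊕ Fin m) F) *ᵥ v) := by
        show ((((g⁻¹ : Matrix.symplecticGroup (Fin m) F) :
          Matrix (Fin m ⊕ Fin m) (Fin m ⊕ Fin m) F) *
          (D : Matrix (Fin m ⊕ Fin m) (Fin m ⊕ Fin m) F)) *
          (g : Matrix (Fin m ⊕ Fin m) (Fin m ⊕ Fin m) F)) *ᵥ bv m a = _
        rw [← Matrix.mulVec_mulVec, ← Matrix.mulVec_mulVec]
      rw [h2] at hc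
      have h3 := Cfsg.Agent.Helper7.SympCard.inv_mulVec_of m g⁻¹ _ _ hc
      rw [inv_inv, Matrix.mulVec_smul] at h3
      exact h3.symm
    have e1 := congrFun hDv b
    have e2 := congrFun hDv b'
    rw [hDdef] at e1 e2
    rw [show ((⟨mono m 1 (dvec m x i), mono_one_mem m _ (dvec_mul m x hx0 i)⟩ :
      Matrix.symplecticGroup (Fin m) F) : Matrix (Fin m ⊕ Fin m) (Fin m ⊕ Fin m) F) =
      mono m 1 (dvec m x i) from rfl, mono_one_mulVec, Pi.smul_apply, smul_eq_mul] at e1 e2
    have hd : dvec m x i b = dvec m x i b' := by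
      have h4 : dvec m x i b = c := mul_right_cancel₀ hb e1
      have h5 : dvec m x i b' = c := mul_right_cancel₀ hvb' e2
      rw [h4, h5]
    have hx2 : x ≠ 1 := fun h => hx1 (by rw [h, mul_one])
    have hxi : x⁻¹ ≠ 1 := fun h => hx2 (inv_eq_one.mp h)
    have hxx : x ≠ x⁻¹ := fun h => hx1 (by
      have : x * x = x * x⁻¹ := by rw [← h]
      rw [this, mul_inv_cancel₀ hx0])
    rcases hi with rfl | rfl
    · have hbx : dvec m x i (Sum.inl i) = x := by simp [dvec]
      rw [hbx] at hd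
      rcases b' with j | j
      · have hj : j ≠ i := fun h => hbb (by rw [h])
        have : dvec m x i (Sum.inl j) = 1 := by simp [dvec, hj]
        rw [this] at hd
        exact hx2 hd
      · by_cases hj : j = i
        · subst hj
          have : dvec m x j (Sum.inr j) = x⁻¹ := by simp [dvec]
          rw [this] at hd
          exact hxx hd
        · have : dvec m x i (Sum.inr j) = 1 := by simp [dvec, hj]
          rw [this] at hd
          exact hx2 hd
    · have hbx : dvec m x i (Sum.inr i) = x⁻¹ := by simp [dvec]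
      rw [hbx] at hd
      rcases b' with j | j
      · by_cases hj : j = i
        · subst hj
          have : dvec m x j (Sum.inl j) = x := by simp [dvec]
          rw [this] at hd
          exact hxx hd.symm
        · have : dvec m x i (Sum.inl j) = 1 := by simp [dvec, hj]
          rw [this] at hd
          exact hxi hd
      · have hj : j ≠ i := fun h => hbb (by rw [h])
        have : dvec m x i (Sum.inr j) = 1 := by simp [dvec, hj]
        rw [this] at hd
        exact hxi hd

lemma conj_mem_Tor [Finite F] (g h : Matrix.symplecticGroup (Fin m) F)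
    (hg' : ∀ a, ∃ b, ∃ c : F,
      ((g⁻¹ : Matrix.symplecticGroup (Fin m) F) : Matrix (Fin m ⊕ Fin m) (Fin m ⊕ Fin m) F) *ᵥ
        bv m a = c • bv m b)
    (hh : h ∈ Tor m) : g * h * g⁻¹ ∈ Tor m := by
  rw [mem_Tor] at hh ⊢
  intro a
  obtain ⟨b, c, hc⟩ := hg' a
  obtain ⟨d, hd⟩ := hh b
  refine ⟨d, ?_⟩
  have h1 : (g : Matrix (Fin m ⊕ Fin m) (Fin m ⊕ Fin m) F) *ᵥ
      (((g⁻¹ : Matrix.symplecticGroup (Fin m) F) : Matrix (Fin m ⊕ Fin m) (Fin m ⊕ Fin m) F) *ᵥ
        bv m a) = bv m a := by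
    have := Cfsg.Agent.Helper7.SympCard.inv_mulVec_of m g⁻¹ (bv m a) _ rfl
    rwa [inv_inv] at this
  rw [hc] at h1
  show (((g : Matrix (Fin m ⊕ Fin m) (Fin m ⊕ Fin m) F) *
    (h : Matrix (Fin m ⊕ Fin m) (Fin m ⊕ Fin m) F)) *
    ((g⁻¹ : Matrix.symplecticGroup (Fin m) F) : Matrix (Fin m ⊕ Fin m) (Fin m ⊕ Fin m) F)) *ᵥ
      bv m a = d • bv m a
  rw [← Matrix.mulVec_mulVec, ← Matrix.mulVec_mulVec, hc, Matrix.mulVec_smul, hd, smul_comm,
    Matrix.mulVec_smul, h1]

lemma mem_normalizer_of_mono [Finite F] (g : Matrix.symplecticGroup (Fin m) F)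
    (hg : ∀ a, ∃ b, ∃ c : F,
      (g : Matrix (Fin m ⊕ Fin m) (Fin m ⊕ Fin m) F) *ᵥ bv m a = c • bv m b)
    (hg' : ∀ a, ∃ b, ∃ c : F,
      ((g⁻¹ : Matrix.symplecticGroup (Fin m) F) : Matrix (Fin m ⊕ Fin m) (Fin m ⊕ Fin m) F) *ᵥ
        bv m a = c • bv m b) :
    g ∈ Subgroup.normalizer (Tor (F := F) m : Set (Matrix.symplecticGroup (Fin m) F)) := by
  rw [Subgroup.mem_normalizer_iff]
  intro h
  constructor
  · exact conj_mem_Tor m g h hg'
  · intro hh
    have h1 := conj_mem_Tor m g⁻¹ (g * h * g⁻¹) (by rw [inv_inv]; exact hg) hh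
    have e : g⁻¹ * (g * h * g⁻¹) * g⁻¹⁻¹ = h := by group
    rwa [e] at h1

end helpers

section helpers2

variable {F : Type*} [Field F] [Fintype F] (m : ℕ)

/-- The column map of a normalising element. -/
noncomputable def col (hq : 4 ≤ Fintype.card F)
    (g : ↥(Subgroup.normalizer (Tor (F := F) m : Set (Matrix.symplecticGroup (Fin m) F))))
    (a : Fin m ⊕ Fin m) : Fin m ⊕ Fin m :=
  Classical.choose (normalizer_mono m hq g.1 g.2 a)

lemma col_spec (hq : 4 ≤ Fintype.card F)
    (g : ↥(Subgroup.normalizer (Tor (F := F) m : Set (Matrix.symplecticGroup (Fin m) F))))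
    (a : Fin m ⊕ Fin m) : ∃ c : F, c ≠ 0 ∧
      (g.1 : Matrix (Fin m ⊕ Fin m) (Fin m ⊕ Fin m) F) *ᵥ bv m a = c • bv m (col m hq g a) :=
  Classical.choose_spec (normalizer_mono m hq g.1 g.2 a)

lemma col_unique (hq : 4 ≤ Fintype.card F)
    (g : ↥(Subgroup.normalizer (Tor (F := F) m : Set (Matrix.symplecticGroup (Fin m) F))))
    (a b : Fin m ⊕ Fin m) (c : F) (hc : c ≠ 0)
    (h : (g.1 : Matrix (Fin m ⊕ Fin m) (Fin m ⊕ Fin m) F) *ᵥ bv m a = c • bv m b) :
    col m hq g a = b := by
  obtain ⟨c', hc', h'⟩ := col_spec m hq g a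
  rw [h] at h'
  exact (smul_bv_inj m c c' b _ hc h').symm

lemma col_injective (hq : 4 ≤ Fintype.card F)
    (g : ↥(Subgroup.normalizer (Tor (F := F) m : Set (Matrix.symplecticGroup (Fin m) F)))) :
    Function.Injective (col m hq g) := by
  intro a a' haa
  obtain ⟨c, hc, h⟩ := col_spec m hq g a
  obtain ⟨c', hc', h'⟩ := col_spec m hq g a'
  rw [← haa] at h'
  have h1 : (g.1 : Matrix (Fin m ⊕ Fin m) (Fin m ⊕ Fin m) F) *ᵥ (c' • bv m a) =
      (g.1 : Matrix (Fin m ⊕ Fin m) (Fin m ⊕ Fin m) F) *ᵥ (c • bv m a') := by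
    rw [Matrix.mulVec_smul, Matrix.mulVec_smul, h, h', smul_comm]
  have h2 := Cfsg.Agent.S0775.symp_mulVec_injective m g.1 h1
  exact smul_bv_inj m c' c a a' hc' h2

/-- The permutation of the coordinate lines induced by a normalising element. -/
noncomputable def permOf (hq : 4 ≤ Fintype.card F)
    (g : ↥(Subgroup.normalizer (Tor (F := F) m : Set (Matrix.symplecticGroup (Fin m) F)))) :
    Equiv.Perm (Fin m ⊕ Fin m) :=
  Equiv.ofBijective (col m hq g) (Finite.injective_iff_bijective.mp (col_injective m hq g))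

lemma permOf_apply (hq : 4 ≤ Fintype.card F)
    (g : ↥(Subgroup.normalizer (Tor (F := F) m : Set (Matrix.symplecticGroup (Fin m) F))))
    (a : Fin m ⊕ Fin m) : permOf m hq g a = col m hq g a := rfl

lemma col_swap (hq : 4 ≤ Fintype.card F)
    (g : ↥(Subgroup.normalizer (Tor (F := F) m : Set (Matrix.symplecticGroup (Fin m) F))))
    (a : Fin m ⊕ Fin m) : col m hq g (Sum.swap a) = Sum.swap (col m hq g a) := by
  obtain ⟨c, hc, h⟩ := col_spec m hq g a
  obtain ⟨c', hc', h'⟩ := col_spec m hq g (Sum.swap a)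
  have h1 := form_invariant m _ g.1.2 (bv m a) (bv m (Sum.swap a))
  rw [h, h', Cfsg.Agent.Helper7.SympStab.form_smul_left,
    Cfsg.Agent.Helper7.SympCard.form_smul_right, form_bv, form_bv, if_pos rfl] at h1
  by_contra hne
  rw [if_neg hne, mul_zero, mul_zero] at h1
  exact sg_ne_zero m a h1.symm

lemma card_centralizer_swap :
    Nat.card (Subgroup.centralizer
      {(Equiv.sumComm (Fin m) (Fin m) : Equiv.Perm (Fin m ⊕ Fin m))}) = 2 ^ m * m.factorial := by
  classical
  rcases Nat.eq_zero_or_pos m with rfl | hm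
  · have h1 : (2 : ℕ) ^ 0 * Nat.factorial 0 = 1 := rfl
    rw [h1, Nat.card_eq_one_iff_unique]
    refine ⟨⟨fun a b => Subtype.ext (Equiv.ext fun x => ?_)⟩, ⟨1⟩⟩
    rcases x with x | x <;> exact x.elim0
  · set τ : Equiv.Perm (Fin m ⊕ Fin m) := Equiv.sumComm (Fin m) (Fin m) with hτ
    have hne : ∀ a, τ a ≠ a := by intro a; rcases a with a | a <;> simp [hτ]
    have hτ1 : τ ≠ 1 := by
      intro h; exact hne (Sum.inl ⟨0, hm⟩) (by rw [h]; rfl)
    have hτ2 : τ ^ 2 = 1 := by
      ext a; rcases a with a | a <;> simp [hτ, pow_two]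
    have hord : orderOf τ = 2 := orderOf_eq_prime hτ2 hτ1
    obtain ⟨n, hn⟩ := Equiv.Perm.cycleType_prime_order (σ := τ) (by rw [hord]; exact Nat.prime_two)
    rw [hord] at hn
    have hsupp : τ.support = Finset.univ := by
      ext a; simp [Equiv.Perm.mem_support, hne a]
    have hsum : τ.cycleType.sum = 2 * m := by
      rw [Equiv.Perm.sum_cycleType, hsupp, Finset.card_univ]; simp; ring
    have hnm : n + 1 = m := by
      rw [hn, Multiset.sum_replicate] at hsum
      simp at hsum; omega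
    rw [Equiv.Perm.nat_card_centralizer, hsum, hn, hnm]
    simp only [Multiset.prod_replicate, Multiset.toFinset_replicate, Fintype.card_sum,
      Fintype.card_fin]
    rw [if_neg (by omega), Finset.prod_singleton, Multiset.count_replicate_self,
      show m + m - 2 * m = 0 by omega]
    simp

lemma mat_ext_bv (A B : Matrix (Fin m ⊕ Fin m) (Fin m ⊕ Fin m) F)
    (h : ∀ a, A *ᵥ bv m a = B *ᵥ bv m a) : A = B := by
  ext i j
  have := congrFun (h j) i
  rw [bv, Matrix.mulVec_single_one, Matrix.mulVec_single_one] at this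
  exact this

/-- Diagonal entries from units. -/
def tx (x : Fin m → Fˣ) (a : Fin m ⊕ Fin m) : F :=
  Sum.elim (fun i => (x i : F)) (fun i => (((x i)⁻¹ : Fˣ) : F)) a

lemma tx_mul (x : Fin m → Fˣ) (a : Fin m ⊕ Fin m) : tx m x a * tx m x (Sum.swap a) = 1 := by
  rcases a with a | a <;> simp [tx]

lemma card_Tor : Nat.card (Tor (F := F) m) = (Fintype.card F - 1) ^ m := by
  classical
  have hbij : Function.Bijective (fun x : Fin m → Fˣ =>
      (⟨⟨mono m 1 (tx m x), mono_one_mem m _ (tx_mul m x)⟩,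
        mono_one_mem_Tor m _ (tx_mul m x)⟩ : Tor (F := F) m)) := by
    constructor
    · intro x y hxy
      have h1 : mono m 1 (tx m x) = mono m 1 (tx m y) :=
        congrArg (fun g : Tor (F := F) m =>
          ((g.1 : Matrix.symplecticGroup (Fin m) F) : Matrix (Fin m ⊕ Fin m) (Fin m ⊕ Fin m) F)) hxy
      funext i
      have h2 := congrFun (congrArg (fun A => A *ᵥ bv m (Sum.inl i)) h1) (Sum.inl i)
      simp only [mono_one_mulVec] at h2
      simp [tx, bv] at h2
      exact Units.ext h2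
    · intro g
      have hg := (mem_Tor m g.1).mp g.2
      choose c hc using hg
      have hc0 : ∀ a, c a ≠ 0 := by
        intro a h0
        have h1 := hc a
        rw [h0, zero_smul] at h1
        have h2 : bv (F := F) m a = 0 := Cfsg.Agent.S0775.symp_mulVec_injective m g.1 (by
          show (g.1 : Matrix (Fin m ⊕ Fin m) (Fin m ⊕ Fin m) F) *ᵥ bv m a =
            (g.1 : Matrix (Fin m ⊕ Fin m) (Fin m ⊕ Fin m) F) *ᵥ 0
          rw [h1, Matrix.mulVec_zero])
        have h3 := congrFun h2 a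
        simp [bv] at h3
      have hcc : ∀ a, c a * c (Sum.swap a) = 1 := by
        intro a
        have h1 := form_invariant m _ g.1.2 (bv m a) (bv m (Sum.swap a))
        rw [hc a, hc (Sum.swap a), Cfsg.Agent.Helper7.SympStab.form_smul_left,
          Cfsg.Agent.Helper7.SympCard.form_smul_right, form_bv, if_pos rfl, ← mul_assoc] at h1
        exact mul_right_cancel₀ (sg_ne_zero m a) (by rw [h1, one_mul])
      refine ⟨fun i => Units.mk0 (c (Sum.inl i)) (hc0 _), ?_⟩
      apply Subtype.ext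
      apply Subtype.ext
      apply mat_ext_bv
      intro a
      show mono m 1 (tx m _) *ᵥ bv m a =
        (g.1 : Matrix (Fin m ⊕ Fin m) (Fin m ⊕ Fin m) F) *ᵥ bv m a
      rw [mono_mulVec_bv, hc a]
      have : tx m (fun i => Units.mk0 (c (Sum.inl i)) (hc0 _)) a = c a := by
        rcases a with i | i
        · simp [tx]
        · simp only [tx, Sum.elim_inr, Units.val_inv_eq_inv_val, Units.val_mk0]
          have := hcc (Sum.inl i)
          exact (eq_inv_of_mul_eq_one_right this).symm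
      rw [this]; rfl
  rw [← Nat.card_congr (Equiv.ofBijective _ hbij), Nat.card_fun, Nat.card_units,
    Nat.card_eq_fintype_card, Nat.card_eq_fintype_card, Fintype.card_fin]

end helpers2

/-- Weyl group of type C_m: for q ≥ 4 the diagonal matrices of Sp_2m(q) form a torus T ≅ (C_(q−1))^m (the elements stabilising every coordinate axis), and the normaliser of T in Sp_2m(q) has order 2^m · m! · (q − 1)^m. -/
theorem result {F : Type*} [Field F] [Fintype F] {q : ℕ} (hF : Fintype.card F = q) (hq : 4 ≤ q) (m : ℕ) : Nat.card ↥(Subgroup.normalizer (⨅ i : Fin m ⊕ Fin m, Cfsg.stabilizing (Cfsg.spToMat m F) ((Submodule.span F {(Pi.single i (1 : F) : Fin m ⊕ Fin m → F)} : Submodule F (Fin m ⊕ Fin m → F)) : Set (Fin m ⊕ Fin m → F)) : Set (Matrix.symplecticGroup (Fin m) F))) = 2 ^ m * Nat.factorial m * (q - 1) ^ m := by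
  classical
  subst hF
  have hset : (⨅ i : Fin m ⊕ Fin m, ((Cfsg.stabilizing (Cfsg.spToMat m F)
      ((Submodule.span F {(Pi.single i (1 : F) : Fin m ⊕ Fin m → F)} :
        Submodule F (Fin m ⊕ Fin m → F)) : Set (Fin m ⊕ Fin m → F)) :
      Subgroup (Matrix.symplecticGroup (Fin m) F)) : Set (Matrix.symplecticGroup (Fin m) F))) =
      (Tor (F := F) m : Set (Matrix.symplecticGroup (Fin m) F)) := by
    rw [Tor, Subgroup.coe_iInf]; rfl
  rw [hset]
  have hq' : 4 ≤ Fintype.card F := hq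
  have hTN : Tor (F := F) m ≤
      Subgroup.normalizer (Tor (F := F) m : Set (Matrix.symplecticGroup (Fin m) F)) :=
    Subgroup.le_normalizer
  have key : Nat.card ↥(Subgroup.normalizer
      (Tor (F := F) m : Set (Matrix.symplecticGroup (Fin m) F))) =
      Nat.card (Subgroup.centralizer
        {(Equiv.sumComm (Fin m) (Fin m) : Equiv.Perm (Fin m ⊕ Fin m))}) *
      Nat.card ((Tor (F := F) m).subgroupOf (Subgroup.normalizer
        (Tor (F := F) m : Set (Matrix.symplecticGroup (Fin m) F)))) := by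
    refine Cfsg.Agent.Helper7.OrthChain.card_of_fibration
      ((Tor (F := F) m).subgroupOf (Subgroup.normalizer
        (Tor (F := F) m : Set (Matrix.symplecticGroup (Fin m) F))))
      (fun g => (⟨permOf m hq' g, ?_⟩ : Subgroup.centralizer
        {(Equiv.sumComm (Fin m) (Fin m) : Equiv.Perm (Fin m ⊕ Fin m))})) ?_ ?_
    · rw [Subgroup.mem_centralizer_iff]
      intro h hh
      rw [Set.mem_singleton_iff] at hh
      subst hh
      ext a
      simp only [Equiv.Perm.coe_mul, Function.comp_apply, Equiv.sumComm_apply, permOf_apply]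
      exact (col_swap m hq' g a).symm
    · rintro ⟨σ, hσ⟩
      have hσ' : ∀ a, σ (Sum.swap a) = Sum.swap (σ a) := by
        intro a
        rw [Subgroup.mem_centralizer_iff] at hσ
        have h1 := hσ _ rfl
        have h2 := congrArg (fun p : Equiv.Perm (Fin m ⊕ Fin m) => p a) h1
        simp only [Equiv.Perm.coe_mul, Function.comp_apply, Equiv.sumComm_apply] at h2
        exact h2.symm
      obtain ⟨ε, hεdef⟩ : ∃ ε : Fin m ⊕ Fin m → F, ε = fun a =>
          Sum.elim (fun _ => (1 : F)) (fun i => sg m (Sum.inr i) * sg m (σ (Sum.inr i))) a :=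
        ⟨_, rfl⟩
      have hε0 : ∀ a, ε a ≠ 0 := by
        intro a; rw [hεdef]; rcases a with i | i
        · simp
        · exact mul_ne_zero (sg_ne_zero m _) (sg_ne_zero m _)
      have hε : ∀ a, ε a * (ε (Sum.swap a) * sg m (σ a)) = sg m a := by
        intro a; rw [hεdef]; rcases a with i | i
        · show 1 * ((sg m (Sum.inr i) * sg m (σ (Sum.inr i))) * sg m (σ (Sum.inl i))) =
            sg m (Sum.inl i)
          have h1 : σ (Sum.inr i) = Sum.swap (σ (Sum.inl i)) := hσ' (Sum.inl i)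
          rw [h1, sg_swap, one_mul]
          have h2 := sg_mul_self (F := F) m (σ (Sum.inl i))
          have h3 : sg (F := F) m (Sum.inr i) = - sg m (Sum.inl i) := sg_swap m (Sum.inl i)
          rw [h3]
          linear_combination (sg m (Sum.inl i)) * h2
        · show (sg m (Sum.inr i) * sg m (σ (Sum.inr i))) * (1 * sg m (σ (Sum.inr i))) =
            sg m (Sum.inr i)
          have h2 := sg_mul_self (F := F) m (σ (Sum.inr i))
          linear_combination (sg m (Sum.inr i)) * h2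
      obtain ⟨gσ, hgσ⟩ : ∃ gσ : Matrix.symplecticGroup (Fin m) F,
          gσ = ⟨mono m σ ε, mono_mem m σ ε hσ' hε⟩ := ⟨_, rfl⟩
      have hmv : ∀ a, (gσ : Matrix (Fin m ⊕ Fin m) (Fin m ⊕ Fin m) F) *ᵥ bv m a =
          ε a • bv m (σ a) := by
        intro a; rw [hgσ]; exact mono_mulVec_bv m σ ε a
      have hgN : gσ ∈ Subgroup.normalizer
          (Tor (F := F) m : Set (Matrix.symplecticGroup (Fin m) F)) := by
        apply mem_normalizer_of_mono
        · intro a; exact ⟨σ a, ε a, hmv a⟩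
        · intro a
          refine ⟨σ.symm a, (ε (σ.symm a))⁻¹, ?_⟩
          apply Cfsg.Agent.Helper7.SympCard.inv_mulVec_of m gσ
          rw [Matrix.mulVec_smul, hmv, Equiv.apply_symm_apply, smul_smul,
            inv_mul_cancel₀ (hε0 _), one_smul]
      refine ⟨⟨gσ, hgN⟩, ?_⟩
      apply Subtype.ext
      ext a
      exact col_unique m hq' ⟨gσ, hgN⟩ a (σ a) (ε a) (hε0 a) (hmv a)
    · intro g g'
      rw [Subgroup.mem_subgroupOf]
      constructor
      · intro h
        have hcol : ∀ a, col m hq' g a = col m hq' g' a := by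
          intro a
          exact congrArg (fun p : Subgroup.centralizer
            {(Equiv.sumComm (Fin m) (Fin m) : Equiv.Perm (Fin m ⊕ Fin m))} =>
            (p.1 : Equiv.Perm (Fin m ⊕ Fin m)) a) h
        rw [mem_Tor]
        intro a
        obtain ⟨c, hc, h1⟩ := col_spec m hq' g a
        obtain ⟨c', hc', h1'⟩ := col_spec m hq' g' a
        rw [← hcol a] at h1'
        refine ⟨c' * c⁻¹, ?_⟩
        show (((g.1⁻¹ : Matrix.symplecticGroup (Fin m) F) :
          Matrix (Fin m ⊕ Fin m) (Fin m ⊕ Fin m) F) *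
          (g'.1 : Matrix (Fin m ⊕ Fin m) (Fin m ⊕ Fin m) F)) *ᵥ bv m a = _
        rw [← Matrix.mulVec_mulVec, h1']
        apply Cfsg.Agent.Helper7.SympCard.inv_mulVec_of m g.1
        rw [Matrix.mulVec_smul, h1, smul_smul, mul_assoc, inv_mul_cancel₀ hc, mul_one]
      · intro h
        apply Subtype.ext
        ext a
        show col m hq' g a = col m hq' g' a
        rw [mem_Tor] at h
        obtain ⟨d, hd⟩ := h a
        obtain ⟨c, hc, h1⟩ := col_spec m hq' g a
        obtain ⟨c', hc', h1'⟩ := col_spec m hq' g' a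
        have h2 : ((g.1⁻¹ : Matrix.symplecticGroup (Fin m) F) :
            Matrix (Fin m ⊕ Fin m) (Fin m ⊕ Fin m) F) *ᵥ
            ((g'.1 : Matrix (Fin m ⊕ Fin m) (Fin m ⊕ Fin m) F) *ᵥ bv m a) = d • bv m a := by
          rw [Matrix.mulVec_mulVec]; exact hd
        have h3 := Cfsg.Agent.Helper7.SympCard.inv_mulVec_of m g.1⁻¹ _ _ h2
        rw [inv_inv, Matrix.mulVec_smul, h1, smul_smul] at h3
        have h4 : (d * c) • bv (F := F) m (col m hq' g a) = c' • bv m (col m hq' g' a) :=
          h3.trans h1'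
        have hd0 : d * c ≠ 0 := by
          intro h0
          rw [h0, zero_smul] at h4
          have h5 := congrFun h4 (col m hq' g' a)
          simp [bv] at h5
          exact hc' h5.symm
        exact smul_bv_inj m _ _ _ _ hd0 h4
  rw [key, card_centralizer_swap, Nat.card_congr (Subgroup.subgroupOfEquivOfLe hTN).toEquiv,
    card_Tor]

end Cfsg.Agent.S0777
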