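import Mathlib
import Cfsg.Agent.Helper2.Refl
import Cfsg.Statements.S0779

set_option autoImplicit false
open Cfsg

namespace Cfsg.Agent.S0779

/-- Unitary transvections: let |F| = q², h the standard Hermitian form Σ x_i y_i^q and v ≠ 0 with h(v, v) = 0. The linear map x ↦ x + c h(x, v) v is an isometry of h if and only if c = 0 or c^(q−1) = −1. -/
theorem result {F : Type*} [Field F] [Fintype F] {q : ℕ} (hF : Fintype.card F = q ^ 2) (n : ℕ) (v : Fin n → F) (hv : v ≠ 0) (hv0 : Cfsg.hermForm n F q v v = 0) (c : F) : (∀ x y : Fin n → F, Cfsg.hermForm n F q ((Cfsg.unitaryTransvection n q v c).mulVec x) ((Cfsg.unitaryTransvection n q v c).mulVec y) = Cfsg.hermForm n F q x y) ↔ (c = 0 ∨ c ^ (q - 1) = -1) := by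
  classical
  have hq2 : 2 ≤ q := by
    by_contra h
    have h1 : q ≤ 1 := by omega
    have h2 : q ^ 2 ≤ 1 := by interval_cases q <;> simp
    have h3 := Fintype.one_lt_card (α := F)
    omega
  obtain ⟨p, hp⟩ := CharP.exists F
  haveI : Fact p.Prime := ⟨CharP.char_is_prime F p⟩
  obtain ⟨k, hk⟩ := FiniteField.card F p
  obtain ⟨m, hqm⟩ : ∃ m, q = p ^ m := by
    have hdvd : q ∣ p ^ (k : ℕ) := by rw [← hk.2, hF]; exact dvd_pow_self q two_ne_zero
    obtain ⟨m, -, hm⟩ := (Nat.dvd_prime_pow hk.1).mp hdvd
    exact ⟨m, hm⟩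
  have hφ : ∀ a : F, (iterateFrobenius F p m) a = a ^ q := by
    intro a; rw [hqm]; rfl
  have hadd : ∀ a b : F, (a + b) ^ q = a ^ q + b ^ q := by
    intro a b; rw [← hφ, ← hφ, ← hφ, map_add]
  have hsum : ∀ (f : Fin n → F), (∑ i, f i) ^ q = ∑ i, (f i) ^ q := by
    intro f; rw [← hφ, map_sum]; simp only [hφ]
  have hqq : ∀ a : F, (a ^ q) ^ q = a := by
    intro a
    rw [← pow_mul, ← sq, ← hF]; exact FiniteField.pow_card a
  obtain ⟨h, hdef⟩ : ∃ h : (Fin n → F) → (Fin n → F) → F, h = Cfsg.hermForm n F q := ⟨_, rfl⟩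
  rw [← hdef] at hv0 ⊢
  have hval : ∀ u w, h u w = ∑ i, u i * (w i) ^ q := by
    intro u w; rw [hdef]; rfl
  have hadd1 : ∀ (a : F) (x u w : Fin n → F), h (x + a • u) w = h x w + a * h u w := by
    intro a x u w
    simp only [hval, Pi.add_apply, Pi.smul_apply, smul_eq_mul, add_mul, Finset.sum_add_distrib,
      Finset.mul_sum, mul_assoc]
  have hadd2 : ∀ (b : F) (u y w : Fin n → F), h u (y + b • w) = h u y + b ^ q * h u w := by
    intro b u y w
    simp only [hval, Pi.add_apply, Pi.smul_apply, smul_eq_mul, hadd, mul_pow, mul_add,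
      Finset.sum_add_distrib, Finset.mul_sum]
    congr 1
    apply Finset.sum_congr rfl
    intro i _; ring
  have hsymm : ∀ y : Fin n → F, (h y v) ^ q = h v y := by
    intro y
    rw [hval, hsum, hval]
    apply Finset.sum_congr rfl
    intro i _
    rw [mul_pow, hqq, mul_comm]
  have hT : ∀ x : Fin n → F, (Cfsg.unitaryTransvection n q v c).mulVec x = x + (c * h x v) • v := by
    intro x
    unfold Cfsg.unitaryTransvection
    rw [Cfsg.Agent.Helper2.one_add_smul_vecMulVec_mulVec]
    have e : (fun j => v j ^ q) ⬝ᵥ x = h x v := by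
      rw [hval, dotProduct]; apply Finset.sum_congr rfl; intro i _; ring
    rw [e]
  have hmain : ∀ x y : Fin n → F, h ((Cfsg.unitaryTransvection n q v c).mulVec x)
      ((Cfsg.unitaryTransvection n q v c).mulVec y) = h x y + (c ^ q + c) * (h x v * h v y) := by
    intro x y
    rw [hT x, hT y, hadd1, hadd2, hadd2, hv0, mul_pow, hsymm]
    ring
  have hpow : c ^ q = c ^ (q - 1) * c := by
    rw [← pow_succ]; congr 1; omega
  constructor
  · intro hpres
    obtain ⟨i, hi⟩ : ∃ i, v i ≠ 0 := by
      by_contra hne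
      push_neg at hne
      exact hv (funext hne)
    have h1 := hpres (Pi.single i 1) (Pi.single i 1)
    rw [hmain] at h1
    have e1 : h (Pi.single i 1) v = (v i) ^ q := by
      rw [hval, Finset.sum_eq_single i]
      · simp
      · intro j _ hji; simp [hji]
      · intro hi'; exact absurd (Finset.mem_univ i) hi'
    have e2 : h v (Pi.single i 1) = v i := by
      rw [hval, Finset.sum_eq_single i]
      · simp
      · intro j _ hji
        have hq0 : q ≠ 0 := by omega
        simp [hji, hq0]
      · intro hi'; exact absurd (Finset.mem_univ i) hi'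
    rw [e1, e2] at h1
    have h2 : (c ^ q + c) * ((v i) ^ q * v i) = 0 := by linear_combination h1
    have h3 : c ^ q + c = 0 := by
      rcases mul_eq_zero.mp h2 with h' | h'
      · exact h'
      · exfalso; exact (mul_ne_zero (pow_ne_zero _ hi) hi) h'
    by_cases hc : c = 0
    · left; exact hc
    · right
      have h4 : c * (c ^ (q - 1) + 1) = 0 := by
        rw [hpow] at h3; linear_combination h3
      rcases mul_eq_zero.mp h4 with h' | h'
      · exact absurd h' hc
      · linear_combination h'
  · intro hc x y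
    rw [hmain]
    have h3 : c ^ q + c = 0 := by
      rcases hc with rfl | hc
      · rw [zero_pow (by omega), add_zero]
      · rw [hpow, hc]; ring
    rw [h3, zero_mul, add_zero]


end Cfsg.Agent.S0779
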