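import Mathlib
import Cfsg.Agent.Helper2.Refl
import Cfsg.Statements.S0784

set_option autoImplicit false
open Cfsg

namespace Cfsg.Agent.S0784

/-- Reflections: if Q(v) ≠ 0 then the matrix R = 1 − Q(v)⁻¹ · v f(v, ·)ᵀ preserves Q, maps v to −v, fixes each x with f(v, x) = 0, and has determinant −1 (in characteristic two, −1 = 1 and R is the orthogonal transvection of v). -/
theorem result {F : Type*} [Field F] {n : ℕ} (Q : QuadraticForm F (Fin n → F)) (v : Fin n → F) (hv : Q v ≠ 0) : (∀ x, Q ((Cfsg.reflectionMatrix ⇑Q v).mulVec x) = Q x) ∧ (Cfsg.reflectionMatrix ⇑Q v).mulVec v = -v ∧ (∀ x, QuadraticMap.polar ⇑Q v x = 0 → (Cfsg.reflectionMatrix ⇑Q v).mulVec x = x) ∧ (Cfsg.reflectionMatrix ⇑Q v).det = -1 := by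
  have hmv := Cfsg.Agent.Helper2.reflection_mulVec Q v
  refine ⟨?_, ?_, ?_, Cfsg.Agent.Helper2.reflection_det Q v hv⟩
  · intro x
    rw [hmv x]
    obtain ⟨t, ht⟩ : ∃ t : F, t = (Q v)⁻¹ * QuadraticMap.polar (⇑Q) v x := ⟨_, rfl⟩
    rw [← ht]
    have h1 : Q (x - t • v) = Q x + Q (-(t • v)) + QuadraticMap.polar (⇑Q) x (-(t • v)) := by
      rw [sub_eq_add_neg]; unfold QuadraticMap.polar; ring
    rw [h1, QuadraticMap.map_neg, QuadraticMap.map_smul, QuadraticMap.polar_neg_right,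
      QuadraticMap.polar_smul_right, QuadraticMap.polar_comm (⇑Q) x v, smul_eq_mul, smul_eq_mul, ht]
    field_simp
    ring
  · rw [hmv v, QuadraticMap.polar_self]
    have h2 : (Q v)⁻¹ * (2 • Q v) = 2 := by
      rw [nsmul_eq_mul]; field_simp; norm_num
    rw [h2, two_smul]; abel
  · intro x hx
    rw [hmv x, hx, mul_zero, zero_smul, sub_zero]


end Cfsg.Agent.S0784
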