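import Mathlib
import Cfsg.Agent.S0784
import Cfsg.Statements.S0785

set_option autoImplicit false
open Cfsg

namespace Cfsg.Agent.S0785

/-- det(I) = {±1}: for a quadratic form on F^n whose polar form is non-degenerate, every element of the isometry group has determinant 1 or −1, and as soon as Q takes a non-zero value some isometry has determinant −1. -/
theorem result {F : Type*} [Field F] {n : ℕ} (Q : QuadraticForm F (Fin n → F)) (hQ : (QuadraticMap.polarBilin Q).Nondegenerate) : (∀ g : ↥(Cfsg.isometryGroup F ⇑Q), ((g : Matrix.GeneralLinearGroup (Fin n) F) : Matrix (Fin n) (Fin n) F).det = 1 ∨ ((g : Matrix.GeneralLinearGroup (Fin n) F) : Matrix (Fin n) (Fin n) F).det = -1) ∧ ((∃ v, Q v ≠ 0) → ∃ g : ↥(Cfsg.isometryGroup F ⇑Q), ((g : Matrix.GeneralLinearGroup (Fin n) F) : Matrix (Fin n) (Fin n) F).det = -1) := by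
  classical
  have h2 := (LinearMap.nondegenerate_toMatrix₂'_iff (R := F)).mpr hQ
  have h3 := Matrix.nondegenerate_iff_det_ne_zero.mp h2
  have key : ∀ A : Matrix (Fin n) (Fin n) F, (∀ x, Q (A.mulVec x) = Q x) → A.det = 1 ∨ A.det = -1 := by
    intro A hA
    have hB : (QuadraticMap.polarBilin Q).compl₁₂ (Matrix.toLin' A) (Matrix.toLin' A) =
        QuadraticMap.polarBilin Q := by
      refine LinearMap.ext₂ (fun x y => ?_)
      rw [LinearMap.compl₁₂_apply, QuadraticMap.polarBilin_apply_apply,
        QuadraticMap.polarBilin_apply_apply, Matrix.toLin'_apply, Matrix.toLin'_apply]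
      unfold QuadraticMap.polar
      rw [← Matrix.mulVec_add, hA, hA, hA]
    have hM := congrArg (LinearMap.toMatrix₂' F) hB
    rw [LinearMap.toMatrix₂'_compl₁₂, LinearMap.toMatrix'_toLin'] at hM
    have hdet := congrArg Matrix.det hM
    rw [Matrix.det_mul, Matrix.det_mul, Matrix.det_transpose] at hdet
    have h4 : A.det * A.det = 1 := by
      have h6 : (A.det * A.det - 1) * ((LinearMap.toMatrix₂' F) (QuadraticMap.polarBilin Q)).det = 0 := by
        linear_combination hdet
      rcases mul_eq_zero.mp h6 with h | h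
      · linear_combination h
      · exact absurd h h3
    have h5 : (A.det - 1) * (A.det + 1) = 0 := by linear_combination h4
    rcases mul_eq_zero.mp h5 with h | h
    · left; linear_combination h
    · right; linear_combination h
  refine ⟨?_, ?_⟩
  · intro g
    apply key
    intro x
    exact g.2 x x
  · rintro ⟨v, hv⟩
    obtain ⟨hpres, -, -, hdet⟩ := Cfsg.Agent.S0784.result Q v hv
    refine ⟨⟨Matrix.GeneralLinearGroup.mkOfDetNeZero (Cfsg.reflectionMatrix (⇑Q) v)
      (by rw [hdet]; exact neg_ne_zero.mpr one_ne_zero), ?_⟩, ?_⟩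
    · intro u w
      exact hpres u
    · exact hdet


end Cfsg.Agent.S0785
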