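import Mathlib
import Cfsg.Statements.S0796

set_option autoImplicit false
open Cfsg

namespace Cfsg.Agent.S0796

/-- If G is finite and acts faithfully and primitively on X, H is the stabiliser of a point, A is a normal subgroup of H whose normal closure in G is G, then for every non-trivial normal subgroup K of G the quotient G ⧸ K is isomorphic to A ⧸ B for some normal subgroup B of A. -/
theorem result {G X : Type*} [Group G] [Finite G] [MulAction G X] [FaithfulSMul G X] (hprim : MulAction.IsPreprimitive G X) (x : X) (A : Subgroup G) (hA : A ≤ MulAction.stabilizer G x) (hAn : (A.subgroupOf (MulAction.stabilizer G x)).Normal) (hgen : Subgroup.normalClosure (A : Set G) = ⊤) (K : Subgroup G) [K.Normal] (hK : K ≠ ⊥) : ∃ (B : Subgroup A) (_ : B.Normal), Nonempty (G ⧸ K ≃* A ⧸ B) := by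
  classical
  haveI := hprim
  -- K acts nontrivially
  have hfix : MulAction.fixedPoints K X ≠ Set.univ := by
    intro hf
    apply hK
    rw [Subgroup.eq_bot_iff_forall]
    intro k hk
    apply FaithfulSMul.eq_of_smul_eq_smul (α := X)
    intro y
    have hy : y ∈ MulAction.fixedPoints K X := by rw [hf]; exact Set.mem_univ y
    have := (MulAction.mem_fixedPoints.mp hy) ⟨k, hk⟩
    rw [one_smul]
    exact this
  haveI htrans : MulAction.IsPretransitive K X :=
    MulAction.IsQuasiPreprimitive.isPretransitive_of_normal hfix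
  -- G = K * stabilizer
  have hdecomp : ∀ g : G, ∃ k ∈ K, ∃ s ∈ MulAction.stabilizer G x, g = k * s := by
    intro g
    obtain ⟨k, hk⟩ := MulAction.exists_smul_eq K x (g • x)
    refine ⟨k, k.2, (k : G)⁻¹ * g, ?_, by group⟩
    rw [MulAction.mem_stabilizer_iff, mul_smul]
    have hk' : (k : G) • x = g • x := hk
    rw [← hk', inv_smul_smul]
  -- K ⊔ A is normal
  have hmem : ∀ n : G, n ∈ K ⊔ A ↔ ∃ k ∈ K, ∃ a ∈ A, n = k * a := by
    intro n
    rw [← SetLike.mem_coe, Subgroup.normal_mul]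
    constructor
    · rintro ⟨k, hk, a, ha, rfl⟩; exact ⟨k, hk, a, ha, rfl⟩
    · rintro ⟨k, hk, a, ha, rfl⟩; exact ⟨k, hk, a, ha, rfl⟩
  have hAconj : ∀ s ∈ MulAction.stabilizer G x, ∀ a ∈ A, s * a * s⁻¹ ∈ A := by
    intro s hs a ha
    have h1 : (⟨a, hA ha⟩ : MulAction.stabilizer G x) ∈ A.subgroupOf (MulAction.stabilizer G x) := by
      rw [Subgroup.mem_subgroupOf]; exact ha
    have h2 := hAn.conj_mem _ h1 ⟨s, hs⟩
    rw [Subgroup.mem_subgroupOf] at h2
    simpa using h2
  have hnormal : (K ⊔ A).Normal := by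
    constructor
    intro n hn g
    obtain ⟨k', hk', a', ha', rfl⟩ := (hmem n).mp hn
    obtain ⟨k, hk, s, hs, rfl⟩ := hdecomp g
    have h1 : s * (k' * a') * s⁻¹ ∈ K ⊔ A := by
      rw [hmem]
      refine ⟨s * k' * s⁻¹, ‹K.Normal›.conj_mem k' hk' s, s * a' * s⁻¹, hAconj s hs a' ha', by group⟩
    have h2 : k * s * (k' * a') * (k * s)⁻¹ = k * (s * (k' * a') * s⁻¹) * k⁻¹ := by group
    rw [h2]
    exact Subgroup.mul_mem _ (Subgroup.mul_mem _ (Subgroup.mem_sup_left hk) h1)
      (Subgroup.inv_mem _ (Subgroup.mem_sup_left hk))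
  have htop : K ⊔ A = ⊤ := by
    apply top_le_iff.mp
    rw [← hgen]
    exact Subgroup.normalClosure_le_normal (N := K ⊔ A) (fun a ha => Subgroup.mem_sup_right ha)
  let φ : A →* G ⧸ K := (QuotientGroup.mk' K).comp A.subtype
  have hφ : Function.Surjective φ := by
    intro q
    obtain ⟨g, rfl⟩ := QuotientGroup.mk'_surjective K q
    have hg : g ∈ K ⊔ A := by rw [htop]; exact Subgroup.mem_top g
    obtain ⟨k, hk, a, ha, rfl⟩ := (hmem g).mp hg
    refine ⟨⟨a, ha⟩, ?_⟩
    show (QuotientGroup.mk' K) a = (QuotientGroup.mk' K) (k * a)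
    have hk1 : (QuotientGroup.mk' K) k = 1 := (QuotientGroup.eq_one_iff k).mpr hk
    rw [map_mul, hk1, one_mul]
  exact ⟨φ.ker, inferInstance, ⟨(QuotientGroup.quotientKerEquivOfSurjective φ hφ).symm⟩⟩


end Cfsg.Agent.S0796
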