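import Cfsg.Statements.S0809
import Mathlib
import Cfsg.Agent.Helper4.GL2
import Cfsg.Agent.Helper4.Conj2
import Cfsg.Agent.S0268
import Cfsg.Agent.S0276

set_option autoImplicit false
open Cfsg

namespace Cfsg.Agent.S0809

open Matrix

theorem two_ne {F : Type*} [Field F] [Fintype F] (hodd : Odd (Fintype.card F)) : (2 : F) ≠ 0 := by
  intro h0
  have h11 : (1 : F) + 1 = 0 := by rw [one_add_one_eq_two]; exact h0
  have hord : addOrderOf (1 : F) = 2 := by
    haveI : Fact (Nat.Prime 2) := ⟨Nat.prime_two⟩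
    apply addOrderOf_eq_prime
    · rw [two_nsmul]; exact h11
    · exact one_ne_zero
  have hdvd : addOrderOf (1 : F) ∣ Fintype.card F := addOrderOf_dvd_card
  rw [hord] at hdvd
  exact (Nat.not_even_iff_odd.mpr hodd) (even_iff_two_dvd.mpr hdvd)

theorem two_sq {F : Type*} [Field F] [Fintype F] (hodd : Odd (Fintype.card F)) (d : F) :
    ∃ a b : F, a ^ 2 + b ^ 2 = d := by
  obtain ⟨a, b, h⟩ := FiniteField.exists_root_sum_quadratic (R := F)
    (f := Polynomial.X ^ 2) (g := Polynomial.X ^ 2 - Polynomial.C d)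
    (Polynomial.degree_X_pow 2) (Polynomial.degree_X_pow_sub_C (by norm_num) d)
    (Nat.odd_iff.1 hodd)
  refine ⟨a, b, ?_⟩
  simp only [Polynomial.eval_pow, Polynomial.eval_X, Polynomial.eval_sub, Polynomial.eval_C] at h
  linear_combination h

noncomputable def wS (F : Type*) [Field F] : SpecialLinearGroup (Fin 2) F :=
  ⟨!![0, -1; 1, 0], by simp [Matrix.det_fin_two]⟩

theorem tr_zero {F : Type*} [Field F] (y : SpecialLinearGroup (Fin 2) F)
    (h : (y : Matrix (Fin 2) (Fin 2) F) * (y : Matrix (Fin 2) (Fin 2) F) = -1) :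
    (y : Matrix (Fin 2) (Fin 2) F) 0 0 + (y : Matrix (Fin 2) (Fin 2) F) 1 1 = 0 := by
  have hc := Cfsg.Agent.S0276.cayley_two (y : Matrix (Fin 2) (Fin 2) F) y.2
  rw [h] at hc
  by_contra ht
  have h0 : ((y : Matrix (Fin 2) (Fin 2) F) 0 0 + (y : Matrix (Fin 2) (Fin 2) F) 1 1) •
      (y : Matrix (Fin 2) (Fin 2) F) = 0 := by
    have h' := congrArg (· + (1 : Matrix (Fin 2) (Fin 2) F)) hc.symm
    simpa using h'
  have hy0 : (y : Matrix (Fin 2) (Fin 2) F) = 0 := (smul_eq_zero.1 h0).resolve_left ht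
  have hd := y.2
  rw [Matrix.det_fin_two, hy0] at hd
  simp at hd

theorem conjW {F : Type*} [Field F] [Fintype F] (hodd : Odd (Fintype.card F))
    (x : SpecialLinearGroup (Fin 2) F)
    (ht : (x : Matrix (Fin 2) (Fin 2) F) 0 0 + (x : Matrix (Fin 2) (Fin 2) F) 1 1 = 0) :
    ∃ P : SpecialLinearGroup (Fin 2) F, x * P = P * wS F := by
  have h2 := two_ne hodd
  have hdet : (x : Matrix (Fin 2) (Fin 2) F) 0 0 * (x : Matrix (Fin 2) (Fin 2) F) 1 1 -
      (x : Matrix (Fin 2) (Fin 2) F) 0 1 * (x : Matrix (Fin 2) (Fin 2) F) 1 0 = 1 := by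
    rw [← Matrix.det_fin_two]; exact x.2
  obtain ⟨a, ha⟩ : ∃ a, a = (x : Matrix (Fin 2) (Fin 2) F) 0 0 := ⟨_, rfl⟩
  obtain ⟨b, hb⟩ : ∃ b, b = (x : Matrix (Fin 2) (Fin 2) F) 0 1 := ⟨_, rfl⟩
  obtain ⟨c, hc⟩ : ∃ c, c = (x : Matrix (Fin 2) (Fin 2) F) 1 0 := ⟨_, rfl⟩
  obtain ⟨e, he⟩ : ∃ e, e = (x : Matrix (Fin 2) (Fin 2) F) 1 1 := ⟨_, rfl⟩
  rw [← ha, ← hb, ← hc, ← he] at hdet
  rw [← ha, ← he] at ht
  have hxm : (x : Matrix (Fin 2) (Fin 2) F) = !![a, b; c, e] := by
    rw [ha, hb, hc, he]; exact Matrix.eta_fin_two _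
  have hns : ¬ (b = 0 ∧ c = 0 ∧ a = e) := by
    rintro ⟨h1, -, h3⟩
    have h2e : (2 : F) * e = 0 := by linear_combination ht - h3
    have he0 : e = 0 := (mul_eq_zero.1 h2e).resolve_left h2
    rw [h1, h3, he0] at hdet
    simp at hdet
  obtain ⟨v1, v2, hv⟩ := Cfsg.Agent.Helper4.Conj2.exists_cyclic a b c e hns
  obtain ⟨α, β, hαβ⟩ := two_sq hodd (v1 * (c * v1 + e * v2) - (a * v1 + b * v2) * v2)⁻¹
  have hC : (!![0, -1; 1, 0] : Matrix (Fin 2) (Fin 2) F) * !![α, -β; β, α] =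
      !![α, -β; β, α] * !![0, -1; 1, 0] := by
    ext i j
    fin_cases i <;> fin_cases j <;> simp [Matrix.mul_apply, Fin.sum_univ_two]
  have hx0 := Cfsg.Agent.Helper4.Conj2.mat_eq a b c e v1 v2
  rw [hdet, ht] at hx0
  have hdetP : ((!![v1, a * v1 + b * v2; v2, c * v1 + e * v2] : Matrix (Fin 2) (Fin 2) F) *
      !![α, -β; β, α]).det = 1 := by
    rw [Matrix.det_mul, Matrix.det_fin_two_of, Matrix.det_fin_two_of]
    have : (v1 * (c * v1 + e * v2) - (a * v1 + b * v2) * v2) * (α ^ 2 + β ^ 2) = 1 := by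
      rw [hαβ]; exact mul_inv_cancel₀ hv
    linear_combination this
  have key : (x : Matrix (Fin 2) (Fin 2) F) *
      ((!![v1, a * v1 + b * v2; v2, c * v1 + e * v2] : Matrix (Fin 2) (Fin 2) F) *
        !![α, -β; β, α]) =
      ((!![v1, a * v1 + b * v2; v2, c * v1 + e * v2] : Matrix (Fin 2) (Fin 2) F) *
        !![α, -β; β, α]) * !![0, -1; 1, 0] := by
    rw [hxm, ← Matrix.mul_assoc, hx0, Matrix.mul_assoc _ _ (!![α, -β; β, α]), hC,
      ← Matrix.mul_assoc]
  exact ⟨⟨_, hdetP⟩, Subtype.ext key⟩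

theorem exists_gen {F : Type*} [Field F] [Fintype F] (hodd : Odd (Fintype.card F))
    (B : Subgroup (SpecialLinearGroup (Fin 2) F)) (hB : Nat.card B = 4) :
    ∃ y : SpecialLinearGroup (Fin 2) F,
      (y : Matrix (Fin 2) (Fin 2) F) * (y : Matrix (Fin 2) (Fin 2) F) = -1 ∧
      B = Subgroup.zpowers y := by
  classical
  obtain ⟨m1, hm1⟩ : ∃ m : SpecialLinearGroup (Fin 2) F,
      (m : Matrix (Fin 2) (Fin 2) F) = -1 := ⟨⟨-1, by simp [Matrix.det_fin_two]⟩, rfl⟩
  have hex : ∃ y ∈ B, y * y ≠ 1 := by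
    by_contra hcon
    push Not at hcon
    have hsub : (B : Set (SpecialLinearGroup (Fin 2) F)) ⊆ {1, m1} := by
      intro y hy
      by_cases hy1 : y = 1
      · exact Or.inl hy1
      · refine Or.inr ?_
        have := Cfsg.Agent.S0268.result hodd y hy1 (hcon y hy)
        exact Subtype.ext (this.trans hm1.symm)
    have h1 : Set.ncard (B : Set (SpecialLinearGroup (Fin 2) F)) ≤
        Set.ncard ({1, m1} : Set (SpecialLinearGroup (Fin 2) F)) :=
      Set.ncard_le_ncard hsub (Set.toFinite _)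
    have h2 : Set.ncard ({1, m1} : Set (SpecialLinearGroup (Fin 2) F)) ≤ 2 :=
      (Set.ncard_insert_le _ _).trans (by rw [Set.ncard_singleton])
    have h3 : Nat.card B = Set.ncard (B : Set (SpecialLinearGroup (Fin 2) F)) := rfl
    omega
  obtain ⟨y, hy, hyy1⟩ := hex
  have h4 : y ^ 4 = 1 := by
    have h := pow_card_eq_one' (G := B) (x := ⟨y, hy⟩)
    rw [hB] at h
    have h' := congrArg Subtype.val h
    simpa using h'
  have hsq : (y * y) * (y * y) = 1 := by
    have e : (y * y) * (y * y) = y ^ 4 := by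
      simp only [pow_succ, pow_zero, one_mul, mul_assoc]
    rw [e, h4]
  have hyy : ((y * y : SpecialLinearGroup (Fin 2) F) : Matrix (Fin 2) (Fin 2) F) = -1 :=
    Cfsg.Agent.S0268.result hodd (y * y) hyy1 hsq
  refine ⟨y, hyy, ?_⟩
  haveI : Fact (Nat.Prime 2) := ⟨Nat.prime_two⟩
  have e4 : orderOf y = 2 ^ (1 + 1) :=
    orderOf_eq_prime_pow (by rw [pow_one, pow_two]; exact hyy1) (by norm_num; exact h4)
  symm
  apply Subgroup.eq_of_le_of_card_ge
  · rw [Subgroup.zpowers_le]; exact hy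
  · rw [Nat.card_zpowers, e4, hB]; norm_num

theorem mem_zpowers_conj {G : Type*} [Group G] (g x h : G) :
    h ∈ Subgroup.zpowers x ↔ g * h * g⁻¹ ∈ Subgroup.zpowers (g * x * g⁻¹) := by
  simp only [Subgroup.mem_zpowers_iff, conj_zpow]
  constructor
  · rintro ⟨k, rfl⟩; exact ⟨k, rfl⟩
  · rintro ⟨k, hk⟩; exact ⟨k, by simpa using hk⟩

theorem mem_norm {F : Type*} [Field F] [Fintype F] (hodd : Odd (Fintype.card F))
    (x : SpecialLinearGroup (Fin 2) F)
    (hxx : (x : Matrix (Fin 2) (Fin 2) F) * (x : Matrix (Fin 2) (Fin 2) F) = -1)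
    (g : SpecialLinearGroup (Fin 2) F) :
    g ∈ Subgroup.normalizer ((Subgroup.zpowers x : Subgroup (SpecialLinearGroup (Fin 2) F)) :
      Set (SpecialLinearGroup (Fin 2) F)) ↔ (g * x = x * g ∨ g * x = x⁻¹ * g) := by
  have sqc : ∀ k : SpecialLinearGroup (Fin 2) F, k * (x * x) = (x * x) * k := by
    intro k
    apply Subtype.ext
    show (k : Matrix (Fin 2) (Fin 2) F) * ((x : Matrix (Fin 2) (Fin 2) F) * (x : Matrix (Fin 2) (Fin 2) F)) =
      ((x : Matrix (Fin 2) (Fin 2) F) * (x : Matrix (Fin 2) (Fin 2) F)) * (k : Matrix (Fin 2) (Fin 2) F)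
    rw [hxx]; simp
  have x4 : x * x * (x * x) = 1 := by
    apply Subtype.ext
    show ((x : Matrix (Fin 2) (Fin 2) F) * (x : Matrix (Fin 2) (Fin 2) F)) *
      ((x : Matrix (Fin 2) (Fin 2) F) * (x : Matrix (Fin 2) (Fin 2) F)) = 1
    rw [hxx]; simp
  have xinv : x * x * x = x⁻¹ := by
    apply eq_inv_of_mul_eq_one_left
    rw [← x4]; group
  rw [Subgroup.mem_normalizer_iff]
  constructor
  · intro hg
    have hz : g * x * g⁻¹ ∈ Subgroup.zpowers x := (hg x).1 (Subgroup.mem_zpowers x)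
    obtain ⟨k, hk⟩ := Subgroup.mem_zpowers_iff.1 hz
    obtain ⟨z, hzdef⟩ : ∃ z, z = g * x * g⁻¹ := ⟨_, rfl⟩
    rw [← hzdef] at hk
    have hcomm : z * x = x * z := by rw [← hk]; exact (Commute.zpow_self x k).eq
    have hzz : z * z = x * x := by
      rw [hzdef]
      calc g * x * g⁻¹ * (g * x * g⁻¹) = g * (x * x) * g⁻¹ := by group
        _ = x * x := by rw [sqc g, mul_inv_cancel_right]
    have hc2 : x⁻¹ * z = z * x⁻¹ := by
      rw [inv_mul_eq_iff_eq_mul, ← mul_assoc, ← hcomm, mul_inv_cancel_right]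
    have huu : z * x⁻¹ * (z * x⁻¹) = 1 := by
      calc z * x⁻¹ * (z * x⁻¹) = z * (x⁻¹ * z) * x⁻¹ := by group
        _ = z * (z * x⁻¹) * x⁻¹ := by rw [hc2]
        _ = (z * z) * (x * x)⁻¹ := by group
        _ = 1 := by rw [hzz, mul_inv_cancel]
    by_cases hu1 : z * x⁻¹ = 1
    · left
      have hzx : z = x := mul_inv_eq_one.1 hu1
      exact mul_inv_eq_iff_eq_mul.1 (hzdef.symm.trans hzx)
    · right
      have hm := Cfsg.Agent.S0268.result hodd (z * x⁻¹) hu1 huu
      have hzx : z * x⁻¹ = x * x := Subtype.ext (hm.trans hxx.symm)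
      have hzx' : z = x⁻¹ := by
        rw [← xinv, ← hzx, inv_mul_cancel_right]
      exact mul_inv_eq_iff_eq_mul.1 (hzdef.symm.trans hzx')
  · intro h
    have hzp : Subgroup.zpowers (g * x * g⁻¹) = Subgroup.zpowers x := by
      rcases h with h | h
      · rw [h, mul_inv_cancel_right]
      · rw [h, mul_inv_cancel_right, Subgroup.zpowers_inv]
    intro k
    show k ∈ Subgroup.zpowers x ↔ g * k * g⁻¹ ∈ Subgroup.zpowers x
    rw [mem_zpowers_conj g x k, hzp]

theorem mem_Cw {F : Type*} [Field F] (h : SpecialLinearGroup (Fin 2) F) :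
    h * wS F = wS F * h ↔ ((h : Matrix (Fin 2) (Fin 2) F) 1 1 = (h : Matrix (Fin 2) (Fin 2) F) 0 0 ∧
      (h : Matrix (Fin 2) (Fin 2) F) 1 0 = - (h : Matrix (Fin 2) (Fin 2) F) 0 1) := by
  constructor
  · intro hh
    have hm : (h : Matrix (Fin 2) (Fin 2) F) * !![0, -1; 1, 0] =
        !![0, -1; 1, 0] * (h : Matrix (Fin 2) (Fin 2) F) := congrArg Subtype.val hh
    have e00 := congrFun (congrFun hm 0) 0
    have e01 := congrFun (congrFun hm 0) 1
    simp only [Matrix.mul_apply, Fin.sum_univ_two] at e00 e01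
    simp at e00 e01
    constructor
    · rw [e01]
    · rw [e00]; simp
  · rintro ⟨h1, h2⟩
    apply Subtype.ext
    show (h : Matrix (Fin 2) (Fin 2) F) * !![0, -1; 1, 0] =
        !![0, -1; 1, 0] * (h : Matrix (Fin 2) (Fin 2) F)
    ext i j
    fin_cases i <;> fin_cases j <;> simp only [Matrix.mul_apply, Fin.sum_univ_two] <;>
      simp [h1, h2]

theorem ncard_Cw {F : Type*} [Field F] [Fintype F] :
    Set.ncard {h : SpecialLinearGroup (Fin 2) F | h * wS F = wS F * h} =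
      Set.ncard {p : F × F | p.1 ^ 2 + p.2 ^ 2 = 1} := by
  refine Set.ncard_congr (fun h _ => ((h : Matrix (Fin 2) (Fin 2) F) 0 0,
    (h : Matrix (Fin 2) (Fin 2) F) 0 1)) ?_ ?_ ?_
  · intro h hh
    obtain ⟨h1, h2⟩ := (mem_Cw h).1 hh
    have hd : (h : Matrix (Fin 2) (Fin 2) F) 0 0 * (h : Matrix (Fin 2) (Fin 2) F) 1 1 -
        (h : Matrix (Fin 2) (Fin 2) F) 0 1 * (h : Matrix (Fin 2) (Fin 2) F) 1 0 = 1 := by
      rw [← Matrix.det_fin_two]; exact h.2
    show ((h : Matrix (Fin 2) (Fin 2) F) 0 0) ^ 2 + ((h : Matrix (Fin 2) (Fin 2) F) 0 1) ^ 2 = 1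
    rw [h1, h2] at hd
    linear_combination hd
  · intro a b ha hb hab
    obtain ⟨a1, a2⟩ := (mem_Cw a).1 ha
    obtain ⟨b1, b2⟩ := (mem_Cw b).1 hb
    have e1 : (a : Matrix (Fin 2) (Fin 2) F) 0 0 = (b : Matrix (Fin 2) (Fin 2) F) 0 0 :=
      congrArg Prod.fst hab
    have e2 : (a : Matrix (Fin 2) (Fin 2) F) 0 1 = (b : Matrix (Fin 2) (Fin 2) F) 0 1 :=
      congrArg Prod.snd hab
    apply Subtype.ext
    ext i j
    fin_cases i <;> fin_cases j
    · exact e1
    · exact e2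
    · show (a : Matrix (Fin 2) (Fin 2) F) 1 0 = (b : Matrix (Fin 2) (Fin 2) F) 1 0
      rw [a2, b2, e2]
    · show (a : Matrix (Fin 2) (Fin 2) F) 1 1 = (b : Matrix (Fin 2) (Fin 2) F) 1 1
      rw [a1, b1, e1]
  · rintro ⟨a, b⟩ hab
    have hab' : a ^ 2 + b ^ 2 = 1 := hab
    have hdet : (!![a, b; -b, a] : Matrix (Fin 2) (Fin 2) F).det = 1 := by
      rw [Matrix.det_fin_two_of]; linear_combination hab'
    exact ⟨⟨!![a, b; -b, a], hdet⟩, (mem_Cw _).2 ⟨rfl, rfl⟩, rfl⟩

theorem conic_key {F : Type*} [Field F] (a b : F) (hab : a ^ 2 + b ^ 2 = 1)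
    (hne : (a, b) ≠ ((-1 : F), (0 : F))) (t : F) (ht : t = b / (1 + a)) :
    1 + a ≠ 0 ∧ b = t * (1 + a) ∧ (1 + a) * (1 + t ^ 2) = 2 := by
  have hs : 1 + a ≠ 0 := by
    intro h
    apply hne
    have ha : a = -1 := by linear_combination h
    have hb : b ^ 2 = 0 := by rw [ha] at hab; linear_combination hab
    have hb0 : b = 0 := (pow_eq_zero_iff (by norm_num)).1 hb
    rw [ha, hb0]
  have hb : b = t * (1 + a) := by rw [ht]; field_simp
  refine ⟨hs, hb, ?_⟩
  have hk : (1 + a) * ((1 + a) * (1 + t ^ 2) - 2) = 0 := by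
    linear_combination hab - (t * (1 + a) + b) * hb
  exact sub_eq_zero.1 ((mul_eq_zero.1 hk).resolve_left hs)

theorem ncard_conic {F : Type*} [Field F] [Fintype F] (h2 : (2 : F) ≠ 0) :
    Set.ncard {p : F × F | p.1 ^ 2 + p.2 ^ 2 = 1} + Set.ncard {t : F | t ^ 2 + 1 = 0} =
      Fintype.card F + 1 := by
  classical
  have hpt : ((-1 : F), (0 : F)) ∈ {p : F × F | p.1 ^ 2 + p.2 ^ 2 = 1} := by
    show (-1 : F) ^ 2 + (0 : F) ^ 2 = 1
    ring
  have h1 := Set.ncard_sdiff_singleton_add_one hpt (Set.toFinite _)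
  have h3 : Set.ncard ({p : F × F | p.1 ^ 2 + p.2 ^ 2 = 1} \ {((-1 : F), (0 : F))}) =
      Set.ncard ({t : F | t ^ 2 + 1 = 0}ᶜ) := by
    refine Set.ncard_congr (fun p _ => p.2 / (1 + p.1)) ?_ ?_ ?_
    · rintro ⟨a, b⟩ ⟨hab, hne⟩
      obtain ⟨hs, hb, hk⟩ := conic_key a b hab (fun h => hne (Set.mem_singleton_iff.2 h))
        (b / (1 + a)) rfl
      show ¬ ((b / (1 + a)) ^ 2 + 1 = 0)
      intro ht
      apply h2
      linear_combination (-1 : F) * hk + (1 + a) * ht
    · rintro ⟨a, b⟩ ⟨a', b'⟩ ⟨hab, hne⟩ ⟨hab', hne'⟩ heq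
      have heq' : b / (1 + a) = b' / (1 + a') := heq
      obtain ⟨t, ht⟩ : ∃ t, t = b / (1 + a) := ⟨_, rfl⟩
      obtain ⟨hs, hb, hk⟩ := conic_key a b hab (fun h => hne (Set.mem_singleton_iff.2 h)) t ht
      obtain ⟨hs', hb', hk'⟩ := conic_key a' b' hab' (fun h => hne' (Set.mem_singleton_iff.2 h))
        t (ht.trans heq')
      have h1t : 1 + t ^ 2 ≠ 0 := by
        intro h0
        rw [h0, mul_zero] at hk
        exact h2 hk.symm
      have hs_eq : 1 + a = 1 + a' := mul_right_cancel₀ h1t (hk.trans hk'.symm)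
      have ha : a = a' := add_left_cancel hs_eq
      have hbb : b = b' := by rw [hb, hb', hs_eq]
      rw [ha, hbb]
    · intro t ht
      have ht' : ¬ (t ^ 2 + 1 = 0) := ht
      have h1t : 1 + t ^ 2 ≠ 0 := by
        intro h; apply ht'; linear_combination h
      refine ⟨((1 - t ^ 2) / (1 + t ^ 2), 2 * t / (1 + t ^ 2)), ⟨?_, ?_⟩, ?_⟩
      · show ((1 - t ^ 2) / (1 + t ^ 2)) ^ 2 + (2 * t / (1 + t ^ 2)) ^ 2 = 1
        field_simp
        ring
      · intro h
        have h' : (1 - t ^ 2) / (1 + t ^ 2) = -1 := congrArg Prod.fst (Set.mem_singleton_iff.1 h)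
        rw [div_eq_iff h1t] at h'
        apply h2
        linear_combination h'
      · show 2 * t / (1 + t ^ 2) / (1 + (1 - t ^ 2) / (1 + t ^ 2)) = t
        have e : 1 + (1 - t ^ 2) / (1 + t ^ 2) = 2 / (1 + t ^ 2) := by
          field_simp
          ring
        rw [e]
        field_simp
  have h4 := Set.ncard_add_ncard_compl {t : F | t ^ 2 + 1 = 0}
  rw [Nat.card_eq_fintype_card] at h4
  omega

theorem ncardR_three {F : Type*} [Field F] [Fintype F] (hq : Fintype.card F % 4 = 3) :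
    Set.ncard {t : F | t ^ 2 + 1 = 0} = 0 := by
  have : {t : F | t ^ 2 + 1 = 0} = ∅ := by
    ext t
    simp only [Set.mem_empty_iff_false, iff_false]
    intro ht0
    have ht : t ^ 2 + 1 = 0 := ht0
    have hsq : IsSquare (-1 : F) := ⟨t, by linear_combination (-1 : F) * ht⟩
    rw [FiniteField.isSquare_neg_one_iff] at hsq
    exact hsq hq
  rw [this, Set.ncard_empty]

theorem ncardR_one {F : Type*} [Field F] [Fintype F] (h2 : (2 : F) ≠ 0)
    (hq : Fintype.card F % 4 = 1) : Set.ncard {t : F | t ^ 2 + 1 = 0} = 2 := by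
  have hsq : IsSquare (-1 : F) := by rw [FiniteField.isSquare_neg_one_iff]; omega
  obtain ⟨i, hi⟩ := hsq
  have hi0 : i ≠ 0 := by rintro rfl; simp at hi
  have : {t : F | t ^ 2 + 1 = 0} = {i, -i} := by
    ext t
    simp only [Set.mem_insert_iff, Set.mem_singleton_iff]
    constructor
    · intro ht0
      have ht : t ^ 2 + 1 = 0 := ht0
      have : (t - i) * (t + i) = 0 := by linear_combination ht + hi
      rcases mul_eq_zero.1 this with h | h
      · left; linear_combination h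
      · right; linear_combination h
    · rintro (h | h)
      · rw [h]; show i ^ 2 + 1 = 0; linear_combination (-1 : F) * hi
      · rw [h]; show (-i) ^ 2 + 1 = 0; linear_combination (-1 : F) * hi
  rw [this, Set.ncard_pair]
  intro h
  apply hi0
  have : (2 : F) * i = 0 := by linear_combination h
  exact (mul_eq_zero.1 this).resolve_left h2

theorem card_norm {F : Type*} [Field F] [Fintype F] (hodd : Odd (Fintype.card F))
    (x : SpecialLinearGroup (Fin 2) F)
    (hxx : (x : Matrix (Fin 2) (Fin 2) F) * (x : Matrix (Fin 2) (Fin 2) F) = -1) :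
    Nat.card (Subgroup.normalizer ((Subgroup.zpowers x : Subgroup (SpecialLinearGroup (Fin 2) F)) :
      Set (SpecialLinearGroup (Fin 2) F))) + 2 * Set.ncard {t : F | t ^ 2 + 1 = 0} =
      2 * (Fintype.card F + 1) := by
  classical
  have h2 := two_ne hodd
  have htx := tr_zero x hxx
  obtain ⟨P, hP⟩ := conjW hodd x htx
  have htx' : ((x⁻¹ : SpecialLinearGroup (Fin 2) F) : Matrix (Fin 2) (Fin 2) F) 0 0 +
      ((x⁻¹ : SpecialLinearGroup (Fin 2) F) : Matrix (Fin 2) (Fin 2) F) 1 1 = 0 := by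
    rw [Matrix.SpecialLinearGroup.coe_inv, Matrix.adjugate_fin_two]
    simp
    linear_combination htx
  obtain ⟨P', hP'⟩ := conjW hodd x⁻¹ htx'
  obtain ⟨g₀, hg₀def⟩ : ∃ g₀, g₀ = P' * P⁻¹ := ⟨_, rfl⟩
  have hg₀ : g₀ * x = x⁻¹ * g₀ := by
    have e1 : x⁻¹ = P' * wS F * P'⁻¹ := by rw [← hP', mul_inv_cancel_right]
    have e2 : wS F = P⁻¹ * x * P := by rw [mul_assoc, hP, inv_mul_cancel_left]
    rw [e1, e2, hg₀def]; group
  have hset : ((Subgroup.normalizer ((Subgroup.zpowers x : Subgroup (SpecialLinearGroup (Fin 2) F)) :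
      Set (SpecialLinearGroup (Fin 2) F)) : Subgroup (SpecialLinearGroup (Fin 2) F)) :
      Set (SpecialLinearGroup (Fin 2) F)) =
      {g | g * x = x * g} ∪ {g | g * x = x⁻¹ * g} := by
    ext g
    rw [SetLike.mem_coe, mem_norm hodd x hxx g]
    rfl
  have hdisj : Disjoint {g : SpecialLinearGroup (Fin 2) F | g * x = x * g}
      {g | g * x = x⁻¹ * g} := by
    rw [Set.disjoint_left]
    intro g hc hd
    have hc' : g * x = x * g := hc
    have hd' : g * x = x⁻¹ * g := hd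
    have hxi : x = x⁻¹ := mul_right_cancel (hc'.symm.trans hd')
    have h1 : x * x = 1 := by
      calc x * x = x * x⁻¹ := by rw [← hxi]
        _ = 1 := mul_inv_cancel x
    have h3 : (x : Matrix (Fin 2) (Fin 2) F) * (x : Matrix (Fin 2) (Fin 2) F) = 1 :=
      congrArg Subtype.val h1
    rw [hxx] at h3
    have h4 : (-1 : Matrix (Fin 2) (Fin 2) F) 0 0 = (1 : Matrix (Fin 2) (Fin 2) F) 0 0 := by
      rw [h3]
    rw [Matrix.neg_apply, Matrix.one_apply_eq] at h4
    apply h2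
    linear_combination (-1 : F) * h4
  have hD : {g : SpecialLinearGroup (Fin 2) F | g * x = x⁻¹ * g} =
      (fun c => c * g₀) '' {g | g * x = x * g} := by
    ext d
    constructor
    · intro hd
      have hd' : d * x = x⁻¹ * d := hd
      refine ⟨d * g₀⁻¹, ?_, inv_mul_cancel_right d g₀⟩
      have e1 : g₀⁻¹ * x = x⁻¹ * g₀⁻¹ := by
        calc g₀⁻¹ * x = (x⁻¹ * g₀)⁻¹ := by rw [_root_.mul_inv_rev, inv_inv]
          _ = (g₀ * x)⁻¹ := by rw [hg₀]
          _ = x⁻¹ * g₀⁻¹ := _root_.mul_inv_rev _ _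
      have e2 : d * x⁻¹ = x * d := by
        rw [mul_inv_eq_iff_eq_mul, mul_assoc, hd', mul_inv_cancel_left]
      show d * g₀⁻¹ * x = x * (d * g₀⁻¹)
      rw [mul_assoc, e1, ← mul_assoc, e2, mul_assoc]
    · rintro ⟨c, hc, rfl⟩
      have hc' : c * x = x * c := hc
      have e3 : c * x⁻¹ = x⁻¹ * c := by
        rw [mul_inv_eq_iff_eq_mul, mul_assoc, hc', inv_mul_cancel_left]
      show c * g₀ * x = x⁻¹ * (c * g₀)
      rw [mul_assoc, hg₀, ← mul_assoc, e3, mul_assoc]
  have e4 : P⁻¹ * x = wS F * P⁻¹ := by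
    rw [inv_mul_eq_iff_eq_mul, ← mul_assoc, ← hP, mul_inv_cancel_right]
  have hC : {g : SpecialLinearGroup (Fin 2) F | g * x = x * g} =
      (fun h => P * h * P⁻¹) '' {h | h * wS F = wS F * h} := by
    ext g
    constructor
    · intro hg
      have hg' : g * x = x * g := hg
      refine ⟨P⁻¹ * g * P, ?_, by group⟩
      show P⁻¹ * g * P * wS F = wS F * (P⁻¹ * g * P)
      calc P⁻¹ * g * P * wS F = P⁻¹ * g * (P * wS F) := mul_assoc _ _ _
        _ = P⁻¹ * g * (x * P) := by rw [hP]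
        _ = P⁻¹ * (g * x) * P := by group
        _ = P⁻¹ * (x * g) * P := by rw [hg']
        _ = (P⁻¹ * x) * g * P := by group
        _ = wS F * P⁻¹ * g * P := by rw [e4]
        _ = wS F * (P⁻¹ * g * P) := by group
    · rintro ⟨h, hh, rfl⟩
      have hh' : h * wS F = wS F * h := hh
      show P * h * P⁻¹ * x = x * (P * h * P⁻¹)
      calc P * h * P⁻¹ * x = P * h * (P⁻¹ * x) := mul_assoc _ _ _
        _ = P * h * (wS F * P⁻¹) := by rw [e4]
        _ = P * (h * wS F) * P⁻¹ := by group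
        _ = P * (wS F * h) * P⁻¹ := by rw [hh']
        _ = (P * wS F) * h * P⁻¹ := by group
        _ = x * P * h * P⁻¹ := by rw [hP]
        _ = x * (P * h * P⁻¹) := by group
  have hN : Nat.card (Subgroup.normalizer ((Subgroup.zpowers x :
      Subgroup (SpecialLinearGroup (Fin 2) F)) : Set (SpecialLinearGroup (Fin 2) F))) =
      Set.ncard ({g : SpecialLinearGroup (Fin 2) F | g * x = x * g} ∪ {g | g * x = x⁻¹ * g}) := by
    rw [← hset]; rfl
  rw [hN, Set.ncard_union_eq hdisj (Set.toFinite _) (Set.toFinite _), hD,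
    Set.ncard_image_of_injective _ (mul_left_injective g₀), hC,
    Set.ncard_image_of_injective _ (fun a b hab => by simpa using hab), ncard_Cw]
  have := ncard_conic (F := F) h2
  omega

theorem psl_tr {F : Type*} [Field F] [Fintype F] (hodd : Odd (Fintype.card F))
    (x : SpecialLinearGroup (Fin 2) F)
    (hx : orderOf (QuotientGroup.mk x : Matrix.ProjectiveSpecialLinearGroup (Fin 2) F) = 2) :
    (x : Matrix (Fin 2) (Fin 2) F) 0 0 + (x : Matrix (Fin 2) (Fin 2) F) 1 1 = 0 := by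
  have h2 := two_ne hodd
  have hx2 : (QuotientGroup.mk x : Matrix.ProjectiveSpecialLinearGroup (Fin 2) F) ^ 2 = 1 := by
    have h := pow_orderOf_eq_one (QuotientGroup.mk x : Matrix.ProjectiveSpecialLinearGroup (Fin 2) F)
    rw [hx] at h
    exact h
  have hx1 : (QuotientGroup.mk x : Matrix.ProjectiveSpecialLinearGroup (Fin 2) F) ≠ 1 := by
    intro h; rw [h, orderOf_one] at hx; omega
  rw [← QuotientGroup.mk_pow, QuotientGroup.eq_one_iff,
    Matrix.SpecialLinearGroup.mem_center_iff] at hx2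
  obtain ⟨r, hr, hr2⟩ := hx2
  have hr' : r ^ 2 = 1 := by simpa using hr
  rw [Matrix.SpecialLinearGroup.coe_pow, Matrix.scalar_apply, ← Matrix.smul_one_eq_diagonal,
    pow_two] at hr2
  have hrr : r = 1 ∨ r = -1 := by
    have : (r - 1) * (r + 1) = 0 := by linear_combination hr'
    rcases mul_eq_zero.1 this with h | h
    · left; linear_combination h
    · right; linear_combination h
  rcases hrr with hr1 | hr1
  · exfalso
    apply hx1
    rw [QuotientGroup.eq_one_iff]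
    have hxx : x * x = 1 := by
      apply Subtype.ext
      show (x : Matrix (Fin 2) (Fin 2) F) * (x : Matrix (Fin 2) (Fin 2) F) = 1
      rw [← hr2, hr1, one_smul]
    by_cases h1 : x = 1
    · rw [h1]; exact Subgroup.one_mem _
    · have hm := Cfsg.Agent.S0268.result hodd x h1 hxx
      rw [Matrix.SpecialLinearGroup.mem_center_iff]
      refine ⟨-1, by simp, ?_⟩
      rw [hm]
      ext i j
      fin_cases i <;> fin_cases j <;> simp
  · apply tr_zero x
    rw [← hr2, hr1]; simp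


/-- In SL_2(q), q odd: any two subgroups of order 4 are conjugate, and the normaliser of a subgroup of order 4 has order 2(q − 1) if q ≡ 1 (mod 4) and 2(q + 1) if q ≡ 3 (mod 4); consequently all involutions of PSL_2(q) are conjugate. -/
theorem result {F : Type*} [Field F] [Fintype F] {q : ℕ} (hF : Fintype.card F = q) (hodd : Odd q) (A : Subgroup (Matrix.SpecialLinearGroup (Fin 2) F)) (hA : Nat.card A = 4) : (∀ B : Subgroup (Matrix.SpecialLinearGroup (Fin 2) F), Nat.card B = 4 → ∃ g : Matrix.SpecialLinearGroup (Fin 2) F, B = A.map (MulAut.conj g).toMonoidHom) ∧ (q % 4 = 1 → Nat.card ↥(Subgroup.normalizer (A : Set (Matrix.SpecialLinearGroup (Fin 2) F))) = 2 * (q - 1)) ∧ (q % 4 = 3 → Nat.card ↥(Subgroup.normalizer (A : Set (Matrix.SpecialLinearGroup (Fin 2) F))) = 2 * (q + 1)) ∧ (∀ x y : Matrix.ProjectiveSpecialLinearGroup (Fin 2) F, orderOf x = 2 → orderOf y = 2 → IsConj x y) := by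
  subst hF
  classical
  obtain ⟨x, hxx, hAx⟩ := exists_gen hodd A hA
  subst hAx
  have htx := tr_zero x hxx
  obtain ⟨P, hP⟩ := conjW hodd x htx
  have hN := card_norm hodd x hxx
  refine ⟨?_, ?_, ?_, ?_⟩
  · intro B hB
    obtain ⟨y, hyy, hBy⟩ := exists_gen hodd B hB
    obtain ⟨R, hR⟩ := conjW hodd y (tr_zero y hyy)
    refine ⟨R * P⁻¹, ?_⟩
    rw [hBy, MonoidHom.map_zpowers]
    congr 1
    show y = R * P⁻¹ * x * (R * P⁻¹)⁻¹
    have e1 : y = R * wS F * R⁻¹ := by rw [← hR, mul_inv_cancel_right]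
    have e2 : wS F = P⁻¹ * x * P := by rw [mul_assoc, hP, inv_mul_cancel_left]
    rw [e1, e2]; group
  · intro hq
    have := ncardR_one (two_ne hodd) hq
    omega
  · intro hq
    have := ncardR_three (F := F) hq
    omega
  · intro a b ha hb
    obtain ⟨a, rfl⟩ := QuotientGroup.mk_surjective a
    obtain ⟨b, rfl⟩ := QuotientGroup.mk_surjective b
    obtain ⟨P1, hP1⟩ := conjW hodd a (psl_tr hodd a ha)
    obtain ⟨P2, hP2⟩ := conjW hodd b (psl_tr hodd b hb)
    rw [isConj_iff]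
    refine ⟨QuotientGroup.mk (P2 * P1⁻¹), ?_⟩
    rw [← QuotientGroup.mk_inv, ← QuotientGroup.mk_mul, ← QuotientGroup.mk_mul]
    congr 1
    have e1 : b = P2 * wS F * P2⁻¹ := by rw [← hP2, mul_inv_cancel_right]
    have e2 : wS F = P1⁻¹ * a * P1 := by rw [mul_assoc, hP1, inv_mul_cancel_left]
    rw [e1, e2]; group

end Cfsg.Agent.S0809
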