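import Cfsg.Statements.S0819
import Mathlib

set_option autoImplicit false
open Cfsg

namespace Cfsg.Agent.S0819

theorem f4 {F : Type*} [Field F] [Fintype F] (hF : Fintype.card F = 4) :
    (2 : F) = 0 ∧ ∃ ω : F, ω ^ 2 + ω + 1 = 0 ∧ ∀ y : F, y = 0 ∨ y = 1 ∨ y = ω ∨ y = ω + 1 := by
  classical
  have h2 : (2 : F) = 0 := by
    have h4 : ((4:ℕ) : F) = 0 := by rw [← hF]; exact FiniteField.cast_card_eq_zero F
    have h22 : (2:F) * 2 = 0 := by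
      have : ((4:ℕ):F) = 2 * 2 := by norm_num
      rw [← this]; exact h4
    exact mul_self_eq_zero.1 h22
  refine ⟨h2, ?_⟩
  have hlt : ({0, 1} : Finset F).card < (Finset.univ : Finset F).card := by
    rw [Finset.card_univ, hF]
    exact lt_of_le_of_lt (Finset.card_insert_le _ _) (by simp)
  obtain ⟨y, -, hy⟩ := Finset.exists_mem_notMem_of_card_lt_card hlt
  simp only [Finset.mem_insert, Finset.mem_singleton, not_or] at hy
  have hy3 : y ^ 3 = 1 := by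
    have := FiniteField.pow_card_sub_one_eq_one y hy.1
    rw [hF] at this
    simpa using this
  have hyy : y ^ 2 + y + 1 = 0 := by
    have : (y - 1) * (y ^ 2 + y + 1) = 0 := by linear_combination hy3
    rcases mul_eq_zero.1 this with h | h
    · exact absurd (sub_eq_zero.1 h) hy.2
    · exact h
  refine ⟨y, hyy, ?_⟩
  have hy1' : y + 1 ≠ 0 := fun h => hy.2 (by linear_combination h - h2)
  have hne1 : (1:F) ≠ y + 1 := fun h => hy.1 (by linear_combination -h)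
  have hne2 : y ≠ y + 1 := fun h => one_ne_zero (by linear_combination -h)
  have hcard : ({0, 1, y, y + 1} : Finset F).card = 4 := by
    rw [Finset.card_insert_of_notMem, Finset.card_insert_of_notMem,
      Finset.card_insert_of_notMem, Finset.card_singleton]
    all_goals simp [hne2, Ne.symm hy.2, hne1, Ne.symm hy.1, hy1'.symm]
  have huniv : ({0, 1, y, y + 1} : Finset F) = Finset.univ :=
    Finset.eq_univ_of_card _ (by rw [hcard, hF])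
  intro z
  have := Finset.mem_univ z
  rw [← huniv] at this
  simpa using this

set_option maxHeartbeats 4000000 in
theorem core {R : Type*} [CommRing R] (w x : R) (h2 : (2:R) = 0) (hw : w^2 + w + 1 = 0)
    (a b c : R) (ha : 0 = a ∨ 1 = a ∨ w = a ∨ w + 1 = a)
    (hb : 0 = b ∨ 1 = b ∨ w = b ∨ w + 1 = b)
    (hc : 1 = c ∨ w = c ∨ w + 1 = c)
    (h1 : x^3 + a * x^2 + b * x + 1 = 0) (h15 : x^15 = c) :
    (1:R) = 0 ∨ x^5 = 1 ∨ x^5 = w ∨ x^5 = w + 1 ∨ x^3 = 1 ∨ x^3 = w ∨ x^3 = w + 1 := by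
  rcases ha with rfl | rfl | rfl | rfl <;> rcases hb with rfl | rfl | rfl | rfl <;>
    rcases hc with rfl | rfl | rfl
  · right; right; right; right; left; linear_combination (1) * h1 + (0) * h15 + ((-1)) * h2 + (0) * hw
  · left; linear_combination (w + w * x^3 + w * x^6 + w * x^9 + w * x^12) * h1 + (w) * h15 + ((-1) * w^1 + (-1) * x^3 * w^1 + (-1) * x^6 * w^1 + (-1) * x^9 * w^1 + (-1) * x^12 * w^1 + (-1) * x^15 * w^1) * h2 + (1) * hw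
  · left; linear_combination ((w+1) + (w+1) * x^3 + (w+1) * x^6 + (w+1) * x^9 + (w+1) * x^12) * h1 + ((w+1)) * h15 + ((-1) * x^3 + (-1) * x^3 * w^1 + (-1) * x^6 + (-1) * x^6 * w^1 + (-1) * x^9 + (-1) * x^9 * w^1 + (-1) * x^12 + (-1) * x^12 * w^1 + (-1) * x^15 + (-1) * x^15 * w^1) * h2 + (1) * hw
  · left; linear_combination (1 + x^2 + x^5 + x^6 + x^7 + x^9 + x^12 + x^13 + x^14) * h1 + (x^1 + x^2) * h15 + ((-1) * x^3 + (-1) * x^5 + (-1) * x^6 + (-1) * x^7 + (-1) * x^8 + (-1) * x^9 + (-1) * x^10 + (-1) * x^12 + (-1) * x^13 + (-1) * x^14 + (-1) * x^15 + (-1) * x^16 + (-1) * x^17) * h2 + (0) * hw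
  · left; linear_combination ((w+1) + x^1 + (w+1) * x^3 + w * x^4 + w * x^5 + x^6 + (w+1) * x^7 + x^8 + (w+1) * x^10 + w * x^11 + w * x^12 + x^13 + (w+1) * x^14) * h1 + (1 + x^1 + (w+1) * x^2) * h15 + ((-1) * x^1 + (-1) * x^2 + (-1) * x^3 + (-1) * x^3 * w^1 + (-1) * x^4 + (-1) * x^4 * w^1 + (-1) * x^5 * w^1 + (-1) * x^6 + (-1) * x^6 * w^1 + (-1) * x^7 + (-1) * x^7 * w^1 + (-1) * x^8 + (-1) * x^8 * w^1 + (-1) * x^9 + (-1) * x^10 + (-1) * x^10 * w^1 + (-1) * x^11 + (-1) * x^11 * w^1 + (-1) * x^12 * w^1 + (-1) * x^13 + (-1) * x^13 * w^1 + (-1) * x^14 + (-1) * x^14 * w^1 + (-1) * x^15 + (-1) * x^15 * w^1 + (-1) * x^16 + (-1) * x^17 + (-1) * x^17 * w^1) * h2 + (1 * x^2) * hw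
  · left; linear_combination (w + x^1 + w * x^3 + (w+1) * x^4 + (w+1) * x^5 + x^6 + w * x^7 + x^8 + w * x^10 + (w+1) * x^11 + (w+1) * x^12 + x^13 + w * x^14) * h1 + (1 + x^1 + w * x^2) * h15 + (1 + (-1) * x^2 + (-1) * x^3 * w^1 + (-1) * x^4 + (-1) * x^4 * w^1 + (-1) * x^5 + (-1) * x^5 * w^1 + (-1) * x^6 + (-1) * x^6 * w^1 + (-1) * x^7 + (-1) * x^7 * w^1 + (-1) * x^8 + (-1) * x^8 * w^1 + (-1) * x^9 + (-1) * x^10 * w^1 + (-1) * x^11 + (-1) * x^11 * w^1 + (-1) * x^12 + (-1) * x^12 * w^1 + (-1) * x^13 + (-1) * x^13 * w^1 + (-1) * x^14 + (-1) * x^14 * w^1 + (-1) * x^15 + (-1) * x^15 * w^1 + (-1) * x^16 + (-1) * x^17 * w^1) * h2 + (1 * x^2) * hw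
  · left; linear_combination (1 + (w+1) * x^2 + (w+1) * x^5 + x^6 + w * x^7 + x^9 + x^12 + w * x^13 + (w+1) * x^14) * h1 + (w * x^1 + (w+1) * x^2) * h15 + ((-1) * x^5 + (-1) * x^5 * w^1 + (-1) * x^7 * w^1 + (-1) * x^9 + (-1) * x^10 * w^1 + (-1) * x^12 + (-1) * x^13 * w^1 + (-1) * x^16 * w^1 + (-1) * x^17 + (-1) * x^17 * w^1) * h2 + ((-1) * x^3 + (-1) * x^6 + (-1) * x^8 + (-1) * x^14 + (-1) * x^15) * hw
  · left; linear_combination ((w+1) + w * x^1 + (w+1) * x^3 + (w+1) * x^4 + x^5 + x^6 + x^7 + (w+1) * x^8 + x^10 + x^11 + w * x^12 + w * x^13 + w * x^14) * h1 + (1 + w * x^1 + w * x^2) * h15 + ((-1) * x^1 * w^1 + (-1) * x^3 + (-1) * x^3 * w^1 + (-1) * x^4 * w^1 + (-1) * x^6 + (-1) * x^6 * w^1 + (-1) * x^7 + (-1) * x^7 * w^1 + (-1) * x^8 + (-1) * x^8 * w^1 + (-1) * x^10 + (-1) * x^11 + (-1) * x^11 * w^1 + (-1) * x^12 * w^1 + (-1) * x^16 * w^1 + (-1) * x^17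 * w^1) * h2 + ((-1) * x^4 + (-1) * x^5 + (-1) * x^9 + (-1) * x^13 + (-1) * x^14 + (-1) * x^15) * hw
  · left; linear_combination (w + w * x^1 + w * x^3 + x^4 + w * x^5 + x^6 + (w+1) * x^7 + (w+1) * x^8 + (w+1) * x^10 + w * x^11 + (w+1) * x^12 + w * x^13 + x^14) * h1 + (1 + w * x^1 + x^2) * h15 + (1 + 1 * x^2 + 1 * x^2 * w^1 + (-1) * x^3 * w^1 + (-1) * x^5 * w^1 + (-1) * x^7 + (-1) * x^7 * w^1 + (-1) * x^8 * w^1 + (-1) * x^10 + (-1) * x^10 * w^1 + (-1) * x^11 * w^1 + (-1) * x^13 * w^1 + (-1) * x^15 + (-1) * x^15 * w^1 + (-1) * x^16 * w^1 + (-1) * x^17) * h2 + ((-1) * x^2 + (-1) * x^4 + (-1) * x^6 + (-1) * x^8 + (-1) * x^9 + (-1) * x^11 + (-1) * x^12 + (-1) * x^13 + (-1) * x^14) * hw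
  · left; linear_combination (1 + w * x^2 + w * x^5 + x^6 + (w+1) * x^7 + x^9 + x^12 + (w+1) * x^13 + w * x^14) * h1 + ((w+1) * x^1 + w * x^2) * h15 + ((-1) * x^5 * w^1 + (-1) * x^7 + (-1) * x^7 * w^1 + (-1) * x^8 * w^1 + (-1) * x^9 + (-1) * x^10 + (-1) * x^10 * w^1 + (-1) * x^12 + (-1) * x^13 + (-1) * x^13 * w^1 + (-1) * x^14 * w^1 + (-1) * x^16 + (-1) * x^16 * w^1 + (-1) * x^17 * w^1) * h2 + ((-1) * x^3 + (-1) * x^6 + (-1) * x^8 + (-1) * x^14 + (-1) * x^15) * hw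
  · left; linear_combination ((w+1) + (w+1) * x^1 + (w+1) * x^3 + x^4 + (w+1) * x^5 + x^6 + w * x^7 + w * x^8 + w * x^10 + (w+1) * x^11 + w * x^12 + (w+1) * x^13 + x^14) * h1 + (1 + (w+1) * x^1 + x^2) * h15 + ((-1) * x^1 + (-1) * x^1 * w^1 + (-1) * x^3 + (-1) * x^3 * w^1 + (-1) * x^4 + (-1) * x^4 * w^1 + (-1) * x^5 + (-1) * x^5 * w^1 + (-1) * x^6 + (-1) * x^6 * w^1 + (-1) * x^7 + (-1) * x^7 * w^1 + (-1) * x^8 * w^1 + (-1) * x^10 * w^1 + (-1) * x^11 * w^1 + (-1) * x^12 * w^1 + (-1) * x^13 * w^1 + (-1) * x^14 + (-1) * x^14 * w^1 + (-1) * x^15 + (-1) * x^15 * w^1 + (-1) * x^16 + (-1) * x^16 * w^1 + (-1) * x^17) * h2 + ((-1) * x^2 + (-1) * x^4 + (-1) * x^6 + (-1) * x^8 + (-1) * x^9 + (-1) * x^11 + (-1) * x^12 + (-1) * x^13 + (-1) * x^14) * hw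
  · left; linear_combination (w + (w+1) * x^1 + w * x^3 + w * x^4 + x^5 + x^6 + x^7 + w * x^8 + x^10 + x^11 + (w+1) * x^12 + (w+1) * x^13 + (w+1) * x^14) * h1 + (1 + (w+1) * x^1 + (w+1) * x^2) * h15 + (1 + (-1) * x^3 * w^1 + (-1) * x^4 * w^1 + (-1) * x^6 + (-1) * x^6 * w^1 + (-1) * x^7 + (-1) * x^7 * w^1 + (-1) * x^8 + (-1) * x^8 * w^1 + (-1) * x^10 + (-1) * x^11 + (-1) * x^11 * w^1 + (-1) * x^12 + (-1) * x^12 * w^1 + (-1) * x^13 + (-1) * x^13 * w^1 + (-1) * x^14 + (-1) * x^14 * w^1 + (-1) * x^15 + (-1) * x^15 * w^1 + (-1) * x^16 + (-1) * x^16 * w^1 + (-1) * x^17 + (-1) * x^17 * w^1) * h2 + ((-1) * x^4 + (-1) * x^5 + (-1) * x^9 + (-1) * x^13 + (-1) * x^14 + (-1) * x^15) * hw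
  · left; linear_combination (1 + x^3 + x^5 + x^6 + x^7 + x^10 + x^12 + x^13 + x^14) * h1 + (x^2) * h15 + ((-1) * x^3 + (-1) * x^5 + (-1) * x^6 + (-1) * x^7 + (-1) * x^8 + (-1) * x^9 + (-1) * x^10 + (-1) * x^12 + (-1) * x^13 + (-1) * x^14 + (-1) * x^15 + (-1) * x^16 + (-1) * x^17) * h2 + (0) * hw
  · left; linear_combination (w + w * x^1 + x^2 + (w+1) * x^4 + x^5 + (w+1) * x^6 + w * x^7 + w * x^8 + x^9 + (w+1) * x^11 + x^12 + (w+1) * x^13 + w * x^14) * h1 + (w + x^1 + w * x^2) * h15 + ((-1) * w^1 + (-1) * x^2 + (-1) * x^2 * w^1 + (-1) * x^3 * w^1 + (-1) * x^4 + (-1) * x^4 * w^1 + (-1) * x^5 + (-1) * x^6 + (-1) * x^6 * w^1 + (-1) * x^7 + (-1) * x^7 * w^1 + (-1) * x^8 + (-1) * x^8 * w^1 + (-1) * x^9 + (-1) * x^9 * w^1 + (-1) * x^10 * w^1 + (-1) * x^11 + (-1) * x^11 * w^1 + (-1) * x^12 + (-1) * x^13 + (-1) * x^13 * w^1 + (-1) * x^14 + (-1) * x^14 * w^1 + (-1)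 * x^15 + (-1) * x^15 * w^1 + (-1) * x^16 + (-1) * x^16 * w^1 + (-1) * x^17 * w^1) * h2 + (1 + 1 * x^2) * hw
  · left; linear_combination ((w+1) + (w+1) * x^1 + x^2 + w * x^4 + x^5 + w * x^6 + (w+1) * x^7 + (w+1) * x^8 + x^9 + w * x^11 + x^12 + w * x^13 + (w+1) * x^14) * h1 + ((w+1) + x^1 + (w+1) * x^2) * h15 + ((-1) * x^2 + (-1) * x^3 + (-1) * x^3 * w^1 + (-1) * x^4 + (-1) * x^4 * w^1 + (-1) * x^5 + (-1) * x^6 * w^1 + (-1) * x^7 + (-1) * x^7 * w^1 + (-1) * x^8 + (-1) * x^8 * w^1 + (-1) * x^9 + (-1) * x^9 * w^1 + (-1) * x^10 + (-1) * x^10 * w^1 + (-1) * x^11 + (-1) * x^11 * w^1 + (-1) * x^12 + (-1) * x^13 * w^1 + (-1) * x^14 + (-1) * x^14 * w^1 + (-1) * x^15 + (-1) * x^15 * w^1 + (-1) * x^16 + (-1) * x^16 * w^1 + (-1) * x^17 + (-1) * x^17 * w^1) * h2 + (1 + 1 * x^2) * hw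
  · right; right; right; right; left; linear_combination (1 + x^3 + x^4 + x^7 + x^8 + x^11 + x^12 + x^15) * h1 + (x^1 + x^2 + x^3) * h15 + ((-1) + (-1) * x^4 + (-1) * x^5 + (-1) * x^6 + (-1) * x^7 + (-1) * x^8 + (-1) * x^9 + (-1) * x^10 + (-1) * x^11 + (-1) * x^12 + (-1) * x^13 + (-1) * x^14 + (-1) * x^15 + (-1) * x^16 + (-1) * x^17 + (-1) * x^18) * h2 + (0) * hw
  · left; linear_combination (x^1 + w * x^2 + (w+1) * x^3 + x^5 + w * x^6 + (w+1) * x^7 + x^9 + w * x^10 + (w+1) * x^11 + x^13 + w * x^14) * h1 + ((w+1) + (w+1) * x^1 + w * x^2) * h15 + ((-1) * x^1 + (-1) * x^2 + (-1) * x^2 * w^1 + (-1) * x^3 + (-1) * x^3 * w^1 + (-1) * x^4 + (-1) * x^4 * w^1 + (-1) * x^5 + (-1) * x^5 * w^1 + (-1) * x^6 + (-1) * x^6 * w^1 + (-1) * x^7 + (-1) * x^7 * w^1 + (-1) * x^8 + (-1) * x^8 * w^1 + (-1) * x^9 + (-1) * x^9 * w^1 + (-1) * x^10 + (-1) * x^10 * w^1 + (-1) * x^11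 + (-1) * x^11 * w^1 + (-1) * x^12 + (-1) * x^12 * w^1 + (-1) * x^13 + (-1) * x^13 * w^1 + (-1) * x^14 + (-1) * x^14 * w^1 + (-1) * x^15 + (-1) * x^15 * w^1 + (-1) * x^16 + (-1) * x^16 * w^1 + (-1) * x^17 * w^1) * h2 + (1 + 1 * x^1 + 1 * x^2) * hw
  · left; linear_combination (x^1 + (w+1) * x^2 + w * x^3 + x^5 + (w+1) * x^6 + w * x^7 + x^9 + (w+1) * x^10 + w * x^11 + x^13 + (w+1) * x^14) * h1 + (w + w * x^1 + (w+1) * x^2) * h15 + ((-1) * x^1 + (-1) * x^2 + (-1) * x^3 + (-1) * x^3 * w^1 + (-1) * x^4 + (-1) * x^4 * w^1 + (-1) * x^5 + (-1) * x^5 * w^1 + (-1) * x^6 + (-1) * x^6 * w^1 + (-1) * x^7 + (-1) * x^7 * w^1 + (-1) * x^8 + (-1) * x^8 * w^1 + (-1) * x^9 + (-1) * x^9 * w^1 + (-1) * x^10 + (-1) * x^10 * w^1 + (-1) * x^11 + (-1) * x^11 * w^1 + (-1) * x^12 + (-1) * x^12 * w^1 + (-1) * x^13 + (-1) * x^13 * w^1 + (-1) * x^14 + (-1) * x^14 * w^1 + (-1) * x^15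 + (-1) * x^15 * w^1 + (-1) * x^16 + (-1) * x^16 * w^1 + (-1) * x^17 + (-1) * x^17 * w^1) * h2 + (1 + 1 * x^1 + 1 * x^2) * hw
  · right; right; right; left; linear_combination ((w+1) + x^1 + x^2) * h1 + (0) * h15 + ((-1) + (-1) * w^1 + (-1) * x^2 + (-1) * x^2 * w^1 + (-1) * x^3 + (-1) * x^3 * w^1 + (-1) * x^4) * h2 + ((-1) * x^1) * hw
  · left; linear_combination (w + (w+1) * x^1 + (w+1) * x^2 + (w+1) * x^5 + x^6 + x^7 + x^10 + w * x^11 + w * x^12) * h1 + (w) * h15 + ((-1) * w^1 + (-1) * x^2 * w^1 + (-1) * x^3 * w^1 + (-1) * x^4 + (-1) * x^4 * w^1 + (-1) * x^5 + (-1) * x^5 * w^1 + (-1) * x^7 + (-1) * x^7 * w^1 + (-1) * x^8 + (-1) * x^8 * w^1 + (-1) * x^9 + (-1) * x^10 + (-1) * x^11 * w^1 + (-1) * x^14 * w^1 + (-1) * x^15 * w^1) * h2 + (1 + (-1) * x^1 + (-1) * x^2 + (-1) * x^3 + (-1) * x^6 + (-1) * x^12 + (-1) * x^13) * hw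
  · left; linear_combination ((w+1) + x^1 + x^2 + x^5 + w * x^6 + w * x^7 + w * x^10 + (w+1) * x^11 + (w+1) * x^12) * h1 + ((w+1)) * h15 + ((-1) * x^2 + (-1) * x^2 * w^1 + (-1) * x^3 + (-1) * x^3 * w^1 + (-1) * x^4 + (-1) * x^5 + (-1) * x^6 * w^1 + (-1) * x^9 * w^1 + (-1) * x^10 * w^1 + (-1) * x^12 * w^1 + (-1) * x^13 * w^1 + (-1) * x^14 + (-1) * x^14 * w^1 + (-1) * x^15 + (-1) * x^15 * w^1) * h2 + (1 + (-1) * x^1 + (-1) * x^7 + (-1) * x^8 + (-1) * x^11 + (-1) * x^12 + (-1) * x^13) * hw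
  · right; right; left; linear_combination (w + x^1 + x^2) * h1 + (0) * h15 + ((-1) * w^1 + (-1) * x^2 + (-1) * x^2 * w^1 + (-1) * x^3 + (-1) * x^3 * w^1 + (-1) * x^4) * h2 + ((-1) * x^1) * hw
  · left; linear_combination (w + x^1 + x^2 + x^5 + (w+1) * x^6 + (w+1) * x^7 + (w+1) * x^10 + w * x^11 + w * x^12) * h1 + (w) * h15 + ((-1) * w^1 + (-1) * x^2 + (-1) * x^2 * w^1 + (-1) * x^3 + (-1) * x^3 * w^1 + (-1) * x^4 + (-1) * x^5 + (-1) * x^6 + (-1) * x^6 * w^1 + (-1) * x^7 + (-1) * x^7 * w^1 + (-1) * x^8 + (-1) * x^8 * w^1 + (-1) * x^9 + (-1) * x^9 * w^1 + (-1) * x^10 + (-1) * x^10 * w^1 + (-1) * x^11 * w^1 + (-1) * x^12 * w^1 + (-1) * x^13 * w^1 + (-1) * x^14 * w^1 + (-1) * x^15 * w^1) * h2 + (1 + (-1) * x^1 + (-1) * x^7 + (-1) * x^8 + (-1) * x^11 + (-1) * x^12 + (-1) * x^13) * hw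
  · left; linear_combination ((w+1) + w * x^1 + w * x^2 + w * x^5 + x^6 + x^7 + x^10 + (w+1) * x^11 + (w+1) * x^12) * h1 + ((w+1)) * h15 + ((-1) * x^1 * w^1 + (-1) * x^2 * w^1 + (-1) * x^3 * w^1 + (-1) * x^4 * w^1 + (-1) * x^5 * w^1 + (-1) * x^7 + (-1) * x^7 * w^1 + (-1) * x^8 + (-1) * x^8 * w^1 + (-1) * x^9 + (-1) * x^10 + (-1) * x^11 + (-1) * x^11 * w^1 + (-1) * x^12 + (-1) * x^12 * w^1 + (-1) * x^13 + (-1) * x^13 * w^1 + (-1) * x^14 + (-1) * x^14 * w^1 + (-1) * x^15 + (-1) * x^15 * w^1) * h2 + (1 + (-1) * x^1 + (-1) * x^2 + (-1) * x^3 + (-1) * x^6 + (-1) * x^12 + (-1) * x^13) * hw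
  · left; linear_combination (1 + x^3 + w * x^5 + x^6 + (w+1) * x^7 + (w+1) * x^10 + x^12 + (w+1) * x^13 + w * x^14) * h1 + (w * x^2) * h15 + ((-1) * x^3 + (-1) * x^5 * w^1 + (-1) * x^6 + (-1) * x^8 * w^1 + (-1) * x^10 + (-1) * x^10 * w^1 + (-1) * x^13 + (-1) * x^13 * w^1 + (-1) * x^14 * w^1 + (-1) * x^17 * w^1) * h2 + ((-1) * x^7 + (-1) * x^9 + (-1) * x^12 + (-1) * x^15 + (-1) * x^16) * hw
  · left; linear_combination (w + x^1 + w * x^2 + w * x^4 + w * x^5 + (w+1) * x^6 + x^7 + (w+1) * x^8 + x^9 + x^11 + x^12 + w * x^13 + (w+1) * x^14) * h1 + (w + (w+1) * x^1 + (w+1) * x^2) * h15 + ((-1) * w^1 + (-1) * x^1 + (-1) * x^3 * w^1 + (-1) * x^5 * w^1 + (-1) * x^8 * w^1 + (-1) * x^9 + (-1) * x^9 * w^1 + (-1) * x^11 + (-1) * x^11 * w^1 + (-1) * x^12 + (-1) * x^13 * w^1 + (-1) * x^14 + (-1) * x^14 * w^1 + (-1) * x^16 * w^1 + (-1) * x^17 + (-1) * x^17 * w^1) * h2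 + (1 + 1 * x^1 + (-1) * x^4 + (-1) * x^6 + (-1) * x^7 + (-1) * x^8 + (-1) * x^10 + (-1) * x^15 + (-1) * x^16) * hw
  · left; linear_combination ((w+1) + w * x^1 + w * x^2 + x^4 + w * x^5 + w * x^6 + w * x^7 + x^8 + x^9 + (w+1) * x^11 + x^12 + x^13 + x^14) * h1 + ((w+1) + (w+1) * x^1 + x^2) * h15 + (1 * x^2 + (-1) * x^5 * w^1 + (-1) * x^6 * w^1 + (-1) * x^10 * w^1 + (-1) * x^11 + (-1) * x^11 * w^1 + (-1) * x^12 + (-1) * x^14 + (-1) * x^14 * w^1 + (-1) * x^15 + (-1) * x^15 * w^1 + (-1) * x^16 + (-1) * x^16 * w^1 + (-1) * x^17) * h2 + (1 + 1 * x^1 + (-1) * x^2 + (-1) * x^3 + (-1) * x^4 + (-1) * x^7 + (-1) * x^8 + (-1) * x^9 + (-1) * x^13) * hw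
  · right; right; left; linear_combination (w + w * x^1 + x^2) * h1 + (0) * h15 + ((-1) * w^1 + (-1) * x^1 * w^1 + (-1) * x^4 * w^1) * h2 + ((-1) * x^2 + (-1) * x^3) * hw
  · left; linear_combination (w + w * x^1 + x^2 + x^5 + x^6 + (w+1) * x^7 + (w+1) * x^10 + (w+1) * x^11 + w * x^12) * h1 + (w) * h15 + ((-1) * w^1 + (-1) * x^1 * w^1 + (-1) * x^4 * w^1 + (-1) * x^5 + (-1) * x^6 + (-1) * x^7 + (-1) * x^7 * w^1 + (-1) * x^8 + (-1) * x^8 * w^1 + (-1) * x^10 + (-1) * x^10 * w^1 + (-1) * x^11 + (-1) * x^11 * w^1 + (-1) * x^12 * w^1 + (-1) * x^13 * w^1 + (-1) * x^15 * w^1) * h2 + (1 + (-1) * x^2 + (-1) * x^3 + (-1) * x^9 + (-1) * x^12 + (-1) * x^13 + (-1) * x^14) * hw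
  · left; linear_combination ((w+1) + (w+1) * x^1 + w * x^2 + w * x^5 + w * x^6 + x^7 + x^10 + x^11 + (w+1) * x^12) * h1 + ((w+1)) * h15 + ((-1) * x^1 + (-1) * x^1 * w^1 + (-1) * x^2 * w^1 + (-1) * x^3 * w^1 + (-1) * x^5 * w^1 + (-1) * x^6 * w^1 + (-1) * x^9 * w^1 + (-1) * x^10 + (-1) * x^11 + (-1) * x^12 + (-1) * x^12 * w^1 + (-1) * x^13 + (-1) * x^13 * w^1 + (-1) * x^15 + (-1) * x^15 * w^1) * h2 + (1 + (-1) * x^2 + (-1) * x^3 + (-1) * x^4 + (-1) * x^7 + (-1) * x^8 + (-1) * x^14) * hw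
  · right; left; linear_combination (1 + w * x^1 + x^2) * h1 + (0) * h15 + ((-1) + (-1) * x^1 * w^1 + (-1) * x^4 * w^1) * h2 + ((-1) * x^2 + (-1) * x^3) * hw
  · left; linear_combination (w + (w+1) * x^1 + w * x^2 + w * x^5 + (w+1) * x^6 + w * x^7 + w * x^10 + (w+1) * x^11 + w * x^12) * h1 + (w) * h15 + ((-1) * w^1 + 1 * x^2 + 1 * x^3 + (-1) * x^5 * w^1 + 1 * x^7 + 1 * x^8 + (-1) * x^10 * w^1 + 1 * x^12 + 1 * x^13 + (-1) * x^15 * w^1) * h2 + (1 + (-1) * x^1 + (-2) * x^2 + (-2) * x^3 + (-1) * x^4 + (-1) * x^6 + (-2) * x^7 + (-2) * x^8 + (-1) * x^9 + (-1) * x^11 + (-2) * x^12 + (-2) * x^13 + (-1) * x^14) * hw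
  · left; linear_combination ((w+1) + x^1 + (w+1) * x^2 + (w+1) * x^5 + x^6 + (w+1) * x^7 + (w+1) * x^10 + x^11 + (w+1) * x^12) * h1 + ((w+1)) * h15 + ((-1) * x^2 * w^1 + (-1) * x^3 * w^1 + (-1) * x^5 + (-1) * x^5 * w^1 + (-1) * x^7 * w^1 + (-1) * x^8 * w^1 + (-1) * x^10 + (-1) * x^10 * w^1 + (-1) * x^12 * w^1 + (-1) * x^13 * w^1 + (-1) * x^15 + (-1) * x^15 * w^1) * h2 + (1 + (-1) * x^1 + (-1) * x^2 + (-1) * x^3 + (-1) * x^4 + (-1) * x^6 + (-1) * x^7 + (-1) * x^8 + (-1) * x^9 + (-1) * x^11 + (-1) * x^12 + (-1) * x^13 + (-1) * x^14) * hw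
  · right; right; right; right; left; linear_combination (1 + x^3 + (w+1) * x^4 + (w+1) * x^7 + w * x^8 + w * x^11 + x^12 + x^15) * h1 + ((w+1) * x^1 + w * x^2 + x^3) * h15 + ((-1) + (-1) * x^4 + (-1) * x^4 * w^1 + (-1) * x^5 * w^1 + (-1) * x^7 + (-1) * x^7 * w^1 + (-1) * x^8 * w^1 + 1 * x^9 + (-1) * x^11 * w^1 + (-1) * x^14 * w^1 + (-1) * x^15 + (-1) * x^16 + (-1) * x^16 * w^1 + (-1) * x^17 * w^1 + (-1) * x^18) * h2 + ((-1) * x^5 + (-1) * x^6 + (-1) * x^8 + (-2) * x^9 + (-1) * x^10 + (-1) * x^12 + (-1) * x^13) * hw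
  · left; linear_combination ((w+1) * x^1 + (w+1) * x^2 + (w+1) * x^3 + w * x^5 + w * x^6 + w * x^7 + x^9 + x^10 + x^11 + (w+1) * x^13 + (w+1) * x^14) * h1 + ((w+1) + w * x^1 + (w+1) * x^2) * h15 + ((-1) * x^1 + (-1) * x^1 * w^1 + (-1) * x^2 + (-1) * x^2 * w^1 + (-1) * x^3 * w^1 + (-1) * x^4 * w^1 + (-1) * x^5 * w^1 + (-1) * x^6 * w^1 + 1 * x^7 + 1 * x^8 + (-1) * x^10 + (-1) * x^10 * w^1 + (-1) * x^11 + (-1) * x^11 * w^1 + (-1) * x^12 + (-1) * x^12 * w^1 + (-1) * x^13 + (-1) * x^13 * w^1 + (-1) * x^14 + (-1) * x^14 * w^1 + (-1) * x^15 * w^1 + (-1) * x^16 * w^1 + (-1) * x^17 + (-1) * x^17 * w^1) * h2 + (1 + 1 * x^1 + (-2) * x^3 + (-2) * x^4 + (-1) * x^5 + (-1) * x^6 + (-2) * x^7 + (-2) * x^8 + (-1) * x^9 + (-1) * x^14 + (-2) * x^15 + (-1) * x^16) * hw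
  · left; linear_combination ((w+1) * x^1 + x^2 + w * x^3 + w * x^5 + (w+1) * x^6 + x^7 + x^9 + w * x^10 + (w+1) * x^11 + (w+1) * x^13 + x^14) * h1 + (w + x^1 + x^2) * h15 + ((-1) * x^3 * w^1 + (-1) * x^4 * w^1 + (-1) * x^6 * w^1 + (-1) * x^8 * w^1 + (-1) * x^9 + (-1) * x^9 * w^1 + (-1) * x^10 + (-1) * x^10 * w^1 + (-1) * x^11 * w^1 + (-1) * x^13 * w^1 + (-1) * x^14 + (-1) * x^14 * w^1 + (-1) * x^15 * w^1 + (-1) * x^16 + (-1) * x^16 * w^1 + (-1) * x^17) * h2 + (1 + (-1) * x^2 + (-1) * x^3 + (-1) * x^4 + (-1) * x^5 + (-1) * x^6 + (-2) * x^7 + (-1) * x^8 + (-1) * x^11 + (-2) * x^12 + (-1) * x^13 + (-1) * x^14 + (-1) * x^15) * hw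
  · left; linear_combination (1 + x^3 + (w+1) * x^5 + x^6 + w * x^7 + w * x^10 + x^12 + w * x^13 + (w+1) * x^14) * h1 + ((w+1) * x^2) * h15 + ((-1) * x^3 + (-1) * x^5 + (-1) * x^5 * w^1 + (-1) * x^6 + (-1) * x^7 * w^1 + (-1) * x^8 + (-1) * x^8 * w^1 + (-1) * x^10 * w^1 + (-1) * x^13 * w^1 + (-1) * x^14 + (-1) * x^14 * w^1 + (-1) * x^16 * w^1 + (-1) * x^17 + (-1) * x^17 * w^1) * h2 + ((-1) * x^7 + (-1) * x^9 + (-1) * x^12 + (-1) * x^15 + (-1) * x^16) * hw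
  · left; linear_combination (w + (w+1) * x^1 + (w+1) * x^2 + x^4 + (w+1) * x^5 + (w+1) * x^6 + (w+1) * x^7 + x^8 + x^9 + w * x^11 + x^12 + x^13 + x^14) * h1 + (w + w * x^1 + x^2) * h15 + ((-1) * w^1 + (-1) * x^1 + (-1) * x^1 * w^1 + (-1) * x^3 * w^1 + (-1) * x^4 + (-1) * x^4 * w^1 + (-1) * x^5 + (-1) * x^5 * w^1 + (-1) * x^6 + (-1) * x^6 * w^1 + (-1) * x^7 + (-1) * x^7 * w^1 + (-1) * x^8 + (-1) * x^8 * w^1 + (-1) * x^9 + (-1) * x^9 * w^1 + (-1) * x^10 + (-1) * x^10 * w^1 + (-1) * x^11 + (-1) * x^11 * w^1 + (-1) * x^12 + (-1) * x^14 + (-1) * x^14 * w^1 + (-1) * x^15 + (-1) * x^15 * w^1 + (-1) * x^16 + (-1) * x^16 * w^1 + (-1) * x^17) * h2 + (1 + 1 * x^1 + (-1) * x^2 + (-1) * x^3 + (-1) * x^4 + (-1) * x^7 + (-1) * x^8 + (-1) * x^9 + (-1) * x^13) * hw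
  · left; linear_combination ((w+1) + x^1 + (w+1) * x^2 + (w+1) * x^4 + (w+1) * x^5 + w * x^6 + x^7 + w * x^8 + x^9 + x^11 + x^12 + (w+1) * x^13 + w * x^14) * h1 + ((w+1) + w * x^1 + w * x^2) * h15 + ((-1) * x^1 + (-1) * x^2 + (-1) * x^2 * w^1 + (-1) * x^3 + (-1) * x^3 * w^1 + (-1) * x^4 + (-1) * x^4 * w^1 + (-1) * x^5 + (-1) * x^5 * w^1 + (-1) * x^6 * w^1 + (-1) * x^7 + (-1) * x^7 * w^1 + (-1) * x^8 * w^1 + (-1) * x^9 + (-1) * x^9 * w^1 + (-1) * x^11 + (-1) * x^11 * w^1 + (-1) * x^12 + (-1) * x^13 + (-1) * x^13 * w^1 + (-1) * x^14 + (-1) * x^14 * w^1 + (-1) * x^15 + (-1) * x^15 * w^1 + (-1) * x^16 * w^1 + (-1) * x^17 * w^1) * h2 + (1 + 1 * x^1 + (-1) * x^4 + (-1) * x^6 + (-1) * x^7 + (-1) * x^8 + (-1) * x^10 + (-1) * x^15 + (-1) * x^16) * hw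
  · right; right; right; left; linear_combination ((w+1) + (w+1) * x^1 + x^2) * h1 + (0) * h15 + ((-1) + (-1) * w^1 + (-1) * x^1 + (-1) * x^1 * w^1 + (-1) * x^2 + (-1) * x^2 * w^1 + (-1) * x^3 + (-1) * x^3 * w^1 + (-1) * x^4 + (-1) * x^4 * w^1) * h2 + ((-1) * x^2 + (-1) * x^3) * hw
  · left; linear_combination (w + w * x^1 + (w+1) * x^2 + (w+1) * x^5 + (w+1) * x^6 + x^7 + x^10 + x^11 + w * x^12) * h1 + (w) * h15 + ((-1) * w^1 + (-1) * x^1 * w^1 + (-1) * x^2 * w^1 + (-1) * x^3 * w^1 + (-1) * x^4 * w^1 + (-1) * x^5 + (-1) * x^5 * w^1 + (-1) * x^6 + (-1) * x^6 * w^1 + (-1) * x^7 + (-1) * x^7 * w^1 + (-1) * x^8 + (-1) * x^8 * w^1 + (-1) * x^9 + (-1) * x^9 * w^1 + (-1) * x^10 + (-1) * x^11 + (-1) * x^12 + (-1) * x^12 * w^1 + (-1) * x^13 + (-1) * x^13 * w^1 + (-1) * x^15 * w^1) * h2 + (1 + (-1) * x^2 + (-1) * x^3 + (-1) * x^4 + (-1) * x^7 + (-1) * x^8 + (-1) *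 x^14) * hw
  · left; linear_combination ((w+1) + (w+1) * x^1 + x^2 + x^5 + x^6 + w * x^7 + w * x^10 + w * x^11 + (w+1) * x^12) * h1 + ((w+1)) * h15 + ((-1) * x^1 + (-1) * x^1 * w^1 + (-1) * x^2 + (-1) * x^2 * w^1 + (-1) * x^3 + (-1) * x^3 * w^1 + (-1) * x^4 + (-1) * x^4 * w^1 + (-1) * x^5 + (-1) * x^6 + (-1) * x^7 + (-1) * x^7 * w^1 + (-1) * x^8 + (-1) * x^8 * w^1 + (-1) * x^10 * w^1 + (-1) * x^11 * w^1 + (-1) * x^12 * w^1 + (-1) * x^13 * w^1 + (-1) * x^14 * w^1 + (-1) * x^15 + (-1) * x^15 * w^1) * h2 + (1 + (-1) * x^2 + (-1) * x^3 + (-1) * x^9 + (-1) * x^12 + (-1) * x^13 + (-1) * x^14) * hw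
  · right; right; right; right; left; linear_combination (1 + x^3 + w * x^4 + w * x^7 + (w+1) * x^8 + (w+1) * x^11 + x^12 + x^15) * h1 + (w * x^1 + (w+1) * x^2 + x^3) * h15 + ((-1) + (-1) * x^4 * w^1 + (-1) * x^7 * w^1 + 1 * x^9 + (-1) * x^10 * w^1 + (-1) * x^11 + (-1) * x^11 * w^1 + (-1) * x^13 * w^1 + (-1) * x^14 + (-1) * x^14 * w^1 + (-1) * x^15 + (-1) * x^16 * w^1 + (-1) * x^17 + (-1) * x^17 * w^1 + (-1) * x^18) * h2 + ((-1) * x^5 + (-1) * x^6 + (-1) * x^8 + (-2) * x^9 + (-1) * x^10 + (-1) * x^12 + (-1) * x^13) * hw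
  · left; linear_combination (w * x^1 + x^2 + (w+1) * x^3 + (w+1) * x^5 + w * x^6 + x^7 + x^9 + (w+1) * x^10 + w * x^11 + w * x^13 + x^14) * h1 + ((w+1) + x^1 + x^2) * h15 + (1 * x^2 * w^1 + (-1) * x^3 * w^1 + (-1) * x^4 * w^1 + (-1) * x^5 + (-1) * x^5 * w^1 + (-1) * x^6 * w^1 + (-1) * x^8 * w^1 + (-1) * x^9 + (-1) * x^9 * w^1 + (-1) * x^10 + (-1) * x^10 * w^1 + (-1) * x^11 * w^1 + (-1) * x^13 * w^1 + (-1) * x^15 * w^1 + (-1) * x^16 + (-1) * x^16 * w^1 + (-1) * x^17) * h2 + (1 + (-1) * x^2 + (-1) * x^3 + (-1) * x^4 + (-1) * x^5 + (-1) * x^6 + (-2) * x^7 + (-1) * x^8 + (-1) * x^11 + (-2) * x^12 + (-1) * x^13 + (-1) * x^14 + (-1) * x^15) * hw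
  · left; linear_combination (w * x^1 + w * x^2 + w * x^3 + (w+1) * x^5 + (w+1) * x^6 + (w+1) * x^7 + x^9 + x^10 + x^11 + w * x^13 + w * x^14) * h1 + (w + (w+1) * x^1 + w * x^2) * h15 + (1 * x^3 + 1 * x^4 + (-1) * x^5 * w^1 + (-1) * x^6 * w^1 + (-1) * x^7 * w^1 + (-1) * x^8 * w^1 + (-1) * x^9 + (-1) * x^9 * w^1 + (-1) * x^10 + (-1) * x^10 * w^1 + (-1) * x^11 + (-1) * x^11 * w^1 + (-1) * x^12 + (-1) * x^12 * w^1 + (-1) * x^13 + (-1) * x^13 * w^1 + 1 * x^15 + (-1) * x^16 * w^1 + (-1) * x^17 * w^1) * h2 + (1 + 1 * x^1 + (-2) * x^3 + (-2) * x^4 + (-1) * x^5 + (-1) * x^6 + (-2) * x^7 + (-2) * x^8 + (-1) * x^9 + (-1) * x^14 + (-2) * x^15 + (-1) * x^16) * hw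
  · right; left; linear_combination (1 + (w+1) * x^1 + x^2) * h1 + (0) * h15 + ((-1) + (-1) * x^1 + (-1) * x^1 * w^1 + (-1) * x^2 + (-1) * x^2 * w^1 + (-1) * x^3 + (-1) * x^3 * w^1 + (-1) * x^4 + (-1) * x^4 * w^1) * h2 + ((-1) * x^2 + (-1) * x^3) * hw
  · left; linear_combination (w + x^1 + w * x^2 + w * x^5 + x^6 + w * x^7 + w * x^10 + x^11 + w * x^12) * h1 + (w) * h15 + ((-1) * w^1 + (-1) * x^2 * w^1 + (-1) * x^3 * w^1 + (-1) * x^5 * w^1 + (-1) * x^7 * w^1 + (-1) * x^8 * w^1 + (-1) * x^10 * w^1 + (-1) * x^12 * w^1 + (-1) * x^13 * w^1 + (-1) * x^15 * w^1) * h2 + (1 + (-1) * x^1 + (-1) * x^2 + (-1) * x^3 + (-1) * x^4 + (-1) * x^6 + (-1) * x^7 + (-1) * x^8 + (-1) * x^9 + (-1) * x^11 + (-1) * x^12 + (-1) * x^13 + (-1) * x^14) * hw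
  · left; linear_combination ((w+1) + w * x^1 + (w+1) * x^2 + (w+1) * x^5 + w * x^6 + (w+1) * x^7 + (w+1) * x^10 + w * x^11 + (w+1) * x^12) * h1 + ((w+1)) * h15 + ((-1) * x^1 * w^1 + (-1) * x^2 * w^1 + (-1) * x^3 * w^1 + (-1) * x^4 * w^1 + (-1) * x^5 + (-1) * x^5 * w^1 + (-1) * x^6 * w^1 + (-1) * x^7 * w^1 + (-1) * x^8 * w^1 + (-1) * x^9 * w^1 + (-1) * x^10 + (-1) * x^10 * w^1 + (-1) * x^11 * w^1 + (-1) * x^12 * w^1 + (-1) * x^13 * w^1 + (-1) * x^14 * w^1 + (-1) * x^15 + (-1) * x^15 * w^1) * h2 + (1 + (-1) * x^1 + (-2) * x^2 + (-2) * x^3 + (-1) * x^4 + (-1) * x^6 + (-2) * x^7 + (-2) * x^8 + (-1) * x^9 + (-1) * x^11 + (-2) * x^12 + (-2) * x^13 + (-1) * x^14) * hw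

theorem lift4 {F R : Type*} [Field F] [CommRing R] (ψ : F →+* R) (ω : F)
    (hall : ∀ y : F, y = 0 ∨ y = 1 ∨ y = ω ∨ y = ω + 1) (y : F) :
    0 = ψ y ∨ 1 = ψ y ∨ ψ ω = ψ y ∨ ψ ω + 1 = ψ y := by
  rcases hall y with h | h | h | h
  · left; rw [h, map_zero]
  · right; left; rw [h, map_one]
  · right; right; left; rw [h]
  · right; right; right; rw [h, map_add, map_one]

open Polynomial in
theorem keyM {F : Type*} [Field F] [Fintype F] (hF : Fintype.card F = 4)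
    (M : Matrix (Fin 3) (Fin 3) F) (hdet : M.det = 1) (c : F)
    (hc : M ^ 15 = algebraMap F (Matrix (Fin 3) (Fin 3) F) c) :
    (∃ d : F, M ^ 5 = algebraMap F (Matrix (Fin 3) (Fin 3) F) d) ∨
    (∃ d : F, M ^ 3 = algebraMap F (Matrix (Fin 3) (Fin 3) F) d) := by
  classical
  obtain ⟨h2F, ω, hω, hall⟩ := f4 hF
  have hmon := Matrix.charpoly_monic M
  have hdeg : M.charpoly.natDegree = 3 := by
    rw [Matrix.charpoly_natDegree_eq_dim]; simp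
  have hc3 : M.charpoly.coeff 3 = 1 := by
    have := hmon.coeff_natDegree; rwa [hdeg] at this
  have hc0' : M.charpoly.coeff 0 = 1 := by
    have := Matrix.det_eq_sign_charpoly_coeff M
    rw [hdet, Fintype.card_fin] at this
    linear_combination this - h2F
  obtain ⟨a, ha⟩ : ∃ a : F, a = M.charpoly.coeff 2 := ⟨_, rfl⟩
  obtain ⟨b, hb⟩ : ∃ b : F, b = M.charpoly.coeff 1 := ⟨_, rfl⟩
  have hχ : M.charpoly = X^3 + C a * X^2 + C b * X + 1 := by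
    ext n
    rcases Nat.lt_or_ge n 4 with hn | hn
    · interval_cases n <;>
        simp [Polynomial.coeff_X, Polynomial.coeff_one, Polynomial.coeff_X_pow, hc0', hc3, ha, hb]
    · rw [Polynomial.coeff_eq_zero_of_natDegree_lt (by rw [hdeg]; omega)]
      have e3 : n ≠ 3 := by omega
      have e2 : n ≠ 2 := by omega
      have e1 : n ≠ 1 := by omega
      have e0 : n ≠ 0 := by omega
      simp [Polynomial.coeff_X, Polynomial.coeff_one, Polynomial.coeff_X_pow, e3, e2, e1, e0,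
        Ne.symm e1, Ne.symm e0]
  have hc0 : c ≠ 0 := by
    rintro rfl
    have h := congrArg Matrix.det hc
    rw [Matrix.det_pow, hdet, map_zero, Matrix.det_zero, one_pow] at h
    exact one_ne_zero h
  have hχM : aeval M (X^3 + C a * X^2 + C b * X + 1) = 0 := by
    rw [← hχ]; exact Matrix.aeval_self_charpoly M
  have hψM : aeval M (X^15 - C c) = 0 := by
    rw [map_sub, map_pow, aeval_X, aeval_C, hc, sub_self]
  let I : Ideal F[X] := Ideal.span {X^3 + C a * X^2 + C b * X + 1, X^15 - C c}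
  let φ : F[X] →+* F[X] ⧸ I := Ideal.Quotient.mk I
  have hh1 : φ X ^ 3 + φ (C a) * φ X ^ 2 + φ (C b) * φ X + 1 = 0 := by
    have h : φ (X^3 + C a * X^2 + C b * X + 1) = 0 :=
      Ideal.Quotient.eq_zero_iff_mem.2 (Ideal.subset_span (by simp))
    rw [map_add, map_add, map_add, map_mul, map_mul, map_pow, map_pow, map_one] at h
    exact h
  have hh15 : φ X ^ 15 = φ (C c) := by
    have h : φ (X^15 - C c) = 0 :=
      Ideal.Quotient.eq_zero_iff_mem.2 (Ideal.subset_span (by simp))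
    rw [map_sub, map_pow, sub_eq_zero] at h
    exact h
  have hh2 : (2 : F[X] ⧸ I) = 0 := by
    have h : φ (C ((1:F) + 1)) = 0 := by
      rw [one_add_one_eq_two, h2F, map_zero, map_zero]
    rw [map_add, map_add, map_one, map_one, one_add_one_eq_two] at h
    exact h
  have hhw : φ (C ω) ^ 2 + φ (C ω) + 1 = 0 := by
    have h := congrArg (fun y => φ (C y)) hω
    simp only [map_add, map_pow, map_one, map_zero] at h
    exact h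
  have hcc : 1 = φ (C c) ∨ φ (C ω) = φ (C c) ∨ φ (C ω) + 1 = φ (C c) := by
    rcases hall c with h | h | h | h
    · exact absurd h hc0
    · left; rw [h, map_one, map_one]
    · right; left; rw [h]
    · right; right; rw [h, map_add, map_add, map_one, map_one]
  have hcore := core (φ (C ω)) (φ X) hh2 hhw (φ (C a)) (φ (C b)) (φ (C c))
    (lift4 (φ.comp C) ω hall a) (lift4 (φ.comp C) ω hall b) hcc hh1 hh15
  have hT : ∃ T : F[X], T ∈ I ∧ (T = 1 ∨ ∃ d : F, T = X^5 - C d ∨ T = X^3 - C d) := by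
    rcases hcore with h | h | h | h | h | h | h
    · exact ⟨1, Ideal.Quotient.eq_zero_iff_mem.1 (by rw [map_one]; exact h), Or.inl rfl⟩
    · exact ⟨X^5 - C 1, Ideal.Quotient.eq_zero_iff_mem.1 (by
        show φ (X^5 - C 1) = 0
        rw [map_sub, map_pow, h, map_one, map_one, sub_self]), Or.inr ⟨1, Or.inl rfl⟩⟩
    · exact ⟨X^5 - C ω, Ideal.Quotient.eq_zero_iff_mem.1 (by
        show φ (X^5 - C ω) = 0
        rw [map_sub, map_pow, h, sub_self]), Or.inr ⟨ω, Or.inl rfl⟩⟩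
    · exact ⟨X^5 - C (ω + 1), Ideal.Quotient.eq_zero_iff_mem.1 (by
        show φ (X^5 - C (ω + 1)) = 0
        rw [map_sub, map_pow, h, map_add, map_add, map_one, map_one, sub_self]),
        Or.inr ⟨ω + 1, Or.inl rfl⟩⟩
    · exact ⟨X^3 - C 1, Ideal.Quotient.eq_zero_iff_mem.1 (by
        show φ (X^3 - C 1) = 0
        rw [map_sub, map_pow, h, map_one, map_one, sub_self]), Or.inr ⟨1, Or.inr rfl⟩⟩
    · exact ⟨X^3 - C ω, Ideal.Quotient.eq_zero_iff_mem.1 (by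
        show φ (X^3 - C ω) = 0
        rw [map_sub, map_pow, h, sub_self]), Or.inr ⟨ω, Or.inr rfl⟩⟩
    · exact ⟨X^3 - C (ω + 1), Ideal.Quotient.eq_zero_iff_mem.1 (by
        show φ (X^3 - C (ω + 1)) = 0
        rw [map_sub, map_pow, h, map_add, map_add, map_one, map_one, sub_self]),
        Or.inr ⟨ω + 1, Or.inr rfl⟩⟩
  obtain ⟨T, hTI, hTT⟩ := hT
  obtain ⟨p, q, hpq⟩ := Ideal.mem_span_pair.1 hTI
  have h0 := congrArg (aeval M) hpq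
  rw [map_add, map_mul, map_mul, hχM, hψM, mul_zero, mul_zero, add_zero] at h0
  rcases hTT with rfl | ⟨d, rfl | rfl⟩
  · rw [map_one] at h0
    exact absurd h0 zero_ne_one
  · left
    refine ⟨d, ?_⟩
    rw [map_sub, map_pow, aeval_X, aeval_C] at h0
    exact (sub_eq_zero.1 h0.symm)
  · right
    refine ⟨d, ?_⟩
    rw [map_sub, map_pow, aeval_X, aeval_C] at h0
    exact (sub_eq_zero.1 h0.symm)

theorem scal {F : Type*} [Field F] (d : F) :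
    algebraMap F (Matrix (Fin 3) (Fin 3) F) d = Matrix.scalar (Fin 3) d := by
  ext i j
  simp [Matrix.algebraMap_matrix_apply, Matrix.scalar_apply, Matrix.diagonal_apply]

theorem cen {F : Type*} [Field F] (A : Matrix.SpecialLinearGroup (Fin 3) F) (k : ℕ) (d : F)
    (h : (A : Matrix (Fin 3) (Fin 3) F) ^ k = algebraMap F (Matrix (Fin 3) (Fin 3) F) d) :
    A ^ k ∈ Subgroup.center (Matrix.SpecialLinearGroup (Fin 3) F) := by
  rw [Matrix.SpecialLinearGroup.mem_center_iff]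
  refine ⟨d, ?_, ?_⟩
  · have h1 := congrArg Matrix.det h
    rw [Matrix.det_pow, A.det_coe, one_pow, scal, Matrix.scalar_apply, Matrix.det_diagonal] at h1
    simp at h1
    simpa using h1.symm
  · rw [Matrix.SpecialLinearGroup.coe_pow, h, scal]

/-- No element of PSL_3(4) has order 15. -/
theorem result {F : Type*} [Field F] [Fintype F] (hF : Fintype.card F = 4) (g : Matrix.ProjectiveSpecialLinearGroup (Fin 3) F) : orderOf g ≠ 15 := by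
  intro hord
  obtain ⟨A, rfl⟩ := QuotientGroup.mk_surjective g
  have h15 : A ^ 15 ∈ Subgroup.center (Matrix.SpecialLinearGroup (Fin 3) F) := by
    have h := pow_orderOf_eq_one (QuotientGroup.mk A : Matrix.ProjectiveSpecialLinearGroup (Fin 3) F)
    rw [hord, ← QuotientGroup.mk_pow] at h
    exact (QuotientGroup.eq_one_iff _).1 h
  rw [Matrix.SpecialLinearGroup.mem_center_iff] at h15
  obtain ⟨c, -, hc⟩ := h15
  have hc' : (A : Matrix (Fin 3) (Fin 3) F) ^ 15 = algebraMap F (Matrix (Fin 3) (Fin 3) F) c := by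
    rw [scal, hc, Matrix.SpecialLinearGroup.coe_pow]
  rcases keyM hF (A : Matrix (Fin 3) (Fin 3) F) A.det_coe c hc' with ⟨d, hd⟩ | ⟨d, hd⟩
  · have hmem := cen A 5 d hd
    have h1 : (QuotientGroup.mk A : Matrix.ProjectiveSpecialLinearGroup (Fin 3) F) ^ 5 = 1 := by
      rw [← QuotientGroup.mk_pow]
      exact (QuotientGroup.eq_one_iff _).2 hmem
    have := orderOf_dvd_of_pow_eq_one h1
    rw [hord] at this
    omega
  · have hmem := cen A 3 d hd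
    have h1 : (QuotientGroup.mk A : Matrix.ProjectiveSpecialLinearGroup (Fin 3) F) ^ 3 = 1 := by
      rw [← QuotientGroup.mk_pow]
      exact (QuotientGroup.eq_one_iff _).2 hmem
    have := orderOf_dvd_of_pow_eq_one h1
    rw [hord] at this
    omega

end Cfsg.Agent.S0819
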