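import Cfsg.Statements.S0820
import Mathlib
import Cfsg.Agent.S2579

set_option autoImplicit false
open Cfsg

namespace Cfsg.Agent.S0820

open Matrix

variable {F : Type*} [Field F] [Fintype F]

theorem lift_invol (hF : Fintype.card F = 4)
    (x : Matrix.ProjectiveSpecialLinearGroup (Fin 3) F) (hx : orderOf x = 2) :
    ∃ h : Matrix.SpecialLinearGroup (Fin 3) F,
      (QuotientGroup.mk h : Matrix.ProjectiveSpecialLinearGroup (Fin 3) F) = x ∧
      Cfsg.IsTransvection (h : Matrix (Fin 3) (Fin 3) F) := by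
  classical
  have h2F : (2 : F) = 0 := by
    have h4 : ((Fintype.card F : ℕ) : F) = 0 := Nat.cast_card_eq_zero F
    rw [hF] at h4
    have h22 : (2 : F) * 2 = 0 := by
      rw [← h4]; norm_num
    exact mul_self_eq_zero.1 h22
  obtain ⟨g, rfl⟩ := QuotientGroup.mk_surjective x
  have hx2 : (QuotientGroup.mk g : Matrix.ProjectiveSpecialLinearGroup (Fin 3) F) ^ 2 = 1 := by
    have h := pow_orderOf_eq_one (QuotientGroup.mk g : Matrix.ProjectiveSpecialLinearGroup (Fin 3) F)
    rw [hx] at h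
    exact h
  have hx1 : (QuotientGroup.mk g : Matrix.ProjectiveSpecialLinearGroup (Fin 3) F) ≠ 1 := by
    intro h; rw [h, orderOf_one] at hx; omega
  have hx3 : (QuotientGroup.mk (g ^ 3) : Matrix.ProjectiveSpecialLinearGroup (Fin 3) F) =
      QuotientGroup.mk g := by
    rw [QuotientGroup.mk_pow, pow_succ, hx2, one_mul]
  rw [← QuotientGroup.mk_pow, QuotientGroup.eq_one_iff,
    Matrix.SpecialLinearGroup.mem_center_iff] at hx2
  obtain ⟨r, hr, hr2⟩ := hx2
  have hr' : r ^ 3 = 1 := by simpa using hr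
  have hg6 : (g ^ 3) * (g ^ 3) = 1 := by
    have e1 : (g ^ 3) * (g ^ 3) = (g ^ 2) ^ 3 := by group
    rw [e1]
    apply Subtype.ext
    rw [Matrix.SpecialLinearGroup.coe_pow, ← hr2, ← map_pow, hr', map_one]
    rfl
  refine ⟨g ^ 3, hx3, ?_⟩
  have hh : ((g ^ 3 : Matrix.SpecialLinearGroup (Fin 3) F) : Matrix (Fin 3) (Fin 3) F) *
      ((g ^ 3 : Matrix.SpecialLinearGroup (Fin 3) F) : Matrix (Fin 3) (Fin 3) F) = 1 := by
    have := congrArg Subtype.val hg6
    exact this
  have hne : ((g ^ 3 : Matrix.SpecialLinearGroup (Fin 3) F) : Matrix (Fin 3) (Fin 3) F) - 1 ≠ 0 := by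
    intro h0
    apply hx1
    rw [← hx3]
    have : g ^ 3 = 1 := by
      apply Subtype.ext
      exact sub_eq_zero.1 h0
    rw [this]
    rfl
  obtain ⟨N, hN⟩ : ∃ N : Matrix (Fin 3) (Fin 3) F,
      N = ((g ^ 3 : Matrix.SpecialLinearGroup (Fin 3) F) : Matrix (Fin 3) (Fin 3) F) - 1 :=
    ⟨_, rfl⟩
  obtain ⟨H, hH⟩ : ∃ H : Matrix (Fin 3) (Fin 3) F,
      H = ((g ^ 3 : Matrix.SpecialLinearGroup (Fin 3) F) : Matrix (Fin 3) (Fin 3) F) := ⟨_, rfl⟩
  rw [← hH] at hh hne hN ⊢
  have hNN : N * N = 0 := by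
    calc N * N = H * H - H - H + 1 := by rw [hN]; noncomm_ring
      _ = (2 : F) • (1 - H) := by rw [hh, two_smul]; abel
      _ = 0 := by rw [h2F, zero_smul]
  have hrk : N.rank + N.rank ≤ Fintype.card (Fin 3) :=
    Matrix.rank_add_rank_le_card_of_mul_eq_zero hNN
  rw [Fintype.card_fin] at hrk
  have hrk0 : N.rank ≠ 0 := by
    intro h0
    have h1 : Module.finrank F (LinearMap.range N.mulVecLin) = 0 := h0
    rw [Submodule.finrank_eq_zero, LinearMap.range_eq_bot] at h1
    apply hne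
    rw [← hN]
    ext i j
    have h3 : N.mulVecLin (Pi.single j 1) = 0 := by rw [h1]; rfl
    rw [Matrix.mulVecLin_apply, Matrix.mulVec_single_one] at h3
    exact congrFun h3 i
  show (H - 1).rank = 1 ∧ (H - 1) * (H - 1) = 0
  rw [← hN]
  exact ⟨by omega, hNN⟩

/-- Any two elements of order 2 of PSL_3(4) are conjugate. -/
theorem result {F : Type*} [Field F] [Fintype F] (hF : Fintype.card F = 4) (x y : Matrix.ProjectiveSpecialLinearGroup (Fin 3) F) (hx : orderOf x = 2) (hy : orderOf y = 2) : IsConj x y := by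
  obtain ⟨a, rfl, ha⟩ := lift_invol hF x hx
  obtain ⟨b, rfl, hb⟩ := lift_invol hF y hy
  have h := Cfsg.Agent.S2579.result (le_refl 3) a b ha hb
  exact (QuotientGroup.mk' _).map_isConj h

end Cfsg.Agent.S0820
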