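import Cfsg.Statements.S0824
import Cfsg.Agent.Helper5.SymOrth3

set_option autoImplicit false
open Cfsg

namespace Cfsg.Agent.S0824

/-- O⁻_4(2) ≅ S_5: the isometry group of the form x y + z_1² + z_1 z_2 + z_2² over the field with 2 elements is isomorphic to the symmetric group on 5 letters. -/
theorem result {F : Type*} [Field F] [Fintype F] (hF : Fintype.card F = 2) : Nonempty (↥(Cfsg.isometryGroup F (Cfsg.quadFormMinus 1 F 1 1)) ≃* Equiv.Perm (Fin 5)) := by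
  classical
  obtain ⟨φ, hφ⟩ := Cfsg.Agent.Helper5.sym5_orth
  obtain ⟨e, -⟩ : ∃ e : ZMod 2 ≃+* F, True := ⟨ZMod.ringEquivOfPrime F Nat.prime_two hF, trivial⟩
  have hab : ∀ z₁ z₂ : F, z₁ ^ 2 + 1 * z₁ * z₂ + 1 * z₂ ^ 2 = 0 → z₁ = 0 ∧ z₂ = 0 := by
    intro z₁ z₂ h
    have hd : ∀ x y : ZMod 2, x ^ 2 + 1 * x * y + 1 * y ^ 2 = 0 → x = 0 ∧ y = 0 := by decide
    have h' := congrArg e.symm h
    simp only [map_add, map_mul, map_pow, map_one, map_zero] at h'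
    obtain ⟨h1, h2⟩ := hd _ _ h'
    exact ⟨by simpa using congrArg e h1, by simpa using congrArg e h2⟩
  obtain ⟨ψ, hψ⟩ := Cfsg.Agent.Helper5.iso_bc_hom e.toRingHom
    (Cfsg.Agent.Helper5.qfMinusQ 1 (ZMod 2) 1 1) (Cfsg.Agent.Helper5.qfMinusQ 1 F 1 1)
    (by
      intro v
      rw [Cfsg.Agent.Helper5.qfMinusQ_apply, Cfsg.Agent.Helper5.qfMinusQ_apply]
      unfold Cfsg.quadFormMinus
      simp only [map_sum, map_mul, map_add, map_pow, map_one])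
    (Cfsg.quadFormMinus 1 (ZMod 2) 1 1) (Cfsg.quadFormMinus 1 F 1 1)
    (Cfsg.Agent.Helper5.qfMinusQ_apply 1 1 1) (Cfsg.Agent.Helper5.qfMinusQ_apply 1 1 1)
  have hcard : Nat.card ↥(Cfsg.isometryGroup F (Cfsg.quadFormMinus 1 F 1 1)) = 120 := by
    rw [Cfsg.Agent.Helper5.go_minus_order (F := F) (q := 2) hF 1 1 1 hab]
    simp [Finset.prod_range_succ]
  haveI : Finite ↥(Cfsg.isometryGroup F (Cfsg.quadFormMinus 1 F 1 1)) :=
    Nat.finite_of_card_ne_zero (by rw [hcard]; norm_num)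
  obtain ⟨E⟩ := Cfsg.Agent.Helper5.mulEquiv_of_inj_card (ψ.comp φ) (hψ.comp hφ)
    (by rw [hcard, Nat.card_perm]; simp [Nat.factorial])
  exact ⟨E.symm⟩

end Cfsg.Agent.S0824
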