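import Cfsg.Statements.S0825
import Cfsg.Agent.Helper5.OrthOrd4
import Cfsg.Agent.Helper5.SymOrth2

set_option autoImplicit false
open Cfsg

namespace Cfsg.Agent.S0825

/-- O⁺_6(2) ≅ S_8: the isometry group of the hyperbolic form x_1y_1 + x_2y_2 + x_3y_3 over the field with 2 elements is isomorphic to the symmetric group on 8 letters. -/
theorem result {F : Type*} [Field F] [Fintype F] (hF : Fintype.card F = 2) : Nonempty (↥(Cfsg.isometryGroup F (Cfsg.quadFormPlus 3 F)) ≃* Equiv.Perm (Fin 8)) := by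
  classical
  obtain ⟨φ, hφ⟩ : ∃ φ : Equiv.Perm (Fin 8) →*
      ↥(Cfsg.isometryGroup (ZMod 2) (Cfsg.quadFormPlus 3 (ZMod 2))), Function.Injective φ :=
    (Cfsg.Agent.Helper5.sym_orth 1 le_rfl).1 odd_one
  obtain ⟨ψ, hψ⟩ := Cfsg.Agent.Helper5.iso_bc_hom
    (ZMod.ringEquivOfPrime F Nat.prime_two hF).toRingHom
    (Cfsg.Agent.Helper5.qfPlusQ 3 (ZMod 2)) (Cfsg.Agent.Helper5.qfPlusQ 3 F)
    (Cfsg.Agent.Helper5.qfPlusQ_bc _ 3) (Cfsg.quadFormPlus 3 (ZMod 2)) (Cfsg.quadFormPlus 3 F)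
    (Cfsg.Agent.Helper5.qfPlusQ_apply 3) (Cfsg.Agent.Helper5.qfPlusQ_apply 3)
  have hcard : Nat.card ↥(Cfsg.isometryGroup F (Cfsg.quadFormPlus 3 F)) = 40320 := by
    rw [Cfsg.Agent.Helper5.go_plus_order (F := F) (q := 2) hF 2]
    simp [Finset.prod_range_succ]
  haveI : Finite ↥(Cfsg.isometryGroup F (Cfsg.quadFormPlus 3 F)) :=
    Nat.finite_of_card_ne_zero (by rw [hcard]; norm_num)
  obtain ⟨e⟩ := Cfsg.Agent.Helper5.mulEquiv_of_inj_card (ψ.comp φ) (hψ.comp hφ)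
    (by rw [hcard, Nat.card_perm]; simp [Nat.factorial])
  exact ⟨e.symm⟩

end Cfsg.Agent.S0825
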