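import Cfsg.Statements.S0828
import Mathlib
import Cfsg.Agent.S0440

set_option autoImplicit false
open Cfsg

namespace Cfsg.Agent.S0828

open Matrix

variable {F : Type*} [Field F] [Fintype F]

theorem card_sub {q : ℕ} (hF : Fintype.card F = q) (W : Submodule F (Fin 2 ⊕ Fin 2 → F)) (d : ℕ)
    (hd : Module.finrank F W = d) : Nat.card W = q ^ d := by
  rw [Module.natCard_eq_pow_finrank (K := F) (V := ↥W), Nat.card_eq_fintype_card, hF, hd]

theorem ncard_sub {q : ℕ} (hF : Fintype.card F = q) (W : Submodule F (Fin 2 ⊕ Fin 2 → F))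
    (d : ℕ) (hd : Module.finrank F W = d) : (W : Set (Fin 2 ⊕ Fin 2 → F)).ncard = q ^ d := by
  rw [← Nat.card_coe_set_eq]; exact card_sub hF W d hd

theorem card_diff {q : ℕ} (hF : Fintype.card F = q) (W P : Submodule F (Fin 2 ⊕ Fin 2 → F))
    (hPW : P ≤ W) (d e : ℕ) (hd : Module.finrank F W = d) (he : Module.finrank F P = e) :
    Nat.card {w : Fin 2 ⊕ Fin 2 → F // w ∈ W ∧ w ∉ P} = q ^ d - q ^ e := by
  show Nat.card ↥((W : Set (Fin 2 ⊕ Fin 2 → F)) \ (P : Set (Fin 2 ⊕ Fin 2 → F))) = _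
  have hsub : (P : Set (Fin 2 ⊕ Fin 2 → F)) ⊆ (W : Set (Fin 2 ⊕ Fin 2 → F)) := hPW
  rw [Nat.card_coe_set_eq, Set.ncard_sdiff hsub (Set.toFinite _), ncard_sub hF W d hd,
    ncard_sub hF P e he]

omit [Fintype F] in
theorem fr_pair (v w : Fin 2 ⊕ Fin 2 → F) (hv : v ≠ 0) (hw : w ∉ Submodule.span F {v}) :
    Module.finrank F (Submodule.span F ({v, w} : Set (Fin 2 ⊕ Fin 2 → F))) = 2 := by
  have hw0 : w ≠ 0 := fun h => hw (h ▸ Submodule.zero_mem _)
  have hinf : Submodule.span F {v} ⊓ Submodule.span F {w} = ⊥ := by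
    rw [eq_bot_iff]
    intro x hx
    obtain ⟨hx1, hx2⟩ := Submodule.mem_inf.1 hx
    obtain ⟨a, rfl⟩ := Submodule.mem_span_singleton.1 hx2
    rw [Submodule.mem_bot]
    by_cases ha : a = 0
    · rw [ha, zero_smul]
    · exfalso; apply hw
      have h1 := Submodule.smul_mem _ a⁻¹ hx1
      rwa [smul_smul, inv_mul_cancel₀ ha, one_smul] at h1
  have h1 := Submodule.finrank_sup_add_finrank_inf_eq (Submodule.span F {v})
    (Submodule.span F {w})
  rw [hinf, finrank_bot, finrank_span_singleton hv, finrank_span_singleton hw0, add_zero] at h1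
  rw [Submodule.span_insert]; exact h1

omit [Fintype F] in
theorem ti_pair (v w : Fin 2 ⊕ Fin 2 → F) (hvw : Cfsg.sympForm 2 F v w = 0) :
    ∀ x ∈ Submodule.span F ({v, w} : Set (Fin 2 ⊕ Fin 2 → F)),
      ∀ y ∈ Submodule.span F ({v, w} : Set (Fin 2 ⊕ Fin 2 → F)),
        Cfsg.sympForm 2 F x y = 0 := by
  intro x hx y hy
  obtain ⟨a, b, rfl⟩ := Submodule.mem_span_pair.1 hx
  obtain ⟨c, d, rfl⟩ := Submodule.mem_span_pair.1 hy
  have hwv : Cfsg.sympForm 2 F w v = 0 := by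
    rw [Cfsg.Agent.S0271.sf_swap, hvw, neg_zero]
  simp only [Cfsg.Agent.S0271.sf_add_left, Cfsg.Agent.S0271.sf_add_right,
    Cfsg.Agent.S0440.sf_smul_left, Cfsg.Agent.S0440.sf_smul_right, Cfsg.Agent.S0271.sf_self,
    hvw, hwv, mul_zero, add_zero]

omit [Fintype F] in
theorem span_pair_eq (W : Submodule F (Fin 2 ⊕ Fin 2 → F)) (hW : Module.finrank F W = 2)
    (v w : Fin 2 ⊕ Fin 2 → F) (hv : v ≠ 0) (hvW : v ∈ W) (hwW : w ∈ W)
    (hw : w ∉ Submodule.span F {v}) :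
    Submodule.span F ({v, w} : Set (Fin 2 ⊕ Fin 2 → F)) = W := by
  apply Submodule.eq_of_le_of_finrank_eq
  · rw [Submodule.span_le]
    intro x hx
    rcases hx with rfl | hx
    · exact hvW
    · rw [Set.mem_singleton_iff] at hx; rw [hx]; exact hwW
  · rw [fr_pair v w hv hw, hW]

/-- the functional `f v ·` -/
def psi (v : Fin 2 ⊕ Fin 2 → F) : (Fin 2 ⊕ Fin 2 → F) →ₗ[F] F where
  toFun w := Cfsg.sympForm 2 F v w
  map_add' x y := Cfsg.Agent.S0271.sf_add_right 2 v x y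
  map_smul' c x := by rw [Cfsg.Agent.S0440.sf_smul_right]; rfl

omit [Fintype F] in
theorem psi_ker_finrank (v : Fin 2 ⊕ Fin 2 → F) (hv : v ≠ 0) :
    Module.finrank F (LinearMap.ker (psi v)) = 3 := by
  obtain ⟨z, hz⟩ := Cfsg.Agent.S0271.sf_nondeg 2 v hv
  have hsurj : Function.Surjective (psi v) := by
    intro c
    refine ⟨(c / Cfsg.sympForm 2 F v z) • z, ?_⟩
    show Cfsg.sympForm 2 F v ((c / Cfsg.sympForm 2 F v z) • z) = c
    rw [Cfsg.Agent.S0440.sf_smul_right]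
    field_simp
  have h1 := LinearMap.finrank_range_add_finrank_ker (psi v)
  rw [LinearMap.range_eq_top.2 hsurj, finrank_top, Module.finrank_self,
    Module.finrank_fintype_fun_eq_card] at h1
  simp only [Fintype.card_sum, Fintype.card_fin] at h1
  omega

theorem lines_through {q : ℕ} (hF : Fintype.card F = q) (v : Fin 2 ⊕ Fin 2 → F) (hv : v ≠ 0) :
    Nat.card {W : Submodule F (Fin 2 ⊕ Fin 2 → F) // Module.finrank F W = 2 ∧ v ∈ W ∧
      ∀ u ∈ W, ∀ w ∈ W, Cfsg.sympForm 2 F u w = 0} = q + 1 := by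
  classical
  have hq2 : 2 ≤ q := by rw [← hF]; exact Fintype.one_lt_card
  haveI : Finite (Submodule F (Fin 2 ⊕ Fin 2 → F)) :=
    Finite.of_injective (fun W => (W : Set (Fin 2 ⊕ Fin 2 → F))) SetLike.coe_injective
  haveI : Fintype {W : Submodule F (Fin 2 ⊕ Fin 2 → F) // Module.finrank F W = 2 ∧ v ∈ W ∧
      ∀ u ∈ W, ∀ w ∈ W, Cfsg.sympForm 2 F u w = 0} := Fintype.ofFinite _
  have hspan1 : Module.finrank F (Submodule.span F {v}) = 1 := finrank_span_singleton hv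
  -- the target set
  have hS : Nat.card {w : Fin 2 ⊕ Fin 2 → F // w ∈ LinearMap.ker (psi v) ∧
      w ∉ Submodule.span F {v}} = q ^ 3 - q ^ 1 := by
    apply card_diff hF _ _ _ 3 1 (psi_ker_finrank v hv) hspan1
    rw [Submodule.span_le, Set.singleton_subset_iff]
    exact Cfsg.Agent.S0271.sf_self 2 v
  -- the bijection
  let g : (Σ W : {W : Submodule F (Fin 2 ⊕ Fin 2 → F) // Module.finrank F W = 2 ∧ v ∈ W ∧
      ∀ u ∈ W, ∀ w ∈ W, Cfsg.sympForm 2 F u w = 0},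
        {w : Fin 2 ⊕ Fin 2 → F // w ∈ W.1 ∧ w ∉ Submodule.span F {v}}) →
      {w : Fin 2 ⊕ Fin 2 → F // w ∈ LinearMap.ker (psi v) ∧ w ∉ Submodule.span F {v}} :=
    fun x => ⟨x.2.1, x.1.2.2.2 v x.1.2.2.1 x.2.1 x.2.2.1, x.2.2.2⟩
  have hg : Function.Bijective g := by
    constructor
    · rintro ⟨⟨W, hW2, hvW, hWti⟩, ⟨w, hwW, hw⟩⟩ ⟨⟨W', hW2', hvW', hWti'⟩, ⟨w', hwW', hw'⟩⟩ h
      have hww : w = w' := congrArg Subtype.val h
      subst hww
      have e1 := span_pair_eq W hW2 v w hv hvW hwW hw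
      have e2 := span_pair_eq W' hW2' v w hv hvW' hwW' hw
      have hWW : W = W' := e1.symm.trans e2
      subst hWW
      rfl
    · rintro ⟨w, hwk, hw⟩
      have hvw : Cfsg.sympForm 2 F v w = 0 := hwk
      refine ⟨⟨⟨Submodule.span F ({v, w} : Set (Fin 2 ⊕ Fin 2 → F)), fr_pair v w hv hw,
        Submodule.subset_span (Set.mem_insert _ _), ti_pair v w hvw⟩,
        ⟨w, Submodule.subset_span (Set.mem_insert_of_mem _ rfl), hw⟩⟩, rfl⟩
  have hcard := Nat.card_congr (Equiv.ofBijective g hg)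
  rw [hS, Nat.card_sigma] at hcard
  have hfib : ∀ W : {W : Submodule F (Fin 2 ⊕ Fin 2 → F) // Module.finrank F W = 2 ∧ v ∈ W ∧
      ∀ u ∈ W, ∀ w ∈ W, Cfsg.sympForm 2 F u w = 0},
      Nat.card {w : Fin 2 ⊕ Fin 2 → F // w ∈ W.1 ∧ w ∉ Submodule.span F {v}} = q ^ 2 - q ^ 1 := by
    intro W
    apply card_diff hF _ _ _ 2 1 W.2.1 hspan1
    rw [Submodule.span_le, Set.singleton_subset_iff]
    exact W.2.2.1
  simp only [hfib, Finset.sum_const, Finset.card_univ, smul_eq_mul] at hcard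
  rw [← Nat.card_eq_fintype_card] at hcard
  have hq : q ^ 1 = q := pow_one q
  rw [hq] at hcard
  have h1 : q ≤ q ^ 2 := by nlinarith
  have h2 : q ≤ q ^ 3 := by nlinarith [Nat.pow_le_pow_left hq2 2]
  have hpos : 0 < q ^ 2 - q := by
    have : q < q ^ 2 := by nlinarith
    omega
  have e : q ^ 3 - q = (q + 1) * (q ^ 2 - q) := by
    zify [h1, h2]; ring
  rw [e] at hcard
  exact Nat.eq_of_mul_eq_mul_right hpos hcard

theorem lines_total {q : ℕ} (hF : Fintype.card F = q) :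
    Nat.card {W : Submodule F (Fin 2 ⊕ Fin 2 → F) // Module.finrank F W = 2 ∧
      ∀ u ∈ W, ∀ v ∈ W, Cfsg.sympForm 2 F u v = 0} = (q + 1) * (q ^ 2 + 1) := by
  classical
  have hq2 : 2 ≤ q := by rw [← hF]; exact Fintype.one_lt_card
  haveI : Finite (Submodule F (Fin 2 ⊕ Fin 2 → F)) :=
    Finite.of_injective (fun W => (W : Set (Fin 2 ⊕ Fin 2 → F))) SetLike.coe_injective
  haveI : Fintype {W : Submodule F (Fin 2 ⊕ Fin 2 → F) // Module.finrank F W = 2 ∧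
      ∀ u ∈ W, ∀ v ∈ W, Cfsg.sympForm 2 F u v = 0} := Fintype.ofFinite _
  let Φ : (Σ v : {v : Fin 2 ⊕ Fin 2 → F // v ≠ 0},
      {W : Submodule F (Fin 2 ⊕ Fin 2 → F) // Module.finrank F W = 2 ∧ v.1 ∈ W ∧
        ∀ u ∈ W, ∀ w ∈ W, Cfsg.sympForm 2 F u w = 0}) ≃
      (Σ W : {W : Submodule F (Fin 2 ⊕ Fin 2 → F) // Module.finrank F W = 2 ∧
        ∀ u ∈ W, ∀ v ∈ W, Cfsg.sympForm 2 F u v = 0},
        {v : Fin 2 ⊕ Fin 2 → F // v ∈ W.1 ∧ v ∉ (⊥ : Submodule F (Fin 2 ⊕ Fin 2 → F))}) :=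
    { toFun := fun x => ⟨⟨x.2.1, x.2.2.1, x.2.2.2.2⟩,
        ⟨x.1.1, x.2.2.2.1, fun h => x.1.2 ((Submodule.mem_bot F).1 h)⟩⟩
      invFun := fun y => ⟨⟨y.2.1, fun h => y.2.2.2 ((Submodule.mem_bot F).2 h)⟩,
        ⟨y.1.1, y.1.2.1, y.2.2.1, y.1.2.2⟩⟩
      left_inv := fun _ => rfl
      right_inv := fun _ => rfl }
  have hcard := Nat.card_congr Φ
  rw [Nat.card_sigma, Nat.card_sigma] at hcard
  have hfib1 : ∀ v : {v : Fin 2 ⊕ Fin 2 → F // v ≠ 0},
      Nat.card {W : Submodule F (Fin 2 ⊕ Fin 2 → F) // Module.finrank F W = 2 ∧ v.1 ∈ W ∧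
        ∀ u ∈ W, ∀ w ∈ W, Cfsg.sympForm 2 F u w = 0} = q + 1 :=
    fun v => lines_through hF v.1 v.2
  have hfib2 : ∀ W : {W : Submodule F (Fin 2 ⊕ Fin 2 → F) // Module.finrank F W = 2 ∧
      ∀ u ∈ W, ∀ v ∈ W, Cfsg.sympForm 2 F u v = 0},
      Nat.card {v : Fin 2 ⊕ Fin 2 → F // v ∈ W.1 ∧
        v ∉ (⊥ : Submodule F (Fin 2 ⊕ Fin 2 → F))} = q ^ 2 - q ^ 0 := by
    intro W
    exact card_diff hF _ _ bot_le 2 0 W.2.1 (finrank_bot F _)
  simp only [hfib1, hfib2, Finset.sum_const, Finset.card_univ, smul_eq_mul] at hcard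
  have hV : Fintype.card {v : Fin 2 ⊕ Fin 2 → F // v ≠ 0} = q ^ 4 - 1 := by
    have h1 := Fintype.card_subtype_compl (fun v : Fin 2 ⊕ Fin 2 → F => v = 0)
    rw [Fintype.card_subtype_eq] at h1
    rw [h1, Fintype.card_fun, hF]
    rfl
  rw [hV, ← Nat.card_eq_fintype_card] at hcard
  have h4 : 1 ≤ q ^ 2 := Nat.one_le_pow _ _ (by omega)
  have h5 : 1 ≤ q ^ 4 := Nat.one_le_pow _ _ (by omega)
  have hpos : 0 < q ^ 2 - 1 := by
    have : 2 ^ 2 ≤ q ^ 2 := Nat.pow_le_pow_left hq2 2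
    omega
  have e : (q ^ 4 - 1) * (q + 1) = ((q + 1) * (q ^ 2 + 1)) * (q ^ 2 - 1) := by
    zify [h4, h5]; ring
  rw [pow_zero, e] at hcard
  exact (Nat.eq_of_mul_eq_mul_right hpos hcard).symm

/-- The symplectic generalised quadrangle over a field with q elements: the number of 2-dimensional subspaces of F^4 on which the symplectic form vanishes is (q + 1)(q² + 1), and every non-zero vector lies in exactly q + 1 of them. -/
theorem result {F : Type*} [Field F] [Fintype F] {q : ℕ} (hF : Fintype.card F = q) : Nat.card {W : Submodule F (Fin 2 ⊕ Fin 2 → F) // Module.finrank F W = 2 ∧ ∀ u ∈ W, ∀ v ∈ W, Cfsg.sympForm 2 F u v = 0} = (q + 1) * (q ^ 2 + 1) ∧ ∀ v : Fin 2 ⊕ Fin 2 → F, v ≠ 0 → Nat.card {W : Submodule F (Fin 2 ⊕ Fin 2 → F) // Module.finrank F W = 2 ∧ v ∈ W ∧ ∀ u ∈ W, ∀ w ∈ W, Cfsg.sympForm 2 F u w = 0} = q + 1 := by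
  exact ⟨lines_total hF, fun v hv => lines_through hF v hv⟩

end Cfsg.Agent.S0828
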