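import Cfsg.Statements.S0830
import Mathlib
import Cfsg.Agent.S0829

set_option autoImplicit false
open Cfsg

namespace Cfsg.Agent.S0830

/-- The unitary quadrangle of PSU_5(q): with |F| = q², the number of 2-dimensional subspaces of F^5 on which the Hermitian form vanishes is (q³ + 1)(q⁵ + 1). -/
theorem result {F : Type*} [Field F] [Fintype F] {q : ℕ} (hF : Fintype.card F = q ^ 2) : Nat.card {W : Submodule F (Fin 5 → F) // Module.finrank F W = 2 ∧ ∀ u ∈ W, ∀ v ∈ W, Cfsg.hermForm 5 F q u v = 0} = (q ^ 3 + 1) * (q ^ 5 + 1) := by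
  classical
  have hq := Cfsg.Agent.Helper7.herm_two_le hF
  have hqz : (2 : ℤ) ≤ (q : ℤ) := by exact_mod_cast hq
  have hq0 : (q : ℤ) ≠ 0 := by omega
  have h4 : (4 : ℤ) ≤ (q : ℤ) ^ 2 := by
    have := pow_le_pow_left₀ (by norm_num : (0 : ℤ) ≤ 2) hqz 2
    norm_num at this
    exact this
  have h16 : (16 : ℤ) ≤ (q : ℤ) ^ 4 := by
    have := pow_le_pow_left₀ (by norm_num : (0 : ℤ) ≤ 2) hqz 4
    norm_num at this
    exact this
  have hle1 : 1 ≤ q ^ 2 := Nat.one_le_pow _ _ (by omega)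
  have hle2 : (q ^ 2) ^ 1 ≤ (q ^ 2) ^ 2 := Nat.pow_le_pow_right (by omega) (by omega)
  have hle3 : (q ^ 2) ^ 0 ≤ (q ^ 2) ^ 2 := Nat.pow_le_pow_right (by omega) (by omega)
  obtain ⟨I, hIdef⟩ : ∃ I : ℕ, I = Nat.card {v : Fin 5 → F // Cfsg.hermForm 5 F q v v = 0} :=
    ⟨_, rfl⟩
  have hI0 := (Cfsg.Agent.Helper7.herm_int (F := F) hF 5).1
  rw [← hIdef] at hI0
  have hI : (I : ℤ) = (q : ℤ) ^ 9 - (q : ℤ) ^ 5 + (q : ℤ) ^ 4 := by
    apply mul_right_cancel₀ hq0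
    rw [hI0]; ring
  have hL : ∀ v : Fin 5 → F, v ≠ 0 → Cfsg.hermForm 5 F q v v = 0 →
      Nat.card {W : Submodule F (Fin 5 → F) // Module.finrank F W = 2 ∧ v ∈ W ∧
        ∀ u ∈ W, ∀ w ∈ W, Cfsg.hermForm 5 F q u w = 0} = q ^ 3 + 1 := by
    intro v hv hvv
    have h1 := Cfsg.Agent.S0829.main_count hF v hv hvv
    have h2 := Cfsg.Agent.S0829.lines_through hF v hv hvv
    rw [← hIdef] at h1
    obtain ⟨A, hA⟩ : ∃ A : ℕ, A = Nat.card {w : Fin 5 → F // Cfsg.hermForm 5 F q w v = 0 ∧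
      Cfsg.hermForm 5 F q w w = 0} := ⟨_, rfl⟩
    rw [← hA] at h1 h2
    obtain ⟨L, hLdef⟩ : ∃ L : ℕ, L = Nat.card {W : Submodule F (Fin 5 → F) //
      Module.finrank F W = 2 ∧ v ∈ W ∧
        ∀ u ∈ W, ∀ w ∈ W, Cfsg.hermForm 5 F q u w = 0} := ⟨_, rfl⟩
    rw [← hLdef] at h2 ⊢
    have h1z := h1
    zify [hle1] at h1z
    have h2z := h2
    zify [hle2] at h2z
    have hAz : (A : ℤ) = (q : ℤ) ^ 7 - (q : ℤ) ^ 5 + (q : ℤ) ^ 4 := by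
      have hq3 : (q : ℤ) ^ 3 ≠ 0 := pow_ne_zero _ hq0
      apply mul_left_cancel₀ hq3
      linear_combination (q : ℤ) ^ 3 * hI - h1z
    have hLz : (L : ℤ) = (q : ℤ) ^ 3 + 1 := by
      have hne : ((q : ℤ) ^ 4 - (q : ℤ) ^ 2) ≠ 0 := by
        have e : (q : ℤ) ^ 4 - (q : ℤ) ^ 2 = (q : ℤ) ^ 2 * ((q : ℤ) ^ 2 - 1) := by ring
        rw [e]
        exact mul_ne_zero (pow_ne_zero _ hq0) (ne_of_gt (by linarith))
      apply mul_right_cancel₀ hne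
      linear_combination h2z + hAz
    exact_mod_cast hLz
  have hT := Cfsg.Agent.S0829.lines_total hF (q ^ 3 + 1) hL
  have hc := Cfsg.Agent.S0829.iso_card (F := F) (n := 5) (q := q)
  rw [← hIdef] at hc
  obtain ⟨M, hM⟩ : ∃ M : ℕ, M = Nat.card {v : Fin 5 → F // Cfsg.hermForm 5 F q v v = 0 ∧
    v ≠ 0} := ⟨_, rfl⟩
  rw [← hM] at hT hc
  obtain ⟨N, hN⟩ : ∃ N : ℕ, N = Nat.card {W : Submodule F (Fin 5 → F) //
    Module.finrank F W = 2 ∧ ∀ u ∈ W, ∀ v ∈ W, Cfsg.hermForm 5 F q u v = 0} := ⟨_, rfl⟩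
  rw [← hN] at hT ⊢
  have hTz := hT
  zify [hle3] at hTz
  have hcz : (M : ℤ) + 1 = (I : ℤ) := by exact_mod_cast hc
  have hne : ((q : ℤ) ^ 4 - 1) ≠ 0 := ne_of_gt (by linarith)
  have hNz : (N : ℤ) = ((q : ℤ) ^ 3 + 1) * ((q : ℤ) ^ 5 + 1) := by
    apply mul_right_cancel₀ hne
    linear_combination ((q : ℤ) ^ 3 + 1) * hcz + ((q : ℤ) ^ 3 + 1) * hI - hTz
  exact_mod_cast hNz

end Cfsg.Agent.S0830
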