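import Cfsg.Statements.S0832
import Mathlib

set_option autoImplicit false
open Cfsg

namespace Cfsg.Agent.S0832

variable {F : Type*} [Field F]

/-- polar form of `quadFormPlus` -/
def pol (m : ℕ) (u v : Fin m ⊕ Fin m → F) : F :=
  ∑ i : Fin m, (u (.inl i) * v (.inr i) + u (.inr i) * v (.inl i))

theorem pol_add_left (m : ℕ) (u u' v : Fin m ⊕ Fin m → F) :
    pol m (u + u') v = pol m u v + pol m u' v := by
  unfold pol
  rw [← Finset.sum_add_distrib]
  refine Finset.sum_congr rfl (fun i _ => ?_)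
  simp only [Pi.add_apply]; ring

theorem pol_smul_left (m : ℕ) (c : F) (u v : Fin m ⊕ Fin m → F) :
    pol m (c • u) v = c • pol m u v := by
  unfold pol
  rw [smul_eq_mul, Finset.mul_sum]
  refine Finset.sum_congr rfl (fun i _ => ?_)
  simp only [Pi.smul_apply, smul_eq_mul]; ring

theorem pol_comm (m : ℕ) (u v : Fin m ⊕ Fin m → F) : pol m u v = pol m v u := by
  unfold pol
  refine Finset.sum_congr rfl (fun i _ => ?_)
  ring

theorem pol_add_right (m : ℕ) (u v v' : Fin m ⊕ Fin m → F) :
    pol m u (v + v') = pol m u v + pol m u v' := by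
  rw [pol_comm, pol_add_left, pol_comm m v u, pol_comm m v' u]

theorem pol_smul_right (m : ℕ) (c : F) (u v : Fin m ⊕ Fin m → F) :
    pol m u (c • v) = c • pol m u v := by
  rw [pol_comm, pol_smul_left, pol_comm m v u]

theorem Q_add (m : ℕ) (u v : Fin m ⊕ Fin m → F) :
    Cfsg.quadFormPlus m F (u + v) =
      Cfsg.quadFormPlus m F u + Cfsg.quadFormPlus m F v + pol m u v := by
  unfold Cfsg.quadFormPlus pol
  simp only [← Finset.sum_add_distrib]
  refine Finset.sum_congr rfl (fun i _ => ?_)
  simp only [Pi.add_apply]; ring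

theorem Q3 (m : ℕ) (u w z : Fin m ⊕ Fin m → F) (a b : F) :
    Cfsg.quadFormPlus m F (u + a • w + b • z) =
      Cfsg.quadFormPlus m F u + a ^ 2 * Cfsg.quadFormPlus m F w +
        b ^ 2 * Cfsg.quadFormPlus m F z
        + a * pol m u w + b * pol m u z + a * b * pol m w z := by
  unfold Cfsg.quadFormPlus pol
  simp only [Finset.mul_sum, ← Finset.sum_add_distrib]
  refine Finset.sum_congr rfl (fun i _ => ?_)
  simp only [Pi.add_apply, Pi.smul_apply, smul_eq_mul]; ring

theorem Q2 (m : ℕ) (u w : Fin m ⊕ Fin m → F) (a : F) :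
    Cfsg.quadFormPlus m F (u + a • w) =
      Cfsg.quadFormPlus m F u + a ^ 2 * Cfsg.quadFormPlus m F w + a * pol m u w := by
  unfold Cfsg.quadFormPlus pol
  simp only [Finset.mul_sum, ← Finset.sum_add_distrib]
  refine Finset.sum_congr rfl (fun i _ => ?_)
  simp only [Pi.add_apply, Pi.smul_apply, smul_eq_mul]; ring

theorem pol_self (m : ℕ) (w : Fin m ⊕ Fin m → F) :
    pol m w w = 2 * Cfsg.quadFormPlus m F w := by
  unfold Cfsg.quadFormPlus pol
  rw [Finset.mul_sum]
  refine Finset.sum_congr rfl (fun i _ => ?_)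
  ring

theorem pol_nondeg (m : ℕ) (u : Fin m ⊕ Fin m → F) (hu : ∀ v, pol m u v = 0) : u = 0 := by
  classical
  funext j
  rcases j with j | j
  · have h := hu (Pi.single (Sum.inr j) 1)
    unfold pol at h
    rw [Finset.sum_eq_single j] at h
    · simpa [Pi.single_apply] using h
    · intro i _ hij
      simp [Pi.single_apply, hij]
    · intro h'; exact absurd (Finset.mem_univ j) h'
  · have h := hu (Pi.single (Sum.inl j) 1)
    unfold pol at h
    rw [Finset.sum_eq_single j] at h
    · simpa [Pi.single_apply] using h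
    · intro i _ hij
      simp [Pi.single_apply, hij]
    · intro h'; exact absurd (Finset.mem_univ j) h'

/-- the standard maximal totally singular subspace -/
def Mx (m : ℕ) (F : Type*) [Field F] : Submodule F (Fin m ⊕ Fin m → F) :=
  LinearMap.ker (LinearMap.funLeft F F (Sum.inr : Fin m → Fin m ⊕ Fin m))

theorem Mx_finrank (m : ℕ) : Module.finrank F (Mx m F) = m := by
  have hsurj : Function.Surjective
      (LinearMap.funLeft F F (Sum.inr : Fin m → Fin m ⊕ Fin m)) :=
    LinearMap.funLeft_surjective_of_injective F F _ Sum.inr_injective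
  have h1 := LinearMap.finrank_range_add_finrank_ker
    (LinearMap.funLeft F F (Sum.inr : Fin m → Fin m ⊕ Fin m))
  rw [LinearMap.range_eq_top.2 hsurj, finrank_top, Module.finrank_fintype_fun_eq_card,
    Module.finrank_fintype_fun_eq_card] at h1
  simp only [Fintype.card_sum, Fintype.card_fin] at h1
  unfold Mx
  omega

theorem fr_sup {m : ℕ} (U : Submodule F (Fin m ⊕ Fin m → F)) (y : Fin m ⊕ Fin m → F)
    (hy : y ∉ U) :
    Module.finrank F ↥(U ⊔ Submodule.span F {y}) = Module.finrank F U + 1 := by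
  have hy0 : y ≠ 0 := fun h => hy (h ▸ Submodule.zero_mem _)
  have hinf : U ⊓ Submodule.span F {y} = ⊥ := by
    rw [eq_bot_iff]
    intro x hx
    obtain ⟨hx1, hx2⟩ := Submodule.mem_inf.1 hx
    obtain ⟨a, rfl⟩ := Submodule.mem_span_singleton.1 hx2
    rw [Submodule.mem_bot]
    by_cases ha : a = 0
    · rw [ha, zero_smul]
    · exfalso; apply hy
      have h1 := Submodule.smul_mem _ a⁻¹ hx1
      rwa [smul_smul, inv_mul_cancel₀ ha, one_smul] at h1
  have h1 := Submodule.finrank_sup_add_finrank_inf_eq U (Submodule.span F {y})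
  rw [hinf, finrank_bot, finrank_span_singleton hy0, add_zero] at h1
  exact h1

/-- For the form Σ x_i y_i on F^(2m) over a finite field, m ≥ 1: an (m−1)-dimensional subspace on which the form vanishes is contained in exactly two m-dimensional subspaces on which it vanishes. -/
theorem result {F : Type*} [Field F] [Finite F] (m : ℕ) (hm : 1 ≤ m) (U : Submodule F (Fin m ⊕ Fin m → F)) (hU : Module.finrank F U + 1 = m ∧ ∀ u ∈ U, Cfsg.quadFormPlus m F u = 0) : Nat.card {W : Submodule F (Fin m ⊕ Fin m → F) // Module.finrank F W = m ∧ (∀ w ∈ W, Cfsg.quadFormPlus m F w = 0) ∧ U ≤ W} = 2 := by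
  classical
  obtain ⟨hUd, hUQ⟩ := hU
  obtain ⟨B, hB⟩ : ∃ B : LinearMap.BilinForm F (Fin m ⊕ Fin m → F), ∀ u v, B u v = pol m u v :=
    ⟨LinearMap.mk₂ F (pol m) (pol_add_left m) (pol_smul_left m) (pol_add_right m)
      (pol_smul_right m), fun u v => rfl⟩
  have hsymm : ∀ u v, B u v = B v u := fun u v => by rw [hB, hB, pol_comm]
  have hRefl : B.IsRefl := fun u v h => by rw [hsymm, h]
  have hBnd : B.Nondegenerate := by
    refine ⟨fun u hu => pol_nondeg m u (fun v => by rw [← hB]; exact hu v),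
      fun u hu => pol_nondeg m u (fun v => by rw [← hB, hsymm]; exact hu v)⟩
  have hV : Module.finrank F (Fin m ⊕ Fin m → F) = 2 * m := by
    rw [Module.finrank_fintype_fun_eq_card, Fintype.card_sum, Fintype.card_fin]; ring
  have hti : ∀ W : Submodule F (Fin m ⊕ Fin m → F),
      (∀ w ∈ W, Cfsg.quadFormPlus m F w = 0) → ∀ x ∈ W, ∀ y ∈ W, B x y = 0 := by
    intro W hW x hx y hy
    have h1 := Q_add m x y
    rw [hW _ (W.add_mem hx hy), hW x hx, hW y hy, zero_add, zero_add] at h1
    rw [hB]; exact h1.symm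
  have hUle : U ≤ B.orthogonal U := fun x hx =>
    LinearMap.BilinForm.mem_orthogonal_iff.2 (fun n hn => hti U hUQ n hn x hx)
  have hUo : Module.finrank F (B.orthogonal U) = m + 1 := by
    rw [LinearMap.BilinForm.finrank_orthogonal hBnd U, hV]; omega
  have hMQ : ∀ w ∈ Mx m F, Cfsg.quadFormPlus m F w = 0 := by
    intro w hw
    unfold Cfsg.quadFormPlus
    refine Finset.sum_eq_zero (fun i _ => ?_)
    have h0 : w (Sum.inr i) = 0 := congrFun (LinearMap.mem_ker.1 hw) i
    rw [h0, mul_zero]
  obtain ⟨w, hwM, hwo, hwU⟩ : ∃ w, w ∈ Mx m F ∧ w ∈ B.orthogonal U ∧ w ∉ U := by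
    by_contra hcon
    push_neg at hcon
    have h1 : Mx m F ⊓ B.orthogonal U ≤ Mx m F ⊓ U := fun x hx =>
      Submodule.mem_inf.2 ⟨(Submodule.mem_inf.1 hx).1,
        hcon x (Submodule.mem_inf.1 hx).1 (Submodule.mem_inf.1 hx).2⟩
    have h2 : Mx m F ⊔ B.orthogonal U ≤ B.orthogonal (Mx m F ⊓ U) := by
      apply sup_le
      · intro x hx
        exact LinearMap.BilinForm.mem_orthogonal_iff.2
          (fun n hn => hti (Mx m F) hMQ n (Submodule.mem_inf.1 hn).1 x hx)
      · exact LinearMap.BilinForm.orthogonal_le inf_le_right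
    have h3 := Submodule.finrank_sup_add_finrank_inf_eq (Mx m F) (B.orthogonal U)
    have h4 := Submodule.finrank_mono h1
    have h5 := Submodule.finrank_mono h2
    rw [LinearMap.BilinForm.finrank_orthogonal hBnd, hV] at h5
    rw [Mx_finrank, hUo] at h3
    have h6 : Module.finrank F ↥(Mx m F ⊓ U) ≤ Module.finrank F U :=
      Submodule.finrank_mono inf_le_right
    omega
  have hwQ : Cfsg.quadFormPlus m F w = 0 := hMQ w hwM
  have hww : B w w = 0 := by rw [hB, pol_self, hwQ, mul_zero]
  obtain ⟨z₀, hz₀o, hz₀w⟩ : ∃ z, z ∈ B.orthogonal U ∧ B z w ≠ 0 := by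
    by_contra hcon
    push_neg at hcon
    apply hwU
    rw [← LinearMap.BilinForm.orthogonal_orthogonal hBnd hRefl U]
    exact LinearMap.BilinForm.mem_orthogonal_iff.2 (fun n hn => hcon n hn)
  obtain ⟨z, hzo, hzw, hzQ⟩ : ∃ z, z ∈ B.orthogonal U ∧ B z w ≠ 0 ∧
      Cfsg.quadFormPlus m F z = 0 := by
    refine ⟨z₀ + (-(Cfsg.quadFormPlus m F z₀) / B z₀ w) • w, ?_, ?_, ?_⟩
    · exact Submodule.add_mem _ hz₀o (Submodule.smul_mem _ _ hwo)
    · rw [map_add, LinearMap.add_apply, map_smul, LinearMap.smul_apply, hww, smul_zero,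
        add_zero]
      exact hz₀w
    · rw [Q2, hwQ, ← hB, mul_zero, add_zero, div_mul_cancel₀ _ hz₀w, add_neg_cancel]
  have key : ∀ y : Fin m ⊕ Fin m → F, y ∈ B.orthogonal U → Cfsg.quadFormPlus m F y = 0 →
      y ∉ U → (∀ x ∈ U ⊔ Submodule.span F {y}, Cfsg.quadFormPlus m F x = 0) ∧
      Module.finrank F ↥(U ⊔ Submodule.span F {y}) = m := by
    intro y hyo hyQ hyU
    constructor
    · intro x hx
      obtain ⟨u, hu, v, hv, rfl⟩ := Submodule.mem_sup.1 hx
      obtain ⟨a, rfl⟩ := Submodule.mem_span_singleton.1 hv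
      rw [Q2, hUQ u hu, hyQ, ← hB, LinearMap.BilinForm.mem_orthogonal_iff.1 hyo u hu]
      ring
    · rw [fr_sup U y hyU]; exact hUd
  have hzU : z ∉ U := fun h => hzw (LinearMap.BilinForm.mem_orthogonal_iff.1 hwo z h)
  obtain ⟨h1Q, h1d⟩ := key w hwo hwQ hwU
  obtain ⟨h2Q, h2d⟩ := key z hzo hzQ hzU
  have hzW1 : z ∉ U ⊔ Submodule.span F {w} := by
    intro hz
    obtain ⟨u, hu, v, hv, huv⟩ := Submodule.mem_sup.1 hz
    obtain ⟨a, rfl⟩ := Submodule.mem_span_singleton.1 hv
    apply hzw
    rw [← huv, map_add, LinearMap.add_apply, map_smul, LinearMap.smul_apply, hww, smul_zero,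
      add_zero]
    exact LinearMap.BilinForm.mem_orthogonal_iff.1 hwo u hu
  have hUo_eq : (U ⊔ Submodule.span F {w}) ⊔ Submodule.span F {z} = B.orthogonal U := by
    apply Submodule.eq_of_le_of_finrank_eq
    · apply sup_le (sup_le hUle ?_) ?_
      · rw [Submodule.span_le, Set.singleton_subset_iff]; exact hwo
      · rw [Submodule.span_le, Set.singleton_subset_iff]; exact hzo
    · rw [fr_sup _ z hzW1, h1d, hUo]
  have hclass : ∀ W : Submodule F (Fin m ⊕ Fin m → F), Module.finrank F W = m →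
      (∀ x ∈ W, Cfsg.quadFormPlus m F x = 0) → U ≤ W →
      W = U ⊔ Submodule.span F {w} ∨ W = U ⊔ Submodule.span F {z} := by
    intro W hWd hWQ hUW
    have hWo : W ≤ B.orthogonal U := fun x hx =>
      LinearMap.BilinForm.mem_orthogonal_iff.2 (fun n hn => hti W hWQ n (hUW hn) x hx)
    obtain ⟨x, hxW, hxU⟩ : ∃ x, x ∈ W ∧ x ∉ U := by
      by_contra hcon
      push_neg at hcon
      have h1 : W ≤ U := fun x hx => hcon x hx
      have h2 := Submodule.finrank_mono h1
      omega
    have hxo : x ∈ (U ⊔ Submodule.span F {w}) ⊔ Submodule.span F {z} := by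
      rw [hUo_eq]; exact hWo hxW
    obtain ⟨y, hy, v, hv, hyv⟩ := Submodule.mem_sup.1 hxo
    obtain ⟨b, rfl⟩ := Submodule.mem_span_singleton.1 hv
    obtain ⟨u, hu, v', hv', rfl⟩ := Submodule.mem_sup.1 hy
    obtain ⟨a, rfl⟩ := Submodule.mem_span_singleton.1 hv'
    have hQx := hWQ x hxW
    rw [← hyv, Q3, hUQ u hu, hwQ, hzQ, ← hB, ← hB, ← hB,
      LinearMap.BilinForm.mem_orthogonal_iff.1 hwo u hu,
      LinearMap.BilinForm.mem_orthogonal_iff.1 hzo u hu, hsymm w z] at hQx
    have hab : a * b = 0 := by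
      have h : a * b * B z w = 0 := by linear_combination hQx
      rcases mul_eq_zero.1 h with h | h
      · exact h
      · exact absurd h hzw
    have huW : u ∈ W := hUW hu
    rcases mul_eq_zero.1 hab with ha | hb
    · right
      have hb : b ≠ 0 := by
        intro hb0
        apply hxU
        rw [← hyv, ha, hb0, zero_smul, zero_smul, add_zero, add_zero]
        exact hu
      have hzW : z ∈ W := by
        have h1 : b • z ∈ W := by
          have h2 := W.sub_mem hxW huW
          rw [← hyv, ha, zero_smul, add_zero, add_sub_cancel_left] at h2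
          exact h2
        have h3 := W.smul_mem b⁻¹ h1
        rwa [smul_smul, inv_mul_cancel₀ hb, one_smul] at h3
      symm
      apply Submodule.eq_of_le_of_finrank_eq
      · apply sup_le hUW
        rw [Submodule.span_le, Set.singleton_subset_iff]; exact hzW
      · rw [h2d, hWd]
    · left
      have ha : a ≠ 0 := by
        intro ha0
        apply hxU
        rw [← hyv, ha0, hb, zero_smul, zero_smul, add_zero, add_zero]
        exact hu
      have hwW : w ∈ W := by
        have h1 : a • w ∈ W := by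
          have h2 := W.sub_mem hxW huW
          rw [← hyv, hb, zero_smul, add_zero, add_sub_cancel_left] at h2
          exact h2
        have h3 := W.smul_mem a⁻¹ h1
        rwa [smul_smul, inv_mul_cancel₀ ha, one_smul] at h3
      symm
      apply Submodule.eq_of_le_of_finrank_eq
      · apply sup_le hUW
        rw [Submodule.span_le, Set.singleton_subset_iff]; exact hwW
      · rw [h1d, hWd]
  rw [Nat.card_eq_two_iff]
  refine ⟨⟨U ⊔ Submodule.span F {w}, h1d, h1Q, le_sup_left⟩,
    ⟨U ⊔ Submodule.span F {z}, h2d, h2Q, le_sup_left⟩, ?_, ?_⟩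
  · intro h
    have h' : U ⊔ Submodule.span F {w} = U ⊔ Submodule.span F {z} := congrArg Subtype.val h
    apply hzW1
    rw [h']
    exact Submodule.mem_sup_right (Submodule.mem_span_singleton_self z)
  · apply Set.eq_univ_of_forall
    rintro ⟨W, hWd, hWQ, hUW⟩
    rcases hclass W hWd hWQ hUW with h | h
    · exact Set.mem_insert_iff.2 (Or.inl (Subtype.ext h))
    · exact Set.mem_insert_iff.2 (Or.inr (Set.mem_singleton_iff.2 (Subtype.ext h)))

end Cfsg.Agent.S0832
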