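import Cfsg.Statements.S0831
import Mathlib
import Cfsg.Agent.S0832

set_option autoImplicit false
open Cfsg

namespace Cfsg.Agent.S0831

variable {F : Type*} [Field F]

/-- the polar form as a bilinear form -/
noncomputable def Bp (m : ℕ) (F : Type*) [Field F] :
    LinearMap.BilinForm F (Fin m ⊕ Fin m → F) :=
  LinearMap.mk₂ F (Cfsg.Agent.S0832.pol m) (Cfsg.Agent.S0832.pol_add_left m) (Cfsg.Agent.S0832.pol_smul_left m) (Cfsg.Agent.S0832.pol_add_right m)
    (Cfsg.Agent.S0832.pol_smul_right m)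

theorem Bp_apply (m : ℕ) (u v : Fin m ⊕ Fin m → F) : Bp m F u v = Cfsg.Agent.S0832.pol m u v := rfl

theorem Bp_symm (m : ℕ) (u v : Fin m ⊕ Fin m → F) : Bp m F u v = Bp m F v u := by
  rw [Bp_apply, Bp_apply, Cfsg.Agent.S0832.pol_comm]

theorem Bp_refl (m : ℕ) : (Bp m F).IsRefl := fun u v h => by rw [Bp_symm, h]

theorem Bp_nd (m : ℕ) : (Bp m F).Nondegenerate :=
  ⟨fun u hu => Cfsg.Agent.S0832.pol_nondeg m u (fun v => by rw [← Bp_apply]; exact hu v),
   fun u hu => Cfsg.Agent.S0832.pol_nondeg m u (fun v => by rw [← Bp_apply, Bp_symm]; exact hu v)⟩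

theorem hV (m : ℕ) : Module.finrank F (Fin m ⊕ Fin m → F) = 2 * m := by
  rw [Module.finrank_fintype_fun_eq_card, Fintype.card_sum, Fintype.card_fin]; ring

theorem Bp_ti (m : ℕ) (W : Submodule F (Fin m ⊕ Fin m → F))
    (hW : ∀ w ∈ W, Cfsg.quadFormPlus m F w = 0) : ∀ x ∈ W, ∀ y ∈ W, Bp m F x y = 0 := by
  intro x hx y hy
  have h1 := Cfsg.Agent.S0832.Q_add m x y
  rw [hW _ (W.add_mem hx hy), hW x hx, hW y hy, zero_add, zero_add] at h1
  rw [Bp_apply]; exact h1.symm

theorem Mx_Q (m : ℕ) : ∀ w ∈ Cfsg.Agent.S0832.Mx m F, Cfsg.quadFormPlus m F w = 0 := by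
  intro w hw
  unfold Cfsg.quadFormPlus
  refine Finset.sum_eq_zero (fun i _ => ?_)
  have h0 : w (Sum.inr i) = 0 := congrFun (LinearMap.mem_ker.1 hw) i
  rw [h0, mul_zero]

theorem orth_self (m : ℕ) (W : Submodule F (Fin m ⊕ Fin m → F))
    (hWd : Module.finrank F W = m)
    (hWQ : ∀ w ∈ W, Cfsg.quadFormPlus m F w = 0) : (Bp m F).orthogonal W = W := by
  symm
  apply Submodule.eq_of_le_of_finrank_eq
  · exact fun x hx =>
      LinearMap.BilinForm.mem_orthogonal_iff.2 (fun n hn => Bp_ti m W hWQ n hn x hx)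
  · rw [LinearMap.BilinForm.finrank_orthogonal (Bp_nd m) W, hV, hWd]; omega

theorem orth_sup (m : ℕ) (U T : Submodule F (Fin m ⊕ Fin m → F)) :
    (Bp m F).orthogonal (U ⊔ T) = (Bp m F).orthogonal U ⊓ (Bp m F).orthogonal T := by
  ext x
  rw [Submodule.mem_inf, LinearMap.BilinForm.mem_orthogonal_iff,
    LinearMap.BilinForm.mem_orthogonal_iff, LinearMap.BilinForm.mem_orthogonal_iff]
  constructor
  · intro h
    exact ⟨fun n hn => h n (Submodule.mem_sup_left hn),
      fun n hn => h n (Submodule.mem_sup_right hn)⟩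
  · rintro ⟨h1, h2⟩ n hn
    obtain ⟨u, hu, t, ht, rfl⟩ := Submodule.mem_sup.1 hn
    rw [map_add, LinearMap.add_apply, h1 u hu, h2 t ht, add_zero]

theorem two_max (m : ℕ) (U : Submodule F (Fin m ⊕ Fin m → F))
    (hUd : Module.finrank F U + 1 = m) (hUQ : ∀ u ∈ U, Cfsg.quadFormPlus m F u = 0) :
    ∃ W₁ W₂ : Submodule F (Fin m ⊕ Fin m → F),
      ∀ W : Submodule F (Fin m ⊕ Fin m → F), Module.finrank F W = m →
      (∀ x ∈ W, Cfsg.quadFormPlus m F x = 0) → U ≤ W → W = W₁ ∨ W = W₂ := by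
  classical
  obtain ⟨B, hB⟩ : ∃ B : LinearMap.BilinForm F (Fin m ⊕ Fin m → F), ∀ u v, B u v = Cfsg.Agent.S0832.pol m u v :=
    ⟨LinearMap.mk₂ F (Cfsg.Agent.S0832.pol m) (Cfsg.Agent.S0832.pol_add_left m) (Cfsg.Agent.S0832.pol_smul_left m) (Cfsg.Agent.S0832.pol_add_right m)
      (Cfsg.Agent.S0832.pol_smul_right m), fun u v => rfl⟩
  have hsymm : ∀ u v, B u v = B v u := fun u v => by rw [hB, hB, Cfsg.Agent.S0832.pol_comm]
  have hRefl : B.IsRefl := fun u v h => by rw [hsymm, h]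
  have hBnd : B.Nondegenerate := by
    refine ⟨fun u hu => Cfsg.Agent.S0832.pol_nondeg m u (fun v => by rw [← hB]; exact hu v),
      fun u hu => Cfsg.Agent.S0832.pol_nondeg m u (fun v => by rw [← hB, hsymm]; exact hu v)⟩
  have hV : Module.finrank F (Fin m ⊕ Fin m → F) = 2 * m := by
    rw [Module.finrank_fintype_fun_eq_card, Fintype.card_sum, Fintype.card_fin]; ring
  have hti : ∀ W : Submodule F (Fin m ⊕ Fin m → F),
      (∀ w ∈ W, Cfsg.quadFormPlus m F w = 0) → ∀ x ∈ W, ∀ y ∈ W, B x y = 0 := by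
    intro W hW x hx y hy
    have h1 := Cfsg.Agent.S0832.Q_add m x y
    rw [hW _ (W.add_mem hx hy), hW x hx, hW y hy, zero_add, zero_add] at h1
    rw [hB]; exact h1.symm
  have hUle : U ≤ B.orthogonal U := fun x hx =>
    LinearMap.BilinForm.mem_orthogonal_iff.2 (fun n hn => hti U hUQ n hn x hx)
  have hUo : Module.finrank F (B.orthogonal U) = m + 1 := by
    rw [LinearMap.BilinForm.finrank_orthogonal hBnd U, hV]; omega
  have hMQ : ∀ w ∈ Cfsg.Agent.S0832.Mx m F, Cfsg.quadFormPlus m F w = 0 := by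
    intro w hw
    unfold Cfsg.quadFormPlus
    refine Finset.sum_eq_zero (fun i _ => ?_)
    have h0 : w (Sum.inr i) = 0 := congrFun (LinearMap.mem_ker.1 hw) i
    rw [h0, mul_zero]
  obtain ⟨w, hwM, hwo, hwU⟩ : ∃ w, w ∈ Cfsg.Agent.S0832.Mx m F ∧ w ∈ B.orthogonal U ∧ w ∉ U := by
    by_contra hcon
    push_neg at hcon
    have h1 : Cfsg.Agent.S0832.Mx m F ⊓ B.orthogonal U ≤ Cfsg.Agent.S0832.Mx m F ⊓ U := fun x hx =>
      Submodule.mem_inf.2 ⟨(Submodule.mem_inf.1 hx).1,
        hcon x (Submodule.mem_inf.1 hx).1 (Submodule.mem_inf.1 hx).2⟩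
    have h2 : Cfsg.Agent.S0832.Mx m F ⊔ B.orthogonal U ≤ B.orthogonal (Cfsg.Agent.S0832.Mx m F ⊓ U) := by
      apply sup_le
      · intro x hx
        exact LinearMap.BilinForm.mem_orthogonal_iff.2
          (fun n hn => hti (Cfsg.Agent.S0832.Mx m F) hMQ n (Submodule.mem_inf.1 hn).1 x hx)
      · exact LinearMap.BilinForm.orthogonal_le inf_le_right
    have h3 := Submodule.finrank_sup_add_finrank_inf_eq (Cfsg.Agent.S0832.Mx m F) (B.orthogonal U)
    have h4 := Submodule.finrank_mono h1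
    have h5 := Submodule.finrank_mono h2
    rw [LinearMap.BilinForm.finrank_orthogonal hBnd, hV] at h5
    rw [Cfsg.Agent.S0832.Mx_finrank, hUo] at h3
    have h6 : Module.finrank F ↥(Cfsg.Agent.S0832.Mx m F ⊓ U) ≤ Module.finrank F U :=
      Submodule.finrank_mono inf_le_right
    omega
  have hwQ : Cfsg.quadFormPlus m F w = 0 := hMQ w hwM
  have hww : B w w = 0 := by rw [hB, Cfsg.Agent.S0832.pol_self, hwQ, mul_zero]
  obtain ⟨z₀, hz₀o, hz₀w⟩ : ∃ z, z ∈ B.orthogonal U ∧ B z w ≠ 0 := by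
    by_contra hcon
    push_neg at hcon
    apply hwU
    rw [← LinearMap.BilinForm.orthogonal_orthogonal hBnd hRefl U]
    exact LinearMap.BilinForm.mem_orthogonal_iff.2 (fun n hn => hcon n hn)
  obtain ⟨z, hzo, hzw, hzQ⟩ : ∃ z, z ∈ B.orthogonal U ∧ B z w ≠ 0 ∧
      Cfsg.quadFormPlus m F z = 0 := by
    refine ⟨z₀ + (-(Cfsg.quadFormPlus m F z₀) / B z₀ w) • w, ?_, ?_, ?_⟩
    · exact Submodule.add_mem _ hz₀o (Submodule.smul_mem _ _ hwo)
    · rw [map_add, LinearMap.add_apply, map_smul, LinearMap.smul_apply, hww, smul_zero,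
        add_zero]
      exact hz₀w
    · rw [Cfsg.Agent.S0832.Q2, hwQ, ← hB, mul_zero, add_zero, div_mul_cancel₀ _ hz₀w, add_neg_cancel]
  have key : ∀ y : Fin m ⊕ Fin m → F, y ∈ B.orthogonal U → Cfsg.quadFormPlus m F y = 0 →
      y ∉ U → (∀ x ∈ U ⊔ Submodule.span F {y}, Cfsg.quadFormPlus m F x = 0) ∧
      Module.finrank F ↥(U ⊔ Submodule.span F {y}) = m := by
    intro y hyo hyQ hyU
    constructor
    · intro x hx
      obtain ⟨u, hu, v, hv, rfl⟩ := Submodule.mem_sup.1 hx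
      obtain ⟨a, rfl⟩ := Submodule.mem_span_singleton.1 hv
      rw [Cfsg.Agent.S0832.Q2, hUQ u hu, hyQ, ← hB, LinearMap.BilinForm.mem_orthogonal_iff.1 hyo u hu]
      ring
    · rw [Cfsg.Agent.S0832.fr_sup U y hyU]; exact hUd
  have hzU : z ∉ U := fun h => hzw (LinearMap.BilinForm.mem_orthogonal_iff.1 hwo z h)
  obtain ⟨h1Q, h1d⟩ := key w hwo hwQ hwU
  obtain ⟨h2Q, h2d⟩ := key z hzo hzQ hzU
  have hzW1 : z ∉ U ⊔ Submodule.span F {w} := by
    intro hz
    obtain ⟨u, hu, v, hv, huv⟩ := Submodule.mem_sup.1 hz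
    obtain ⟨a, rfl⟩ := Submodule.mem_span_singleton.1 hv
    apply hzw
    rw [← huv, map_add, LinearMap.add_apply, map_smul, LinearMap.smul_apply, hww, smul_zero,
      add_zero]
    exact LinearMap.BilinForm.mem_orthogonal_iff.1 hwo u hu
  have hUo_eq : (U ⊔ Submodule.span F {w}) ⊔ Submodule.span F {z} = B.orthogonal U := by
    apply Submodule.eq_of_le_of_finrank_eq
    · apply sup_le (sup_le hUle ?_) ?_
      · rw [Submodule.span_le, Set.singleton_subset_iff]; exact hwo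
      · rw [Submodule.span_le, Set.singleton_subset_iff]; exact hzo
    · rw [Cfsg.Agent.S0832.fr_sup _ z hzW1, h1d, hUo]
  have hclass : ∀ W : Submodule F (Fin m ⊕ Fin m → F), Module.finrank F W = m →
      (∀ x ∈ W, Cfsg.quadFormPlus m F x = 0) → U ≤ W →
      W = U ⊔ Submodule.span F {w} ∨ W = U ⊔ Submodule.span F {z} := by
    intro W hWd hWQ hUW
    have hWo : W ≤ B.orthogonal U := fun x hx =>
      LinearMap.BilinForm.mem_orthogonal_iff.2 (fun n hn => hti W hWQ n (hUW hn) x hx)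
    obtain ⟨x, hxW, hxU⟩ : ∃ x, x ∈ W ∧ x ∉ U := by
      by_contra hcon
      push_neg at hcon
      have h1 : W ≤ U := fun x hx => hcon x hx
      have h2 := Submodule.finrank_mono h1
      omega
    have hxo : x ∈ (U ⊔ Submodule.span F {w}) ⊔ Submodule.span F {z} := by
      rw [hUo_eq]; exact hWo hxW
    obtain ⟨y, hy, v, hv, hyv⟩ := Submodule.mem_sup.1 hxo
    obtain ⟨b, rfl⟩ := Submodule.mem_span_singleton.1 hv
    obtain ⟨u, hu, v', hv', rfl⟩ := Submodule.mem_sup.1 hy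
    obtain ⟨a, rfl⟩ := Submodule.mem_span_singleton.1 hv'
    have hQx := hWQ x hxW
    rw [← hyv, Cfsg.Agent.S0832.Q3, hUQ u hu, hwQ, hzQ, ← hB, ← hB, ← hB,
      LinearMap.BilinForm.mem_orthogonal_iff.1 hwo u hu,
      LinearMap.BilinForm.mem_orthogonal_iff.1 hzo u hu, hsymm w z] at hQx
    have hab : a * b = 0 := by
      have h : a * b * B z w = 0 := by linear_combination hQx
      rcases mul_eq_zero.1 h with h | h
      · exact h
      · exact absurd h hzw
    have huW : u ∈ W := hUW hu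
    rcases mul_eq_zero.1 hab with ha | hb
    · right
      have hb : b ≠ 0 := by
        intro hb0
        apply hxU
        rw [← hyv, ha, hb0, zero_smul, zero_smul, add_zero, add_zero]
        exact hu
      have hzW : z ∈ W := by
        have h1 : b • z ∈ W := by
          have h2 := W.sub_mem hxW huW
          rw [← hyv, ha, zero_smul, add_zero, add_sub_cancel_left] at h2
          exact h2
        have h3 := W.smul_mem b⁻¹ h1
        rwa [smul_smul, inv_mul_cancel₀ hb, one_smul] at h3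
      symm
      apply Submodule.eq_of_le_of_finrank_eq
      · apply sup_le hUW
        rw [Submodule.span_le, Set.singleton_subset_iff]; exact hzW
      · rw [h2d, hWd]
    · left
      have ha : a ≠ 0 := by
        intro ha0
        apply hxU
        rw [← hyv, ha0, hb, zero_smul, zero_smul, add_zero, add_zero]
        exact hu
      have hwW : w ∈ W := by
        have h1 : a • w ∈ W := by
          have h2 := W.sub_mem hxW huW
          rw [← hyv, hb, zero_smul, add_zero, add_sub_cancel_left] at h2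
          exact h2
        have h3 := W.smul_mem a⁻¹ h1
        rwa [smul_smul, inv_mul_cancel₀ ha, one_smul] at h3
      symm
      apply Submodule.eq_of_le_of_finrank_eq
      · apply sup_le hUW
        rw [Submodule.span_le, Set.singleton_subset_iff]; exact hwW
      · rw [h1d, hWd]
  exact ⟨U ⊔ Submodule.span F {w}, U ⊔ Submodule.span F {z}, hclass⟩


theorem three (m : ℕ) (T W X U' : Submodule F (Fin m ⊕ Fin m → F))
    (hTd : Module.finrank F T + 1 = m) (hTQ : ∀ u ∈ T, Cfsg.quadFormPlus m F u = 0)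
    (hWd : Module.finrank F W = m) (hWQ : ∀ x ∈ W, Cfsg.quadFormPlus m F x = 0) (hTW : T ≤ W)
    (hXd : Module.finrank F X = m) (hXQ : ∀ x ∈ X, Cfsg.quadFormPlus m F x = 0) (hTX : T ≤ X)
    (hUd : Module.finrank F U' = m) (hUQ : ∀ x ∈ U', Cfsg.quadFormPlus m F x = 0)
    (hTU : T ≤ U') (hWX : W ≠ X) : U' = W ∨ U' = X := by
  obtain ⟨W₁, W₂, h⟩ := two_max m T hTd hTQ
  rcases h W hWd hWQ hTW with h1 | h1 <;> rcases h X hXd hXQ hTX with h2 | h2 <;>
    rcases h U' hUd hUQ hTU with h3 | h3 <;>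
    first
      | exact absurd (h1.trans h2.symm) hWX
      | exact Or.inl (h3.trans h1.symm)
      | exact Or.inr (h3.trans h2.symm)

theorem adj (m : ℕ) (W : Submodule F (Fin m ⊕ Fin m → F))
    (hWd : Module.finrank F W = m) (hWQ : ∀ x ∈ W, Cfsg.quadFormPlus m F x = 0)
    (x : Fin m ⊕ Fin m → F) (hxQ : Cfsg.quadFormPlus m F x = 0) (hxW : x ∉ W) :
    ∃ W' : Submodule F (Fin m ⊕ Fin m → F), Module.finrank F W' = m ∧
      (∀ y ∈ W', Cfsg.quadFormPlus m F y = 0) ∧ Module.finrank F ↥(W ⊓ W') + 1 = m ∧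
      x ∈ W' ∧
      ∀ X : Submodule F (Fin m ⊕ Fin m → F), (∀ y ∈ X, Cfsg.quadFormPlus m F y = 0) → x ∈ X →
        Module.finrank F ↥(W ⊓ X) + 1 ≤ Module.finrank F ↥(W' ⊓ X) := by
  classical
  have hx0 : x ≠ 0 := fun h => hxW (h ▸ Submodule.zero_mem _)
  obtain ⟨T, hT⟩ : ∃ T : Submodule F (Fin m ⊕ Fin m → F),
      T = W ⊓ (Bp m F).orthogonal (Submodule.span F {x}) := ⟨_, rfl⟩
  have hTW : T ≤ W := by rw [hT]; exact inf_le_left
  have hTx : ∀ t ∈ T, Bp m F t x = 0 := by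
    intro t ht
    rw [hT] at ht
    have h1 := LinearMap.BilinForm.mem_orthogonal_iff.1 (Submodule.mem_inf.1 ht).2 x
      (Submodule.mem_span_singleton_self x)
    rw [Bp_symm]; exact h1
  have hxT : x ∉ T := fun h => hxW (hTW h)
  have hTne : T ≠ W := by
    intro h
    apply hxW
    rw [← orth_self m W hWd hWQ]
    refine LinearMap.BilinForm.mem_orthogonal_iff.2 (fun n hn => ?_)
    rw [← h] at hn
    exact hTx n hn
  have hTlt : Module.finrank F T < m := by
    have := Submodule.finrank_lt_finrank_of_lt (lt_of_le_of_ne hTW hTne)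
    omega
  have hTge : m ≤ Module.finrank F T + 1 := by
    have h1 := Submodule.finrank_sup_add_finrank_inf_eq W
      ((Bp m F).orthogonal (Submodule.span F {x}))
    have h2 : Module.finrank F ↥(W ⊔ (Bp m F).orthogonal (Submodule.span F {x})) ≤ 2 * m := by
      rw [← hV (F := F) m]; exact Submodule.finrank_le _
    rw [LinearMap.BilinForm.finrank_orthogonal (Bp_nd m), hV, finrank_span_singleton hx0, hWd,
      ← hT] at h1
    omega
  have hTd : Module.finrank F T + 1 = m := by omega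
  have hW'd : Module.finrank F ↥(T ⊔ Submodule.span F {x}) = m := by
    rw [Cfsg.Agent.S0832.fr_sup T x hxT]; exact hTd
  have hW'Q : ∀ y ∈ T ⊔ Submodule.span F {x}, Cfsg.quadFormPlus m F y = 0 := by
    intro y hy
    obtain ⟨t, ht, v, hv, rfl⟩ := Submodule.mem_sup.1 hy
    obtain ⟨a, rfl⟩ := Submodule.mem_span_singleton.1 hv
    rw [Cfsg.Agent.S0832.Q2, hWQ t (hTW ht), hxQ, ← Bp_apply, hTx t ht]
    ring
  have hxW' : x ∈ T ⊔ Submodule.span F {x} :=
    Submodule.mem_sup_right (Submodule.mem_span_singleton_self x)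
  refine ⟨T ⊔ Submodule.span F {x}, hW'd, hW'Q, ?_, hxW', ?_⟩
  · have h1 : T ≤ W ⊓ (T ⊔ Submodule.span F {x}) := le_inf hTW le_sup_left
    have h2 := Submodule.finrank_mono h1
    have h3 : Module.finrank F ↥(W ⊓ (T ⊔ Submodule.span F {x})) < m := by
      by_contra hcon
      push_neg at hcon
      have h4 : W ⊓ (T ⊔ Submodule.span F {x}) = T ⊔ Submodule.span F {x} :=
        Submodule.eq_of_le_of_finrank_le inf_le_right (by rw [hW'd]; exact hcon)
      apply hxW
      have h5 : x ∈ W ⊓ (T ⊔ Submodule.span F {x}) := by rw [h4]; exact hxW'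
      exact (Submodule.mem_inf.1 h5).1
    omega
  · intro X hXQ hxX
    have h1 : (W ⊓ X) ⊔ Submodule.span F {x} ≤ (T ⊔ Submodule.span F {x}) ⊓ X := by
      apply sup_le
      · intro y hy
        obtain ⟨hyW, hyX⟩ := Submodule.mem_inf.1 hy
        refine Submodule.mem_inf.2 ⟨Submodule.mem_sup_left ?_, hyX⟩
        rw [hT]
        refine Submodule.mem_inf.2 ⟨hyW,
          LinearMap.BilinForm.mem_orthogonal_iff.2 (fun n hn => ?_)⟩
        obtain ⟨a, rfl⟩ := Submodule.mem_span_singleton.1 hn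
        rw [map_smul, LinearMap.smul_apply, Bp_ti m X hXQ x hxX y hyX, smul_zero]
      · rw [Submodule.span_le, Set.singleton_subset_iff]
        exact Submodule.mem_inf.2 ⟨hxW', hxX⟩
    have h2 := Submodule.finrank_mono h1
    have hxWX : x ∉ W ⊓ X := fun h => hxW (Submodule.mem_inf.1 h).1
    rw [Cfsg.Agent.S0832.fr_sup (W ⊓ X) x hxWX] at h2
    exact h2

theorem stepA (m : ℕ) (U W X : Submodule F (Fin m ⊕ Fin m → F))
    (hUd : Module.finrank F U = m) (hUQ : ∀ x ∈ U, Cfsg.quadFormPlus m F x = 0)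
    (hWd : Module.finrank F W = m) (hWQ : ∀ x ∈ W, Cfsg.quadFormPlus m F x = 0)
    (hXd : Module.finrank F X = m) (hXQ : ∀ x ∈ X, Cfsg.quadFormPlus m F x = 0)
    (hadj : Module.finrank F ↥(W ⊓ X) + 1 = m) :
    Module.finrank F ↥(U ⊓ W) = Module.finrank F ↥(U ⊓ X) + 1 ∨
    Module.finrank F ↥(U ⊓ X) = Module.finrank F ↥(U ⊓ W) + 1 := by
  classical
  have hWX : W ≠ X := by
    intro h
    rw [← h, inf_idem, hWd] at hadj
    omega
  obtain ⟨T, hT⟩ : ∃ T : Submodule F (Fin m ⊕ Fin m → F), T = W ⊓ X := ⟨_, rfl⟩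
  rw [← hT] at hadj
  have hTW : T ≤ W := by rw [hT]; exact inf_le_left
  have hTX : T ≤ X := by rw [hT]; exact inf_le_right
  have hTQ : ∀ x ∈ T, Cfsg.quadFormPlus m F x = 0 := fun x hx => hWQ x (hTW hx)
  have hTo : T ≤ (Bp m F).orthogonal T := fun x hx =>
    LinearMap.BilinForm.mem_orthogonal_iff.2 (fun n hn => Bp_ti m T hTQ n hn x hx)
  have hWo : W ≤ (Bp m F).orthogonal T := fun x hx =>
    LinearMap.BilinForm.mem_orthogonal_iff.2 (fun n hn => Bp_ti m W hWQ n (hTW hn) x hx)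
  have hXo : X ≤ (Bp m F).orthogonal T := fun x hx =>
    LinearMap.BilinForm.mem_orthogonal_iff.2 (fun n hn => Bp_ti m X hXQ n (hTX hn) x hx)
  obtain ⟨P, hP⟩ : ∃ P : Submodule F (Fin m ⊕ Fin m → F),
      P = U ⊓ (Bp m F).orthogonal T := ⟨_, rfl⟩
  have hPU : P ≤ U := by rw [hP]; exact inf_le_left
  have hPo : P ≤ (Bp m F).orthogonal T := by rw [hP]; exact inf_le_right
  have hPT : P ⊓ T = U ⊓ T := by
    apply le_antisymm
    · exact inf_le_inf_right T hPU
    · refine le_inf ?_ inf_le_right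
      rw [hP]
      exact le_inf inf_le_left (inf_le_right.trans hTo)
  have hPd : Module.finrank F P = Module.finrank F ↥(U ⊓ T) + 1 := by
    have e1 : P = (Bp m F).orthogonal (U ⊔ T) := by
      rw [orth_sup, orth_self m U hUd hUQ, hP]
    have h1 := Submodule.finrank_sup_add_finrank_inf_eq U T
    have h2 : Module.finrank F ↥(U ⊔ T) ≤ 2 * m := by
      rw [← hV (F := F) m]; exact Submodule.finrank_le _
    rw [e1, LinearMap.BilinForm.finrank_orthogonal (Bp_nd m), hV]
    rw [hUd] at h1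
    omega
  have hP'd : Module.finrank F ↥(P ⊔ T) = m := by
    have h1 := Submodule.finrank_sup_add_finrank_inf_eq P T
    rw [hPT, hPd] at h1
    omega
  have hP'Q : ∀ y ∈ P ⊔ T, Cfsg.quadFormPlus m F y = 0 := by
    intro y hy
    obtain ⟨p, hp, t, ht, rfl⟩ := Submodule.mem_sup.1 hy
    rw [Cfsg.Agent.S0832.Q_add, hUQ p (hPU hp), hTQ t ht, ← Bp_apply, Bp_symm,
      LinearMap.BilinForm.mem_orthogonal_iff.1 (hPo hp) t ht]
    ring
  have hUT_W : U ⊓ T ≤ U ⊓ W := inf_le_inf_left U hTW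
  have hUT_X : U ⊓ T ≤ U ⊓ X := inf_le_inf_left U hTX
  rcases three m T W X (P ⊔ T) hadj hTQ hWd hWQ hTW hXd hXQ hTX hP'd hP'Q le_sup_right hWX
    with h | h
  · left
    have hPW : P ≤ W := by rw [← h]; exact le_sup_left
    have e1 : U ⊓ W = P := by
      apply le_antisymm
      · rw [hP]; exact inf_le_inf_left U hWo
      · exact le_inf hPU hPW
    have e2 : U ⊓ X = U ⊓ T := by
      apply le_antisymm
      · intro y hy
        obtain ⟨hyU, hyX⟩ := Submodule.mem_inf.1 hy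
        have hyP : y ∈ P := by rw [hP]; exact Submodule.mem_inf.2 ⟨hyU, hXo hyX⟩
        refine Submodule.mem_inf.2 ⟨hyU, ?_⟩
        rw [hT]; exact Submodule.mem_inf.2 ⟨hPW hyP, hyX⟩
      · exact hUT_X
    rw [e1, e2, hPd]
  · right
    have hPX : P ≤ X := by rw [← h]; exact le_sup_left
    have e1 : U ⊓ X = P := by
      apply le_antisymm
      · rw [hP]; exact inf_le_inf_left U hXo
      · exact le_inf hPU hPX
    have e2 : U ⊓ W = U ⊓ T := by
      apply le_antisymm
      · intro y hy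
        obtain ⟨hyU, hyW⟩ := Submodule.mem_inf.1 hy
        have hyP : y ∈ P := by rw [hP]; exact Submodule.mem_inf.2 ⟨hyU, hWo hyW⟩
        refine Submodule.mem_inf.2 ⟨hyU, ?_⟩
        rw [hT]; exact Submodule.mem_inf.2 ⟨hyW, hPX hyP⟩
      · exact hUT_W
    rw [e1, e2, hPd]

theorem parity (m : ℕ) : ∀ k : ℕ, ∀ W X : Submodule F (Fin m ⊕ Fin m → F),
    Module.finrank F W = m → (∀ x ∈ W, Cfsg.quadFormPlus m F x = 0) →
    Module.finrank F X = m → (∀ x ∈ X, Cfsg.quadFormPlus m F x = 0) →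
    m - Module.finrank F ↥(W ⊓ X) = k →
    ∀ U : Submodule F (Fin m ⊕ Fin m → F), Module.finrank F U = m →
      (∀ x ∈ U, Cfsg.quadFormPlus m F x = 0) →
      Even ((m - Module.finrank F ↥(U ⊓ W)) + (m - Module.finrank F ↥(W ⊓ X)) +
        (m - Module.finrank F ↥(U ⊓ X))) := by
  intro k
  induction k using Nat.strong_induction_on with
  | _ k ih =>
    intro W X hWd hWQ hXd hXQ hk U hUd hUQ
    by_cases hWX : W = X
    · subst hWX
      rw [inf_idem, hWd, Nat.sub_self, add_zero]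
      exact ⟨_, rfl⟩
    · obtain ⟨x, hxX, hxW⟩ : ∃ x, x ∈ X ∧ x ∉ W := by
        by_contra hcon
        push_neg at hcon
        have h1 : X ≤ W := fun x hx => hcon x hx
        exact hWX (Submodule.eq_of_le_of_finrank_eq h1 (by rw [hXd, hWd])).symm
      obtain ⟨W', hW'd, hW'Q, hadj, hxW', hlt⟩ := adj m W hWd hWQ x (hXQ x hxX) hxW
      have h1 := hlt X hXQ hxX
      have hle : Module.finrank F ↥(W' ⊓ X) ≤ m :=
        (Submodule.finrank_mono inf_le_right).trans hXd.le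
      have hIH := ih (m - Module.finrank F ↥(W' ⊓ X)) (by omega) W' X hW'd hW'Q hXd hXQ rfl
        U hUd hUQ
      have hA1 := stepA m U W W' hUd hUQ hWd hWQ hW'd hW'Q hadj
      have hA2 := stepA m X W W' hXd hXQ hWd hWQ hW'd hW'Q hadj
      rw [inf_comm X W, inf_comm X W'] at hA2
      have hle1 : Module.finrank F ↥(U ⊓ W) ≤ m :=
        (Submodule.finrank_mono inf_le_left).trans hUd.le
      have hle2 : Module.finrank F ↥(U ⊓ W') ≤ m :=
        (Submodule.finrank_mono inf_le_left).trans hUd.le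
      have hle3 : Module.finrank F ↥(U ⊓ X) ≤ m :=
        (Submodule.finrank_mono inf_le_left).trans hUd.le
      have hle4 : Module.finrank F ↥(W ⊓ X) ≤ m :=
        (Submodule.finrank_mono inf_le_right).trans hXd.le
      rw [Nat.even_iff] at hIH ⊢
      omega

/-- The two families of maximal totally singular subspaces of the hyperbolic quadric: for the form Σ x_i y_i on F^(2m), m ≥ 1, and m-dimensional subspaces U, W, X on which it vanishes, the parities of m − dim(U ∩ W), m − dim(W ∩ X) and m − dim(U ∩ X) sum to an even number (so 'even codimension of the intersection' is an equivalence relation), and there exist two such subspaces meeting in codimension 1 (so there are exactly two classes). -/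
theorem result {F : Type*} [Field F] (m : ℕ) (hm : 1 ≤ m) : (∀ U W X : Submodule F (Fin m ⊕ Fin m → F), (Module.finrank F U = m ∧ ∀ w ∈ U, Cfsg.quadFormPlus m F w = 0) → (Module.finrank F W = m ∧ ∀ w ∈ W, Cfsg.quadFormPlus m F w = 0) → (Module.finrank F X = m ∧ ∀ w ∈ X, Cfsg.quadFormPlus m F w = 0) → Even ((m - Module.finrank F ↥(U ⊓ W)) + (m - Module.finrank F ↥(W ⊓ X)) + (m - Module.finrank F ↥(U ⊓ X)))) ∧ ∃ U W : Submodule F (Fin m ⊕ Fin m → F), (Module.finrank F U = m ∧ ∀ w ∈ U, Cfsg.quadFormPlus m F w = 0) ∧ (Module.finrank F W = m ∧ ∀ w ∈ W, Cfsg.quadFormPlus m F w = 0) ∧ Module.finrank F ↥(U ⊓ W) + 1 = m := by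
  classical
  refine ⟨fun U W X hU hW hX => parity m _ W X hW.1 hW.2 hX.1 hX.2 rfl U hU.1 hU.2, ?_⟩
  have hM := Cfsg.Agent.S0832.Mx_finrank (F := F) m
  have hxQ : Cfsg.quadFormPlus m F (Pi.single (Sum.inr ⟨0, hm⟩) 1) = 0 := by
    unfold Cfsg.quadFormPlus
    refine Finset.sum_eq_zero (fun i _ => ?_)
    simp [Pi.single_apply]
  have hxM : (Pi.single (Sum.inr ⟨0, hm⟩) 1 : Fin m ⊕ Fin m → F) ∉ Cfsg.Agent.S0832.Mx m F := by
    intro h
    have h0 : (Pi.single (Sum.inr ⟨0, hm⟩) 1 : Fin m ⊕ Fin m → F) (Sum.inr ⟨0, hm⟩) = 0 :=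
      congrFun (LinearMap.mem_ker.1 h) ⟨0, hm⟩
    rw [Pi.single_eq_same] at h0
    exact one_ne_zero h0
  obtain ⟨W', hW'd, hW'Q, hadj, -, -⟩ := adj m (Cfsg.Agent.S0832.Mx m F) hM (Mx_Q m) _ hxQ hxM
  exact ⟨Cfsg.Agent.S0832.Mx m F, W', ⟨hM, Mx_Q m⟩, ⟨hW'd, hW'Q⟩, hadj⟩

end Cfsg.Agent.S0831
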