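import Cfsg.Statements.S0839
import Mathlib
import Cfsg.Agent.S2579

set_option autoImplicit false
open Cfsg

namespace Cfsg.Agent.S0839

/-- Every transvection t ∈ SL_(n+2)(F) (rank(t − 1) = 1, (t − 1)² = 0) is conjugate in SL_(n+2)(F) to 1 + v·e_0ᵀ for some column vector v with v_0 = 0 (the group A of matrices that are the identity except in the first column below the diagonal); the dimension is written n + 2 ≥ 2. -/
theorem result {F : Type*} [Field F] (n : ℕ) (t : Matrix.SpecialLinearGroup (Fin (n + 2)) F) (ht : Cfsg.IsTransvection (t : Matrix (Fin (n + 2)) (Fin (n + 2)) F)) : ∃ (g : Matrix.SpecialLinearGroup (Fin (n + 2)) F) (v : Fin (n + 2) → F), v 0 = 0 ∧ ((g⁻¹ * t * g : Matrix.SpecialLinearGroup (Fin (n + 2)) F) : Matrix (Fin (n + 2)) (Fin (n + 2)) F) = 1 + Matrix.vecMulVec v (Pi.single 0 1) := by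
  classical
  obtain ⟨P, c, -, hP⟩ := Cfsg.Agent.S2579.exists_conj_SL t ht (0 : Fin (n + 2)) 1 0
    Fin.zero_ne_one Fin.zero_ne_one.symm
  refine ⟨P, c • (Pi.single (1 : Fin (n + 2)) (1 : F) : Fin (n + 2) → F), ?_, ?_⟩
  · show c • (Pi.single (1 : Fin (n + 2)) (1 : F) : Fin (n + 2) → F) 0 = 0
    rw [Pi.single_apply, if_neg Fin.zero_ne_one, smul_zero]
  · have hi : (P⁻¹).1 * P.1 = 1 := by
      have := congrArg Subtype.val (inv_mul_cancel P)
      exact this
    show (P⁻¹).1 * t.1 * P.1 = _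
    rw [Matrix.mul_assoc, hP, ← Matrix.mul_assoc, hi, Matrix.one_mul, Matrix.smul_vecMulVec]

end Cfsg.Agent.S0839
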