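import Mathlib
import Cfsg.Agent.Helper2.ClassMul
import Cfsg.Statements.S0840

set_option autoImplicit false
open scoped ComplexConjugate
open Cfsg

namespace Cfsg.Agent.S0840

/-- Class multiplication coefficients from the character table: for elements a, b, c of a finite group G, the number of ordered pairs (x, y) with x conjugate to a, y conjugate to b and x * y = c equals the product of the sizes of the conjugacy classes of a and b, divided by the order of G, times the sum over the irreducible characters χ of χ a * χ b * conj (χ c) / χ 1. -/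
theorem result {G : Type*} [Group G] [Finite G] (a b c : G) : (Nat.card {p : G × G // IsConj a p.1 ∧ IsConj b p.2 ∧ p.1 * p.2 = c} : ℂ) = (Nat.card {x : G // IsConj a x} : ℂ) * (Nat.card {x : G // IsConj b x} : ℂ) / (Nat.card G : ℂ) * ∑ᶠ χ : Cfsg.IrrCharacter G, (χ : G → ℂ) a * (χ : G → ℂ) b * conj ((χ : G → ℂ) c) / (χ : G → ℂ) 1 := by
  classical
  have hA := Helper2.ClassMul.count_pairs a b c
  have hB := Helper2.ClassMul.sum_formula a b c
  have h1 := Helper2.Iso.card_eq_centralizer_mul_class a
  have h2 := Helper2.Iso.card_eq_centralizer_mul_class b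
  have hG : (Nat.card G : ℂ) ≠ 0 := by exact_mod_cast Nat.card_pos.ne'
  have hCa : (Nat.card (Subgroup.centralizer ({a} : Set G)) : ℂ) ≠ 0 := by
    exact_mod_cast Nat.card_pos.ne'
  have hCb : (Nat.card (Subgroup.centralizer ({b} : Set G)) : ℂ) ≠ 0 := by
    exact_mod_cast Nat.card_pos.ne'
  have hA' : (Nat.card {q : G × G // q.1 * a * q.1⁻¹ * (q.2 * b * q.2⁻¹) = c} : ℂ) =
      (Nat.card {p : G × G // IsConj a p.1 ∧ IsConj b p.2 ∧ p.1 * p.2 = c} : ℂ) *
        ((Nat.card (Subgroup.centralizer ({a} : Set G)) : ℂ) *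
          (Nat.card (Subgroup.centralizer ({b} : Set G)) : ℂ)) := by
    exact_mod_cast hA
  have h1' : (Nat.card G : ℂ) = (Nat.card (Subgroup.centralizer ({a} : Set G)) : ℂ) *
      (Nat.card {d : G // IsConj a d} : ℂ) := by exact_mod_cast h1
  have h2' : (Nat.card G : ℂ) = (Nat.card (Subgroup.centralizer ({b} : Set G)) : ℂ) *
      (Nat.card {d : G // IsConj b d} : ℂ) := by exact_mod_cast h2
  have hKa : (Nat.card {d : G // IsConj a d} : ℂ) =
      (Nat.card G : ℂ) / (Nat.card (Subgroup.centralizer ({a} : Set G)) : ℂ) := by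
    rw [h1']; field_simp
  have hKb : (Nat.card {d : G // IsConj b d} : ℂ) =
      (Nat.card G : ℂ) / (Nat.card (Subgroup.centralizer ({b} : Set G)) : ℂ) := by
    rw [h2']; field_simp
  have key := hA'.symm.trans hB
  rw [hKa, hKb]
  generalize (∑ᶠ χ : Cfsg.IrrCharacter G, (χ : G → ℂ) a * (χ : G → ℂ) b * conj ((χ : G → ℂ) c) / (χ : G → ℂ) 1) = S at key ⊢
  generalize (Nat.card {p : G × G // IsConj a p.1 ∧ IsConj b p.2 ∧ p.1 * p.2 = c} : ℂ) = N at key ⊢
  generalize (Nat.card (Subgroup.centralizer ({a} : Set G)) : ℂ) = A at key hCa ⊢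
  generalize (Nat.card (Subgroup.centralizer ({b} : Set G)) : ℂ) = B at key hCb ⊢
  generalize (Nat.card G : ℂ) = Γ at key hG ⊢
  field_simp
  linear_combination key


end Cfsg.Agent.S0840
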