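import Mathlib
import Cfsg.Agent.Lead.IndFun2
import Cfsg.Statements.S0849

set_option autoImplicit false
open Cfsg

namespace Cfsg.Agent.S0849

/-- Let H be a subgroup of a finite group G and S a subset of H that is mapped to itself under conjugation by H, is disjoint from its conjugate by any element outside H, and is closed under inverses. Let φ be a class function of H vanishing on H away from S, and let u, v be involutions of G. Then the sum of the induced function of φ over all products a * b with a conjugate to u and b conjugate to v equals the index of H times the sum of φ (a * b) over such pairs with a and b in H. -/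
theorem result {G : Type*} [Group G] [Fintype G] (H : Subgroup G) (S : Set G) (hSH : S ⊆ H) (hHS : ∀ h ∈ H, ∀ s ∈ S, h * s * h⁻¹ ∈ S) (hTI : ∀ g : G, g ∉ H → ∀ s ∈ S, g * s * g⁻¹ ∉ S) (hinv : ∀ s ∈ S, s⁻¹ ∈ S) (φ : H → ℂ) (hφ : Cfsg.IsClassFunction H φ) (hφS : ∀ x : H, (x : G) ∉ S → φ x = 0) (u v : G) (hu : orderOf u = 2) (hv : orderOf v = 2) : ∑ᶠ p ∈ {p : G × G | IsConj u p.1 ∧ IsConj v p.2}, Cfsg.indFun H φ (p.1 * p.2) = (H.index : ℂ) * ∑ᶠ p ∈ {p : H × H | IsConj u (p.1 : G) ∧ IsConj v (p.2 : G)}, φ (p.1 * p.2) := by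
  classical
  haveI : Fintype H := Fintype.ofFinite H
  have hGne : (Nat.card G : ℂ) ≠ 0 := by exact_mod_cast Nat.card_pos.ne'
  have hHne : (Nat.card H : ℂ) ≠ 0 := by exact_mod_cast Nat.card_pos.ne'
  -- involutions
  have hinvol : ∀ {w x : G}, orderOf w = 2 → IsConj w x → x * x = 1 := by
    intro w x hw hwx
    obtain ⟨g, rfl⟩ := isConj_iff.mp hwx
    have h1 : w * w = 1 := by
      have := pow_orderOf_eq_one w
      rw [hw, pow_two] at this; exact this
    calc g * w * g⁻¹ * (g * w * g⁻¹) = g * (w * w) * g⁻¹ := by group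
      _ = 1 := by rw [h1]; group
  -- the TI argument
  have hTI' : ∀ a b : G, a * a = 1 → b * b = 1 → a * b ∈ S → a ∈ H ∧ b ∈ H := by
    intro a b ha hb hs
    have hainv : a⁻¹ = a := inv_eq_of_mul_eq_one_left ha
    have hbinv : b⁻¹ = b := inv_eq_of_mul_eq_one_left hb
    have hsinv : (a * b)⁻¹ = b * a := by rw [mul_inv_rev, hainv, hbinv]
    have h1 : a * (a * b) * a⁻¹ = (a * b)⁻¹ := by
      rw [hsinv, hainv, ← mul_assoc, ha, one_mul]
    have h2 : b * (a * b) * b⁻¹ = (a * b)⁻¹ := by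
      rw [hsinv, hbinv, mul_assoc, mul_assoc, hb, mul_one]
    constructor
    · by_contra hna
      exact hTI a hna (a * b) hs (h1 ▸ hinv _ hs)
    · by_contra hnb
      exact hTI b hnb (a * b) hs (h2 ▸ hinv _ hs)
  -- convert to finite sums
  have hL : ∑ᶠ p ∈ {p : G × G | IsConj u p.1 ∧ IsConj v p.2}, Cfsg.indFun H φ (p.1 * p.2) =
      ∑ p : G × G, if (IsConj u p.1 ∧ IsConj v p.2) then Cfsg.indFun H φ (p.1 * p.2) else 0 := by
    rw [finsum_mem_def, finsum_eq_sum_of_fintype]
    refine Finset.sum_congr rfl (fun p _ => ?_)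
    rw [Set.indicator_apply]; rfl
  have hR : ∑ᶠ p ∈ {p : H × H | IsConj u (p.1 : G) ∧ IsConj v (p.2 : G)}, φ (p.1 * p.2) =
      ∑ p : H × H, if (IsConj u (p.1 : G) ∧ IsConj v (p.2 : G)) then φ (p.1 * p.2) else 0 := by
    rw [finsum_mem_def, finsum_eq_sum_of_fintype]
    refine Finset.sum_congr rfl (fun p _ => ?_)
    rw [Set.indicator_apply]; rfl
  rw [hL, hR]
  -- reindexing by conjugation
  have hre : ∀ y : G, ∑ p : G × G, (if (IsConj u p.1 ∧ IsConj v p.2) then
      Cfsg.extendByZero H φ (y⁻¹ * (p.1 * p.2) * y) else 0) =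
      ∑ p : G × G, (if (IsConj u p.1 ∧ IsConj v p.2) then
      Cfsg.extendByZero H φ (p.1 * p.2) else 0) := by
    intro y
    refine Fintype.sum_equiv ((MulAut.conj y⁻¹).toEquiv.prodCongr (MulAut.conj y⁻¹).toEquiv) _ _
      (fun p => ?_)
    have e1 : ((MulAut.conj y⁻¹).toEquiv.prodCongr (MulAut.conj y⁻¹).toEquiv p).1 =
        y⁻¹ * p.1 * y := by simp
    have e2 : ((MulAut.conj y⁻¹).toEquiv.prodCongr (MulAut.conj y⁻¹).toEquiv p).2 =
        y⁻¹ * p.2 * y := by simp
    rw [e1, e2]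
    have c1 : IsConj u (y⁻¹ * p.1 * y) ↔ IsConj u p.1 := by
      constructor
      · intro h
        exact h.trans (isConj_iff.mpr ⟨y, by group⟩)
      · intro h
        exact h.trans (isConj_iff.mpr ⟨y⁻¹, by group⟩)
    have c2 : IsConj v (y⁻¹ * p.2 * y) ↔ IsConj v p.2 := by
      constructor
      · intro h
        exact h.trans (isConj_iff.mpr ⟨y, by group⟩)
      · intro h
        exact h.trans (isConj_iff.mpr ⟨y⁻¹, by group⟩)
    have e3 : y⁻¹ * p.1 * y * (y⁻¹ * p.2 * y) = y⁻¹ * (p.1 * p.2) * y := by group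
    simp only [c1, c2, e3]
  have hstep2 : ∑ p : G × G, (if (IsConj u p.1 ∧ IsConj v p.2) then
      Cfsg.indFun H φ (p.1 * p.2) else 0) =
      (Nat.card H : ℂ)⁻¹ * ((Nat.card G : ℂ) * ∑ p : G × G, (if (IsConj u p.1 ∧ IsConj v p.2) then
      Cfsg.extendByZero H φ (p.1 * p.2) else 0)) := by
    have h1 : ∀ p : G × G, (if (IsConj u p.1 ∧ IsConj v p.2) then
        Cfsg.indFun H φ (p.1 * p.2) else 0) = (Nat.card H : ℂ)⁻¹ * ∑ y : G,
        (if (IsConj u p.1 ∧ IsConj v p.2) then
          Cfsg.extendByZero H φ (y⁻¹ * (p.1 * p.2) * y) else 0) := by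
      intro p
      by_cases hp : IsConj u p.1 ∧ IsConj v p.2
      · simp only [if_pos hp]; rfl
      · simp only [if_neg hp, Finset.sum_const_zero, mul_zero]
    simp only [h1]
    rw [← Finset.mul_sum, Finset.sum_comm]
    simp only [hre]
    rw [Finset.sum_const, Finset.card_univ, nsmul_eq_mul]
    simp only [Nat.card_eq_fintype_card]
  have hstep3 : ∑ p : G × G, (if (IsConj u p.1 ∧ IsConj v p.2) then
      Cfsg.extendByZero H φ (p.1 * p.2) else 0) =
      ∑ p : H × H, if (IsConj u (p.1 : G) ∧ IsConj v (p.2 : G)) then φ (p.1 * p.2) else 0 := by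
    symm
    refine Finset.sum_of_injOn (fun q : H × H => ((q.1 : G), (q.2 : G))) ?_ (by simp) ?_ ?_
    · intro q _ q' _ hqq'
      simp only [Prod.mk.injEq] at hqq'
      exact Prod.ext (Subtype.ext hqq'.1) (Subtype.ext hqq'.2)
    · intro p _ hp
      by_cases hc : IsConj u p.1 ∧ IsConj v p.2
      · rw [if_pos hc]
        by_cases hmem : p.1 * p.2 ∈ H
        · rw [Cfsg.Agent.Lead.extendByZero_mem H φ hmem]
          by_cases hs : p.1 * p.2 ∈ S
          · exfalso
            obtain ⟨h1, h2⟩ := hTI' p.1 p.2 (hinvol hu hc.1) (hinvol hv hc.2) hs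
            apply hp
            refine ⟨(⟨p.1, h1⟩, ⟨p.2, h2⟩), by simp, rfl⟩
          · exact hφS ⟨p.1 * p.2, hmem⟩ hs
        · exact Cfsg.Agent.Lead.extendByZero_not_mem H φ hmem
      · rw [if_neg hc]
    · intro q _
      have hmem : (q.1 : G) * (q.2 : G) ∈ H := H.mul_mem q.1.2 q.2.2
      show (if (IsConj u (q.1 : G) ∧ IsConj v (q.2 : G)) then φ (q.1 * q.2) else 0) =
        (if (IsConj u (q.1 : G) ∧ IsConj v (q.2 : G)) then
          Cfsg.extendByZero H φ ((q.1 : G) * (q.2 : G)) else 0)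
      rw [Cfsg.Agent.Lead.extendByZero_mem H φ hmem]
      rfl
  rw [hstep2, hstep3]
  have hidx : (H.index : ℂ) = (Nat.card H : ℂ)⁻¹ * (Nat.card G : ℂ) := by
    have := Subgroup.card_mul_index H
    have h2 : (Nat.card H : ℂ) * (H.index : ℂ) = (Nat.card G : ℂ) := by exact_mod_cast this
    rw [← h2]; field_simp
  rw [hidx, mul_assoc]


end Cfsg.Agent.S0849
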