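import Mathlib
import Cfsg.Agent.Helper2.Ind
import Cfsg.Statements.S0850

set_option autoImplicit false
open Cfsg

namespace Cfsg.Agent.S0850

/-- Let K be a subgroup of the finite group G that meets each conjugate by an element outside its normalizer N trivially, is properly contained in N, and contains the centralizer of each of its non-identity elements (a T.I. subgroup with Frobenius normalizer). Then no element of N outside K is conjugate in G to an element of K, and for every class function ϑ of N that vanishes on N away from K and at the identity, the function induced from ϑ to G agrees with ϑ on all of N. -/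
theorem result {G : Type*} [Group G] [Fintype G] (K : Subgroup G) (hTI : ∀ g : G, g ∉ Subgroup.normalizer (K : Set G) → ∀ k ∈ K, g * k * g⁻¹ ∈ K → k = 1) (hlt : K < Subgroup.normalizer (K : Set G)) (hC : ∀ k ∈ K, k ≠ 1 → Subgroup.centralizer ({k} : Set G) ≤ K) : (∀ x ∈ Subgroup.normalizer (K : Set G), x ∉ K → ∀ g : G, g * x * g⁻¹ ∉ K) ∧ ∀ (ϑ : Subgroup.normalizer (K : Set G) → ℂ), Cfsg.IsClassFunction (Subgroup.normalizer (K : Set G)) ϑ → (∀ x : Subgroup.normalizer (K : Set G), (x : G) ∉ K → ϑ x = 0) → ϑ 1 = 0 → ∀ x : Subgroup.normalizer (K : Set G), Cfsg.indFun (Subgroup.normalizer (K : Set G)) ϑ x = ϑ x := by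
  classical
  have hpart1 : ∀ x ∈ Subgroup.normalizer (K : Set G), x ∉ K → ∀ g : G, g * x * g⁻¹ ∉ K := by
    intro x hxN hxK g hk
    have hx1 : x ≠ 1 := fun h => hxK (h ▸ K.one_mem)
    have hord : orderOf (g * x * g⁻¹) = orderOf x :=
      orderOf_injective (MulAut.conj g).toMonoidHom (MulAut.conj g).injective x
    have hdvd : orderOf x ∣ Nat.card K := hord ▸ Subgroup.orderOf_dvd_natCard K hk
    have hm1 : orderOf x ≠ 1 := fun h => hx1 (orderOf_eq_one_iff.mp h)
    have hm0 : orderOf x ≠ 0 := (orderOf_pos x).ne'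
    obtain ⟨p, hp, hpm⟩ := Nat.exists_prime_and_dvd hm1
    haveI : Fact p.Prime := ⟨hp⟩
    obtain ⟨x₁, hx₁⟩ : ∃ x₁, x₁ = x ^ (orderOf x / p) := ⟨_, rfl⟩
    have hx₁ord : orderOf x₁ = p := by rw [hx₁]; exact orderOf_pow_orderOf_div hm0 hpm
    have hx₁N : x₁ ∈ Subgroup.normalizer (K : Set G) := by
      rw [hx₁]; exact Subgroup.pow_mem _ hxN _
    have hx₁1 : x₁ ≠ 1 := by
      intro h; rw [h, orderOf_one] at hx₁ord; exact hp.one_lt.ne hx₁ord
    have hx₁K : x₁ ∉ K := by
      intro h
      apply hxK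
      apply hC x₁ h hx₁1
      rw [Subgroup.mem_centralizer_iff]
      intro y hy
      rw [Set.mem_singleton_iff] at hy
      rw [hy, hx₁]
      exact pow_mul_comm' x _
    obtain ⟨f, hfdef⟩ : ∃ f : Function.End K, ∀ k : K, ((f k : K) : G) = x₁ * k * x₁⁻¹ :=
      ⟨fun k => ⟨x₁ * k * x₁⁻¹, (Subgroup.mem_normalizer_iff.mp hx₁N k).mp k.2⟩, fun k => rfl⟩
    have hf : ∀ (j : ℕ) (k : K), (((f ^ j) k : K) : G) = x₁ ^ j * k * (x₁ ^ j)⁻¹ := by
      intro j
      induction j with
      | zero =>
        intro k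
        rw [pow_zero, pow_zero]
        show ((k : K) : G) = 1 * k * 1⁻¹
        group
      | succ j ih =>
        intro k
        have e : (f ^ (j + 1)) k = (f ^ j) (f k) := by rw [pow_succ]; rfl
        rw [e, ih (f k), hfdef, pow_succ]
        group
    have hfp : f ^ p ^ 1 = 1 := by
      rw [pow_one]
      funext k
      apply Subtype.ext
      rw [hf p k, ← hx₁ord, pow_orderOf_eq_one]
      show (1 : G) * k * 1⁻¹ = k
      group
    have hmod := Equiv.Perm.card_fixedPoints_modEq (f := f) hfp
    have hmod' : Nat.card K ≡ Nat.card (Function.fixedPoints f) [MOD p] := by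
      rw [Nat.card_eq_fintype_card, Nat.card_eq_fintype_card]; convert hmod
    have hpK : p ∣ Nat.card K := hpm.trans hdvd
    have hpfix : p ∣ Nat.card (Function.fixedPoints f) :=
      Nat.modEq_zero_iff_dvd.mp ((hmod'.symm).trans (Nat.modEq_zero_iff_dvd.mpr hpK))
    have h1fix : (1 : K) ∈ Function.fixedPoints f := by
      show f 1 = 1
      apply Subtype.ext
      rw [hfdef]
      simp
    have hcard : 1 < Nat.card (Function.fixedPoints f) := by
      haveI : Nonempty (Function.fixedPoints f) := ⟨⟨1, h1fix⟩⟩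
      have hpos : 0 < Nat.card (Function.fixedPoints f) := Nat.card_pos
      have h5 := Nat.le_of_dvd hpos hpfix
      have h6 := hp.two_le
      omega
    haveI : Nontrivial (Function.fixedPoints f) := Finite.one_lt_card_iff_nontrivial.mp hcard
    obtain ⟨⟨k', hk'fix⟩, hk'ne⟩ := exists_ne (⟨1, h1fix⟩ : Function.fixedPoints f)
    have hk'1 : (k' : G) ≠ 1 := by
      intro h; apply hk'ne; apply Subtype.ext; apply Subtype.ext; exact h
    have hk'comm : x₁ * (k' : G) * x₁⁻¹ = k' := by
      rw [← hfdef]; exact congrArg Subtype.val hk'fix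
    apply hx₁K
    apply hC k' k'.2 hk'1
    rw [Subgroup.mem_centralizer_iff]
    intro y hy
    rw [Set.mem_singleton_iff] at hy
    rw [hy]
    calc (k' : G) * x₁ = (x₁ * k' * x₁⁻¹) * x₁ := by rw [hk'comm]
      _ = x₁ * k' := by group
  refine ⟨hpart1, ?_⟩
  intro ϑ hcf hvan h10 x
  unfold Cfsg.indFun
  obtain ⟨N, hN⟩ : ∃ N : Subgroup G, N = Subgroup.normalizer (K : Set G) := ⟨_, rfl⟩
  have hterm : ∀ g : G, Cfsg.extendByZero (Subgroup.normalizer (K : Set G)) ϑ (g⁻¹ * (x : G) * g) =
      if g ∈ Subgroup.normalizer (K : Set G) then ϑ x else 0 := by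
    intro g
    by_cases hg : g ∈ Subgroup.normalizer (K : Set G)
    · rw [if_pos hg]
      have hmem : g⁻¹ * (x : G) * g ∈ Subgroup.normalizer (K : Set G) :=
        Subgroup.mul_mem _ (Subgroup.mul_mem _ (Subgroup.inv_mem _ hg) x.2) hg
      rw [Cfsg.Agent.Helper2.extendByZero_mem _ ϑ hmem]
      have h8 := hcf x ⟨g⁻¹, Subgroup.inv_mem _ hg⟩
      rw [← h8]
      congr 1
      apply Subtype.ext
      simp
    · rw [if_neg hg]
      by_cases hmem : g⁻¹ * (x : G) * g ∈ Subgroup.normalizer (K : Set G)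
      · rw [Cfsg.Agent.Helper2.extendByZero_mem _ ϑ hmem]
        by_cases hK : g⁻¹ * (x : G) * g ∈ K
        · by_cases hxK : (x : G) ∈ K
          · have hg' : g⁻¹ ∉ Subgroup.normalizer (K : Set G) := fun h => hg (by simpa using Subgroup.inv_mem _ h)
            have h1 := hTI g⁻¹ hg' (x : G) hxK (by simpa using hK)
            have h9 : (⟨g⁻¹ * (x : G) * g, hmem⟩ : Subgroup.normalizer (K : Set G)) = 1 := by
              apply Subtype.ext; simp [h1]
            rw [h9, h10]
          · exact absurd (by simpa using hK) (hpart1 x x.2 hxK g⁻¹)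
        · exact hvan ⟨_, hmem⟩ hK
      · exact Cfsg.Agent.Helper2.extendByZero_not_mem _ ϑ hmem
  rw [Finset.sum_congr rfl (fun g _ => hterm g), Finset.sum_ite, Finset.sum_const_zero, add_zero,
    Finset.sum_const, nsmul_eq_mul]
  have hcardN : (Finset.univ.filter (fun g : G => g ∈ Subgroup.normalizer (K : Set G))).card =
      Nat.card (Subgroup.normalizer (K : Set G)) := by
    rw [Nat.card_eq_fintype_card, Fintype.card_subtype]
  rw [hcardN]
  have hne : (Nat.card (Subgroup.normalizer (K : Set G)) : ℂ) ≠ 0 := by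
    exact_mod_cast (Nat.card_pos (α := Subgroup.normalizer (K : Set G))).ne'
  field_simp


end Cfsg.Agent.S0850
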