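import Mathlib
import Cfsg.Agent.Helper2.Over
import Cfsg.Agent.Helper2.NPC2
import Cfsg.Agent.Helper2.Ito
import Cfsg.Agent.S0887
import Cfsg.Statements.S0855

set_option autoImplicit false
open Cfsg

namespace Cfsg.Agent.S0855

/-- For a finite group G and a prime p: every irreducible character of G has degree a power of p if and only if G has an abelian normal subgroup whose order is prime to p and whose index is a power of p. -/
theorem result {G : Type*} [Group G] [Finite G] (p : ℕ) (hp : p.Prime) : (∀ χ : Cfsg.IrrCharacter G, ∃ k : ℕ, (χ : G → ℂ) 1 = (p : ℂ) ^ k) ↔ ∃ A : Subgroup G, A.Normal ∧ (∀ a ∈ A, ∀ b ∈ A, a * b = b * a) ∧ Nat.Coprime (Nat.card A) p ∧ ∃ k : ℕ, A.index = p ^ k := by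
  classical
  haveI : Fintype G := Fintype.ofFinite G
  constructor
  · intro h
    have hdeg : ∀ χ : Cfsg.IrrCharacter G, Cfsg.charDegree (χ : G → ℂ) ≠ 1 →
        p ∣ Cfsg.charDegree (χ : G → ℂ) := by
      intro χ hne
      obtain ⟨k, hk⟩ := h χ
      obtain ⟨K, -, -, -, -, hd1, -⟩ := Cfsg.Agent.Helper2.CharKer.exists_ker χ
      rw [hd1] at hk
      have hk' : Cfsg.charDegree (χ : G → ℂ) = p ^ k := by exact_mod_cast hk
      rw [hk'] at hne ⊢
      rcases Nat.eq_zero_or_pos k with rfl | hkpos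
      · exact absurd (pow_zero p) hne
      · exact dvd_pow_self p hkpos.ne'
    obtain ⟨N, hNn, hcop, k, hidx⟩ := Cfsg.Agent.Helper2.NPC.normal_p_complement p hp hdeg
    haveI := hNn
    haveI : Fintype N := Fintype.ofFinite N
    have hlin : ∀ θ : Cfsg.IrrCharacter N, (θ : N → ℂ) 1 = 1 := by
      intro θ
      obtain ⟨χ, hχ⟩ := Cfsg.Agent.Helper2.Over.exists_irr_over N (θ : N → ℂ) θ.2
      obtain ⟨kχ, hkχ⟩ := h χ
      obtain ⟨K, -, -, -, -, hd1, hd2⟩ := Cfsg.Agent.Helper2.CharKer.exists_ker θ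
      have h1 := (Cfsg.Agent.S0887.result N (χ : G → ℂ) χ.2 (θ : N → ℂ) θ.2 hχ (p ^ kχ)
        (Cfsg.charDegree (θ : N → ℂ)) (by rw [hkχ]; push_cast; rfl) hd1).1
      obtain ⟨j, -, hj⟩ := (Nat.dvd_prime_pow hp).mp h1
      have h2 : Cfsg.charDegree (θ : N → ℂ) ∣ Nat.card N :=
        Dvd.dvd.trans (dvd_mul_right _ _) hd2
      rcases Nat.eq_zero_or_pos j with rfl | hjpos
      · rw [hd1, hj, pow_zero, Nat.cast_one]
      · exfalso
        have h3 : p ∣ Nat.card N := by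
          refine Dvd.dvd.trans ?_ h2
          rw [hj]
          exact dvd_pow_self p hjpos.ne'
        have h4 : p ∣ Nat.gcd (Nat.card N) p := Nat.dvd_gcd h3 dvd_rfl
        rw [hcop] at h4
        exact hp.one_lt.ne' (Nat.dvd_one.mp h4)
    have hcomm := Cfsg.Agent.Helper2.Over.comm_of_all_linear hlin
    refine ⟨N, hNn, ?_, hcop, k, hidx⟩
    intro a ha b hb
    exact congrArg Subtype.val (hcomm ⟨a, ha⟩ ⟨b, hb⟩)
  · rintro ⟨A, hAn, hab, -, k, hidx⟩ χ
    haveI := hAn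
    obtain ⟨m, hm1, hm2⟩ := Cfsg.Agent.Helper2.Ito.ito_char (Nat.card G) G le_rfl (χ : G → ℂ) χ.2 A hab
    rw [hidx] at hm2
    obtain ⟨j, -, hj⟩ := (Nat.dvd_prime_pow hp).mp hm2
    refine ⟨j, ?_⟩
    rw [hm1, hj]
    push_cast
    rfl


end Cfsg.Agent.S0855
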