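import Mathlib
import Cfsg.Agent.Helper2.CharN2
import Cfsg.Statements.S0856

set_option autoImplicit false
open Cfsg

namespace Cfsg.Agent.S0856

/-- Let N be a normal subgroup of the finite group G and φ, ϑ irreducible characters of N that are invariant under conjugation by G, such that the pointwise product φ * ϑ is irreducible and ϑ is the restriction of an irreducible character χ of G. Then multiplication by χ is a bijection from the set of irreducible characters of G having nonzero inner product with the function induced from φ onto the set of those having nonzero inner product with the function induced from φ * ϑ. -/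
theorem result {G : Type*} [Group G] [Fintype G] (N : Subgroup G) [hN : N.Normal] (φ ϑ : N → ℂ) (hφ : Cfsg.IsIrrCharacter N φ) (hϑ : Cfsg.IsIrrCharacter N ϑ) (hφinv : ∀ (g : G) (n : N), φ ⟨g * n * g⁻¹, hN.conj_mem (n : G) n.2 g⟩ = φ n) (hϑinv : ∀ (g : G) (n : N), ϑ ⟨g * n * g⁻¹, hN.conj_mem (n : G) n.2 g⟩ = ϑ n) (hprod : Cfsg.IsIrrCharacter N (φ * ϑ)) (χ : G → ℂ) (hχ : Cfsg.IsIrrCharacter G χ) (hext : ∀ n : N, χ n = ϑ n) : Set.BijOn (fun β : G → ℂ => β * χ) {β : G → ℂ | Cfsg.IsIrrCharacter G β ∧ Cfsg.classInner (Cfsg.indFun N φ) β ≠ 0} {ψ : G → ℂ | Cfsg.IsIrrCharacter G ψ ∧ Cfsg.classInner (Cfsg.indFun N (φ * ϑ)) ψ ≠ 0} := by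
  classical
  haveI : Finite (Cfsg.IrrCharacter G) := Cfsg.Agent.Lead.finite_irrCharacter G
  haveI : Fintype (Cfsg.IrrCharacter G) := Fintype.ofFinite _
  have hχc := Cfsg.Agent.Lead.isCharacter_of_isIrrCharacter hχ
  have hχ1 : χ 1 ≠ 0 := by
    obtain ⟨d, hd0, hd⟩ := Cfsg.Agent.Lead.isIrrCharacter_one_eq_nat hχ
    rw [hd]
    exact_mod_cast hd0.ne'
  obtain ⟨a, ha, hirr, horth, hinner⟩ :=
    Cfsg.Agent.Helper2.CharN.gallagher_core N φ ϑ hφ hφinv hϑinv hprod χ hχc hχ1 hext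
  have hval : ∀ β : Cfsg.IrrCharacter G, a β ≠ 0 →
      Cfsg.classInner (Cfsg.indFun N (φ * ϑ)) ((β : G → ℂ) * χ) = (a β : ℂ) := by
    intro β h0
    rw [hinner, Finset.sum_eq_single β]
    · rw [Cfsg.Agent.Lead.classInner_self_of_isIrrCharacter (hirr β h0), mul_one]
    · intro γ _ hγ
      by_cases hγ0 : a γ = 0
      · rw [hγ0]; simp
      · rw [horth γ β hγ0 h0 hγ, mul_zero]
    · intro h
      exact absurd (Finset.mem_univ _) h
  have ha0 : ∀ (β : G → ℂ) (hβ : Cfsg.IsIrrCharacter G β),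
      Cfsg.classInner (Cfsg.indFun N φ) β ≠ 0 → a ⟨β, hβ⟩ ≠ 0 := by
    intro β hβ hne h
    apply hne
    have h1 := ha ⟨β, hβ⟩
    rw [h] at h1
    simpa using h1
  refine ⟨?_, ?_, ?_⟩
  · rintro β ⟨hβ, hne⟩
    have h0 := ha0 β hβ hne
    refine ⟨hirr ⟨β, hβ⟩ h0, ?_⟩
    have h1 := hval ⟨β, hβ⟩ h0
    show Cfsg.classInner (Cfsg.indFun N (φ * ϑ)) (β * χ) ≠ 0
    intro h2
    have h3 : Cfsg.classInner (Cfsg.indFun N (φ * ϑ)) (β * χ) = (a ⟨β, hβ⟩ : ℂ) := h1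
    rw [h3] at h2
    exact h0 (by exact_mod_cast h2)
  · rintro β₁ ⟨hβ₁, hne₁⟩ β₂ ⟨hβ₂, hne₂⟩ heq
    by_contra hne
    have h01 := ha0 β₁ hβ₁ hne₁
    have h02 := ha0 β₂ hβ₂ hne₂
    have hne' : (⟨β₁, hβ₁⟩ : Cfsg.IrrCharacter G) ≠ ⟨β₂, hβ₂⟩ :=
      fun h => hne (congrArg Subtype.val h)
    have h1 : Cfsg.classInner (β₁ * χ) (β₂ * χ) = 0 := horth ⟨β₁, hβ₁⟩ ⟨β₂, hβ₂⟩ h01 h02 hne'
    have heq' : β₁ * χ = β₂ * χ := heq
    have h2 : Cfsg.classInner (β₁ * χ) (β₁ * χ) = 1 :=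
      Cfsg.Agent.Lead.classInner_self_of_isIrrCharacter (hirr ⟨β₁, hβ₁⟩ h01)
    rw [← heq', h2] at h1
    exact one_ne_zero h1
  · rintro ψ ⟨hψ, hne⟩
    rw [hinner] at hne
    obtain ⟨β, _, hβ⟩ := Finset.exists_ne_zero_of_sum_ne_zero hne
    have h0 : a β ≠ 0 := by
      intro h
      apply hβ
      rw [h]
      simp
    have h1 : Cfsg.classInner ((β : G → ℂ) * χ) ψ ≠ 0 := by
      intro h
      apply hβ
      rw [h, mul_zero]
    have hirrβ := hirr β h0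
    have h2 := Cfsg.Agent.Lead.classInner_irr
      (⟨(β : G → ℂ) * χ, hirrβ⟩ : Cfsg.IrrCharacter G) ⟨ψ, hψ⟩
    have h3 : (⟨(β : G → ℂ) * χ, hirrβ⟩ : Cfsg.IrrCharacter G) = ⟨ψ, hψ⟩ := by
      by_contra hcon
      rw [if_neg hcon] at h2
      exact h1 h2
    refine ⟨β, ⟨β.2, ?_⟩, congrArg Subtype.val h3⟩
    rw [ha]
    exact_mod_cast h0


end Cfsg.Agent.S0856
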