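import Mathlib
import Cfsg.Agent.Lead.CharPerm
import Cfsg.Statements.S0860

set_option autoImplicit false
open Cfsg

namespace Cfsg.Agent.S0860

/-- Let a group A act on the set of irreducible characters and on the set of conjugacy classes of a finite group G in such a way that (a • χ) evaluated on the class a • C equals χ evaluated on C, for all a, χ and C. Then every element of A fixes exactly as many irreducible characters as it fixes conjugacy classes. -/
theorem result {G : Type*} [Group G] [Finite G] {A : Type*} [Group A] [MulAction A (Cfsg.IrrCharacter G)] [MulAction A (ConjClasses G)] (hcompat : ∀ (a : A) (χ : Cfsg.IrrCharacter G) (g g' : G), ConjClasses.mk g' = a • ConjClasses.mk g → ((a • χ : Cfsg.IrrCharacter G) : G → ℂ) g' = (χ : G → ℂ) g) (a : A) : Nat.card {χ : Cfsg.IrrCharacter G // a • χ = χ} = Nat.card {C : ConjClasses G // a • C = C} := by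
  classical
  have hex : ∀ g : G, ∃ g' : G, ConjClasses.mk g' = a⁻¹ • ConjClasses.mk g := fun g =>
    ConjClasses.mk_surjective _
  choose β hβ using hex
  have hβ' : ∀ g : G, ConjClasses.mk g = a • ConjClasses.mk (β g) := by
    intro g; rw [hβ g, smul_inv_smul]
  have hval : ∀ χ : Cfsg.IrrCharacter G, ((a • χ : Cfsg.IrrCharacter G) : G → ℂ) = (χ : G → ℂ) ∘ β := by
    intro χ
    funext g
    exact hcompat a χ (β g) g (hβ' g)
  have h1 := Cfsg.Agent.Lead.brauer_perm_general β
    (fun χ => by rw [← hval χ]; exact (a • χ).2)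
    (fun g h hgh => by
      have e : ConjClasses.mk g = ConjClasses.mk h := ConjClasses.mk_eq_mk_iff_isConj.mpr hgh
      rw [← ConjClasses.mk_eq_mk_iff_isConj, ← ConjClasses.mk_eq_mk_iff_isConj, hβ g, hβ h, e])
  have e1 : {χ : Cfsg.IrrCharacter G // a • χ = χ} ≃
      {χ : Cfsg.IrrCharacter G // (χ : G → ℂ) ∘ β = (χ : G → ℂ)} :=
    Equiv.subtypeEquivRight (fun χ => by
      rw [← hval χ]
      constructor
      · intro h; rw [h]
      · intro h; exact Subtype.ext h)
  have e2 : {C : ConjClasses G // a • C = C} ≃
      {c : ConjClasses G // ∀ g, ConjClasses.mk g = c → IsConj g (β g)} :=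
    Equiv.subtypeEquivRight (fun c => by
      constructor
      · intro h g hg
        rw [← ConjClasses.mk_eq_mk_iff_isConj, hβ g, hg]
        have h3 : a⁻¹ • c = c := by rw [inv_smul_eq_iff]; exact h.symm
        exact h3.symm
      · intro h
        obtain ⟨g, rfl⟩ := ConjClasses.mk_surjective c
        have h2 := ConjClasses.mk_eq_mk_iff_isConj.mpr (h g rfl)
        rw [hβ g, eq_inv_smul_iff] at h2
        exact h2)
  rw [Nat.card_congr e1, Nat.card_congr e2]
  exact h1


end Cfsg.Agent.S0860
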