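import Mathlib
import Cfsg.Agent.Helper2.GalAM2
import Cfsg.Agent.Helper2.Over2
import Cfsg.Agent.Helper2.Ito
import Cfsg.Agent.Helper2.CharKer
import Cfsg.Agent.Lead.CharCore4
import Cfsg.Statements.S0861

set_option autoImplicit false
open Cfsg

namespace Cfsg.Agent.S0861

/-- Let P be a normal abelian Sylow p-subgroup of the finite group G and suppose some element g of P has centralizer exactly P. Then the number of irreducible characters of G is at most the order of P, and if equality holds then G / P is abelian (the commutator subgroup lies in P). -/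
theorem result {G : Type*} [Group G] [Finite G] (p : ℕ) [Fact p.Prime] (P : Sylow p G) [(P : Subgroup G).Normal] (hab : ∀ a ∈ P, ∀ b ∈ P, a * b = b * a) (g : G) (hg : g ∈ P) (hC : Subgroup.centralizer ({g} : Set G) = P) : Nat.card (Cfsg.IrrCharacter G) ≤ Nat.card P ∧ (Nat.card (Cfsg.IrrCharacter G) = Nat.card P → commutator G ≤ P) := by
  classical
  haveI : Fintype G := Fintype.ofFinite G
  haveI : Finite (Cfsg.IrrCharacter G) := Cfsg.Agent.Lead.finite_irrCharacter G
  haveI : Fintype (Cfsg.IrrCharacter G) := Fintype.ofFinite _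
  set n := Fintype.card G with hn
  have hnpos : 0 < n := Fintype.card_pos
  set I := (Finset.range n).filter (fun i => i.Coprime n) with hI
  have hpos : 0 < Nat.totient n := Nat.totient_pos.mpr hnpos
  have hposR : (0 : ℝ) < (Nat.totient n : ℝ) := by exact_mod_cast hpos
  have hIcard : I.card = Nat.totient n := by
    rw [hI, Nat.totient_eq_card_coprime]
    congr 1
    ext i
    simp only [Finset.mem_filter, Nat.coprime_comm]
  have hnz : ∀ χ : Cfsg.IrrCharacter G, (χ : G → ℂ) g ≠ 0 := by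
    intro χ h0
    obtain ⟨m, hm1, hm2⟩ := Cfsg.Agent.Helper2.Ito.ito_char (Nat.card G) G le_rfl (χ : G → ℂ) χ.2
      (P : Subgroup G) hab
    have hndvd : ¬ p ∣ (P : Subgroup G).index := P.not_dvd_index
    by_cases hg1 : g = 1
    · rw [hg1, hm1] at h0
      have hm0 : m = 0 := by exact_mod_cast h0
      rw [hm0] at hm2
      exact (Subgroup.index_ne_zero_of_finite (H := (P : Subgroup G)))
        (Nat.eq_zero_of_zero_dvd hm2)
    · obtain ⟨j, hj⟩ := (IsPGroup.iff_orderOf.mp P.isPGroup') ⟨g, hg⟩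
      rw [Subgroup.orderOf_mk] at hj
      rcases Nat.eq_zero_or_pos j with rfl | hjpos
      · rw [pow_zero, orderOf_eq_one_iff] at hj
        exact hg1 hj
      · obtain ⟨j', rfl⟩ : ∃ j', j = j' + 1 := ⟨j - 1, by omega⟩
        obtain ⟨z, hz⟩ := Cfsg.Agent.Helper2.GalAM.dvd_degree_of_vanish p
          (Cfsg.Agent.Lead.isCharacter_of_isIrrCharacter χ.2) g j' hj h0
        rw [hm1] at hz
        have hmz : (m : ℤ) = (p : ℤ) * z := by exact_mod_cast hz
        have h1 : (p : ℤ) ∣ (m : ℤ) := ⟨z, hmz⟩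
        have h2 : p ∣ m := Int.natCast_dvd_natCast.mp h1
        exact hndvd (h2.trans hm2)
  have hge : ∀ χ : Cfsg.IrrCharacter G,
      (Nat.totient n : ℝ) ≤ ∑ i ∈ I, ‖(χ : G → ℂ) (g ^ i)‖ ^ 2 :=
    fun χ => Cfsg.Agent.Helper2.GalAM.sum_pow_ge
      (Cfsg.Agent.Lead.isCharacter_of_isIrrCharacter χ.2) g n hnpos
      (by rw [hn]; exact pow_card_eq_one) (hnz χ)
  have hcol : ∀ i ∈ I, ∑ χ : Cfsg.IrrCharacter G, ‖(χ : G → ℂ) (g ^ i)‖ ^ 2
      = (Nat.card (P : Subgroup G) : ℝ) := by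
    intro i hi
    have h1 := Cfsg.Agent.Lead.column_orth_of_isConj (IsConj.refl (g ^ i))
    rw [finsum_eq_sum_of_fintype] at h1
    have hcent : Subgroup.centralizer ({g ^ i} : Set G) = (P : Subgroup G) := by
      rw [← hC]
      apply le_antisymm
      · have hc : i.Coprime (orderOf g) :=
          Nat.Coprime.coprime_dvd_right (orderOf_dvd_card) (Finset.mem_filter.mp hi).2
        obtain ⟨m, hm⟩ := exists_pow_eq_self_of_coprime hc
        intro x hx
        rw [Subgroup.mem_centralizer_singleton_iff] at hx ⊢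
        have hx' : Commute x (g ^ i) := hx
        have := hx'.pow_right m
        rw [hm] at this
        exact this
      · intro x hx
        rw [Subgroup.mem_centralizer_singleton_iff] at hx ⊢
        have hx' : Commute x g := hx
        exact hx'.pow_right i
    rw [hcent] at h1
    have h2 : ∀ χ : Cfsg.IrrCharacter G, (χ : G → ℂ) (g ^ i)
        * (starRingEnd ℂ) ((χ : G → ℂ) (g ^ i)) = ((‖(χ : G → ℂ) (g ^ i)‖ ^ 2 : ℝ) : ℂ) := by
      intro χ
      rw [Complex.mul_conj, Complex.normSq_eq_norm_sq]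
    simp only [h2] at h1
    rw [← Complex.ofReal_sum] at h1
    exact_mod_cast h1
  have htot : ∑ χ : Cfsg.IrrCharacter G, ∑ i ∈ I, ‖(χ : G → ℂ) (g ^ i)‖ ^ 2
      = (Nat.totient n : ℝ) * (Nat.card (P : Subgroup G) : ℝ) := by
    rw [Finset.sum_comm, Finset.sum_congr rfl hcol, Finset.sum_const, hIcard, nsmul_eq_mul]
  have hk : Nat.card (Cfsg.IrrCharacter G) = Fintype.card (Cfsg.IrrCharacter G) :=
    Nat.card_eq_fintype_card
  have hsumge : (Nat.totient n : ℝ) * (Fintype.card (Cfsg.IrrCharacter G) : ℝ)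
      ≤ ∑ χ : Cfsg.IrrCharacter G, ∑ i ∈ I, ‖(χ : G → ℂ) (g ^ i)‖ ^ 2 := by
    have := Finset.sum_le_sum (fun χ (_ : χ ∈ Finset.univ) => hge χ)
    rw [Finset.sum_const, Finset.card_univ, nsmul_eq_mul, mul_comm] at this
    exact this
  have hle : (Fintype.card (Cfsg.IrrCharacter G) : ℝ) ≤ (Nat.card (P : Subgroup G) : ℝ) := by
    rw [htot] at hsumge
    exact le_of_mul_le_mul_left hsumge hposR
  constructor
  · rw [hk]
    exact_mod_cast hle
  · intro heq
    have heq' : (Fintype.card (Cfsg.IrrCharacter G) : ℝ) = (Nat.card (P : Subgroup G) : ℝ) := by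
      rw [← hk]
      exact_mod_cast heq
    have heach : ∀ χ : Cfsg.IrrCharacter G,
        ∑ i ∈ I, ‖(χ : G → ℂ) (g ^ i)‖ ^ 2 = (Nat.totient n : ℝ) := by
      by_contra hne
      push_neg at hne
      obtain ⟨χ₀, hχ₀⟩ := hne
      have hlt : (Nat.totient n : ℝ) < ∑ i ∈ I, ‖(χ₀ : G → ℂ) (g ^ i)‖ ^ 2 :=
        lt_of_le_of_ne (hge χ₀) (Ne.symm hχ₀)
      have := Finset.sum_lt_sum (fun χ (_ : χ ∈ Finset.univ) => hge χ)
        ⟨χ₀, Finset.mem_univ _, hlt⟩
      rw [Finset.sum_const, Finset.card_univ, nsmul_eq_mul, htot, heq'] at this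
      linarith [mul_comm (Nat.card (P : Subgroup G) : ℝ) (Nat.totient n : ℝ)]
    apply Cfsg.Agent.Helper2.Over.commutator_le_of_linear
    intro χ hχP
    have h1 := heach χ
    have h2 : ∀ i ∈ I, ‖(χ : G → ℂ) (g ^ i)‖ ^ 2 = ‖(χ : G → ℂ) 1‖ ^ 2 := fun i _ => by
      rw [hχP (g ^ i) ((P : Subgroup G).pow_mem hg i)]
    rw [Finset.sum_congr rfl h2, Finset.sum_const, hIcard, nsmul_eq_mul] at h1
    obtain ⟨K, -, -, -, hdpos, hd1, -⟩ := Cfsg.Agent.Helper2.CharKer.exists_ker χ
    rw [hd1, Complex.norm_natCast] at h1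
    have h3 : ((Cfsg.charDegree (χ : G → ℂ) : ℝ)) ^ 2 = 1 :=
      mul_left_cancel₀ hposR.ne' (h1.trans (mul_one _).symm)
    have h4 : Cfsg.charDegree (χ : G → ℂ) = 1 := by
      have h5 : (Cfsg.charDegree (χ : G → ℂ)) ^ 2 = 1 := by exact_mod_cast h3
      exact (Nat.pow_eq_one.mp h5).resolve_right (by norm_num)
    rw [hd1, h4, Nat.cast_one]


end Cfsg.Agent.S0861
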