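import Mathlib
import Cfsg.Agent.Helper2.CharN3
import Cfsg.Agent.S0146
import Cfsg.Statements.S0868

set_option autoImplicit false
open scoped ComplexConjugate
open Cfsg

namespace Cfsg.Agent.S0868

/-- Let N be a normal subgroup of the finite group G, χ an irreducible character of G whose restriction ϑ to N is irreducible, and ψ an irreducible character of G. Define η on G by η g = (1 / order of N) * Σ over n in N of ψ (n * g) * conj (χ (n * g)). Then: if the restriction of ψ to N has nonzero inner product with ϑ, η is an irreducible character of G; if that inner product is zero, η vanishes identically; and if ψ = χ then η is identically 1. -/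
theorem result {G : Type*} [Group G] [Fintype G] (N : Subgroup G) [N.Normal] [Fintype N] (χ : G → ℂ) (hχ : Cfsg.IsIrrCharacter G χ) (hχN : Cfsg.IsIrrCharacter N (fun n : N => χ n)) (ψ : G → ℂ) (hψ : Cfsg.IsIrrCharacter G ψ) (η : G → ℂ) (hη : η = fun g => (Nat.card N : ℂ)⁻¹ * ∑ n : N, ψ ((n : G) * g) * conj (χ ((n : G) * g))) : (Cfsg.classInner (fun n : N => ψ n) (fun n : N => χ n) ≠ 0 → Cfsg.IsIrrCharacter G η) ∧ (Cfsg.classInner (fun n : N => ψ n) (fun n : N => χ n) = 0 → η = 0) ∧ (ψ = χ → η = fun _ => 1) := by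
  classical
  have hN : N.Normal := inferInstance
  haveI : Finite (Cfsg.IrrCharacter G) := Cfsg.Agent.Lead.finite_irrCharacter G
  haveI : Fintype (Cfsg.IrrCharacter G) := Fintype.ofFinite _
  have hχc := Cfsg.Agent.Lead.isCharacter_of_isIrrCharacter hχ
  have hχcf := Cfsg.Agent.Lead.isCharacter_isClassFunction hχc
  have hψc := Cfsg.Agent.Lead.isCharacter_of_isIrrCharacter hψ
  have hψcf := Cfsg.Agent.Lead.isCharacter_isClassFunction hψc
  have hχ1 : χ 1 ≠ 0 := by
    obtain ⟨d, hd0, hd⟩ := Cfsg.Agent.Lead.isIrrCharacter_one_eq_nat hχ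
    rw [hd]
    exact_mod_cast hd0.ne'
  have hNne : (Nat.card N : ℂ) ≠ 0 := Cfsg.Agent.Lead.natCard_ne_zero_complex N
  set φ : N → ℂ := fun _ => 1 with hφdef
  set ϑ : N → ℂ := fun n => χ n with hϑdef
  have hφ : Cfsg.IsIrrCharacter N φ := Cfsg.Agent.Lead.isIrrCharacter_one
  have hφϑ : φ * ϑ = ϑ := by
    funext n
    simp [φ]
  have hprod : Cfsg.IsIrrCharacter N (φ * ϑ) := by
    rw [hφϑ]
    exact hχN
  obtain ⟨a, ha, hirr, horth, hinner⟩ :=
    Cfsg.Agent.Helper2.CharN.gallagher_core N φ ϑ hφ (fun g n => rfl)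
      (fun g n => hχcf (n : G) g) hprod χ hχc hχ1 (fun n => rfl)
  rw [hφϑ] at hinner
  have ha' : ∀ β : Cfsg.IrrCharacter G,
      (a β : ℂ) = (Nat.card N : ℂ)⁻¹ * (starRingEnd ℂ) (∑ n : N, (β : G → ℂ) n) := by
    intro β
    rw [← ha β, Cfsg.Agent.S0146.result N φ β (Cfsg.Agent.Lead.isCharacter_isClassFunction
      (Cfsg.Agent.Lead.isCharacter_of_isIrrCharacter β.2))]
    unfold Cfsg.classInner
    rw [map_sum]
    congr 1
    refine Finset.sum_congr rfl (fun n _ => ?_)
    simp [φ]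
  have hker : ∀ β : Cfsg.IrrCharacter G, a β ≠ 0 →
      ∀ (n : N) (g : G), (β : G → ℂ) (n * g) = (β : G → ℂ) g := by
    intro β h0
    apply (Cfsg.Agent.Helper2.CharN.sum_coset_irr N β.2).1
    intro hs
    apply h0
    have h1 := ha' β
    rw [hs, map_zero, mul_zero] at h1
    exact_mod_cast h1
  have hvan : ∀ β : Cfsg.IrrCharacter G, a β = 0 →
      ∀ g : G, ∑ n : N, (β : G → ℂ) (n * g) = 0 := by
    intro β h0
    apply (Cfsg.Agent.Helper2.CharN.sum_coset_irr N β.2).2
    have h1 := ha' β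
    rw [h0, Nat.cast_zero] at h1
    have h2 : (starRingEnd ℂ) (∑ n : N, (β : G → ℂ) n) = 0 := by
      rcases mul_eq_zero.mp h1.symm with h | h
      · exact absurd (inv_eq_zero.mp h) hNne
      · exact h
    exact (map_eq_zero (starRingEnd ℂ)).mp h2
  set F : G → ℂ := fun g => ψ g * (starRingEnd ℂ) (χ g) with hF
  have hFcf : Cfsg.IsClassFunction G F := by
    intro g h
    simp only [F]
    rw [hψcf g h, hχcf g h]
  have hηF : η = fun g => (Nat.card N : ℂ)⁻¹ * ∑ n : N, F (n * g) := hη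
  have hηcf : Cfsg.IsClassFunction G η := by
    intro g h
    rw [hηF]
    show _ * _ = _ * _
    congr 1
    exact Cfsg.Agent.Helper2.CharN.coset_sum_isClassFunction N hFcf g h
  have hηβ : ∀ β : Cfsg.IrrCharacter G, Cfsg.classInner η (β : G → ℂ)
      = if a β = 0 then 0 else Cfsg.classInner ψ ((β : G → ℂ) * χ) := by
    intro β
    have h1 : Cfsg.classInner η (β : G → ℂ) = (Nat.card G : ℂ)⁻¹ * ((Nat.card N : ℂ)⁻¹ *
        ∑ g : G, F g * (starRingEnd ℂ) (∑ n : N, (β : G → ℂ) (n * g))) := by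
      unfold Cfsg.classInner
      congr 1
      rw [← Cfsg.Agent.Helper2.CharN.inner_coset_sum N F β, Finset.mul_sum]
      refine Finset.sum_congr rfl (fun g _ => ?_)
      rw [hηF]
      ring
    rw [h1]
    split_ifs with h0
    · have h2 := hvan β h0
      simp only [h2, map_zero, mul_zero, Finset.sum_const_zero]
    · have hk := hker β h0
      have h2 : ∀ g : G, ∑ n : N, (β : G → ℂ) (n * g)
          = (Nat.card N : ℂ) * (β : G → ℂ) g := by
        intro g
        rw [Finset.sum_congr rfl (fun n _ => hk n g), Finset.sum_const, Finset.card_univ,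
          nsmul_eq_mul, Nat.card_eq_fintype_card]
      unfold Cfsg.classInner
      congr 1
      rw [Finset.mul_sum]
      refine Finset.sum_congr rfl (fun g _ => ?_)
      rw [h2, map_mul, Complex.conj_natCast, Pi.mul_apply, map_mul]
      simp only [F]
      field_simp
  have hexp := Cfsg.Agent.Lead.classFunction_eq_finsum η hηcf
  rw [finsum_eq_sum_of_fintype] at hexp
  have hkey : ∀ β₀ : Cfsg.IrrCharacter G, a β₀ ≠ 0 → ψ = (β₀ : G → ℂ) * χ →
      η = (β₀ : G → ℂ) := by
    intro β₀ h0 hψβ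
    refine hexp.trans ?_
    rw [Finset.sum_eq_single β₀]
    · rw [hηβ, if_neg h0, hψβ,
        Cfsg.Agent.Lead.classInner_self_of_isIrrCharacter (hirr β₀ h0), one_smul]
    · intro β _ hβ
      rw [hηβ]
      split_ifs with hβ0
      · rw [zero_smul]
      · rw [hψβ, horth β₀ β h0 hβ0 hβ.symm, zero_smul]
    · intro h
      exact absurd (Finset.mem_univ _) h
  have hpart1 : Cfsg.classInner (fun n : N => ψ n) (fun n : N => χ n) ≠ 0 →
      ∃ β₀ : Cfsg.IrrCharacter G, a β₀ ≠ 0 ∧ ψ = (β₀ : G → ℂ) * χ := by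
    intro hne
    have h1 : Cfsg.classInner (Cfsg.indFun N ϑ) ψ ≠ 0 := by
      rw [Cfsg.Agent.S0146.result N ϑ ψ hψcf, ← Cfsg.Agent.Lead.classInner_conj_symm]
      intro h
      apply hne
      exact (map_eq_zero (starRingEnd ℂ)).mp h
    rw [hinner] at h1
    obtain ⟨β, _, hβ⟩ := Finset.exists_ne_zero_of_sum_ne_zero h1
    have h0 : a β ≠ 0 := by
      intro h
      apply hβ
      rw [h]
      simp
    have h2 : Cfsg.classInner ((β : G → ℂ) * χ) ψ ≠ 0 := by
      intro h
      apply hβ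
      rw [h, mul_zero]
    have h3 := Cfsg.Agent.Lead.classInner_irr
      (⟨(β : G → ℂ) * χ, hirr β h0⟩ : Cfsg.IrrCharacter G) ⟨ψ, hψ⟩
    have h4 : (⟨(β : G → ℂ) * χ, hirr β h0⟩ : Cfsg.IrrCharacter G) = ⟨ψ, hψ⟩ := by
      by_contra hcon
      rw [if_neg hcon] at h3
      exact h2 h3
    exact ⟨β, h0, (congrArg Subtype.val h4).symm⟩
  refine ⟨?_, ?_, ?_⟩
  · intro hne
    obtain ⟨β₀, h0, hψβ⟩ := hpart1 hne
    rw [hkey β₀ h0 hψβ]
    exact β₀.2
  · intro hz
    refine hexp.trans ?_
    apply Finset.sum_eq_zero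
    intro β _
    rw [hηβ]
    split_ifs with hβ0
    · rw [zero_smul]
    · have h1 : Cfsg.classInner ψ ((β : G → ℂ) * χ) = 0 := by
        by_contra hcon
        have h3 := Cfsg.Agent.Lead.classInner_irr (⟨ψ, hψ⟩ : Cfsg.IrrCharacter G)
          ⟨(β : G → ℂ) * χ, hirr β hβ0⟩
        have h4 : (⟨ψ, hψ⟩ : Cfsg.IrrCharacter G) = ⟨(β : G → ℂ) * χ, hirr β hβ0⟩ := by
          by_contra hcon'
          rw [if_neg hcon'] at h3
          exact hcon h3
        have h5 : ψ = (β : G → ℂ) * χ := congrArg Subtype.val h4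
        have h6 : (fun n : N => ψ n) = ((β : G → ℂ) 1) • (fun n : N => χ n) := by
          funext n
          rw [h5]
          simp only [Pi.mul_apply, Pi.smul_apply, smul_eq_mul]
          have h7 := hker β hβ0 n 1
          rw [mul_one] at h7
          rw [h7]
        rw [h6, Cfsg.Agent.Lead.classInner_smul_left,
          Cfsg.Agent.Lead.classInner_self_of_isIrrCharacter hχN, mul_one] at hz
        obtain ⟨d, hd0, hd⟩ := Cfsg.Agent.Lead.isIrrCharacter_one_eq_nat β.2
        rw [hd] at hz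
        exact hd0.ne' (by exact_mod_cast hz)
      rw [h1, zero_smul]
  · intro hψχ
    have h1 : Cfsg.IsIrrCharacter G (fun _ : G => (1 : ℂ)) := Cfsg.Agent.Lead.isIrrCharacter_one
    have h0 : a ⟨fun _ : G => (1 : ℂ), h1⟩ ≠ 0 := by
      have h2 := ha' ⟨fun _ : G => (1 : ℂ), h1⟩
      intro h3
      rw [h3] at h2
      simp only [Finset.sum_const, Finset.card_univ, nsmul_eq_mul, mul_one, map_natCast,
        Nat.cast_zero] at h2
      rw [← Nat.card_eq_fintype_card, inv_mul_cancel₀ hNne] at h2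
      exact zero_ne_one h2
    have h2 : ψ = ((⟨fun _ : G => (1 : ℂ), h1⟩ : Cfsg.IrrCharacter G) : G → ℂ) * χ := by
      funext g
      rw [hψχ]
      simp
    exact hkey ⟨fun _ : G => (1 : ℂ), h1⟩ h0 h2


end Cfsg.Agent.S0868
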