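import Mathlib
import Cfsg.Statements.S0869

set_option autoImplicit false
open Cfsg

namespace Cfsg.Agent.S0869

/-- Let S be a nonempty finite type and R an additive subgroup of the integer-valued functions on S that is closed under pointwise multiplication. If the constant function 1 is not in R, then there exist a point x of S and a prime p such that p divides f x for every f in R. -/
theorem result {S : Type*} [Finite S] [Nonempty S] (R : AddSubgroup (S → ℤ)) (hmul : ∀ f ∈ R, ∀ g ∈ R, f * g ∈ R) (h1 : (1 : S → ℤ) ∉ R) : ∃ (x : S) (p : ℕ), p.Prime ∧ ∀ f ∈ R, (p : ℤ) ∣ f x := by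
  classical
  by_contra hcon
  have hcon' : ∀ (x : S) (p : ℕ), p.Prime → ∃ f ∈ R, ¬ (p : ℤ) ∣ f x := by
    intro x p hp
    by_contra h
    apply hcon
    refine ⟨x, p, hp, ?_⟩
    intro f hf
    by_contra h'
    exact h ⟨f, hf, h'⟩
  have step1 : ∀ x : S, ∃ f ∈ R, f x = 1 := by
    intro x
    let I : AddSubgroup ℤ := R.map (Pi.evalAddMonoidHom (fun _ : S => ℤ) x)
    obtain ⟨a, ha⟩ := Int.subgroup_cyclic I
    have hmemI : ∀ f ∈ R, f x ∈ I := fun f hf => ⟨f, hf, rfl⟩
    have hdiv : ∀ f ∈ R, a ∣ f x := by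
      intro f hf
      have := hmemI f hf
      rw [ha, AddSubgroup.mem_closure_singleton] at this
      obtain ⟨n, hn⟩ := this
      exact ⟨n, by rw [← hn, smul_eq_mul, mul_comm]⟩
    have ha1 : a.natAbs = 1 := by
      by_contra hne
      obtain ⟨p, hp, hpa⟩ := Nat.exists_prime_and_dvd hne
      obtain ⟨f, hf, hpf⟩ := hcon' x p hp
      apply hpf
      have h1 : (p : ℤ) ∣ a := Int.natCast_dvd.mpr hpa
      exact h1.trans (hdiv f hf)
    have haI : a ∈ I := by rw [ha]; exact AddSubgroup.subset_closure rfl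
    obtain ⟨f, hf, hfa⟩ := haI
    have hfa' : f x = a := hfa
    rcases Int.natAbs_eq a with h | h
    · refine ⟨f, hf, ?_⟩
      rw [hfa', h, ha1]; rfl
    · refine ⟨-f, R.neg_mem hf, ?_⟩
      rw [Pi.neg_apply, hfa', h, ha1]; simp
  choose F hFR hF1 using step1
  have step2 : ∀ T : Finset S, ∃ g ∈ R, ∏ x ∈ T, (1 - F x) = 1 - g := by
    intro T
    induction T using Finset.induction_on with
    | empty => exact ⟨0, R.zero_mem, by simp⟩
    | insert a T ha ih =>
      obtain ⟨g, hg, hprod⟩ := ih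
      refine ⟨F a + g - F a * g, R.sub_mem (R.add_mem (hFR a) hg) (hmul _ (hFR a) _ hg), ?_⟩
      rw [Finset.prod_insert ha, hprod]; ring
  haveI := Fintype.ofFinite S
  obtain ⟨g, hg, hprod⟩ := step2 Finset.univ
  have hzero : ∏ x ∈ (Finset.univ : Finset S), (1 - F x) = 0 := by
    funext y
    rw [Finset.prod_apply]
    apply Finset.prod_eq_zero (Finset.mem_univ y)
    simp [hF1 y]
  apply h1
  have : g = 1 := by
    rw [hzero] at hprod
    exact (sub_eq_zero.mp hprod.symm).symm
  rw [← this]; exact hg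


end Cfsg.Agent.S0869
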