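import Mathlib
import Cfsg.Agent.Lead.CharLin
import Cfsg.Statements.S0873

set_option autoImplicit false
open Cfsg

namespace Cfsg.Agent.S0873

/-- Let C be a normal subgroup of the finite group G of order prime to p and P a p-subgroup with C ⊔ P = G. Let λ be a character of C of degree 1 invariant under conjugation by G and equal to 1 at every element of C centralized by P. Then λ is identically 1. -/
theorem result {G : Type*} [Group G] [Finite G] (p : ℕ) [Fact p.Prime] (C P : Subgroup G) [hC : C.Normal] (hP : IsPGroup p P) (hcop : Nat.Coprime (Nat.card C) p) (hCP : C ⊔ P = ⊤) (lam : C → ℂ) (hlam : Cfsg.IsCharacter C lam ∧ lam 1 = 1) (hinv : ∀ (g : G) (c : C), lam ⟨g * c * g⁻¹, hC.conj_mem (c : G) c.2 g⟩ = lam c) (hker : ∀ c : C, (c : G) ∈ Subgroup.centralizer (P : Set G) → lam c = 1) : lam = fun _ => 1 := by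
  classical
  have hmul := Cfsg.Agent.Lead.isCharacter_linear_mul hlam.1 hlam.2
  funext c₀
  let K : Subgroup C :=
    { carrier := {c | lam c = 1}
      one_mem' := hlam.2
      mul_mem' := by
        intro a b ha hb
        show lam (a * b) = 1
        rw [hmul, ha, hb, mul_one]
      inv_mem' := by
        intro a ha
        show lam a⁻¹ = 1
        have h1 : lam a⁻¹ * lam a = 1 := by rw [← hmul, inv_mul_cancel, hlam.2]
        rw [show lam a = 1 from ha, mul_one] at h1
        exact h1 }
  let X := {c : C // lam c = lam c₀}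
  letI act : MulAction P X :=
    { smul := fun x c => ⟨⟨(x : G) * (c.1 : G) * (x : G)⁻¹, hC.conj_mem _ c.1.2 _⟩, by
        rw [hinv]
        exact c.2⟩
      one_smul := fun c => by
        apply Subtype.ext
        apply Subtype.ext
        show ((1 : P) : G) * (c.1 : G) * ((1 : P) : G)⁻¹ = (c.1 : G)
        simp
      mul_smul := fun x y c => by
        apply Subtype.ext
        apply Subtype.ext
        show ((x * y : P) : G) * (c.1 : G) * ((x * y : P) : G)⁻¹
          = (x : G) * ((y : G) * (c.1 : G) * (y : G)⁻¹) * (x : G)⁻¹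
        simp [mul_assoc] }
  have hc₀ : lam c₀⁻¹ * lam c₀ = 1 := by rw [← hmul, inv_mul_cancel, hlam.2]
  have hc₀' : lam c₀ * lam c₀⁻¹ = 1 := by rw [mul_comm]; exact hc₀
  let eqv : X ≃ K :=
    { toFun := fun c => ⟨c₀⁻¹ * c.1, by
        show lam (c₀⁻¹ * c.1) = 1
        rw [hmul, c.2, hc₀]⟩
      invFun := fun k => ⟨c₀ * k.1, by
        show lam (c₀ * k.1) = lam c₀
        rw [hmul, show lam k.1 = 1 from k.2, mul_one]⟩
      left_inv := fun c => by
        apply Subtype.ext
        show c₀ * (c₀⁻¹ * c.1) = c.1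
        group
      right_inv := fun k => by
        apply Subtype.ext
        show c₀⁻¹ * (c₀ * k.1) = k.1
        group }
  have hnd : ¬ p ∣ Nat.card X := by
    rw [Nat.card_congr eqv]
    intro hdvd
    have h1 : p ∣ Nat.card C := hdvd.trans (Subgroup.card_subgroup_dvd_card K)
    have h2 : p ∣ Nat.gcd (Nat.card C) p := Nat.dvd_gcd h1 dvd_rfl
    rw [hcop] at h2
    exact (Fact.out : p.Prime).one_lt.ne' (Nat.dvd_one.mp h2)
  haveI : Finite X := Subtype.finite
  obtain ⟨⟨c, hc⟩, hfix⟩ := hP.nonempty_fixed_point_of_prime_not_dvd_card X hnd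
  have hcent : (c : G) ∈ Subgroup.centralizer (P : Set G) := by
    rw [Subgroup.mem_centralizer_iff]
    intro x hx
    have h1 := hfix ⟨x, hx⟩
    have h2 : x * (c : G) * x⁻¹ = (c : G) := congrArg (fun y : X => ((y.1 : C) : G)) h1
    calc x * (c : G) = x * (c : G) * x⁻¹ * x := by group
      _ = (c : G) * x := by rw [h2]
  rw [← hc]
  exact hker c hcent


end Cfsg.Agent.S0873
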