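import Mathlib
import Cfsg.Agent.Helper2.PiSec2
import Cfsg.Agent.S0146
import Cfsg.Agent.Lead.CharCore3
import Cfsg.Agent.Helper2.Brauer5
import Cfsg.Statements.S0875

set_option autoImplicit false
open Cfsg

namespace Cfsg.Agent.S0875

/-- Let G be a finite group of order m * n with m and n coprime, and g an element whose order is coprime to m. Every x in G factors uniquely as x = u * v with u, v commuting, the order of u coprime to n and the order of v coprime to m; let ϑ be the function on G equal to n at those x whose factor v is conjugate to g and equal to 0 elsewhere. Then ϑ is a linear combination of the irreducible characters of G with algebraic-integer coefficients. -/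
theorem result {G : Type*} [Group G] [Fintype G] (m n : ℕ) (hmn : Nat.card G = m * n) (hcop : Nat.Coprime m n) (g : G) (hg : Nat.Coprime (orderOf g) m) (ϑ : G → ℂ) (hϑ1 : ∀ x : G, (∃ v : G, IsConj v g ∧ (∃ u : G, x = u * v ∧ Commute u v ∧ Nat.Coprime (orderOf u) n ∧ Nat.Coprime (orderOf v) m)) → ϑ x = n) (hϑ0 : ∀ x : G, (¬ ∃ v : G, IsConj v g ∧ (∃ u : G, x = u * v ∧ Commute u v ∧ Nat.Coprime (orderOf u) n ∧ Nat.Coprime (orderOf v) m)) → ϑ x = 0) : ∃ c : Cfsg.IrrCharacter G → ℂ, (∀ χ, c χ ∈ Cfsg.AlgInt) ∧ ϑ = ∑ᶠ χ : Cfsg.IrrCharacter G, c χ • (χ : G → ℂ) := by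
  classical
  obtain ⟨b, hb0, hb1⟩ := Nat.chineseRemainder hcop 0 1
  have hϑ : ∀ x : G, ϑ x = if IsConj (x ^ b) g then (n : ℂ) else 0 := by
    intro x
    have hiff := Cfsg.Agent.Helper2.PiSec.part_iff hmn hcop hb0 hb1 g x
    split_ifs with h
    · exact hϑ1 x (hiff.mpr h)
    · exact hϑ0 x (fun h' => h (hiff.mp h'))
  have hcf : Cfsg.IsClassFunction G ϑ := by
    intro x h
    rw [hϑ, hϑ]
    have h1 : (h * x * h⁻¹) ^ b = h * x ^ b * h⁻¹ := conj_pow
    have h2 : IsConj ((h * x * h⁻¹) ^ b) g ↔ IsConj (x ^ b) g := by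
      rw [h1]
      have h4 : IsConj (x ^ b) (h * x ^ b * h⁻¹) := isConj_iff.mpr ⟨h, rfl⟩
      constructor
      · intro h3; exact h4.trans h3
      · intro h3; exact h4.symm.trans h3
    simp only [h2]
  refine ⟨fun χ => Cfsg.classInner ϑ (χ : G → ℂ), ?_,
    Cfsg.Agent.Lead.classFunction_eq_finsum ϑ hcf⟩
  intro χ
  change IsIntegral ℤ (Cfsg.classInner ϑ (χ : G → ℂ))
  rw [← Cfsg.Agent.Lead.classInner_conj_symm]
  apply map_isIntegral_int (starRingEnd ℂ)
  obtain ⟨l, hl, hsum⟩ := Cfsg.Agent.Helper2.Brauer.brauer_induction (χ : G → ℂ)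
    (Cfsg.Agent.Lead.isCharacter_of_isIrrCharacter χ.2)
  rw [hsum]
  have hlist : ∀ l : List ((E : Subgroup G) × ((E →* ℂˣ) × ℤ)),
      (∀ t ∈ l, ∃ p : ℕ, p.Prime ∧ Cfsg.IsElementary p t.1) →
      IsIntegral ℤ (Cfsg.classInner
        (l.map fun t => (t.2.2 : ℂ) • Cfsg.indFun t.1 (fun e => (t.2.1 e : ℂ))).sum ϑ) := by
    intro l
    induction l with
    | nil =>
      intro _
      rw [List.map_nil, List.sum_nil, Cfsg.Agent.Lead.classInner_zero_left]
      exact isIntegral_zero
    | cons t l ih =>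
      intro h
      rw [List.map_cons, List.sum_cons, Cfsg.Agent.Lead.classInner_add_left,
        Cfsg.Agent.Lead.classInner_smul_left]
      refine IsIntegral.add (IsIntegral.mul ?_ ?_)
        (ih (fun s hs => h s (List.mem_cons_of_mem _ hs)))
      · have := isIntegral_algebraMap (R := ℤ) (A := ℂ) (x := t.2.2)
        simpa using this
      · obtain ⟨p, hp, hE⟩ := h t List.mem_cons_self
        rw [Cfsg.Agent.S0146.result t.1 _ ϑ hcf]
        have hk := Cfsg.Agent.Helper2.PiSec.key_int hmn hcop hb0 hb1 g hp t.1 hE t.2.1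
        have heq : ∀ y : t.1, (starRingEnd ℂ) (ϑ (y : G))
            = if IsConj ((y : G) ^ b) g then (n : ℂ) else 0 := by
          intro y
          rw [hϑ]
          split_ifs <;> simp
        unfold Cfsg.classInner
        rw [Finset.sum_congr rfl (fun y _ => by rw [heq y])]
        convert hk
  exact hlist l hl


end Cfsg.Agent.S0875
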