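import Mathlib
import Cfsg.Statements.S0878

set_option autoImplicit false
open Cfsg

namespace Cfsg.Agent.S0878

/-- Let G be a Zassenhaus group on the finite set Ω, a a point, and let H be the subgroup of the stabilizer of a consisting of the identity and the elements fixing no point other than a (given here as a subgroup of the stabilizer of order one less than the number of points whose non-identity elements fix only a; it is the Frobenius kernel of the stabilizer). Then an element outside the stabilizer of a conjugates no non-identity element of H into H, and the normalizer of H is exactly the stabilizer of a. -/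
theorem result {G Ω : Type*} [Group G] [Finite G] [MulAction G Ω] [Fintype Ω] (hZ : Cfsg.IsZassenhausGroup G Ω) (a : Ω) (H : Subgroup G) (hHa : H ≤ MulAction.stabilizer G a) (hHcard : Nat.card H + 1 = Fintype.card Ω) (hHfix : ∀ u ∈ H, u ≠ 1 → ∀ c : Ω, u • c = c → c = a) : (∀ g : G, g ∉ MulAction.stabilizer G a → ∀ u ∈ H, g * u * g⁻¹ ∈ H → u = 1) ∧ Subgroup.normalizer (H : Set G) = MulAction.stabilizer G a := by
  classical
  obtain ⟨hfaith, -, h3, ⟨g₀, hg₀, a₀, b₀, hab₀, hga₀, hgb₀⟩, -⟩ := hZ
  have hconj1 : ∀ g u : G, u ≠ 1 → g * u * g⁻¹ ≠ 1 := by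
    intro g u hu h; apply hu
    have : u = g⁻¹ * (g * u * g⁻¹) * g := by group
    rw [this, h]; group
  have hHstab : ∀ h ∈ H, h • a = a := fun h hh => MulAction.mem_stabilizer_iff.mp (hHa hh)
  have hP1 : ∀ g : G, ∀ u ∈ H, u ≠ 1 → g * u * g⁻¹ ∈ H → g • a = a := by
    intro g u hu hu1 hy
    apply hHfix _ hy (hconj1 g u hu1)
    rw [mul_smul, mul_smul, inv_smul_smul, hHstab u hu]
  have hc3 : 3 ≤ Fintype.card Ω := by
    obtain ⟨c, hc⟩ : ∃ c : Ω, g₀ • c ≠ c := by
      by_contra hne
      push_neg at hne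
      apply hg₀
      haveI := hfaith
      exact FaithfulSMul.eq_of_smul_eq_smul (α := Ω) (fun x => by rw [hne x, one_smul])
    have hca : c ≠ a₀ := by rintro rfl; exact hc hga₀
    have hcb : c ≠ b₀ := by rintro rfl; exact hc hgb₀
    have h3' : ({a₀, b₀, c} : Finset Ω).card = 3 := by
      rw [Finset.card_eq_three]; exact ⟨a₀, b₀, c, hab₀, Ne.symm hca, Ne.symm hcb, rfl⟩
    rw [← h3']; exact Finset.card_le_univ _
  obtain ⟨b, hba⟩ := Fintype.exists_ne_of_one_lt_card (by omega : 1 < Fintype.card Ω) a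
  obtain ⟨u₀, hu₀H, hu₀1⟩ : ∃ u₀ ∈ H, u₀ ≠ 1 := by
    haveI : Nontrivial H := Finite.one_lt_card_iff_nontrivial.mp (by omega)
    obtain ⟨u, hu⟩ := exists_ne (1 : H)
    exact ⟨u, u.2, fun h => hu (Subtype.ext h)⟩
  have hcard : Nat.card {c : Ω // c ≠ a} = Nat.card H := by
    rw [Nat.card_eq_fintype_card, Fintype.card_subtype, Finset.filter_ne',
      Finset.card_erase_of_mem (Finset.mem_univ a), Finset.card_univ]; omega
  have hne_a : ∀ h : H, (h : G) • b ≠ a := by
    intro h e
    apply hba
    have h1 := hHstab h h.2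
    rw [← h1] at e
    exact smul_left_cancel _ e
  have htrans0 : ∀ c : Ω, c ≠ a → ∃ h ∈ H, h • b = c := by
    have hinj : Function.Injective (fun h : H => (⟨(h : G) • b, hne_a h⟩ : {c : Ω // c ≠ a})) := by
      intro h h' e
      have e' : (h : G) • b = (h' : G) • b := congrArg Subtype.val e
      by_contra hne
      have h1 : ((h : G)⁻¹ * (h' : G)) • b = b := by rw [mul_smul, ← e', inv_smul_smul]
      have h2 : (h : G)⁻¹ * (h' : G) ≠ 1 := by
        intro h0; apply hne; exact Subtype.ext (inv_mul_eq_one.mp h0)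
      exact hba (hHfix _ (H.mul_mem (H.inv_mem h.2) h'.2) h2 b h1)
    have hbij := hinj.bijective_of_nat_card_le (le_of_eq hcard)
    intro c hc
    obtain ⟨h, hh⟩ := hbij.2 ⟨c, hc⟩
    exact ⟨h, h.2, congrArg Subtype.val hh⟩
  have htrans : ∀ c d : Ω, c ≠ a → d ≠ a → ∃ h ∈ H, h • c = d := by
    intro c d hc hd
    obtain ⟨h1, hh1, e1⟩ := htrans0 c hc
    obtain ⟨h2, hh2, e2⟩ := htrans0 d hd
    refine ⟨h2 * h1⁻¹, H.mul_mem hh2 (H.inv_mem hh1), ?_⟩
    rw [mul_smul, ← e1, inv_smul_smul, e2]
  have hclaim : ∀ k : G, k • a = a → (∀ c : Ω, k • c = c → c = a) → k ∈ H := by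
    intro k hka hkfix
    by_contra hkH
    have hkinv : k⁻¹ • a = a := by rw [inv_smul_eq_iff, hka]
    have hex : ∀ c : {c : Ω // c ≠ a}, ∃ h : H, (h : G) • (k⁻¹ • (c : Ω)) = (c : Ω) := by
      intro c
      have hk' : k⁻¹ • (c : Ω) ≠ a := by
        intro e; apply c.2
        rw [inv_smul_eq_iff, hka] at e
        exact e
      obtain ⟨h, hh, e⟩ := htrans _ _ hk' c.2
      exact ⟨⟨h, hh⟩, e⟩
    choose φ hφ using hex
    have hinj : Function.Injective φ := by
      intro c c' e
      by_contra hne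
      have hcc : (c : Ω) ≠ (c' : Ω) := fun h => hne (Subtype.ext h)
      have h1 : ((φ c : G) * k⁻¹) • (c : Ω) = c := by rw [mul_smul]; exact hφ c
      have h2 : ((φ c : G) * k⁻¹) • (c' : Ω) = c' := by rw [mul_smul, e]; exact hφ c'
      have h0 : ((φ c : G) * k⁻¹) • a = a := by
        rw [mul_smul, hkinv]; exact hHstab _ (φ c).2
      have h4 := h3 _ a (c : Ω) (c' : Ω) (Ne.symm c.2) hcc (Ne.symm c'.2) h0 h1 h2
      apply hkH
      have hk : k = (φ c : G) := by rw [mul_inv_eq_one] at h4; exact h4.symm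
      rw [hk]; exact (φ c).2
    have hbij := hinj.bijective_of_nat_card_le (le_of_eq hcard.symm)
    obtain ⟨c, hc⟩ := hbij.2 1
    have h1 := hφ c
    rw [hc] at h1
    simp only [OneMemClass.coe_one, one_smul] at h1
    have h2 : k • (c : Ω) = c := (inv_smul_eq_iff.mp h1).symm
    exact c.2 (hkfix _ h2)
  refine ⟨?_, ?_⟩
  · intro g hg u hu hy
    by_contra hu1
    exact hg (MulAction.mem_stabilizer_iff.mpr (hP1 g u hu hu1 hy))
  · apply le_antisymm
    · intro n hn
      rw [MulAction.mem_stabilizer_iff]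
      have h5 := (Subgroup.mem_normalizer_iff.mp hn u₀).mp hu₀H
      exact hP1 n u₀ hu₀H hu₀1 h5
    · intro x hx
      rw [MulAction.mem_stabilizer_iff] at hx
      have hfwd : ∀ y : G, y • a = a → ∀ u ∈ H, y * u * y⁻¹ ∈ H := by
        intro y hy u hu
        have hyinv : y⁻¹ • a = a := by rw [inv_smul_eq_iff, hy]
        by_cases hu1 : u = 1
        · rw [hu1, mul_one, mul_inv_cancel]; exact H.one_mem
        · apply hclaim
          · rw [mul_smul, mul_smul, hyinv, hHstab u hu, hy]
          · intro c hc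
            have h1 : u • (y⁻¹ • c) = y⁻¹ • c := by
              have h6 := congrArg (fun z => y⁻¹ • z) hc
              simpa [mul_smul] using h6
            have h2 := hHfix u hu hu1 _ h1
            rw [inv_smul_eq_iff, hy] at h2
            exact h2
      rw [Subgroup.mem_normalizer_iff]
      intro u
      constructor
      · exact hfwd x hx u
      · intro hy
        have hx' : x⁻¹ • a = a := by rw [inv_smul_eq_iff, hx]
        have h7 := hfwd x⁻¹ hx' _ hy
        have e : x⁻¹ * (x * u * x⁻¹) * x⁻¹⁻¹ = u := by group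
        rwa [e] at h7


end Cfsg.Agent.S0878
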