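import Mathlib
import Cfsg.Statements.S0879

set_option autoImplicit false
open Cfsg

namespace Cfsg.Agent.S0879

/-- Let G be a Zassenhaus group on the finite set Ω and E the stabilizer of two distinct points a, b. Then an element outside the normalizer of E conjugates no non-identity element of E into E, and E has index 2 in its normalizer. -/
theorem result {G Ω : Type*} [Group G] [Finite G] [MulAction G Ω] [Fintype Ω] (hZ : Cfsg.IsZassenhausGroup G Ω) {a b : Ω} (hab : a ≠ b) : (∀ g : G, g ∉ Subgroup.normalizer ((MulAction.stabilizer G a ⊓ MulAction.stabilizer G b : Subgroup G) : Set G) → ∀ x ∈ (MulAction.stabilizer G a ⊓ MulAction.stabilizer G b : Subgroup G), g * x * g⁻¹ ∈ (MulAction.stabilizer G a ⊓ MulAction.stabilizer G b : Subgroup G) → x = 1) ∧ ((MulAction.stabilizer G a ⊓ MulAction.stabilizer G b : Subgroup G).subgroupOf (Subgroup.normalizer ((MulAction.stabilizer G a ⊓ MulAction.stabilizer G b : Subgroup G) : Set G))).index = 2 := by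
  classical
  obtain ⟨-, h2t, h3, ⟨g₀, hg₀, a₀, b₀, hab₀, hga₀, hgb₀⟩, -⟩ := hZ
  rw [MulAction.is_two_pretransitive_iff] at h2t
  have hE : ∀ x : G, x ∈ (MulAction.stabilizer G a ⊓ MulAction.stabilizer G b : Subgroup G) ↔
      x • a = a ∧ x • b = b := by
    intro x; rw [Subgroup.mem_inf, MulAction.mem_stabilizer_iff, MulAction.mem_stabilizer_iff]
  have hL : ∀ g : G, ((g • a = a ∧ g • b = b) ∨ (g • a = b ∧ g • b = a)) →
      g ∈ Subgroup.normalizer ((MulAction.stabilizer G a ⊓ MulAction.stabilizer G b : Subgroup G) : Set G) := by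
    intro g hg
    rw [Subgroup.mem_normalizer_iff]
    intro h
    rw [hE, hE]
    have key : ∀ c d : Ω, g • c = d → ((g * h * g⁻¹) • d = d ↔ h • c = c) := by
      intro c d hcd
      rw [← hcd, mul_smul, mul_smul, inv_smul_smul]
      constructor
      · intro e; exact smul_left_cancel g e
      · intro e; rw [e]
    rcases hg with ⟨h1, h2⟩ | ⟨h1, h2⟩
    · rw [key a a h1, key b b h2]
    · rw [key a b h1, key b a h2]; exact and_comm
  have hM : ∀ g x : G, x • a = a → x • b = b → x ≠ 1 → (g * x * g⁻¹) • a = a →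
      (g * x * g⁻¹) • b = b → ((g • a = a ∧ g • b = b) ∨ (g • a = b ∧ g • b = a)) := by
    intro g x hxa hxb hx1 hya hyb
    have hy1 : g * x * g⁻¹ ≠ 1 := by
      intro h; apply hx1
      have : x = g⁻¹ * (g * x * g⁻¹) * g := by group
      rw [this, h]; group
    have hyga : (g * x * g⁻¹) • (g • a) = g • a := by
      rw [mul_smul, mul_smul, inv_smul_smul, hxa]
    have hygb : (g * x * g⁻¹) • (g • b) = g • b := by
      rw [mul_smul, mul_smul, inv_smul_smul, hxb]
    have hgab : g • a ≠ g • b := fun h => hab (smul_left_cancel g h)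
    have h1 : g • a = a ∨ g • a = b := by
      by_contra hne
      push_neg at hne
      exact hy1 (h3 _ a b (g • a) hab (Ne.symm hne.2) (Ne.symm hne.1) hya hyb hyga)
    have h2 : g • b = a ∨ g • b = b := by
      by_contra hne
      push_neg at hne
      exact hy1 (h3 _ a b (g • b) hab (Ne.symm hne.2) (Ne.symm hne.1) hya hyb hygb)
    rcases h1 with h1 | h1 <;> rcases h2 with h2 | h2
    · exact absurd (h1.trans h2.symm) hgab
    · left; exact ⟨h1, h2⟩
    · right; exact ⟨h1, h2⟩
    · exact absurd (h1.trans h2.symm) hgab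
  refine ⟨?_, ?_⟩
  · intro g hg x hx hy
    by_contra hx1
    rw [hE] at hx hy
    exact hg (hL g (hM g x hx.1 hx.2 hx1 hy.1 hy.2))
  · obtain ⟨s, hsa, hsb⟩ := h2t hab₀ hab
    have hx₀ : (s * g₀ * s⁻¹) • a = a ∧ (s * g₀ * s⁻¹) • b = b := by
      constructor
      · rw [← hsa, mul_smul, mul_smul, inv_smul_smul, hga₀]
      · rw [← hsb, mul_smul, mul_smul, inv_smul_smul, hgb₀]
    have hx₀1 : s * g₀ * s⁻¹ ≠ 1 := by
      intro h; apply hg₀
      have : g₀ = s⁻¹ * (s * g₀ * s⁻¹) * s := by group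
      rw [this, h]; group
    obtain ⟨t, hta, htb⟩ := h2t hab (Ne.symm hab)
    have htN := hL t (Or.inr ⟨hta, htb⟩)
    rw [Subgroup.index_eq_two_iff]
    refine ⟨⟨t, htN⟩, ?_⟩
    intro n
    have hn := (Subgroup.mem_normalizer_iff.mp n.2 (s * g₀ * s⁻¹)).mp ((hE _).mpr hx₀)
    rw [hE] at hn
    have hcase := hM n (s * g₀ * s⁻¹) hx₀.1 hx₀.2 hx₀1 hn.1 hn.2
    rw [Subgroup.mem_subgroupOf, Subgroup.mem_subgroupOf, hE, hE]
    show Xor' ((((n : G) * t) • a = a) ∧ (((n : G) * t) • b = b))
      (((n : G) • a = a) ∧ ((n : G) • b = b))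
    rcases hcase with ⟨h1, h2⟩ | ⟨h1, h2⟩
    · right
      refine ⟨⟨h1, h2⟩, ?_⟩
      rintro ⟨h3', -⟩
      rw [mul_smul, hta, h2] at h3'
      exact hab h3'.symm
    · left
      refine ⟨⟨?_, ?_⟩, ?_⟩
      · rw [mul_smul, hta, h2]
      · rw [mul_smul, htb, h1]
      · rintro ⟨h3', -⟩
        rw [h1] at h3'
        exact hab h3'.symm


end Cfsg.Agent.S0879
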