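import Mathlib
import Cfsg.Agent.Helper2.CycExt
import Cfsg.Statements.S0886

set_option autoImplicit false
open Cfsg

namespace Cfsg.Agent.S0886

/-- Let N be a normal subgroup of the finite group G with G / N cyclic, and ϑ an irreducible character of N invariant under conjugation by G. Then ϑ is the restriction of some irreducible character of G. -/
theorem result {G : Type*} [Group G] [Finite G] (N : Subgroup G) [hN : N.Normal] (hcyc : IsCyclic (G ⧸ N)) (ϑ : N → ℂ) (hϑ : Cfsg.IsIrrCharacter N ϑ) (hinv : ∀ (g : G) (n : N), ϑ ⟨g * n * g⁻¹, hN.conj_mem (n : G) n.2 g⟩ = ϑ n) : ∃ χ : G → ℂ, Cfsg.IsIrrCharacter G χ ∧ ∀ n : N, χ n = ϑ n := by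
  classical
  obtain ⟨d, ρ, hi, rfl⟩ := hϑ
  obtain ⟨σ, hσ⟩ := Cfsg.Agent.Helper2.CycExt.exists_extension_of_cyclic N hcyc ρ hi hinv
  refine ⟨σ.character, ⟨d, σ, ?_, rfl⟩, fun n => ?_⟩
  · rw [Cfsg.Agent.Lead.isIrreducible_iff] at hi ⊢
    refine ⟨hi.1, fun W hW => hi.2 W (fun n v hv => ?_)⟩
    have h1 := hW (n : G) v hv
    rwa [hσ n] at h1
  · show LinearMap.trace ℂ _ (σ (n : G)) = LinearMap.trace ℂ _ (ρ n)
    rw [hσ n]


end Cfsg.Agent.S0886
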