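import Mathlib
import Cfsg.Agent.Helper2.Proj
import Cfsg.Statements.S0888

set_option autoImplicit false
open Cfsg

namespace Cfsg.Agent.S0888

/-- Let N be a normal subgroup of the finite group G and ϑ an irreducible character of N invariant under conjugation by G. Suppose that for every prime p there are a subgroup P containing N, of index prime to p and with the index of N in P a power of p, and an irreducible character of P restricting to ϑ. Then ϑ is the restriction of an irreducible character of G. -/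
theorem result {G : Type*} [Group G] [Finite G] (N : Subgroup G) [hN : N.Normal] (ϑ : N → ℂ) (hϑ : Cfsg.IsIrrCharacter N ϑ) (hinv : ∀ (g : G) (n : N), ϑ ⟨g * n * g⁻¹, hN.conj_mem (n : G) n.2 g⟩ = ϑ n) (hsyl : ∀ p : ℕ, p.Prime → ∃ (P : Subgroup G) (hNP : N ≤ P) (η : P → ℂ), Nat.Coprime P.index p ∧ (∃ k : ℕ, N.relIndex P = p ^ k) ∧ Cfsg.IsIrrCharacter P η ∧ ∀ n : N, η ⟨(n : G), hNP n.2⟩ = ϑ n) : ∃ χ : G → ℂ, Cfsg.IsIrrCharacter G χ ∧ ∀ n : N, χ n = ϑ n := by
  classical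
  obtain ⟨d, Y, hi, rfl⟩ := hϑ
  have hsyl' : ∀ p : ℕ, p.Prime → ∃ (P : Subgroup G) (hNP : N ≤ P) (d' : ℕ)
      (Z : Representation ℂ P (Fin d' → ℂ)), Nat.Coprime P.index p ∧
        ∀ n : N, Z.character ⟨(n : G), hNP n.2⟩ = Y.character n := by
    intro p hp
    obtain ⟨P, hNP, η, hcop, -, hη, hηN⟩ := hsyl p hp
    obtain ⟨d', Z, -, rfl⟩ := hη
    exact ⟨P, hNP, d', Z, hcop, hηN⟩
  obtain ⟨X', hX'⟩ := Cfsg.Agent.Helper2.Proj.extends_of_sylow N Y hi hinv hsyl'
  have hX'i : X'.IsIrreducible := by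
    rw [Cfsg.Agent.Lead.isIrreducible_iff] at hi ⊢
    refine ⟨hi.1, fun W hW => hi.2 W (fun m v hv => ?_)⟩
    rw [← hX' m]
    exact hW (m : G) v hv
  refine ⟨X'.character, ⟨d, X', hX'i, rfl⟩, fun n => ?_⟩
  show LinearMap.trace ℂ _ (X' (n : G)) = LinearMap.trace ℂ _ (Y n)
  rw [hX' n]


end Cfsg.Agent.S0888
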