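import Mathlib
import Cfsg.Agent.Helper2.Extra
import Cfsg.Agent.S0148
import Cfsg.Statements.S0893

set_option autoImplicit false
open Cfsg

namespace Cfsg.Agent.S0893

/-- Let P be an extraspecial p-group of order p ^ (2 * n + 1), A an abelian subgroup of order p ^ (n + 1), and λ a character of A of degree 1 that is not identically 1 on the elements of A lying in the centre of P. Then the function induced from λ to P is an irreducible character of P and vanishes at every element outside the centre. -/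
theorem result {P : Type*} [Group P] [Fintype P] (p n : ℕ) [Fact p.Prime] (hP : Cfsg.IsExtraspecial p P) (hcard : Nat.card P = p ^ (2 * n + 1)) (A : Subgroup P) (hab : ∀ a ∈ A, ∀ b ∈ A, a * b = b * a) (hA : Nat.card A = p ^ (n + 1)) (lam : A → ℂ) (hlam : Cfsg.IsCharacter A lam ∧ lam 1 = 1) (hZ : ∃ a : A, (a : P) ∈ Subgroup.center P ∧ lam a ≠ 1) : Cfsg.IsIrrCharacter P (Cfsg.indFun A lam) ∧ ∀ x : P, x ∉ Subgroup.center P → Cfsg.indFun A lam x = 0 := by
  classical
  obtain ⟨⟨hPp, hfrat, hcomm⟩, hZcard⟩ := hP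
  obtain ⟨hZA, hoff, hon⟩ := Helper2.Extra.induced_values p hcomm hZcard A lam hlam hZ
  refine ⟨?_, hoff⟩
  apply Lead.isIrrCharacter_of_classInner_eq_one (Cfsg.Agent.S0148.result A lam hlam.1)
  unfold Cfsg.classInner
  have hmul := Lead.isCharacter_linear_mul hlam.1 hlam.2
  have hnorm : ∀ a : A, lam a * (starRingEnd ℂ) (lam a) = 1 := by
    intro a
    rw [← Lead.isCharacter_inv hlam.1 a, ← hmul, mul_inv_cancel, hlam.2]
  have hterm : ∀ g : P, Cfsg.indFun A lam g * (starRingEnd ℂ) (Cfsg.indFun A lam g) =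
      if g ∈ Subgroup.center P then ((Nat.card A : ℂ)⁻¹ * (Nat.card P : ℂ)) ^ 2 else 0 := by
    intro g
    by_cases hg : g ∈ Subgroup.center P
    · rw [if_pos hg, hon g hg, map_mul, map_mul, map_inv₀, Complex.conj_natCast,
        Complex.conj_natCast]
      have h1 := hnorm ⟨g, hZA hg⟩
      calc (Nat.card A : ℂ)⁻¹ * (Nat.card P : ℂ) * lam ⟨g, hZA hg⟩ *
            ((Nat.card A : ℂ)⁻¹ * (Nat.card P : ℂ) * (starRingEnd ℂ) (lam ⟨g, hZA hg⟩))
          = ((Nat.card A : ℂ)⁻¹ * (Nat.card P : ℂ)) ^ 2 *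
            (lam ⟨g, hZA hg⟩ * (starRingEnd ℂ) (lam ⟨g, hZA hg⟩)) := by ring
        _ = _ := by rw [h1, mul_one]
    · rw [if_neg hg, hoff g hg, zero_mul]
  simp only [hterm]
  rw [Finset.sum_ite, Finset.sum_const_zero, add_zero, Finset.sum_const, nsmul_eq_mul]
  have hcardZ : (Finset.univ.filter (fun g : P => g ∈ Subgroup.center P)).card = p := by
    rw [← hZcard, Nat.card_eq_fintype_card, Fintype.card_subtype]
  rw [hcardZ, hcard, hA]
  have hp0 : (p : ℂ) ≠ 0 := by exact_mod_cast (Fact.out : p.Prime).ne_zero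
  push_cast
  field_simp
  ring


end Cfsg.Agent.S0893
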