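import Mathlib
import Cfsg.Agent.Helper2.Extra3
import Cfsg.Statements.S0894

set_option autoImplicit false
open Cfsg

namespace Cfsg.Agent.S0894

/-- Let P be an extraspecial p-group of order p ^ (2 * n + 1). Then every irreducible character of P has degree 1 or p ^ n, and exactly p - 1 of them have degree p ^ n. -/
theorem result {P : Type*} [Group P] [Finite P] (p n : ℕ) [Fact p.Prime] (hP : Cfsg.IsExtraspecial p P) (hcard : Nat.card P = p ^ (2 * n + 1)) : (∀ χ : Cfsg.IrrCharacter P, (χ : P → ℂ) 1 = 1 ∨ (χ : P → ℂ) 1 = (p : ℂ) ^ n) ∧ Nat.card {χ : Cfsg.IrrCharacter P // (χ : P → ℂ) 1 = (p : ℂ) ^ n} = p - 1 := by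
  classical
  haveI : Fintype P := Fintype.ofFinite P
  obtain ⟨⟨hPp, hfrat, hcomm⟩, hZcard⟩ := hP
  have hdich : ∀ χ : Cfsg.IrrCharacter P, (χ : P → ℂ) 1 = 1 ∨ (χ : P → ℂ) 1 = (p : ℂ) ^ n := by
    intro χ
    by_cases h : ∀ z ∈ Subgroup.center P, (χ : P → ℂ) z = (χ : P → ℂ) 1
    · left; exact Helper2.Extra.degree_one_of_center_trivial hcomm χ.2 h
    · right
      push_neg at h
      obtain ⟨z₀, hz₀, hne⟩ := h
      exact Helper2.Extra.degree_of_center_nontrivial p n hcomm hZcard hcard χ.2 z₀ hz₀ hne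
  exact ⟨hdich, Helper2.Extra.count_degree p n hcomm hZcard hcard hdich⟩


end Cfsg.Agent.S0894
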