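import Mathlib
import Cfsg.Agent.Helper2.Dade
import Cfsg.Agent.Lead.CharCore2
import Cfsg.Statements.S0896

set_option autoImplicit false
open scoped ComplexConjugate
open Cfsg

namespace Cfsg.Agent.S0896

/-- Let N be a normal subgroup of the finite group G with the index of N a power of the prime p, and ϑ an irreducible character of N invariant under conjugation by G. Then there are a p-elementary subgroup E of G with E ⊔ N = ⊤ and an irreducible character φ of the subgroup E ⊓ N, invariant under conjugation by E, such that the inner product of the restriction of ϑ to E ⊓ N with φ is an integer not divisible by p. -/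
theorem result {G : Type*} [Group G] [Fintype G] (p : ℕ) (hp : p.Prime) (N : Subgroup G) [hN : N.Normal] (hind : ∃ k : ℕ, N.index = p ^ k) (ϑ : N → ℂ) (hϑ : Cfsg.IsIrrCharacter N ϑ) (hinv : ∀ (g : G) (n : N), ϑ ⟨g * n * g⁻¹, hN.conj_mem (n : G) n.2 g⟩ = ϑ n) : ∃ (E : Subgroup G) (φ : ↥(E ⊓ N) → ℂ), Cfsg.IsElementary p E ∧ E ⊔ N = ⊤ ∧ Cfsg.IsIrrCharacter ↥(E ⊓ N) φ ∧ (∀ (g : G) (hg : g ∈ E) (x : ↥(E ⊓ N)), φ ⟨g * x * g⁻¹, ⟨(E.mul_mem (E.mul_mem hg x.2.1) (E.inv_mem hg)), hN.conj_mem (x : G) x.2.2 g⟩⟩ = φ x) ∧ ∃ m : ℕ, ¬ p ∣ m ∧ (Nat.card ↥(E ⊓ N) : ℂ)⁻¹ * ∑ᶠ x : ↥(E ⊓ N), ϑ ⟨(x : G), x.2.2⟩ * conj (φ x) = (m : ℂ) := by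
  classical
  obtain ⟨k, hk⟩ := hind
  obtain ⟨m, l, hm, hl, hsum⟩ := Cfsg.Agent.Helper2.Brauer.brauer_local (G := G) p hp
  let w : N → ℂ := fun n => ϑ n * (starRingEnd ℂ) (ϑ n)
  have hw : ∀ (g : G) (n : N), w ⟨g * n * g⁻¹, hN.conj_mem n n.2 g⟩ = w n := by
    intro g n
    change ϑ _ * (starRingEnd ℂ) (ϑ _) = ϑ n * (starRingEnd ℂ) (ϑ n)
    rw [hinv g n]
  have hNc : (Nat.card N : ℂ) ≠ 0 := by exact_mod_cast Nat.card_pos.ne'
  have hϑch : Cfsg.IsCharacter N ϑ := Cfsg.Agent.Lead.isCharacter_of_isIrrCharacter hϑ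
  have hϑϑ : ∑ n : N, w n = (Nat.card N : ℂ) := by
    have h1 := Cfsg.Agent.Lead.classInner_self_of_isIrrCharacter hϑ
    unfold Cfsg.classInner at h1
    exact ((inv_mul_eq_one₀ hNc).mp h1).symm
  have hIex : ∀ (E : Subgroup G) (φ : E → ℂ), Cfsg.IsCharacter E φ →
      ∃ I : ℕ, ∑ n : N, Cfsg.indFun E φ (n : G) * w n
          = (Nat.card N : ℂ) * (((E ⊔ N).index : ℂ) * (I : ℂ)) ∧
        Cfsg.classInner (fun x : ↥(E ⊓ N) => φ ⟨x, x.2.1⟩ * ϑ ⟨x, x.2.2⟩)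
          (fun x : ↥(E ⊓ N) => ϑ ⟨x, x.2.2⟩) = (I : ℂ) := by
    intro E φ hφ
    have hch1 : Cfsg.IsCharacter ↥(E ⊓ N) (fun x : ↥(E ⊓ N) => φ ⟨x, x.2.1⟩) :=
      Cfsg.Agent.Lead.isCharacter_comp (Subgroup.inclusion (inf_le_left : E ⊓ N ≤ E)) hφ
    have hch2 : Cfsg.IsCharacter ↥(E ⊓ N) (fun x : ↥(E ⊓ N) => ϑ ⟨x, x.2.2⟩) :=
      Cfsg.Agent.Lead.isCharacter_comp (Subgroup.inclusion (inf_le_right : E ⊓ N ≤ N)) hϑch
    obtain ⟨I, hI⟩ := Cfsg.Agent.Lead.classInner_isCharacter_nat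
      (Cfsg.Agent.Lead.isCharacter_mul hch1 hch2) hch2
    have hI' : Cfsg.classInner (fun x : ↥(E ⊓ N) => φ ⟨x, x.2.1⟩ * ϑ ⟨x, x.2.2⟩)
        (fun x : ↥(E ⊓ N) => ϑ ⟨x, x.2.2⟩) = (I : ℂ) := hI
    refine ⟨I, ?_, hI'⟩
    rw [Cfsg.Agent.Helper2.Dade.mackey_sum N E φ w hw]
    have hDc : (Nat.card ↥(E ⊓ N) : ℂ) ≠ 0 := by exact_mod_cast Nat.card_pos.ne'
    have hEc : (Nat.card E : ℂ) ≠ 0 := by exact_mod_cast Nat.card_pos.ne'
    have h1 : ∑ x : ↥(E ⊓ N), φ ⟨x, x.2.1⟩ * w ⟨x, x.2.2⟩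
        = (Nat.card ↥(E ⊓ N) : ℂ) * I := by
      rw [← hI']
      unfold Cfsg.classInner
      rw [mul_inv_cancel_left₀ hDc]
      refine Finset.sum_congr rfl (fun x _ => ?_)
      change φ ⟨x, x.2.1⟩ * (ϑ ⟨x, x.2.2⟩ * (starRingEnd ℂ) (ϑ ⟨x, x.2.2⟩)) = _
      ring
    rw [h1]
    have h2 := Cfsg.Agent.Helper2.Dade.index_arith N E
    have h2' : (Nat.card G : ℂ) * (Nat.card ↥(E ⊓ N) : ℂ)
        = ((E ⊔ N).index : ℂ) * (Nat.card N : ℂ) * (Nat.card E : ℂ) := by exact_mod_cast h2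
    field_simp
    linear_combination (I : ℂ) * h2'
  have hlist : ∀ l : List ((E : Subgroup G) × ((E → ℂ) × ℤ)),
      (∀ t ∈ l, Cfsg.IsElementary p t.1 ∧ Cfsg.IsCharacter t.1 t.2.1) →
      (∀ t ∈ l, t.1 ⊔ N = ⊤ → ∀ I : ℕ,
        Cfsg.classInner (fun x : ↥(t.1 ⊓ N) => t.2.1 ⟨x, x.2.1⟩ * ϑ ⟨x, x.2.2⟩)
          (fun x : ↥(t.1 ⊓ N) => ϑ ⟨x, x.2.2⟩) = (I : ℂ) → p ∣ I) →
      ∃ z : ℤ, (p : ℤ) ∣ z ∧
        ∑ n : N, (l.map fun t => (t.2.2 : ℂ) • Cfsg.indFun t.1 t.2.1).sum (n : G) * w n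
          = (Nat.card N : ℂ) * (z : ℂ) := by
    intro l
    induction l with
    | nil =>
      intro _ _
      refine ⟨0, dvd_zero _, ?_⟩
      simp
    | cons t l ih =>
      intro h1 h2
      obtain ⟨z, hz, hzsum⟩ := ih (fun s hs => h1 s (List.mem_cons_of_mem _ hs))
        (fun s hs => h2 s (List.mem_cons_of_mem _ hs))
      obtain ⟨I, hIsum, hI⟩ := hIex t.1 t.2.1 (h1 t List.mem_cons_self).2
      refine ⟨t.2.2 * (((t.1 ⊔ N).index * I : ℕ) : ℤ) + z, ?_, ?_⟩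
      · apply dvd_add _ hz
        apply Dvd.dvd.mul_left
        have hdvd : (t.1 ⊔ N).index ∣ p ^ k := by
          rw [← hk]; exact Subgroup.index_dvd_of_le le_sup_right
        obtain ⟨j, -, hj⟩ := (Nat.dvd_prime_pow hp).mp hdvd
        have hpd : p ∣ (t.1 ⊔ N).index * I := by
          rcases Nat.eq_zero_or_pos j with h0 | hpos
          · rw [h0, pow_zero] at hj
            have htop : t.1 ⊔ N = ⊤ := Subgroup.index_eq_one.mp hj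
            exact Dvd.dvd.mul_left (h2 t List.mem_cons_self htop I hI) _
          · rw [hj]; exact Dvd.dvd.mul_right (dvd_pow_self p hpos.ne') _
        exact_mod_cast hpd
      · rw [List.map_cons, List.sum_cons]
        simp only [Pi.add_apply, Pi.smul_apply, smul_eq_mul, add_mul, Finset.sum_add_distrib]
        rw [hzsum]
        have h3 : ∑ n : N, (t.2.2 : ℂ) * Cfsg.indFun t.1 t.2.1 (n : G) * w n
            = (t.2.2 : ℂ) * ∑ n : N, Cfsg.indFun t.1 t.2.1 (n : G) * w n := by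
          rw [Finset.mul_sum]
          refine Finset.sum_congr rfl (fun n _ => by ring)
        rw [h3, hIsum]
        push_cast
        ring
  by_cases hex : ∃ t ∈ l, t.1 ⊔ N = ⊤ ∧ ∃ I : ℕ,
      Cfsg.classInner (fun x : ↥(t.1 ⊓ N) => t.2.1 ⟨x, x.2.1⟩ * ϑ ⟨x, x.2.2⟩)
        (fun x : ↥(t.1 ⊓ N) => ϑ ⟨x, x.2.2⟩) = (I : ℂ) ∧ ¬ p ∣ I
  swap
  · exfalso
    push_neg at hex
    obtain ⟨z, hz, hzsum⟩ := hlist l hl (fun t ht htop I hI => hex t ht htop I hI)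
    rw [← hsum] at hzsum
    simp only at hzsum
    rw [← Finset.mul_sum, hϑϑ] at hzsum
    have hmz : (m : ℂ) = (z : ℂ) := by
      have h4 : (Nat.card N : ℂ) * (m : ℂ) = (Nat.card N : ℂ) * (z : ℂ) := by
        rw [mul_comm]; exact hzsum
      exact mul_left_cancel₀ hNc h4
    have hmz' : m = z := by exact_mod_cast hmz
    exact hm (hmz' ▸ hz)
  obtain ⟨⟨E, φ₀, c⟩, ht, htop, I, hI, hpI⟩ := hex
  obtain ⟨hE, hφ₀⟩ := hl _ ht
  simp only at htop hI hE hφ₀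
  have hchϑ : Cfsg.IsCharacter ↥(E ⊓ N) (fun x : ↥(E ⊓ N) => ϑ ⟨x, x.2.2⟩) :=
    Cfsg.Agent.Lead.isCharacter_comp (Subgroup.inclusion (inf_le_right : E ⊓ N ≤ N)) hϑch
  have hch1 : Cfsg.IsCharacter ↥(E ⊓ N) (fun x : ↥(E ⊓ N) => φ₀ ⟨x, x.2.1⟩) :=
    Cfsg.Agent.Lead.isCharacter_comp (Subgroup.inclusion (inf_le_left : E ⊓ N ≤ E)) hφ₀
  have hchf : Cfsg.IsCharacter ↥(E ⊓ N)
      (fun x : ↥(E ⊓ N) => φ₀ ⟨x, x.2.1⟩ * ϑ ⟨x, x.2.2⟩) :=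
    Cfsg.Agent.Lead.isCharacter_mul hch1 hchϑ
  obtain ⟨ms, hms⟩ := Cfsg.Agent.Lead.exists_multiset_irr hchϑ
  haveI : Finite (Cfsg.IrrCharacter ↥(E ⊓ N)) := Cfsg.Agent.Lead.finite_irrCharacter _
  haveI : Fintype (Cfsg.IrrCharacter ↥(E ⊓ N)) := Fintype.ofFinite _
  have hcount : ∀ φ : Cfsg.IrrCharacter ↥(E ⊓ N),
      Cfsg.classInner (fun x : ↥(E ⊓ N) => ϑ ⟨x, x.2.2⟩) φ.1 = (ms.count φ : ℂ) := by
    intro φ
    rw [hms]
    exact Cfsg.Agent.Lead.classInner_multiset_irr ms φ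
  have hJex : ∀ φ : Cfsg.IrrCharacter ↥(E ⊓ N), ∃ j : ℕ,
      Cfsg.classInner (fun x : ↥(E ⊓ N) => φ₀ ⟨x, x.2.1⟩ * ϑ ⟨x, x.2.2⟩) φ.1 = (j : ℂ) :=
    fun φ => Cfsg.Agent.Lead.classInner_isCharacter_nat hchf
      (Cfsg.Agent.Lead.isCharacter_of_isIrrCharacter φ.2)
  choose J hJ using hJex
  have hIsum : I = ∑ φ : Cfsg.IrrCharacter ↥(E ⊓ N), ms.count φ * J φ := by
    have h1 : (I : ℂ) = ∑ φ : Cfsg.IrrCharacter ↥(E ⊓ N), (ms.count φ : ℂ) * (J φ : ℂ) := by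
      rw [← hI, hms, Cfsg.Agent.Helper2.Dade.inner_expand]
      refine Finset.sum_congr rfl (fun φ _ => ?_)
      rw [hJ φ]
    exact_mod_cast h1
  letI : MulAction E (Cfsg.IrrCharacter ↥(E ⊓ N)) := Cfsg.Agent.Helper2.Dade.act E N
  obtain ⟨x, hxc, hxcop, kk, hkk⟩ := hE
  have horb : ∀ φ : Cfsg.IrrCharacter ↥(E ⊓ N),
      ∃ n : ℕ, Nat.card (MulAction.orbit E φ) = p ^ n := by
    intro φ
    have hle : Subgroup.zpowers x ≤ MulAction.stabilizer E φ := by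
      rw [Subgroup.zpowers_le, MulAction.mem_stabilizer_iff]
      apply Subtype.ext
      funext y
      change φ.1 (Cfsg.Agent.Helper2.Dade.cD E N x⁻¹ y) = φ.1 y
      refine congrArg φ.1 (Subtype.ext ?_)
      rw [Cfsg.Agent.Helper2.Dade.cD_coe]
      have hc := Subgroup.mem_center_iff.mp hxc ⟨y, y.2.1⟩
      have hc' : (y : G) * (x : G) = (x : G) * (y : G) := congrArg Subtype.val hc
      simp only [Subgroup.coe_inv, inv_inv]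
      rw [mul_assoc, hc', inv_mul_cancel_left]
    have hdvd := Subgroup.index_dvd_of_le hle
    rw [hkk] at hdvd
    obtain ⟨n, -, hn⟩ := (Nat.dvd_prime_pow hp).mp hdvd
    refine ⟨n, ?_⟩
    rw [← hn, MulAction.index_stabilizer, Nat.card_coe_set_eq]
  have hϑinv : ∀ (g : E) (y : ↥(E ⊓ N)),
      ϑ ⟨(Cfsg.Agent.Helper2.Dade.cD E N g y : G), (Cfsg.Agent.Helper2.Dade.cD E N g y).2.2⟩
        = ϑ ⟨y, y.2.2⟩ := by
    intro g y
    exact hinv (g : G) ⟨y, y.2.2⟩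
  have hφinv : ∀ (g : E) (y : ↥(E ⊓ N)),
      φ₀ ⟨(Cfsg.Agent.Helper2.Dade.cD E N g y : G), (Cfsg.Agent.Helper2.Dade.cD E N g y).2.1⟩
        = φ₀ ⟨y, y.2.1⟩ := by
    intro g y
    exact Cfsg.Agent.Lead.isCharacter_isClassFunction hφ₀ ⟨y, y.2.1⟩ g
  have hfinv : ∀ (g : E) (y : ↥(E ⊓ N)),
      (fun x : ↥(E ⊓ N) => φ₀ ⟨x, x.2.1⟩ * ϑ ⟨x, x.2.2⟩) (Cfsg.Agent.Helper2.Dade.cD E N g y)
        = (fun x : ↥(E ⊓ N) => φ₀ ⟨x, x.2.1⟩ * ϑ ⟨x, x.2.2⟩) y := by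
    intro g y
    change φ₀ _ * ϑ _ = φ₀ _ * ϑ _
    rw [hφinv g y, hϑinv g y]
  have hF : ∀ (g : E) (φ : Cfsg.IrrCharacter ↥(E ⊓ N)),
      ms.count (g • φ) * J (g • φ) = ms.count φ * J φ := by
    intro g φ
    have h1 : ms.count (g • φ) = ms.count φ := by
      have h0 := Cfsg.Agent.Helper2.Dade.classInner_conjIrr E N
        (fun x : ↥(E ⊓ N) => ϑ ⟨x, x.2.2⟩) hϑinv g φ
      rw [hcount φ] at h0
      have h2 := hcount (g • φ)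
      have h3 : ((ms.count (g • φ) : ℕ) : ℂ) = (ms.count φ : ℂ) := by
        rw [← h2]; exact h0
      exact_mod_cast h3
    have h4 : J (g • φ) = J φ := by
      have h0 := Cfsg.Agent.Helper2.Dade.classInner_conjIrr E N
        (fun x : ↥(E ⊓ N) => φ₀ ⟨x, x.2.1⟩ * ϑ ⟨x, x.2.2⟩) hfinv g φ
      rw [hJ φ] at h0
      have h2 := hJ (g • φ)
      have h3 : ((J (g • φ) : ℕ) : ℂ) = (J φ : ℂ) := by
        rw [← h2]; exact h0
      exact_mod_cast h3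
    rw [h1, h4]
  obtain ⟨φ, hfix, hnd⟩ := Cfsg.Agent.Helper2.Dade.weighted_fixed horb
    (fun φ => ms.count φ * J φ) hF (by rw [← hIsum]; exact hpI)
  refine ⟨E, φ.1, ⟨x, hxc, hxcop, kk, hkk⟩, htop, φ.2, ?_, ms.count φ,
    fun h => hnd (Dvd.dvd.mul_right h _), ?_⟩
  · intro g hg y
    have h1 := hfix (⟨g, hg⟩⁻¹ : E)
    have h2 := congrFun (congrArg Subtype.val h1) y
    refine Eq.trans ?_ h2
    change φ.1 _ = φ.1 (Cfsg.Agent.Helper2.Dade.cD E N (⟨g, hg⟩⁻¹ : E)⁻¹ y)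
    refine congrArg φ.1 (Subtype.ext ?_)
    simp [Cfsg.Agent.Helper2.Dade.cD_coe]
  · have h1 := hcount φ
    unfold Cfsg.classInner at h1
    rw [finsum_eq_sum_of_fintype]
    exact h1


end Cfsg.Agent.S0896
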