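import Mathlib
import Cfsg.Agent.Helper2.Dade2
import Cfsg.Agent.S0896
import Cfsg.Agent.S0887
import Cfsg.Agent.S0146
import Cfsg.Agent.S0148
import Cfsg.Agent.Helper2.CharN
import Cfsg.Agent.Lead.CharCore4
import Cfsg.Statements.S0897

set_option autoImplicit false
open Cfsg

namespace Cfsg.Agent.S0897

/-- Let N be a normal subgroup of the finite group G with the index of N a power of the prime p, and P a Sylow p-subgroup of G such that P ⊓ N lies in the centre of P and every character of degree 1 of P ⊓ N is the restriction of a character of degree 1 of P. Then every irreducible character of N invariant under conjugation by G is the restriction of an irreducible character of G. -/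
theorem result {G : Type*} [Group G] [Fintype G] (p : ℕ) [Fact p.Prime] (N : Subgroup G) [hN : N.Normal] (hind : ∃ k : ℕ, N.index = p ^ k) (P : Sylow p G) (hcent : ∀ x ∈ (P : Subgroup G) ⊓ N, ∀ y ∈ (P : Subgroup G), x * y = y * x) (hlin : ∀ lam : ↥((P : Subgroup G) ⊓ N) → ℂ, Cfsg.IsCharacter ↥((P : Subgroup G) ⊓ N) lam → lam 1 = 1 → ∃ μ : ↥(P : Subgroup G) → ℂ, Cfsg.IsCharacter ↥(P : Subgroup G) μ ∧ μ 1 = 1 ∧ ∀ x : ↥((P : Subgroup G) ⊓ N), μ ⟨(x : G), x.2.1⟩ = lam x) (ϑ : N → ℂ) (hϑ : Cfsg.IsIrrCharacter N ϑ) (hinv : ∀ (g : G) (n : N), ϑ ⟨g * n * g⁻¹, hN.conj_mem (n : G) n.2 g⟩ = ϑ n) : ∃ χ : G → ℂ, Cfsg.IsIrrCharacter G χ ∧ ∀ n : N, χ n = ϑ n := by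
  classical
  have hp : p.Prime := Fact.out
  obtain ⟨E, φ, hE, htop, hφ, hφinv, m, hpm, hm⟩ :=
    Cfsg.Agent.S0896.result p hp N hind ϑ hϑ hinv
  obtain ⟨ψ, hψc, hψD⟩ := Cfsg.Agent.Helper2.Dade.exists_ext p N hind P hcent hlin E hE φ hφ
  obtain ⟨k, hk⟩ := hind
  let w : N → ℂ := fun n => (starRingEnd ℂ) (ϑ n)
  have hw : ∀ (g : G) (n : N), w ⟨g * n * g⁻¹, hN.conj_mem n n.2 g⟩ = w n := by
    intro g n
    change (starRingEnd ℂ) (ϑ _) = (starRingEnd ℂ) (ϑ n)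
    rw [hinv g n]
  have hNc : (Nat.card N : ℂ) ≠ 0 := by exact_mod_cast Nat.card_pos.ne'
  have hDc : (Nat.card ↥(E ⊓ N) : ℂ) ≠ 0 := by exact_mod_cast Nat.card_pos.ne'
  have hEc : (Nat.card E : ℂ) ≠ 0 := by exact_mod_cast Nat.card_pos.ne'
  have h1 : ∑ n : N, Cfsg.indFun E ψ (n : G) * w n = (Nat.card N : ℂ) * (m : ℂ) := by
    rw [Cfsg.Agent.Helper2.Dade.mackey_sum N E ψ w hw]
    have h2 : ∑ x : ↥(E ⊓ N), ψ ⟨x, x.2.1⟩ * w ⟨x, x.2.2⟩
        = (Nat.card ↥(E ⊓ N) : ℂ) * (m : ℂ) := by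
      rw [finsum_eq_sum_of_fintype] at hm
      have h3 : ∑ x : ↥(E ⊓ N), ϑ ⟨(x : G), x.2.2⟩ * (starRingEnd ℂ) (φ x)
          = (Nat.card ↥(E ⊓ N) : ℂ) * (m : ℂ) := by
        rw [← hm, mul_inv_cancel_left₀ hDc]
      have h4 : ∑ x : ↥(E ⊓ N), ψ ⟨x, x.2.1⟩ * w ⟨x, x.2.2⟩
          = (starRingEnd ℂ) (∑ x : ↥(E ⊓ N), ϑ ⟨(x : G), x.2.2⟩ * (starRingEnd ℂ) (φ x)) := by
        rw [map_sum]
        refine Finset.sum_congr rfl (fun x _ => ?_)
        rw [hψD x, map_mul, Complex.conj_conj, mul_comm]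
      rw [h4, h3, map_mul, Complex.conj_natCast, Complex.conj_natCast]
    rw [h2]
    have h5 := Cfsg.Agent.Helper2.Dade.index_arith N E
    rw [htop, Subgroup.index_top, one_mul] at h5
    have h5' : (Nat.card G : ℂ) * (Nat.card ↥(E ⊓ N) : ℂ)
        = (Nat.card N : ℂ) * (Nat.card E : ℂ) := by exact_mod_cast h5
    field_simp
    linear_combination (m : ℂ) * h5'
  have h6 : Cfsg.classInner (fun n : N => Cfsg.indFun E ψ (n : G)) ϑ = (m : ℂ) := by
    unfold Cfsg.classInner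
    have h1' : ∑ n : N, Cfsg.indFun E ψ (n : G) * (starRingEnd ℂ) (ϑ n)
        = (Nat.card N : ℂ) * (m : ℂ) := h1
    rw [h1', inv_mul_cancel_left₀ hNc]
  have hψG : Cfsg.IsCharacter G (Cfsg.indFun E ψ) := Cfsg.Agent.S0148.result E ψ hψc
  have hϑG : Cfsg.IsCharacter G (Cfsg.indFun N ϑ) :=
    Cfsg.Agent.S0148.result N ϑ (Cfsg.Agent.Lead.isCharacter_of_isIrrCharacter hϑ)
  have h7 : Cfsg.classInner (Cfsg.indFun N ϑ) (Cfsg.indFun E ψ) = (m : ℂ) := by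
    rw [Cfsg.Agent.S0146.result N ϑ (Cfsg.indFun E ψ)
      (Cfsg.Agent.Lead.isCharacter_isClassFunction hψG),
      ← Cfsg.Agent.Lead.classInner_conj_symm, h6, Complex.conj_natCast]
  obtain ⟨ms, hms⟩ := Cfsg.Agent.Lead.exists_multiset_irr hψG
  haveI : Finite (Cfsg.IrrCharacter G) := Cfsg.Agent.Lead.finite_irrCharacter G
  haveI : Fintype (Cfsg.IrrCharacter G) := Fintype.ofFinite _
  have hex : ∀ χ : Cfsg.IrrCharacter G, ∃ e : ℕ,
      Cfsg.classInner (fun n : N => χ.1 n) ϑ = (e : ℂ) := fun χ =>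
    Cfsg.Agent.Lead.classInner_isCharacter_nat
      (Cfsg.Agent.Lead.isCharacter_res N (Cfsg.Agent.Lead.isCharacter_of_isIrrCharacter χ.2))
      (Cfsg.Agent.Lead.isCharacter_of_isIrrCharacter hϑ)
  choose e he using hex
  have he' : ∀ χ : Cfsg.IrrCharacter G, Cfsg.classInner (Cfsg.indFun N ϑ) χ.1 = (e χ : ℂ) := by
    intro χ
    rw [Cfsg.Agent.S0146.result N ϑ χ.1 (Cfsg.Agent.Lead.isCharacter_isClassFunction
      (Cfsg.Agent.Lead.isCharacter_of_isIrrCharacter χ.2)),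
      ← Cfsg.Agent.Lead.classInner_conj_symm, he χ, Complex.conj_natCast]
  have hmsum : m = ∑ χ : Cfsg.IrrCharacter G, ms.count χ * e χ := by
    have h8 : (m : ℂ) = ∑ χ : Cfsg.IrrCharacter G, (ms.count χ : ℂ) * (e χ : ℂ) := by
      rw [← h7, hms, Cfsg.Agent.Helper2.Dade.inner_expand]
      refine Finset.sum_congr rfl (fun χ _ => ?_)
      rw [he' χ]
    exact_mod_cast h8
  have hexχ : ∃ χ : Cfsg.IrrCharacter G, ¬ p ∣ ms.count χ * e χ := by
    by_contra hcon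
    push_neg at hcon
    apply hpm
    rw [hmsum]
    exact Finset.dvd_sum (fun χ _ => hcon χ)
  obtain ⟨χ, hχ⟩ := hexχ
  have hpe : ¬ p ∣ e χ := fun h => hχ (Dvd.dvd.mul_left h _)
  have he0 : e χ ≠ 0 := by
    intro h0
    apply hpe
    rw [h0]; exact dvd_zero p
  have hcon : Cfsg.classInner (fun n : N => χ.1 n) ϑ ≠ 0 := by
    rw [he χ]; exact_mod_cast he0
  have hres := Cfsg.Agent.Helper2.CharN.res_eq_smul_of_invariant N χ.2 hϑ hcon hinv
  rw [he χ] at hres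
  obtain ⟨c, hc0, hc⟩ := Cfsg.Agent.Lead.isIrrCharacter_one_eq_nat χ.2
  obtain ⟨d, hd0, hd⟩ := Cfsg.Agent.Lead.isIrrCharacter_one_eq_nat hϑ
  obtain ⟨hdc, hdiv⟩ := Cfsg.Agent.S0887.result N χ.1 χ.2 ϑ hϑ hcon c d hc hd
  have hced : c = e χ * d := by
    have h9 := congrFun hres 1
    simp only [Pi.smul_apply, smul_eq_mul] at h9
    have h10 : (c : ℂ) = (e χ : ℂ) * (d : ℂ) := by
      rw [← hc, ← hd]; exact h9
    exact_mod_cast h10
  have hquot : c / d = e χ := by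
    rw [hced]; exact Nat.mul_div_cancel _ hd0
  rw [hquot, hk] at hdiv
  obtain ⟨i, -, hi⟩ := (Nat.dvd_prime_pow hp).mp hdiv
  have hi0 : i = 0 := by
    by_contra hne
    apply hpe
    rw [hi]; exact dvd_pow_self p hne
  rw [hi0, pow_zero] at hi
  refine ⟨χ.1, χ.2, fun n => ?_⟩
  have h11 := congrFun hres n
  rw [hi] at h11
  simpa using h11


end Cfsg.Agent.S0897
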