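import Mathlib
import Cfsg.Agent.Helper2.CharN
import Cfsg.Agent.S0146
import Cfsg.Statements.S0900

set_option autoImplicit false
open Cfsg

namespace Cfsg.Agent.S0900

/-- Let N be a normal subgroup of the finite group G, χ an irreducible character of G and ϑ an irreducible character of N having nonzero inner product with the restriction of χ. Consider: (a) the restriction of χ to N is e • ϑ for a natural number e with e ^ 2 equal to the index of N; (b) χ vanishes outside N and ϑ is invariant under conjugation by G; (c) ϑ is invariant and every irreducible character of G having nonzero inner product with the function induced from ϑ equals χ. Then (a) ↔ (b) and (a) ↔ (c). -/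
theorem result {G : Type*} [Group G] [Fintype G] (N : Subgroup G) [hN : N.Normal] [Fintype N] (χ : G → ℂ) (hχ : Cfsg.IsIrrCharacter G χ) (ϑ : N → ℂ) (hϑ : Cfsg.IsIrrCharacter N ϑ) (hcon : Cfsg.classInner (fun n : N => χ n) ϑ ≠ 0) : ((∃ e : ℕ, (fun n : N => χ n) = (e : ℂ) • ϑ ∧ e ^ 2 = N.index) ↔ ((∀ g : G, g ∉ N → χ g = 0) ∧ ∀ (g : G) (n : N), ϑ ⟨g * n * g⁻¹, hN.conj_mem (n : G) n.2 g⟩ = ϑ n)) ∧ ((∃ e : ℕ, (fun n : N => χ n) = (e : ℂ) • ϑ ∧ e ^ 2 = N.index) ↔ (∀ (g : G) (n : N), ϑ ⟨g * n * g⁻¹, hN.conj_mem (n : G) n.2 g⟩ = ϑ n ∧ ∀ ψ : G → ℂ, Cfsg.IsIrrCharacter G ψ → Cfsg.classInner (Cfsg.indFun N ϑ) ψ ≠ 0 → ψ = χ)) := by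
  classical
  have hχc : Cfsg.IsCharacter G χ := Cfsg.Agent.Lead.isCharacter_of_isIrrCharacter hχ
  have hχcf : Cfsg.IsClassFunction G χ := Cfsg.Agent.Lead.isCharacter_isClassFunction hχc
  have hϑc : Cfsg.IsCharacter N ϑ := Cfsg.Agent.Lead.isCharacter_of_isIrrCharacter hϑ
  have hNne : (Nat.card N : ℂ) ≠ 0 := Cfsg.Agent.Lead.natCard_ne_zero_complex N
  have hϑϑ : Cfsg.classInner ϑ ϑ = 1 := Cfsg.Agent.Lead.classInner_self_of_isIrrCharacter hϑ
  have hidx : (N.index : ℂ) * (Nat.card N : ℂ) = (Nat.card G : ℂ) := by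
    exact_mod_cast Subgroup.index_mul_card N
  -- the multiplicity
  obtain ⟨k, hk⟩ := Cfsg.Agent.Helper2.CharN.res_inner_nat N hχc hϑc
  have hk0 : k ≠ 0 := by
    rintro rfl
    exact hcon (by simpa using hk)
  -- (a) gives e = k
  have ha_e : ∀ e : ℕ, (fun n : N => χ n) = (e : ℂ) • ϑ → e = k := by
    intro e he
    have h1 : Cfsg.classInner (fun n : N => χ n) ϑ = (e : ℂ) := by
      rw [he, Cfsg.Agent.Lead.classInner_smul_left, hϑϑ, mul_one]
    rw [hk] at h1
    exact_mod_cast h1.symm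
  -- (a) ⇒ invariance
  have ha_inv : ∀ e : ℕ, (fun n : N => χ n) = (e : ℂ) • ϑ →
      ∀ (g : G) (n : N), ϑ ⟨g * n * g⁻¹, hN.conj_mem (n : G) n.2 g⟩ = ϑ n := by
    intro e he g n
    have hek := ha_e e he
    have he0 : (e : ℂ) ≠ 0 := by
      rw [hek]
      exact_mod_cast hk0
    have h1 : χ (g * n * g⁻¹) = (e : ℂ) * ϑ ⟨g * n * g⁻¹, hN.conj_mem (n : G) n.2 g⟩ :=
      congrFun he ⟨g * n * g⁻¹, hN.conj_mem (n : G) n.2 g⟩
    have h2 : χ n = (e : ℂ) * ϑ n := congrFun he n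
    rw [hχcf n g, h2] at h1
    exact (mul_left_cancel₀ he0 h1).symm
  -- norm computation
  have hnorm : (fun n : N => χ n) = (k : ℂ) • ϑ →
      (Nat.card G : ℂ) = (k : ℂ) ^ 2 * (Nat.card N : ℂ)
        + ∑ g : G, (if g ∈ N then 0 else χ g * (starRingEnd ℂ) (χ g)) := by
    intro he
    have h1 := Cfsg.Agent.Helper2.CharN.sum_mul_conj_irr hχ
    rw [Cfsg.Agent.Helper2.CharN.sum_split N] at h1
    rw [← h1]
    congr 1
    · have h2 : ∀ n : N, χ n * (starRingEnd ℂ) (χ n)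
          = (k : ℂ) ^ 2 * (ϑ n * (starRingEnd ℂ) (ϑ n)) := by
        intro n
        have h3 : χ n = (k : ℂ) * ϑ n := congrFun he n
        rw [h3, map_mul, Complex.conj_natCast]
        ring
      rw [Finset.sum_congr rfl (fun n _ => h2 n), ← Finset.mul_sum]
      have h4 := Cfsg.Agent.Helper2.CharN.sum_mul_conj_irr hϑ
      rw [h4]
  have hzero : (∑ g : G, (if g ∈ N then 0 else χ g * (starRingEnd ℂ) (χ g))) = 0 →
      ∀ g : G, g ∉ N → χ g = 0 := by
    intro h0 g hg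
    have h1 : ∀ x : G, (if x ∈ N then (0:ℂ) else χ x * (starRingEnd ℂ) (χ x))
        = (((if x ∈ N then (0:ℝ) else Complex.normSq (χ x)) : ℝ) : ℂ) := by
      intro x
      split_ifs
      · simp
      · rw [Complex.mul_conj]
    rw [Finset.sum_congr rfl (fun x _ => h1 x), ← Complex.ofReal_sum] at h0
    have h2 : ∑ x : G, (if x ∈ N then (0:ℝ) else Complex.normSq (χ x)) = 0 := by
      exact_mod_cast h0
    have h3 := (Finset.sum_eq_zero_iff_of_nonneg (fun x _ => by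
      split_ifs
      · exact le_refl _
      · exact Complex.normSq_nonneg _)).mp h2 g (Finset.mem_univ g)
    rw [if_neg hg] at h3
    exact Complex.normSq_eq_zero.mp h3
  have hab : (∃ e : ℕ, (fun n : N => χ n) = (e : ℂ) • ϑ ∧ e ^ 2 = N.index) ↔
      ((∀ g : G, g ∉ N → χ g = 0) ∧
        ∀ (g : G) (n : N), ϑ ⟨g * n * g⁻¹, hN.conj_mem (n : G) n.2 g⟩ = ϑ n) := by
    constructor
    · rintro ⟨e, he, he2⟩
      have hek := ha_e e he
      subst hek
      refine ⟨?_, ha_inv e he⟩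
      apply hzero
      have h1 := hnorm he
      have h2 : ((e : ℂ)) ^ 2 = (N.index : ℂ) := by exact_mod_cast he2
      rw [h2, hidx] at h1
      linear_combination (-1 : ℂ) * h1
    · rintro ⟨hv, hinv⟩
      have hres := Cfsg.Agent.Helper2.CharN.res_eq_smul_of_invariant N hχ hϑ hcon hinv
      rw [hk] at hres
      refine ⟨k, hres, ?_⟩
      have h1 := hnorm hres
      have h2 : ∑ g : G, (if g ∈ N then 0 else χ g * (starRingEnd ℂ) (χ g)) = 0 := by
        apply Finset.sum_eq_zero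
        intro g _
        split_ifs with h
        · rfl
        · rw [hv g h, zero_mul]
      rw [h2, add_zero, ← hidx] at h1
      have h3 : (N.index : ℂ) = (k : ℂ) ^ 2 := mul_right_cancel₀ hNne h1
      exact_mod_cast h3.symm
  haveI : Finite (Cfsg.IrrCharacter G) := Cfsg.Agent.Lead.finite_irrCharacter G
  haveI : Fintype (Cfsg.IrrCharacter G) := Fintype.ofFinite _
  have hex : ∀ ψ : Cfsg.IrrCharacter G, ∃ m : ℕ,
      Cfsg.classInner (fun n : N => (ψ : G → ℂ) n) ϑ = (m : ℂ) :=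
    fun ψ => Cfsg.Agent.Helper2.CharN.res_inner_nat N
      (Cfsg.Agent.Lead.isCharacter_of_isIrrCharacter ψ.2) hϑc
  choose ee hee using hex
  have hind : ∀ ψ : Cfsg.IrrCharacter G,
      Cfsg.classInner (Cfsg.indFun N ϑ) (ψ : G → ℂ) = (ee ψ : ℂ) := by
    intro ψ
    rw [Cfsg.Agent.S0146.result N ϑ ψ (Cfsg.Agent.Lead.isCharacter_isClassFunction
      (Cfsg.Agent.Lead.isCharacter_of_isIrrCharacter ψ.2)),
      ← Cfsg.Agent.Lead.classInner_conj_symm, hee, Complex.conj_natCast]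
  have hsum : (∀ (g : G) (n : N), ϑ ⟨g * n * g⁻¹, hN.conj_mem (n : G) n.2 g⟩ = ϑ n) →
      ∑ ψ : Cfsg.IrrCharacter G, (ee ψ) ^ 2 = N.index := by
    intro hinv
    obtain ⟨d, hd0, hd⟩ := Cfsg.Agent.Lead.isIrrCharacter_one_eq_nat hϑ
    have h1 := Cfsg.Agent.Lead.classFunction_eq_finsum (Cfsg.indFun N ϑ)
      (Cfsg.Agent.Lead.indFun_isClassFunction N ϑ)
    rw [finsum_eq_sum_of_fintype] at h1
    have h2 := congrFun h1 1
    rw [Cfsg.Agent.Lead.indFun_one, Finset.sum_apply] at h2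
    have h3 : ∀ ψ : Cfsg.IrrCharacter G,
        (Cfsg.classInner (Cfsg.indFun N ϑ) (ψ : G → ℂ) • (ψ : G → ℂ)) 1
          = ((ee ψ : ℂ)) ^ 2 * ϑ 1 := by
      intro ψ
      rw [Pi.smul_apply, smul_eq_mul, hind]
      by_cases h0 : ee ψ = 0
      · rw [h0]; simp
      · have hc : Cfsg.classInner (fun n : N => (ψ : G → ℂ) n) ϑ ≠ 0 := by
          rw [hee]
          exact_mod_cast h0
        have hres := Cfsg.Agent.Helper2.CharN.res_eq_smul_of_invariant N ψ.2 hϑ hc hinv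
        have h4 : (ψ : G → ℂ) 1 = (ee ψ : ℂ) * ϑ 1 := by
          have h5 := congrFun hres 1
          rw [hee] at h5
          exact h5
        rw [h4]; ring
    rw [Finset.sum_congr rfl (fun ψ _ => h3 ψ), ← Finset.sum_mul] at h2
    have hd' : ϑ 1 ≠ 0 := by
      rw [hd]
      exact_mod_cast hd0.ne'
    have h5 : (N.index : ℂ) = ∑ ψ : Cfsg.IrrCharacter G, ((ee ψ : ℂ)) ^ 2 :=
      mul_right_cancel₀ hd' h2
    have h6 : ((N.index : ℕ) : ℂ) = ((∑ ψ : Cfsg.IrrCharacter G, (ee ψ) ^ 2 : ℕ) : ℂ) := by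
      rw [h5]; push_cast; rfl
    exact_mod_cast h6.symm
  have hχk : ee ⟨χ, hχ⟩ = k := by
    have h : (k : ℂ) = (ee ⟨χ, hχ⟩ : ℂ) := hk.symm.trans (hee ⟨χ, hχ⟩)
    exact_mod_cast h.symm
  have hac : (∃ e : ℕ, (fun n : N => χ n) = (e : ℂ) • ϑ ∧ e ^ 2 = N.index) ↔
      (∀ (g : G) (n : N), ϑ ⟨g * n * g⁻¹, hN.conj_mem (n : G) n.2 g⟩ = ϑ n ∧
        ∀ ψ : G → ℂ, Cfsg.IsIrrCharacter G ψ →
          Cfsg.classInner (Cfsg.indFun N ϑ) ψ ≠ 0 → ψ = χ) := by
    constructor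
    · rintro ⟨e, he, he2⟩
      have hek := ha_e e he
      subst hek
      have hinv := ha_inv e he
      intro g n
      refine ⟨hinv g n, ?_⟩
      intro ψ hψ hne
      by_contra hψχ
      have hs := hsum hinv
      have hne' : ee ⟨ψ, hψ⟩ ≠ 0 := by
        intro h0
        apply hne
        have h := hind ⟨ψ, hψ⟩
        rw [h0] at h
        simpa using h
      have hneq : (⟨ψ, hψ⟩ : Cfsg.IrrCharacter G) ≠ ⟨χ, hχ⟩ := by
        intro h
        exact hψχ (congrArg Subtype.val h)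
      have h1 : (ee ⟨χ, hχ⟩) ^ 2 + (ee ⟨ψ, hψ⟩) ^ 2
          ≤ ∑ ψ' : Cfsg.IrrCharacter G, (ee ψ') ^ 2 := by
        rw [← Finset.add_sum_erase Finset.univ _
          (Finset.mem_univ (⟨χ, hχ⟩ : Cfsg.IrrCharacter G))]
        apply Nat.add_le_add_left
        exact Finset.single_le_sum (f := fun ψ' => (ee ψ') ^ 2) (fun _ _ => Nat.zero_le _)
          (Finset.mem_erase.mpr ⟨hneq, Finset.mem_univ _⟩)
      rw [hs, hχk, ← he2] at h1
      have h2 : 0 < (ee ⟨ψ, hψ⟩) ^ 2 := Nat.pos_of_ne_zero (pow_ne_zero 2 hne')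
      omega
    · intro h
      have hinv : ∀ (g : G) (n : N), ϑ ⟨g * n * g⁻¹, hN.conj_mem (n : G) n.2 g⟩ = ϑ n :=
        fun g n => (h g n).1
      have huniq := (h 1 1).2
      have hres := Cfsg.Agent.Helper2.CharN.res_eq_smul_of_invariant N hχ hϑ hcon hinv
      rw [hk] at hres
      refine ⟨k, hres, ?_⟩
      have hs := hsum hinv
      rw [Finset.sum_eq_single (⟨χ, hχ⟩ : Cfsg.IrrCharacter G)] at hs
      · rw [hχk] at hs
        exact hs
      · intro ψ _ hψ
        by_contra h0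
        apply hψ
        have h1 : Cfsg.classInner (Cfsg.indFun N ϑ) (ψ : G → ℂ) ≠ 0 := by
          rw [hind]
          have h2 : ee ψ ≠ 0 := fun h' => h0 (by rw [h']; rfl)
          exact_mod_cast h2
        exact Subtype.ext (huniq ψ.1 ψ.2 h1)
      · intro h'
        exact absurd (Finset.mem_univ _) h'
  exact ⟨hab, hac⟩


end Cfsg.Agent.S0900
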