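import Mathlib
import Cfsg.Statements.S0903

set_option autoImplicit false
open Cfsg

namespace Cfsg.Agent.S0903

/-- Let P be a p-subgroup of the finite group G, let c centralize P and let g, h ∈ G. The number of pairs (x, y) with x conjugate to g, y conjugate to h and x * y = c is congruent modulo p to the number of such pairs in which x and y both centralize P. (This is why the Brauer map on class sums is multiplicative.) -/
theorem result {G : Type*} [Group G] [Finite G] (p : ℕ) [Fact p.Prime] (P : Subgroup G) (hP : IsPGroup p P) (c : G) (hc : c ∈ Subgroup.centralizer (P : Set G)) (g h : G) : Nat.card {xy : G × G // IsConj g xy.1 ∧ IsConj h xy.2 ∧ xy.1 * xy.2 = c} ≡ Nat.card {xy : G × G // IsConj g xy.1 ∧ IsConj h xy.2 ∧ xy.1 * xy.2 = c ∧ xy.1 ∈ Subgroup.centralizer (P : Set G) ∧ xy.2 ∈ Subgroup.centralizer (P : Set G)} [MOD p] := by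
  classical
  have hcent : ∀ u : P, (u : G) * c * (u : G)⁻¹ = c := by
    intro u
    have := Subgroup.mem_centralizer_iff.mp hc u u.2
    rw [this]; group
  let X := {xy : G × G // IsConj g xy.1 ∧ IsConj h xy.2 ∧ xy.1 * xy.2 = c}
  letI : MulAction P X :=
    { smul := fun u xy => ⟨((u : G) * xy.1.1 * (u : G)⁻¹, (u : G) * xy.1.2 * (u : G)⁻¹),
        xy.2.1.trans (isConj_iff.mpr ⟨u, rfl⟩), xy.2.2.1.trans (isConj_iff.mpr ⟨u, rfl⟩), by
          have := xy.2.2.2
          calc (u : G) * xy.1.1 * (u : G)⁻¹ * ((u : G) * xy.1.2 * (u : G)⁻¹)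
              = (u : G) * (xy.1.1 * xy.1.2) * (u : G)⁻¹ := by group
            _ = c := by rw [this]; exact hcent u⟩
      one_smul := by
        intro xy
        apply Subtype.ext
        apply Prod.ext
        · show ((1 : P) : G) * xy.1.1 * ((1 : P) : G)⁻¹ = xy.1.1
          simp
        · show ((1 : P) : G) * xy.1.2 * ((1 : P) : G)⁻¹ = xy.1.2
          simp
      mul_smul := by
        intro u v xy
        apply Subtype.ext
        apply Prod.ext
        · show ((u * v : P) : G) * xy.1.1 * ((u * v : P) : G)⁻¹ = (u : G) * ((v : G) * xy.1.1 * (v : G)⁻¹) * (u : G)⁻¹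
          simp only [Subgroup.coe_mul]; group
        · show ((u * v : P) : G) * xy.1.2 * ((u * v : P) : G)⁻¹ = (u : G) * ((v : G) * xy.1.2 * (v : G)⁻¹) * (u : G)⁻¹
          simp only [Subgroup.coe_mul]; group }
  have hsmul1 : ∀ (u : P) (xy : X), (u • xy).1.1 = (u : G) * xy.1.1 * (u : G)⁻¹ := fun u xy => rfl
  have hsmul2 : ∀ (u : P) (xy : X), (u • xy).1.2 = (u : G) * xy.1.2 * (u : G)⁻¹ := fun u xy => rfl
  have key := hP.card_modEq_card_fixedPoints X
  have hfix : ∀ xy : X, xy ∈ MulAction.fixedPoints P X ↔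
      (xy.1.1 ∈ Subgroup.centralizer (P : Set G) ∧ xy.1.2 ∈ Subgroup.centralizer (P : Set G)) := by
    intro xy
    rw [MulAction.mem_fixedPoints]
    constructor
    · intro hf
      constructor
      · rw [Subgroup.mem_centralizer_iff]
        intro u hu
        have := congrArg (fun t : X => t.1.1) (hf ⟨u, hu⟩)
        simp only [hsmul1] at this
        calc u * xy.1.1 = (u * xy.1.1 * u⁻¹) * u := by group
          _ = xy.1.1 * u := by rw [this]
      · rw [Subgroup.mem_centralizer_iff]
        intro u hu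
        have := congrArg (fun t : X => t.1.2) (hf ⟨u, hu⟩)
        simp only [hsmul2] at this
        calc u * xy.1.2 = (u * xy.1.2 * u⁻¹) * u := by group
          _ = xy.1.2 * u := by rw [this]
    · rintro ⟨h1, h2⟩ u
      apply Subtype.ext
      apply Prod.ext
      · rw [hsmul1]
        have := Subgroup.mem_centralizer_iff.mp h1 u u.2
        rw [this]; group
      · rw [hsmul2]
        have := Subgroup.mem_centralizer_iff.mp h2 u u.2
        rw [this]; group
  have hcard : Nat.card (MulAction.fixedPoints P X) = Nat.card {xy : G × G // IsConj g xy.1 ∧ IsConj h xy.2 ∧ xy.1 * xy.2 = c ∧ xy.1 ∈ Subgroup.centralizer (P : Set G) ∧ xy.2 ∈ Subgroup.centralizer (P : Set G)} := by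
    apply Nat.card_congr
    exact
      { toFun := fun t => ⟨t.1.1, t.1.2.1, t.1.2.2.1, t.1.2.2.2, ((hfix t.1).mp t.2).1, ((hfix t.1).mp t.2).2⟩
        invFun := fun t => ⟨⟨t.1, t.2.1, t.2.2.1, t.2.2.2.1⟩, (hfix _).mpr ⟨t.2.2.2.2.1, t.2.2.2.2.2⟩⟩
        left_inv := fun t => rfl
        right_inv := fun t => rfl }
  rw [← hcard]
  exact key


end Cfsg.Agent.S0903
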