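import Cfsg.Statements.S0905
import Cfsg.Agent.Helper8.Basic
import Cfsg.Agent.Helper8.ClassSumNil

set_option autoImplicit false
open Cfsg

namespace Cfsg.Agent.S0905

/-- Let F be a field of characteristic p and let g be an element of the finite group G no conjugate of which centralizes O_p(G). Then the class sum of g is a nilpotent element of the group algebra F[G]. -/
theorem result {G : Type*} [Group G] [Finite G] (p : ℕ) [Fact p.Prime] (F : Type*) [Field F] [CharP F p] (g : G) (hg : ∀ x : G, IsConj g x → x ∉ Subgroup.centralizer (Cfsg.pCore p G : Set G)) : IsNilpotent (∑ᶠ x ∈ ConjClasses.carrier (ConjClasses.mk g), MonoidAlgebra.single x (1 : F) : MonoidAlgebra F G) := by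
  haveI : (Cfsg.pCore p G).Normal := Cfsg.Agent.Helper8.pCore_normal p G
  refine Cfsg.Agent.Helper8.ClassSumNil.classSum_nilpotent p (Cfsg.pCore p G)
    (Cfsg.Agent.Helper8.pCore_isPGroup p G) _ ?_ ?_
  · intro x hx u
    rw [ConjClasses.mem_carrier_iff_mk_eq] at hx ⊢
    rw [← hx, ConjClasses.mk_eq_mk_iff_isConj]
    exact (isConj_iff.mpr ⟨u, rfl⟩ : _root_.IsConj x (u * x * u⁻¹)).symm
  · intro x hx
    rw [ConjClasses.mem_carrier_iff_mk_eq, ConjClasses.mk_eq_mk_iff_isConj] at hx
    exact hg x hx.symm

end Cfsg.Agent.S0905
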