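import Cfsg.Statements.S0916
import Mathlib

set_option autoImplicit false
open Cfsg

namespace Cfsg.Agent.S0916

/-- Let P be a p-subgroup of the finite group G, C its centralizer and N its normalizer. Say that a conjugacy class (of G, or of N) has defect group P when P is a Sylow p-subgroup of the centralizer (in G, respectively in N) of some element of the class. Then: (i) if the class of g in G has defect group P, the elements of that class lying in C form a single N-class, again with defect group P; (ii) every N-class with defect group P arises this way from exactly one G-class with defect group P. -/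
theorem result {G : Type*} [Group G] [Finite G] (p : ℕ) [Fact p.Prime] (P : Subgroup G) (hP : IsPGroup p P) : (∀ g : G, (∃ S : Sylow p (Subgroup.centralizer ({g} : Set G)), (S : Subgroup (Subgroup.centralizer ({g} : Set G))).map (Subgroup.centralizer ({g} : Set G)).subtype = P) → (∃ c : G, IsConj g c ∧ c ∈ Subgroup.centralizer (P : Set G)) ∧ (∀ c₁ c₂ : G, IsConj g c₁ → IsConj g c₂ → c₁ ∈ Subgroup.centralizer (P : Set G) → c₂ ∈ Subgroup.centralizer (P : Set G) → ∃ n ∈ Subgroup.normalizer (P : Set G), n * c₁ * n⁻¹ = c₂)) ∧ (∀ c : G, c ∈ Subgroup.centralizer (P : Set G) → (∃ S : Sylow p (Subgroup.centralizer ({c} : Set G) ⊓ Subgroup.normalizer (P : Set G) : Subgroup G), (S : Subgroup ↥(Subgroup.centralizer ({c} : Set G) ⊓ Subgroup.normalizer (P : Set G))).map (Subgroup.centralizer ({c} : Set G) ⊓ Subgroup.normalizer (P : Set G)).subtype = P) → ∃ S : Sylow p (Subgroup.centralizer ({c} : Set G)), (S : Subgroup (Subgroup.centralizer ({c} : Set G))).map (Subgroup.centralizer ({c} : Set G)).subtype = P) := by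
  classical
  have hp : p.Prime := Fact.out
  have key : ∀ g : G, (∃ S : Sylow p (Subgroup.centralizer ({g} : Set G)), (S : Subgroup (Subgroup.centralizer ({g} : Set G))).map (Subgroup.centralizer ({g} : Set G)).subtype = P) → ∀ c : G, IsConj g c → c ∈ Subgroup.centralizer (P : Set G) → ∃ n ∈ Subgroup.normalizer (P : Set G), n * g * n⁻¹ = c := by
    rintro g ⟨S, hS⟩ c hgc hc
    obtain ⟨x, hx⟩ := isConj_iff.mp hgc
    have hQC : P.map (MulAut.conj x⁻¹).toMonoidHom ≤ Subgroup.centralizer ({g} : Set G) := by
      rintro _ ⟨h, hh, rfl⟩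
      rw [Subgroup.mem_centralizer_iff]
      intro z hz
      rw [Set.mem_singleton_iff] at hz
      subst hz
      have h1 : h * c = c * h := (Subgroup.mem_centralizer_iff.mp hc) h hh
      rw [← hx] at h1
      simp only [MulEquiv.coe_toMonoidHom, MulAut.conj_apply, inv_inv]
      calc z * (x⁻¹ * h * x) = x⁻¹ * ((x * z * x⁻¹) * h) * x := by group
        _ = x⁻¹ * (h * (x * z * x⁻¹)) * x := by rw [h1]
        _ = x⁻¹ * h * x * z := by group
    have hcard : Nat.card ((P.map (MulAut.conj x⁻¹).toMonoidHom).subgroupOf (Subgroup.centralizer ({g} : Set G))) = p ^ (Nat.card (Subgroup.centralizer ({g} : Set G))).factorization p := by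
      rw [← Sylow.card_eq_multiplicity S, Nat.card_congr (Subgroup.subgroupOfEquivOfLe hQC).toEquiv,
        Subgroup.card_map_of_injective (MulAut.conj x⁻¹).injective, ← hS,
        Subgroup.card_map_of_injective (Subgroup.subtype_injective _)]
    obtain ⟨y, hy⟩ := MulAction.exists_smul_eq (Subgroup.centralizer ({g} : Set G)) (Sylow.ofCard _ hcard) S
    have hmem : ∀ h ∈ P, (y : G) * x⁻¹ * h * x * (y : G)⁻¹ ∈ P := by
      intro h hh
      rw [← hS, ← hy]
      have hq : x⁻¹ * h * x ∈ Subgroup.centralizer ({g} : Set G) := hQC ⟨h, hh, by simp⟩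
      refine ⟨y * ⟨x⁻¹ * h * x, hq⟩ * y⁻¹, ?_, by simp [mul_assoc]⟩
      rw [SetLike.mem_coe, Sylow.smul_def, Sylow.pointwise_smul_def, Sylow.coe_ofCard]
      have := Subgroup.smul_mem_pointwise_smul (⟨x⁻¹ * h * x, hq⟩ : Subgroup.centralizer ({g} : Set G)) (MulAut.conj y) ((P.map (MulAut.conj x⁻¹).toMonoidHom).subgroupOf (Subgroup.centralizer ({g} : Set G))) (by
        rw [Subgroup.mem_subgroupOf]
        exact ⟨h, hh, by simp⟩)
      simpa using this
    have hmap : P.map (MulAut.conj ((y : G) * x⁻¹)).toMonoidHom = P := by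
      apply Subgroup.eq_of_le_of_card_ge
      · rintro _ ⟨h, hh, rfl⟩
        have := hmem h hh
        simpa [mul_assoc] using this
      · rw [Subgroup.card_map_of_injective (MulAut.conj ((y : G) * x⁻¹)).injective]
    have hn' : (y : G) * x⁻¹ ∈ Subgroup.normalizer (P : Set G) := by
      rw [Subgroup.mem_normalizer_iff]
      intro h
      constructor
      · intro hh
        rw [← hmap]
        exact ⟨h, hh, by simp only [MulEquiv.coe_toMonoidHom, MulAut.conj_apply]⟩
      · intro hh
        rw [← hmap] at hh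
        obtain ⟨h', hh', e⟩ := hh
        have : h' = h := by
          simp only [MulEquiv.coe_toMonoidHom, MulAut.conj_apply] at e
          exact mul_left_cancel (mul_right_cancel e)
        rw [← this]; exact hh'
    refine ⟨x * (y : G)⁻¹, ?_, ?_⟩
    · have := inv_mem hn'
      simpa using this
    · have hyg : g * (y : G) = (y : G) * g := (Subgroup.mem_centralizer_iff.mp y.2) g (Set.mem_singleton g)
      rw [← hx]
      calc x * (y : G)⁻¹ * g * (x * (y : G)⁻¹)⁻¹ = x * ((y : G)⁻¹ * (g * (y : G))) * x⁻¹ := by group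
        _ = x * ((y : G)⁻¹ * ((y : G) * g)) * x⁻¹ := by rw [hyg]
        _ = x * g * x⁻¹ := by group
  refine ⟨fun g hg => ⟨⟨g, IsConj.refl g, ?_⟩, ?_⟩, ?_⟩
  · obtain ⟨S, hS⟩ := hg
    rw [Subgroup.mem_centralizer_iff]
    intro h hh
    rw [SetLike.mem_coe, ← hS] at hh
    obtain ⟨h', -, rfl⟩ := hh
    exact ((Subgroup.mem_centralizer_iff.mp h'.2) g (Set.mem_singleton g)).symm
  · intro c₁ c₂ h1 h2 hc1 hc2
    obtain ⟨n₁, hn₁, e₁⟩ := key g hg c₁ h1 hc1
    obtain ⟨n₂, hn₂, e₂⟩ := key g hg c₂ h2 hc2
    refine ⟨n₂ * n₁⁻¹, mul_mem hn₂ (inv_mem hn₁), ?_⟩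
    rw [← e₁, ← e₂]; group
  · rintro c hc ⟨S, hS⟩
    have hPC : P ≤ Subgroup.centralizer ({c} : Set G) := by
      intro h hh
      rw [Subgroup.mem_centralizer_iff]
      intro z hz
      rw [Set.mem_singleton_iff] at hz
      subst hz
      exact ((Subgroup.mem_centralizer_iff.mp hc) h hh).symm
    obtain ⟨n, hn⟩ := IsPGroup.iff_card.mp hP
    have hSn : (Nat.card ↥(Subgroup.centralizer ({c} : Set G) ⊓ Subgroup.normalizer (P : Set G) : Subgroup G)).factorization p = n := by
      have h1 := Sylow.card_eq_multiplicity S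
      have h2 : Nat.card S = Nat.card P := by
        have h3 := Subgroup.card_map_of_injective (K := (S : Subgroup _)) (Subgroup.subtype_injective (Subgroup.centralizer ({c} : Set G) ⊓ Subgroup.normalizer (P : Set G)))
        rw [hS] at h3
        exact h3.symm
      rw [h2, hn] at h1
      exact (Nat.pow_right_injective hp.two_le h1).symm
    have hcardP' : Nat.card (P.subgroupOf (Subgroup.centralizer ({c} : Set G))) = p ^ n := by
      rw [Nat.card_congr (Subgroup.subgroupOfEquivOfLe hPC).toEquiv, hn]
    have hle : n ≤ (Nat.card (Subgroup.centralizer ({c} : Set G))).factorization p := by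
      have hdvd : p ^ n ∣ Nat.card (Subgroup.centralizer ({c} : Set G)) := by
        rw [← hcardP']; exact Subgroup.card_subgroup_dvd_card _
      exact (hp.pow_dvd_iff_le_factorization Nat.card_pos.ne').mp hdvd
    rcases hle.eq_or_lt with heq | hlt
    · refine ⟨Sylow.ofCard (P.subgroupOf (Subgroup.centralizer ({c} : Set G))) (by rw [hcardP', heq]), ?_⟩
      rw [Sylow.coe_ofCard]
      exact Subgroup.map_subgroupOf_eq_of_le hPC
    · exfalso
      have hdvd : p ^ (n + 1) ∣ Nat.card (Subgroup.centralizer ({c} : Set G)) :=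
        (hp.pow_dvd_iff_le_factorization Nat.card_pos.ne').mpr hlt
      obtain ⟨K, hK, hPK⟩ := Sylow.exists_subgroup_card_pow_succ hdvd hcardP'
      have hK₀card : Nat.card (K.map (Subgroup.centralizer ({c} : Set G)).subtype) = p ^ (n + 1) := by
        rw [Subgroup.card_map_of_injective (Subgroup.subtype_injective _), hK]
      have hPK₀ : P ≤ K.map (Subgroup.centralizer ({c} : Set G)).subtype := by
        intro h hh
        exact ⟨⟨h, hPC hh⟩, hPK (by rw [Subgroup.mem_subgroupOf]; exact hh), rfl⟩
      have hK₀C : K.map (Subgroup.centralizer ({c} : Set G)).subtype ≤ Subgroup.centralizer ({c} : Set G) := by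
        rintro _ ⟨k, -, rfl⟩; exact k.2
      have hnorm : (P.subgroupOf (K.map (Subgroup.centralizer ({c} : Set G)).subtype)).Normal := by
        apply Subgroup.normal_of_index_eq_minFac_card
        rw [hK₀card, hp.pow_minFac (Nat.succ_ne_zero n)]
        have h1 := Subgroup.card_mul_index (P.subgroupOf (K.map (Subgroup.centralizer ({c} : Set G)).subtype))
        rw [Nat.card_congr (Subgroup.subgroupOfEquivOfLe hPK₀).toEquiv, hn, hK₀card, pow_succ] at h1
        exact Nat.eq_of_mul_eq_mul_left (pow_pos hp.pos n) h1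
      have hK₀N : K.map (Subgroup.centralizer ({c} : Set G)).subtype ≤ Subgroup.normalizer (P : Set G) :=
        (Subgroup.normal_subgroupOf_iff_le_normalizer hPK₀).mp hnorm
      have hdvd2 : p ^ (n + 1) ∣ Nat.card ↥(Subgroup.centralizer ({c} : Set G) ⊓ Subgroup.normalizer (P : Set G) : Subgroup G) := by
        rw [← hK₀card]; exact Subgroup.card_dvd_of_le (le_inf hK₀C hK₀N)
      have := (hp.pow_dvd_iff_le_factorization Nat.card_pos.ne').mp hdvd2
      omega

end Cfsg.Agent.S0916
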