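import Mathlib
import Cfsg.Agent.Helper2.Ind
import Cfsg.Agent.Helper2.ClassSum
import Cfsg.Statements.S0932

set_option autoImplicit false
open Cfsg

namespace Cfsg.Agent.S0932

/-- Let H be a subgroup of the finite group G and ξ a character of H. For every g ∈ G, the sum of ξ h / ξ 1 over the elements h ∈ H that are conjugate in G to g equals the central character at g of the character of G induced from ξ (class size times value divided by degree). -/
theorem result {G : Type*} [Group G] [Fintype G] (H : Subgroup G) (ξ : H → ℂ) (hξ : Cfsg.IsCharacter H ξ) (g : G) : Cfsg.inducedCentralChar H ξ g = Cfsg.centralChar (Cfsg.indFun H ξ) g := by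
  classical
  obtain ⟨A, hA⟩ : ∃ A : ℂ, A = ∑ h : H, if IsConj g (h : G) then ξ h else 0 := ⟨_, rfl⟩
  have hL : Cfsg.inducedCentralChar H ξ g = A / ξ 1 := by
    unfold Cfsg.inducedCentralChar
    rw [finsum_mem_def, finsum_eq_sum_of_fintype, hA, Finset.sum_div]
    apply Finset.sum_congr rfl
    intro h _
    rw [Set.indicator_apply]
    by_cases hc : IsConj g (h : G)
    · rw [if_pos (show h ∈ {h : H | IsConj g (h : G)} from hc), if_pos hc]
    · rw [if_neg (show h ∉ {h : H | IsConj g (h : G)} from hc), if_neg hc, zero_div]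
  have hS : ∑ x : G, Cfsg.extendByZero H ξ (x⁻¹ * g * x) =
      (Nat.card (Subgroup.centralizer ({g} : Set G)) : ℂ) * A := by
    rw [Cfsg.Agent.Helper2.sum_conj_eq g (Cfsg.extendByZero H ξ), hA]
    congr 1
    have h1 : ∑ y : G, (if IsConj g y then Cfsg.extendByZero H ξ y else 0) =
        ∑ y ∈ Finset.univ.filter (fun y : G => y ∈ H),
          (if IsConj g y then Cfsg.extendByZero H ξ y else 0) := by
      symm
      apply Finset.sum_filter_of_ne
      intro y _ hy
      by_contra hyH
      apply hy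
      rw [Cfsg.Agent.Helper2.extendByZero_not_mem H ξ hyH]; simp
    rw [h1, Finset.sum_subtype (Finset.univ.filter (fun y : G => y ∈ H)) (p := fun y => y ∈ H)
      (by intro x; simp)]
    apply Finset.sum_congr rfl
    intro h _
    rw [Cfsg.Agent.Helper2.extendByZero_coe]
  have hS1 : ∑ x : G, Cfsg.extendByZero H ξ (x⁻¹ * 1 * x) = (Nat.card G : ℂ) * ξ 1 := by
    have h2 : ∀ x : G, Cfsg.extendByZero H ξ (x⁻¹ * 1 * x) = ξ 1 := by
      intro x
      have e : x⁻¹ * 1 * x = ((1 : H) : G) := by simp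
      rw [e, Cfsg.Agent.Helper2.extendByZero_coe]
    rw [Finset.sum_congr rfl (fun x _ => h2 x), Finset.sum_const, Finset.card_univ, nsmul_eq_mul,
      Nat.card_eq_fintype_card]
  rw [hL]
  unfold Cfsg.centralChar Cfsg.indFun
  rw [hS, hS1]
  have hidx : ((Subgroup.centralizer ({g} : Set G)).index : ℂ) *
      (Nat.card (Subgroup.centralizer ({g} : Set G)) : ℂ) = (Nat.card G : ℂ) := by
    rw [← Nat.cast_mul, Subgroup.index_mul_card]
  have hH0 : (Nat.card H : ℂ) ≠ 0 := by exact_mod_cast (Nat.card_pos (α := H)).ne'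
  have hG0 : (Nat.card G : ℂ) ≠ 0 := by exact_mod_cast (Nat.card_pos (α := G)).ne'
  have e1 : ((Subgroup.centralizer ({g} : Set G)).index : ℂ) * ((Nat.card H : ℂ)⁻¹ *
      ((Nat.card (Subgroup.centralizer ({g} : Set G)) : ℂ) * A)) =
      ((Nat.card H : ℂ)⁻¹ * (Nat.card G : ℂ)) * A := by
    rw [← hidx]; ring
  have e2 : (Nat.card H : ℂ)⁻¹ * ((Nat.card G : ℂ) * ξ 1) =
      ((Nat.card H : ℂ)⁻¹ * (Nat.card G : ℂ)) * ξ 1 := by ring
  rw [e1, e2, mul_div_mul_left _ _ (mul_ne_zero (inv_ne_zero hH0) hG0)]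


end Cfsg.Agent.S0932
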