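import Mathlib
import Cfsg.Statements.S0943

set_option autoImplicit false
open Cfsg

namespace Cfsg.Agent.S0943

/-- Let χ be an irreducible character of the finite group G and u, v ∈ G. If χ (x * y) = χ (u * v) whenever x is conjugate to u and y is conjugate to v, then χ u * χ v = χ 1 * χ (u * v). (Multiply the class sums of u and v and apply the central character of χ.) -/
theorem result {G : Type*} [Group G] [Finite G] (χ : Cfsg.IrrCharacter G) (u v : G) (hc : ∀ x y : G, IsConj u x → IsConj v y → (χ : G → ℂ) (x * y) = (χ : G → ℂ) (u * v)) : (χ : G → ℂ) u * (χ : G → ℂ) v = (χ : G → ℂ) 1 * (χ : G → ℂ) (u * v) := by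
  classical
  have := Fintype.ofFinite G
  obtain ⟨χf, n, ρ, hirr, hρ⟩ := χ
  show χf u * χf v = χf 1 * χf (u * v)
  have hc' : ∀ x y : G, IsConj u x → IsConj v y → χf (x * y) = χf (u * v) := hc
  haveI : ρ.IsIrreducible := hirr
  obtain ⟨Z, hZ⟩ : ∃ Z : (Fin n → ℂ) →ₗ[ℂ] (Fin n → ℂ), Z = ∑ g : G, ρ (g * u * g⁻¹) := ⟨_, rfl⟩
  have hcomm : ∀ (h : G) (w : Fin n → ℂ), Z (ρ h w) = ρ h (Z w) := by
    intro h w
    rw [hZ]
    simp only [LinearMap.sum_apply, map_sum]
    rw [← Equiv.sum_comp (Equiv.mulLeft h)]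
    apply Finset.sum_congr rfl
    intro g _
    simp only [Equiv.coe_mulLeft]
    show (ρ (h * g * u * (h * g)⁻¹) * ρ h) w = (ρ h * ρ (g * u * g⁻¹)) w
    rw [← map_mul, ← map_mul]
    congr 2
    group
  obtain ⟨c, hcZ⟩ := (Representation.IsIrreducible.algebraMap_intertwiningMap_bijective_of_isAlgClosed
    (ρ := ρ)).2 (LinearMap.intertwiningMap_of_isIntertwiningMap ρ ρ Z hcomm)
  have hZc : ∀ w, Z w = c • w := by
    intro w
    have h5 := congrArg (fun f : Representation.IntertwiningMap ρ ρ => f w) hcZ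
    exact h5.symm
  have hZeq : Z = c • LinearMap.id := LinearMap.ext (fun w => by rw [hZc]; simp)
  have htr1 : LinearMap.trace ℂ _ Z = c * n := by
    rw [hZeq, map_smul, LinearMap.trace_id, Module.finrank_fin_fun, smul_eq_mul]
  have hchar : ∀ g, χf g = LinearMap.trace ℂ _ (ρ g) := fun g => by rw [← hρ]; rfl
  have htr2 : LinearMap.trace ℂ _ Z = (Nat.card G : ℂ) * χf u := by
    rw [hZ, map_sum]
    have h6 : ∀ g : G, LinearMap.trace ℂ _ (ρ (g * u * g⁻¹)) = χf u := by
      intro g; rw [← hchar, ← hρ]; exact Representation.char_conj ρ u g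
    rw [Finset.sum_congr rfl (fun g _ => h6 g), Finset.sum_const, Finset.card_univ, nsmul_eq_mul,
      Nat.card_eq_fintype_card]
  have htr3 : LinearMap.trace ℂ _ (Z * ρ v) = c * χf v := by
    rw [hZeq, smul_mul_assoc, map_smul, smul_eq_mul, hchar]
    congr 2
  have htr4 : LinearMap.trace ℂ _ (Z * ρ v) = (Nat.card G : ℂ) * χf (u * v) := by
    rw [hZ, Finset.sum_mul, map_sum]
    have h7 : ∀ g : G, LinearMap.trace ℂ _ (ρ (g * u * g⁻¹) * ρ v) = χf (u * v) := by
      intro g
      rw [← map_mul, ← hchar]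
      exact hc' _ _ (isConj_iff.mpr ⟨g, rfl⟩) (IsConj.refl v)
    rw [Finset.sum_congr rfl (fun g _ => h7 g), Finset.sum_const, Finset.card_univ, nsmul_eq_mul,
      Nat.card_eq_fintype_card]
  have h1 : χf 1 = n := by rw [← hρ, Representation.char_one, Module.finrank_fin_fun]
  have hG0 : (Nat.card G : ℂ) ≠ 0 := by exact_mod_cast (Nat.card_pos (α := G)).ne'
  rw [h1]
  have e1 : c * n = (Nat.card G : ℂ) * χf u := htr1.symm.trans htr2
  have e2 : c * χf v = (Nat.card G : ℂ) * χf (u * v) := htr3.symm.trans htr4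
  apply mul_left_cancel₀ hG0
  linear_combination (-(χf v)) * e1 + (n : ℂ) * e2


end Cfsg.Agent.S0943
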