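import Mathlib
import Cfsg.Statements.S0944

set_option autoImplicit false
open Cfsg

namespace Cfsg.Agent.S0944

/-- Let χ be an irreducible character of the finite group G and u an involution. Then χ u is a rational integer n with n ≡ χ 1 (mod 2). -/
theorem result {G : Type*} [Group G] [Finite G] (χ : Cfsg.IrrCharacter G) (u : G) (hu : orderOf u = 2) : ∃ n : ℤ, (χ : G → ℂ) u = (n : ℂ) ∧ (2 : ℤ) ∣ (Cfsg.charDegree (χ : G → ℂ) : ℤ) - n := by
  obtain ⟨χf, n, ρ, -, hρ⟩ := χ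
  show ∃ k : ℤ, χf u = (k : ℂ) ∧ (2 : ℤ) ∣ (Cfsg.charDegree χf : ℤ) - k
  have huu : u * u = 1 := by rw [← sq, ← hu]; exact pow_orderOf_eq_one u
  obtain ⟨T, hT⟩ : ∃ T : (Fin n → ℂ) →ₗ[ℂ] (Fin n → ℂ), T = ρ u := ⟨_, rfl⟩
  have hTT : T * T = 1 := by rw [hT, ← map_mul, huu, map_one]
  obtain ⟨e, he⟩ : ∃ e : (Fin n → ℂ) →ₗ[ℂ] (Fin n → ℂ), e = (2⁻¹ : ℂ) • (1 + T) := ⟨_, rfl⟩
  have h11 : (1 + T) * (1 + T) = (2 : ℂ) • (1 + T) := by
    rw [mul_add, mul_one, add_mul, one_mul, hTT, two_smul]; abel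
  have hidem : IsIdempotentElem e := by
    unfold IsIdempotentElem
    rw [he, smul_mul_smul_comm, h11, smul_smul]
    norm_num
  have htr := (LinearMap.IsIdempotentElem.isProj_range e hidem).trace
  have hTe : T = (2 : ℂ) • e - 1 := by
    rw [he, smul_smul]; norm_num
  have hχu : χf u = 2 * (Module.finrank ℂ (LinearMap.range e) : ℂ) - n := by
    rw [← hρ]
    unfold Representation.character
    rw [← hT, hTe, map_sub, map_smul, htr, LinearMap.trace_one, Module.finrank_fin_fun, smul_eq_mul]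
  have hdeg : Cfsg.charDegree χf = n := by
    unfold Cfsg.charDegree
    rw [← hρ, Representation.char_one, Module.finrank_fin_fun]
    simp
  refine ⟨2 * (Module.finrank ℂ (LinearMap.range e) : ℤ) - n, ?_, ?_⟩
  · rw [hχu]; push_cast; ring
  · rw [hdeg]
    exact ⟨(n : ℤ) - Module.finrank ℂ (LinearMap.range e), by ring⟩


end Cfsg.Agent.S0944
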