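import Cfsg.Statements.S0945
import Cfsg.Agent.Helper8.Homocyclic

set_option autoImplicit false
open Cfsg

namespace Cfsg.Agent.S0945

/-- Let P be a Sylow 2-subgroup of the finite group G isomorphic to Z/2^m × Z/2^m with m ≥ 1. Then (i) the index of C_G(P) in N_G(P) is 1 or 3, and (ii) if it is not 1, then for every z ≠ 1 in P, C_G(z) ∩ N_G(P) = C_G(P). -/
theorem result {G : Type*} [Group G] [Finite G] (P : Sylow 2 G) (m : ℕ) (hm : 1 ≤ m) (e : (P : Subgroup G) ≃* Multiplicative (ZMod (2 ^ m) × ZMod (2 ^ m))) : ((Subgroup.centralizer (P : Set G)).relIndex (Subgroup.normalizer (P : Set G)) = 1 ∨ (Subgroup.centralizer (P : Set G)).relIndex (Subgroup.normalizer (P : Set G)) = 3) ∧ ((Subgroup.centralizer (P : Set G)).relIndex (Subgroup.normalizer (P : Set G)) ≠ 1 → ∀ z ∈ (P : Subgroup G), z ≠ 1 → Subgroup.centralizer ({z} : Set G) ⊓ Subgroup.normalizer (P : Set G) = Subgroup.centralizer (P : Set G)) := by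
  classical
  have hcfg : Cfsg.Agent.Helper8.Homocyclic.Cfg P
      ((e.symm (Multiplicative.ofAdd
        ((((2 ^ (m - 1) : ℕ) : ZMod (2 ^ m)), (0 : ZMod (2 ^ m))))) : (P : Subgroup G)) : G)
      ((e.symm (Multiplicative.ofAdd
        (((0 : ZMod (2 ^ m)), ((2 ^ (m - 1) : ℕ) : ZMod (2 ^ m))))) : (P : Subgroup G)) : G) := by
    refine ⟨?_, ?_⟩
    · intro x hx y hy
      have h1 : e (⟨x, hx⟩ * ⟨y, hy⟩) = e (⟨y, hy⟩ * ⟨x, hx⟩) := by
        rw [map_mul, map_mul, mul_comm]
      exact congrArg Subtype.val (e.injective h1)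
    · intro x hx hx2
      have h1 : (e ⟨x, hx⟩) ^ 2 = 1 := by
        rw [← map_pow]
        have : (⟨x, hx⟩ : (P : Subgroup G)) ^ 2 = 1 := Subtype.ext hx2
        rw [this, map_one]
      have h2 : (Multiplicative.toAdd (e ⟨x, hx⟩)) + (Multiplicative.toAdd (e ⟨x, hx⟩)) = 0 := by
        have := congrArg Multiplicative.toAdd h1
        rw [pow_two] at this
        exact this
      have h3 := Cfsg.Agent.Helper8.Homocyclic.zmod_double m hm _ (congrArg Prod.fst h2)
      have h4 := Cfsg.Agent.Helper8.Homocyclic.zmod_double m hm _ (congrArg Prod.snd h2)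
      have hxe : (⟨x, hx⟩ : (P : Subgroup G)) = e.symm (Multiplicative.ofAdd
          ((Multiplicative.toAdd (e ⟨x, hx⟩)).1, (Multiplicative.toAdd (e ⟨x, hx⟩)).2)) := by
        rw [Prod.mk.eta, ofAdd_toAdd, e.symm_apply_apply]
      rcases h3 with h3 | h3 <;> rcases h4 with h4 | h4
      · left
        rw [h3, h4] at hxe
        have : (⟨x, hx⟩ : (P : Subgroup G)) = 1 := by
          rw [hxe]
          exact map_one e.symm
        exact congrArg Subtype.val this
      · right
        right
        left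
        rw [h3, h4] at hxe
        exact congrArg Subtype.val hxe
      · right
        left
        rw [h3, h4] at hxe
        exact congrArg Subtype.val hxe
      · right
        right
        right
        rw [h3, h4] at hxe
        have hsplit : Multiplicative.ofAdd
            ((((2 ^ (m - 1) : ℕ) : ZMod (2 ^ m))), (((2 ^ (m - 1) : ℕ) : ZMod (2 ^ m))))
            = Multiplicative.ofAdd ((((2 ^ (m - 1) : ℕ) : ZMod (2 ^ m))), (0 : ZMod (2 ^ m)))
              * Multiplicative.ofAdd ((0 : ZMod (2 ^ m)), (((2 ^ (m - 1) : ℕ) : ZMod (2 ^ m)))) := by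
          rw [← ofAdd_add]
          simp
        rw [hsplit, map_mul] at hxe
        exact congrArg Subtype.val hxe
  exact ⟨hcfg.relIndex_eq, fun _ z hz hz1 => hcfg.cent_inf hz hz1⟩

end Cfsg.Agent.S0945
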