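import Cfsg.Statements.S0946
import Mathlib
import Cfsg.Agent.Helper6.KleinSylow
-- import your own Cfsg.Agent.* helpers here

set_option autoImplicit false
open Cfsg

namespace Cfsg.Agent.S0946


theorem zmod_facts (m : ℕ) (hm : 1 ≤ m) :
    ((2 ^ (m - 1) : ℕ) : ZMod (2 ^ m)) ≠ 0 ∧
    ((2 ^ (m - 1) : ℕ) : ZMod (2 ^ m)) + ((2 ^ (m - 1) : ℕ) : ZMod (2 ^ m)) = 0 ∧
    ∀ a : ZMod (2 ^ m), a + a = 0 → a = 0 ∨ a = ((2 ^ (m - 1) : ℕ) : ZMod (2 ^ m)) := by
  have hM : 2 ^ m = 2 * 2 ^ (m - 1) := by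
    rw [← pow_succ']; congr 1; omega
  have hpos : 0 < 2 ^ (m - 1) := by positivity
  refine ⟨?_, ?_, ?_⟩
  · rw [Ne, ZMod.natCast_eq_zero_iff]
    intro h
    have := Nat.le_of_dvd hpos h
    omega
  · rw [← Nat.cast_add, ZMod.natCast_eq_zero_iff, hM]
    exact ⟨1, by ring⟩
  · intro a ha
    haveI : NeZero (2 ^ m) := ⟨by positivity⟩
    have hlt := ZMod.val_lt a
    have h1 : ((a.val + a.val : ℕ) : ZMod (2 ^ m)) = 0 := by
      rw [Nat.cast_add, ZMod.natCast_zmod_val]; exact ha
    rw [ZMod.natCast_eq_zero_iff] at h1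
    have hd : 2 * 2 ^ (m - 1) ∣ 2 ^ m := ⟨1, by rw [mul_one]; exact hM⟩
    have h2 : 2 ^ (m - 1) ∣ a.val := by
      have e : a.val + a.val = 2 * a.val := by ring
      have h1' := hd.trans h1
      rw [e] at h1'
      exact (Nat.mul_dvd_mul_iff_left (by norm_num)).mp h1'
    obtain ⟨c, hc⟩ := h2
    have hlt' : a.val < 2 * 2 ^ (m - 1) := lt_of_lt_of_eq hlt hM
    have hc2 : c < 2 := by
      rw [hc, mul_comm 2] at hlt'
      exact Nat.lt_of_mul_lt_mul_left hlt'
    interval_cases c
    · left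
      exact (ZMod.val_eq_zero a).mp (by rw [hc, mul_zero])
    · right
      rw [mul_one] at hc
      rw [← hc, ZMod.natCast_zmod_val]

theorem homocyclic_omega (m : ℕ) (hm : 1 ≤ m) :
    ∃ u v : Multiplicative (ZMod (2 ^ m) × ZMod (2 ^ m)), u ≠ 1 ∧ v ≠ 1 ∧ u ≠ v ∧ u * u = 1 ∧
      v * v = 1 ∧ ∀ x : Multiplicative (ZMod (2 ^ m) × ZMod (2 ^ m)), x * x = 1 →
        x = 1 ∨ x = u ∨ x = v ∨ x = u * v := by
  obtain ⟨h0, h2, h3⟩ := zmod_facts m hm
  set h : ZMod (2 ^ m) := ((2 ^ (m - 1) : ℕ) : ZMod (2 ^ m)) with hh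
  refine ⟨Multiplicative.ofAdd (h, 0), Multiplicative.ofAdd (0, h), ?_, ?_, ?_, ?_, ?_, ?_⟩
  · intro H
    have : ((h, 0) : ZMod (2 ^ m) × ZMod (2 ^ m)) = 0 := Multiplicative.ofAdd.injective H
    exact h0 (congrArg Prod.fst this)
  · intro H
    have : ((0, h) : ZMod (2 ^ m) × ZMod (2 ^ m)) = 0 := Multiplicative.ofAdd.injective H
    exact h0 (congrArg Prod.snd this)
  · intro H
    have : ((h, 0) : ZMod (2 ^ m) × ZMod (2 ^ m)) = (0, h) := Multiplicative.ofAdd.injective H
    exact h0 (congrArg Prod.fst this)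
  · rw [← ofAdd_add]; simp [h2]
  · rw [← ofAdd_add]; simp [h2]
  · intro x hx
    have hx' : Multiplicative.toAdd x + Multiplicative.toAdd x = 0 := by
      have := congrArg Multiplicative.toAdd hx
      simpa using this
    have ha := h3 (Multiplicative.toAdd x).1 (congrArg Prod.fst hx')
    have hc := h3 (Multiplicative.toAdd x).2 (congrArg Prod.snd hx')
    rcases ha with ha | ha <;> rcases hc with hc | hc
    · left; apply Multiplicative.toAdd.injective; exact Prod.ext ha hc
    · right; right; left; apply Multiplicative.toAdd.injective; exact Prod.ext ha hc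
    · right; left; apply Multiplicative.toAdd.injective; exact Prod.ext ha hc
    · right; right; right; apply Multiplicative.toAdd.injective
      rw [← ofAdd_add]
      exact Prod.ext (by simp [ha]) (by simp [hc])

/-- Transport of the involution structure. -/
theorem omega_of_equiv {G : Type*} [Group G] (P : Subgroup G) (m : ℕ) (hm : 1 ≤ m)
    (e : P ≃* Multiplicative (ZMod (2 ^ m) × ZMod (2 ^ m))) :
    (∀ x ∈ P, ∀ y ∈ P, x * y = y * x) ∧
    ∃ u v : G, u ∈ P ∧ v ∈ P ∧ u ≠ 1 ∧ v ≠ 1 ∧ u ≠ v ∧ u * u = 1 ∧ v * v = 1 ∧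
      ∀ x ∈ P, x * x = 1 → x = 1 ∨ x = u ∨ x = v ∨ x = u * v := by
  constructor
  · intro x hx y hy
    have : (⟨x, hx⟩ : P) * ⟨y, hy⟩ = ⟨y, hy⟩ * ⟨x, hx⟩ := by
      apply e.injective
      rw [map_mul, map_mul, mul_comm]
    exact congrArg Subtype.val this
  · obtain ⟨u, v, hu1, hv1, huv, huu, hvv, hall⟩ := homocyclic_omega m hm
    refine ⟨(e.symm u : G), (e.symm v : G), (e.symm u).2, (e.symm v).2, ?_, ?_, ?_, ?_, ?_, ?_⟩
    · intro h
      apply hu1
      have : e.symm u = 1 := Subtype.ext h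
      rw [← e.apply_symm_apply u, this, map_one]
    · intro h
      apply hv1
      have : e.symm v = 1 := Subtype.ext h
      rw [← e.apply_symm_apply v, this, map_one]
    · intro h
      apply huv
      have : e.symm u = e.symm v := Subtype.ext h
      exact e.symm.injective this
    · have : e.symm u * e.symm u = 1 := by rw [← map_mul, huu, map_one]
      exact congrArg Subtype.val this
    · have : e.symm v * e.symm v = 1 := by rw [← map_mul, hvv, map_one]
      exact congrArg Subtype.val this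
    · intro x hx hxx
      have h1 : e ⟨x, hx⟩ * e ⟨x, hx⟩ = 1 := by
        rw [← map_mul]
        have : (⟨x, hx⟩ : P) * ⟨x, hx⟩ = 1 := Subtype.ext hxx
        rw [this, map_one]
      rcases hall _ h1 with h | h | h | h
      · left
        have : (⟨x, hx⟩ : P) = 1 := by apply e.injective; rw [h, map_one]
        exact congrArg Subtype.val this
      · right; left
        have : (⟨x, hx⟩ : P) = e.symm u := by rw [← h, e.symm_apply_apply]
        exact congrArg Subtype.val this
      · right; right; left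
        have : (⟨x, hx⟩ : P) = e.symm v := by rw [← h, e.symm_apply_apply]
        exact congrArg Subtype.val this
      · right; right; right
        have : (⟨x, hx⟩ : P) = e.symm u * e.symm v := by
          rw [← map_mul, ← h, e.symm_apply_apply]
        exact congrArg Subtype.val this

/-- An odd power of an element normalizing a Sylow `2`-subgroup lies in it. -/
theorem odd_pow_mem_sylow {G : Type*} [Group G] [Finite G] (P : Sylow 2 G) (n : G)
    (hn : n ∈ Subgroup.normalizer ((P : Subgroup G) : Set G)) :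
    ∃ k : ℕ, Odd k ∧ n ^ k ∈ (P : Subgroup G) := by
  have hpos : orderOf n ≠ 0 := (orderOf_pos n).ne'
  obtain ⟨a, k, hk, hak⟩ := Nat.exists_eq_two_pow_mul_odd hpos
  refine ⟨k, hk, ?_⟩
  have h1 : (n ^ k) ^ 2 ^ a = 1 := by
    rw [← pow_mul, mul_comm, ← hak, pow_orderOf_eq_one]
  have hQ : IsPGroup 2 (Subgroup.zpowers (n ^ k)) := by
    rintro ⟨y, hy⟩
    refine ⟨a, ?_⟩
    obtain ⟨j, rfl⟩ := Subgroup.mem_zpowers_iff.mp hy
    apply Subtype.ext
    show ((n ^ k) ^ j) ^ 2 ^ a = 1
    rw [← zpow_natCast, ← zpow_mul, mul_comm, zpow_mul, zpow_natCast, h1, one_zpow]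
  have h2 := hQ.inf_normalizer_sylow P
  have h3 : n ^ k ∈ Subgroup.zpowers (n ^ k) ⊓ (P : Subgroup G) := by
    rw [← h2]
    exact ⟨Subgroup.mem_zpowers _, pow_mem hn k⟩
  exact h3.2

/-- An element acting with odd order on an abelian `2`-group and centralizing its
involutions centralizes it. -/
theorem centralizes_of_centralizes_invol {G : Type*} [Group G] (P : Subgroup G)
    (hP : IsPGroup 2 P)
    (hab : ∀ x ∈ P, ∀ y ∈ P, x * y = y * x) (n : G)
    (hn : n ∈ Subgroup.normalizer (P : Set G)) (k : ℕ) (hk : Odd k) (hnk : n ^ k ∈ P)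
    (hinv : ∀ t ∈ P, t * t = 1 → n * t * n⁻¹ = t) : ∀ x ∈ P, n * x * n⁻¹ = x := by
  have key : ∀ j : ℕ, ∀ x ∈ P, x ^ 2 ^ j = 1 → n * x * n⁻¹ = x := by
    intro j
    induction j with
    | zero =>
      intro x hx h
      rw [pow_zero, pow_one] at h
      rw [h]; group
    | succ j ih =>
      intro x hx h
      have hx2 : n * (x * x) * n⁻¹ = x * x := by
        apply ih (x * x) (P.mul_mem hx hx)
        rw [← pow_two, ← pow_mul, ← pow_succ']; exact h
      have hnx : n * x * n⁻¹ ∈ P := (Subgroup.mem_normalizer_iff.mp hn x).mp hx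
      obtain ⟨z, hz⟩ : ∃ z, z = x⁻¹ * (n * x * n⁻¹) := ⟨_, rfl⟩
      have hxz : n * x * n⁻¹ = x * z := by rw [hz]; group
      have hzP : z ∈ P := by rw [hz]; exact P.mul_mem (P.inv_mem hx) hnx
      have hzz : z * z = 1 := by
        have c1 : (n * x * n⁻¹) * x⁻¹ = x⁻¹ * (n * x * n⁻¹) := hab _ hnx _ (P.inv_mem hx)
        calc z * z = x⁻¹ * ((n * x * n⁻¹) * x⁻¹) * (n * x * n⁻¹) := by rw [hz]; group
          _ = x⁻¹ * (x⁻¹ * (n * x * n⁻¹)) * (n * x * n⁻¹) := by rw [c1]
          _ = (x * x)⁻¹ * (n * (x * x) * n⁻¹) := by group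
          _ = 1 := by rw [hx2]; group
      have hnz : n * z * n⁻¹ = z := hinv z hzP hzz
      have hpow : ∀ i : ℕ, n ^ i * x * (n ^ i)⁻¹ = x * z ^ i := by
        intro i
        induction i with
        | zero => simp
        | succ i ihi =>
          have hzi : n * z ^ i * n⁻¹ = z ^ i := by
            rw [← conj_pow, hnz]
          calc n ^ (i + 1) * x * (n ^ (i + 1))⁻¹ = n * (n ^ i * x * (n ^ i)⁻¹) * n⁻¹ := by
                rw [pow_succ']; group
            _ = n * (x * z ^ i) * n⁻¹ := by rw [ihi]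
            _ = (n * x * n⁻¹) * (n * z ^ i * n⁻¹) := by group
            _ = (x * z) * z ^ i := by rw [hzi, hxz]
            _ = x * z ^ (i + 1) := by rw [pow_succ', mul_assoc]
      have h1 : n ^ k * x * (n ^ k)⁻¹ = x := by
        rw [hab _ hnk x hx]; group
      have h2 : z ^ k = 1 := by
        have h0 := hpow k
        rw [h1] at h0
        exact mul_left_cancel (a := x) (by rw [mul_one]; exact h0.symm)
      obtain ⟨i, hi⟩ := hk
      have h3 : z = 1 := by
        have h0 : z ^ k = z := by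
          rw [hi, pow_succ, pow_mul, pow_two, hzz, one_pow, one_mul]
        rw [← h0, h2]
      rw [hxz, h3, mul_one]
  intro x hx
  obtain ⟨j, hj⟩ := hP ⟨x, hx⟩
  exact key j x hx (by simpa using congrArg Subtype.val hj)

/-- Let P be a Sylow 2-subgroup of the finite group G isomorphic to Z/2^m × Z/2^m with m ≥ 1. Then either P has a normal complement in G, or all involutions of G are conjugate. -/
theorem result {G : Type*} [Group G] [Finite G] (P : Sylow 2 G) (m : ℕ) (hm : 1 ≤ m) (e : (P : Subgroup G) ≃* Multiplicative (ZMod (2 ^ m) × ZMod (2 ^ m))) : (∃ N : Subgroup G, N.Normal ∧ Subgroup.IsComplement' N (P : Subgroup G)) ∨ ∀ s t : G, orderOf s = 2 → orderOf t = 2 → IsConj s t := by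
  obtain ⟨hab, u, v, huP, hvP, hu1, hv1, huv, huu, hvv, hall⟩ :=
    omega_of_equiv (P : Subgroup G) m hm e
  by_cases hconj : ∀ s t : G, orderOf s = 2 → orderOf t = 2 → IsConj s t
  · right; exact hconj
  left
  apply Cfsg.Agent.Helper6.exists_normal_complement_of_conj_trivial P
  intro n hn
  obtain ⟨k, hk, hnk⟩ := odd_pow_mem_sylow P n hn
  apply centralizes_of_centralizes_invol (P : Subgroup G) P.2 hab n hn k hk hnk
  intro t ht htt
  by_contra hne
  apply hconj
  have ht1 : t ≠ 1 := by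
    rintro rfl; apply hne; group
  obtain ⟨t', ht'⟩ : ∃ t', t' = n * t * n⁻¹ := ⟨_, rfl⟩
  rw [← ht'] at hne
  have ht'P : t' ∈ (P : Subgroup G) := by
    rw [ht']; exact (Subgroup.mem_normalizer_iff.mp hn t).mp ht
  have conj_sq : ∀ x : G, x * x = 1 → (n * x * n⁻¹) * (n * x * n⁻¹) = 1 := by
    intro x hx
    calc (n * x * n⁻¹) * (n * x * n⁻¹) = n * (x * x) * n⁻¹ := by group
      _ = 1 := by rw [hx]; group
  have conj_ne : ∀ x : G, x ≠ 1 → n * x * n⁻¹ ≠ 1 := by
    intro x hx h
    apply hx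
    calc x = n⁻¹ * (n * x * n⁻¹) * n := by group
      _ = 1 := by rw [h]; group
  have ht't' : t' * t' = 1 := by rw [ht']; exact conj_sq t htt
  have ht'1 : t' ≠ 1 := by rw [ht']; exact conj_ne t ht1
  obtain ⟨t'', ht''⟩ : ∃ t'', t'' = n * t' * n⁻¹ := ⟨_, rfl⟩
  have ht''P : t'' ∈ (P : Subgroup G) := by
    rw [ht'']; exact (Subgroup.mem_normalizer_iff.mp hn t').mp ht'P
  have ht''sq : t'' * t'' = 1 := by rw [ht'']; exact conj_sq t' ht't'
  have ht''1 : t'' ≠ 1 := by rw [ht'']; exact conj_ne t' ht'1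
  have h12 : t' ≠ t'' := by
    intro h
    apply hne
    calc t' = n⁻¹ * t'' * n := by rw [ht'']; group
      _ = n⁻¹ * t' * n := by rw [← h]
      _ = t := by rw [ht']; group
  have h02 : t ≠ t'' := by
    intro h
    have hc : (n * n) ∈ Subgroup.centralizer ({t'} : Set G) := by
      rw [Subgroup.mem_centralizer_singleton_iff]
      have e1 : n * t * n⁻¹ = t' := ht'.symm
      have e2 : n * t' * n⁻¹ = t := by rw [h]; exact ht''.symm
      calc (n * n) * t' = n * (n * t' * n⁻¹) * n := by group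
        _ = n * t * n := by rw [e2]
        _ = (n * t * n⁻¹) * (n * n) := by group
        _ = t' * (n * n) := by rw [e1]
    obtain ⟨i, hi⟩ := hk
    have hc' : ((n * n)) ^ i ∈ Subgroup.centralizer ({t'} : Set G) := pow_mem hc i
    rw [Subgroup.mem_centralizer_singleton_iff] at hc'
    have e1 : n ^ k * t * (n ^ k)⁻¹ = t' := by
      have e0 : n ^ k = ((n * n)) ^ i * n := by rw [hi, pow_succ, pow_mul, pow_two]
      rw [e0]
      calc ((n * n)) ^ i * n * t * (((n * n)) ^ i * n)⁻¹
          = ((n * n)) ^ i * (n * t * n⁻¹) * (((n * n)) ^ i)⁻¹ := by group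
        _ = ((n * n)) ^ i * t' * (((n * n)) ^ i)⁻¹ := by rw [← ht']
        _ = t' := by rw [hc']; group
    have e2 : n ^ k * t * (n ^ k)⁻¹ = t := by
      rw [hab _ hnk t ht]; group
    exact hne (by rw [← e1, e2])
  classical
  have hmem : ∀ x ∈ (P : Subgroup G), x * x = 1 → x ≠ 1 → x ∈ ({u, v, u * v} : Finset G) := by
    intro x hx hxx hx1
    rcases hall x hx hxx with h | h | h | h
    · exact absurd h hx1
    all_goals simp [h]
  have hsub : ({t, t', t''} : Finset G) ⊆ {u, v, u * v} := by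
    intro x hx
    simp only [Finset.mem_insert, Finset.mem_singleton] at hx
    rcases hx with rfl | rfl | rfl
    · exact hmem _ ht htt ht1
    · exact hmem _ ht'P ht't' ht'1
    · exact hmem _ ht''P ht''sq ht''1
  have hcard : ({t, t', t''} : Finset G).card = 3 :=
    Finset.card_eq_three.mpr ⟨t, t', t'', fun h => hne h.symm, h02, h12, rfl⟩
  have hle : ({u, v, u * v} : Finset G).card ≤ 3 := Finset.card_le_three
  have heq : ({t, t', t''} : Finset G) = {u, v, u * v} :=
    Finset.eq_of_subset_of_card_le hsub (by omega)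
  have hct : ∀ x ∈ ({t, t', t''} : Finset G), IsConj t x := by
    intro x hx
    simp only [Finset.mem_insert, Finset.mem_singleton] at hx
    rcases hx with rfl | rfl | rfl
    · exact IsConj.refl _
    · exact isConj_iff.mpr ⟨n, ht'.symm⟩
    · exact isConj_iff.mpr ⟨n * n, by rw [ht'', ht']; group⟩
  have hall2 : ∀ s : G, orderOf s = 2 → IsConj t s := by
    intro s hs
    obtain ⟨g, hg⟩ := Cfsg.Agent.Helper6.exists_conj_mem_sylow_two P hs
    have hs2 : s * s = 1 := by rw [← pow_two, ← hs, pow_orderOf_eq_one]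
    have hgg : (g * s * g⁻¹) * (g * s * g⁻¹) = 1 := by
      calc (g * s * g⁻¹) * (g * s * g⁻¹) = g * (s * s) * g⁻¹ := by group
        _ = 1 := by rw [hs2]; group
    have hg1 : g * s * g⁻¹ ≠ 1 := by
      intro h
      have : s = 1 := by
        calc s = g⁻¹ * (g * s * g⁻¹) * g := by group
          _ = 1 := by rw [h]; group
      rw [this, orderOf_one] at hs; omega
    have h1 := hmem _ hg hgg hg1
    rw [← heq] at h1
    have h2 := hct _ h1
    exact h2.trans (isConj_iff.mpr ⟨g⁻¹, by group⟩)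
  intro s s' hs hs'
  exact (hall2 s hs).symm.trans (hall2 s' hs')

end Cfsg.Agent.S0946
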