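import Cfsg.Statements.S0950
import Mathlib
import Cfsg.Agent.S0071

set_option autoImplicit false
open Cfsg

namespace Cfsg.Agent.S0950

set_option maxRecDepth 100000 in
theorem q8d1 : ∀ u : QuaternionGroup 2, u ≠ 1 → u ≠ QuaternionGroup.a 2 → u * u = QuaternionGroup.a 2 := by decide
set_option maxRecDepth 100000 in
theorem q8d3 : ∀ u v : QuaternionGroup 2, (u ≠ 1 ∧ u ≠ QuaternionGroup.a 2 ∧ v ≠ 1 ∧ v ≠ QuaternionGroup.a 2 ∧ v ≠ u ∧ v ≠ u⁻¹) → u * v * u⁻¹ = v⁻¹ := by decide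
set_option maxRecDepth 100000 in
theorem q8d2 : ∀ u v t : QuaternionGroup 2, (u ≠ 1 ∧ u ≠ QuaternionGroup.a 2 ∧ v ≠ 1 ∧ v ≠ QuaternionGroup.a 2 ∧ v ≠ u ∧ v ≠ u⁻¹) → (t = 1 ∨ t = QuaternionGroup.a 2 ∨ t = u ∨ t = u⁻¹ ∨ t = v ∨ t = v⁻¹ ∨ t = u * v ∨ t = (u*v)⁻¹) := by decide

theorem q8_facts {Q : Type*} [Group Q] (e : Q ≃* QuaternionGroup 2) :
    ∃ z : Q, z ≠ 1 ∧ z * z = 1 ∧ (∀ s : Q, s ≠ 1 → s ≠ z → s * s = z) ∧
      (∀ x y w : Q, x ≠ 1 → x ≠ z → y ≠ 1 → y ≠ z → y ≠ x → y ≠ x⁻¹ →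
        w = 1 ∨ w = z ∨ w = x ∨ w = x⁻¹ ∨ w = y ∨ w = y⁻¹ ∨ w = x * y ∨ w = (x * y)⁻¹) ∧
      (∀ x y : Q, x ≠ 1 → x ≠ z → y ≠ 1 → y ≠ z → y ≠ x → y ≠ x⁻¹ → x * y * x⁻¹ = y⁻¹) := by
  have ne1 : ∀ s : Q, s ≠ 1 → e s ≠ 1 := fun s h h' => h (e.injective (by rw [h', map_one]))
  have nez : ∀ s : Q, s ≠ e.symm (QuaternionGroup.a 2) → e s ≠ QuaternionGroup.a 2 :=
    fun s h h' => h (e.injective (by rw [h', e.apply_symm_apply]))
  have nee : ∀ s t : Q, s ≠ t → e s ≠ e t := fun s t h h' => h (e.injective h')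
  have nei : ∀ s t : Q, s ≠ t⁻¹ → e s ≠ (e t)⁻¹ :=
    fun s t h h' => h (e.injective (by rw [h', map_inv]))
  refine ⟨e.symm (QuaternionGroup.a 2), ?_, ?_, ?_, ?_, ?_⟩
  · intro h
    have := congrArg e h
    rw [e.apply_symm_apply, map_one] at this
    exact absurd this (by decide)
  · apply e.injective
    rw [map_mul, e.apply_symm_apply, map_one]
    decide
  · intro s h1 hz
    apply e.injective
    rw [map_mul, e.apply_symm_apply]
    exact q8d1 (e s) (ne1 s h1) (nez s hz)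
  · intro x y w hx1 hxz hy1 hyz hyx hyx'
    have := q8d2 (e x) (e y) (e w) ⟨ne1 x hx1, nez x hxz, ne1 y hy1, nez y hyz, nee y x hyx, nei y x hyx'⟩
    rcases this with h | h | h | h | h | h | h | h
    · left; apply e.injective; rw [h, map_one]
    · right; left; apply e.injective; rw [h, e.apply_symm_apply]
    · right; right; left; exact e.injective h
    · right; right; right; left; apply e.injective; rw [h, map_inv]
    · right; right; right; right; left; exact e.injective h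
    · right; right; right; right; right; left; apply e.injective; rw [h, map_inv]
    · right; right; right; right; right; right; left; apply e.injective; rw [h, map_mul]
    · right; right; right; right; right; right; right; apply e.injective; rw [h, map_inv, map_mul]
  · intro x y hx1 hxz hy1 hyz hyx hyx'
    have := q8d3 (e x) (e y) ⟨ne1 x hx1, nez x hxz, ne1 y hy1, nez y hyz, nee y x hyx, nei y x hyx'⟩
    apply e.injective
    rw [map_mul, map_mul, map_inv, map_inv, this]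

theorem q8_sub {G : Type*} [Group G] (S : Subgroup G) (e : S ≃* QuaternionGroup 2) :
    ∃ z : G, z ∈ S ∧ z ≠ 1 ∧ z * z = 1 ∧ (∀ s ∈ S, s ≠ 1 → s ≠ z → s * s = z) ∧
      (∀ x ∈ S, ∀ y ∈ S, ∀ w ∈ S, x ≠ 1 → x ≠ z → y ≠ 1 → y ≠ z → y ≠ x → y ≠ x⁻¹ →
        w = 1 ∨ w = z ∨ w = x ∨ w = x⁻¹ ∨ w = y ∨ w = y⁻¹ ∨ w = x * y ∨ w = (x * y)⁻¹) ∧
      (∀ x ∈ S, ∀ y ∈ S, x ≠ 1 → x ≠ z → y ≠ 1 → y ≠ z → y ≠ x → y ≠ x⁻¹ →
        x * y * x⁻¹ = y⁻¹) := by
  obtain ⟨z0, hz1, hzz, hK1, hK2, hK3⟩ := q8_facts e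
  refine ⟨(z0 : G), z0.2, ?_, ?_, ?_, ?_, ?_⟩
  · intro h; exact hz1 (Subtype.ext h)
  · have := congrArg (fun t : S => (t : G)) hzz
    simpa using this
  · intro s hs h1 hsz
    have := hK1 ⟨s, hs⟩ (fun h => h1 (congrArg (fun t : S => (t : G)) h))
      (fun h => hsz (congrArg (fun t : S => (t : G)) h))
    have := congrArg (fun t : S => (t : G)) this
    simpa using this
  · intro x hx y hy w hw hx1 hxz hy1 hyz hyx hyx'
    have := hK2 ⟨x, hx⟩ ⟨y, hy⟩ ⟨w, hw⟩ (fun h => hx1 (congrArg (fun t : S => (t : G)) h))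
      (fun h => hxz (congrArg (fun t : S => (t : G)) h))
      (fun h => hy1 (congrArg (fun t : S => (t : G)) h))
      (fun h => hyz (congrArg (fun t : S => (t : G)) h))
      (fun h => hyx (congrArg (fun t : S => (t : G)) h))
      (fun h => hyx' (congrArg (fun t : S => (t : G)) h))
    simpa only [Subtype.ext_iff, Subgroup.coe_mul, Subgroup.coe_inv, Subgroup.coe_one] using this
  · intro x hx y hy hx1 hxz hy1 hyz hyx hyx'
    have := hK3 ⟨x, hx⟩ ⟨y, hy⟩ (fun h => hx1 (congrArg (fun t : S => (t : G)) h))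
      (fun h => hxz (congrArg (fun t : S => (t : G)) h))
      (fun h => hy1 (congrArg (fun t : S => (t : G)) h))
      (fun h => hyz (congrArg (fun t : S => (t : G)) h))
      (fun h => hyx (congrArg (fun t : S => (t : G)) h))
      (fun h => hyx' (congrArg (fun t : S => (t : G)) h))
    simpa only [Subtype.ext_iff, Subgroup.coe_mul, Subgroup.coe_inv, Subgroup.coe_one] using this

theorem odd_fix {G : Type*} [Group G] (g x : G) (hodd : Nat.Coprime (orderOf g) 2)
    (h : g * x * g⁻¹ = x⁻¹ ∨ g * (g * x * g⁻¹) * g⁻¹ = x ∨ g * (g * x * g⁻¹) * g⁻¹ = x⁻¹) :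
    g * x * g⁻¹ = x := by
  have h4 : g * (g * (g * (g * x * g⁻¹) * g⁻¹) * g⁻¹) * g⁻¹ = x := by
    rcases h with h | h | h
    · have e1 : g * x⁻¹ * g⁻¹ = x := by
        calc g * x⁻¹ * g⁻¹ = (g * x * g⁻¹)⁻¹ := by group
          _ = x⁻¹⁻¹ := by rw [h]
          _ = x := inv_inv x
      rw [h, e1, h, e1]
    · rw [h, h]
    · have e2 : g * (g * x⁻¹ * g⁻¹) * g⁻¹ = (g * (g * x * g⁻¹) * g⁻¹)⁻¹ := by
        simp only [mul_inv_rev, inv_inv, mul_assoc]
      rw [h, e2, h, inv_inv]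
  have p4 : g ^ 4 = (g * g) * (g * g) := by
    rw [show (4 : ℕ) = 2 * 2 from rfl, pow_mul, pow_two, pow_two]
  have hc : g ^ 4 * x = x * g ^ 4 := by
    calc g ^ 4 * x = (g * (g * (g * (g * x * g⁻¹) * g⁻¹) * g⁻¹) * g⁻¹) * g ^ 4 := by
          rw [p4]; simp only [mul_assoc, inv_mul_cancel_left, inv_mul_cancel, mul_one]
      _ = x * g ^ 4 := by rw [h4]
  have h4c : Nat.Coprime 4 (orderOf g) := by
    have := Nat.Coprime.mul_left hodd.symm hodd.symm
    simpa using this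
  obtain ⟨m, hm⟩ := exists_pow_eq_self_of_coprime h4c
  have hc' : Commute (g ^ 4) x := hc
  have hc2 := hc'.pow_left m
  rw [hm] at hc2
  calc g * x * g⁻¹ = x * g * g⁻¹ := by rw [hc2.eq]
    _ = x := by group

theorem main {G : Type*} [Group G] [Finite G] (S : Subgroup G) (e : S ≃* QuaternionGroup 2)
    (Q : Subgroup G) (hQS : Q ≤ S) (g : G) (hgN : g ∈ Subgroup.normalizer (Q : Set G))
    (hodd : Nat.Coprime (orderOf g) 2) (hgC : g ∉ Subgroup.centralizer (Q : Set G))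
    (A B : Subgroup G) (hA : A ≤ S) (hB : B ≤ S) (hA4 : Nat.card A = 4) (hB4 : Nat.card B = 4) :
    ∃ n ∈ Subgroup.normalizer (S : Set G), B = A.map (MulAut.conj n).toMonoidHom := by
  classical
  rw [Subgroup.mem_centralizer_iff] at hgC
  push_neg at hgC
  obtain ⟨q, hqQ, hqg⟩ := hgC
  obtain ⟨z, hzS, hzne, hzsq, K1, K2, K3⟩ := q8_sub S e
  have cinv : ∀ t, g * t * g⁻¹ = t → g * t⁻¹ * g⁻¹ = t⁻¹ := by
    intro t ht
    calc g * t⁻¹ * g⁻¹ = (g * t * g⁻¹)⁻¹ := by group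
      _ = t⁻¹ := by rw [ht]
  have cmul : ∀ s t, g * s * g⁻¹ = s → g * t * g⁻¹ = t → g * (s * t) * g⁻¹ = s * t := by
    intro s t hs ht
    calc g * (s * t) * g⁻¹ = (g * s * g⁻¹) * (g * t * g⁻¹) := by group
      _ = s * t := by rw [hs, ht]
  have hinvT : ∀ s ∈ S, s ≠ 1 → s ≠ z → s⁻¹ = z * s := by
    intro s hs h1 hsz
    exact (eq_inv_of_mul_eq_one_left (by rw [mul_assoc, K1 s hs h1 hsz, hzsq])).symm
  have hq1 : q ≠ 1 := by
    intro h
    rw [h] at hqg
    exact hqg (by simp)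
  have hzQ : z ∈ Q := by
    by_cases h : q = z
    · rw [← h]; exact hqQ
    · rw [← K1 q (hQS hqQ) hq1 h]; exact Q.mul_mem hqQ hqQ
  have hcQ : ∀ s, s ∈ Q → g * s * g⁻¹ ∈ Q :=
    fun s hs => (Subgroup.mem_normalizer_iff.mp hgN s).mp hs
  have hcz : g * z * g⁻¹ = z := by
    by_contra hne
    have h1 : g * z * g⁻¹ ≠ 1 := fun h => hzne (by simpa using h)
    have h2 := K1 _ (hQS (hcQ z hzQ)) h1 hne
    have h3 : g * z * g⁻¹ * (g * z * g⁻¹) = 1 := by
      calc g * z * g⁻¹ * (g * z * g⁻¹) = g * (z * z) * g⁻¹ := by group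
        _ = 1 := by rw [hzsq]; group
    exact hzne (h2.symm.trans h3)
  have hqz : q ≠ z := by
    intro h
    rw [h] at hqg
    apply hqg
    calc z * g = g * z * g⁻¹ * g := by rw [hcz]
      _ = g * z := by group
  have hcq_ne : g * q * g⁻¹ ≠ q := by
    intro h
    apply hqg
    calc q * g = g * q * g⁻¹ * g := by rw [h]
      _ = g * q := by group
  have hcqS : g * q * g⁻¹ ∈ S := hQS (hcQ q hqQ)
  have hcT : ∀ s, s ≠ 1 → s ≠ z → g * s * g⁻¹ ≠ 1 ∧ g * s * g⁻¹ ≠ z := by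
    intro s h1 hsz
    refine ⟨fun h => h1 (by simpa using h), fun h => hsz ?_⟩
    rw [← hcz] at h
    exact mul_left_cancel (mul_right_cancel h)
  have hcq1 := (hcT q hq1 hqz).1
  have hcqz := (hcT q hq1 hqz).2
  have hcqi : g * q * g⁻¹ ≠ q⁻¹ := fun h => hcq_ne (odd_fix g q hodd (Or.inl h))
  have hSQ : S ≤ Q := by
    intro w hw
    rcases K2 q (hQS hqQ) (g * q * g⁻¹) hcqS w hw hq1 hqz hcq1 hcqz hcq_ne hcqi with
      h | h | h | h | h | h | h | h <;> rw [h]
    · exact Q.one_mem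
    · exact hzQ
    · exact hqQ
    · exact Q.inv_mem hqQ
    · exact hcQ q hqQ
    · exact Q.inv_mem (hcQ q hqQ)
    · exact Q.mul_mem hqQ (hcQ q hqQ)
    · exact Q.inv_mem (Q.mul_mem hqQ (hcQ q hqQ))
  have hQeq : Q = S := le_antisymm hQS hSQ
  have hcS : ∀ s, s ∈ S → g * s * g⁻¹ ∈ S := fun s hs => hQS (hcQ s (hSQ hs))
  have hgNS : g ∈ Subgroup.normalizer (S : Set G) := by
    rw [← hQeq]; exact hgN
  have key : ∀ x ∈ S, ∀ y ∈ S, x ≠ 1 → x ≠ z → y ≠ 1 → y ≠ z →
      (x = y ∨ x = y⁻¹) ∨ (g * x * g⁻¹ = y ∨ g * x * g⁻¹ = y⁻¹) ∨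
        (g * (g * x * g⁻¹) * g⁻¹ = y ∨ g * (g * x * g⁻¹) * g⁻¹ = y⁻¹) := by
    intro x hx y hy hx1 hxz hy1 hyz
    by_contra hcon
    push_neg at hcon
    obtain ⟨⟨h0a, h0b⟩, ⟨h1a, h1b⟩, ⟨h2a, h2b⟩⟩ := hcon
    have hyx : y ≠ x := fun h => h0a h.symm
    have hyx' : y ≠ x⁻¹ := fun h => h0b (by rw [h, inv_inv])
    have hcx := hcT x hx1 hxz
    have hccx := hcT _ hcx.1 hcx.2
    have F1 : g * x * g⁻¹ = x ∨ g * x * g⁻¹ = x⁻¹ ∨ g * x * g⁻¹ = x * y ∨
        g * x * g⁻¹ = (x * y)⁻¹ := by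
      rcases K2 x hx y hy _ (hcS x hx) hx1 hxz hy1 hyz hyx hyx' with h | h | h | h | h | h | h | h
      · exact absurd h hcx.1
      · exact absurd h hcx.2
      · exact Or.inl h
      · exact Or.inr (Or.inl h)
      · exact absurd h h1a
      · exact absurd h h1b
      · exact Or.inr (Or.inr (Or.inl h))
      · exact Or.inr (Or.inr (Or.inr h))
    have F2 : g * (g * x * g⁻¹) * g⁻¹ = x ∨ g * (g * x * g⁻¹) * g⁻¹ = x⁻¹ ∨
        g * (g * x * g⁻¹) * g⁻¹ = x * y ∨ g * (g * x * g⁻¹) * g⁻¹ = (x * y)⁻¹ := by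
      rcases K2 x hx y hy _ (hcS _ (hcS x hx)) hx1 hxz hy1 hyz hyx hyx' with
        h | h | h | h | h | h | h | h
      · exact absurd h hccx.1
      · exact absurd h hccx.2
      · exact Or.inl h
      · exact Or.inr (Or.inl h)
      · exact absurd h h2a
      · exact absurd h h2b
      · exact Or.inr (Or.inr (Or.inl h))
      · exact Or.inr (Or.inr (Or.inr h))
    have hfix_or : g * x * g⁻¹ = x ∨
        ((g * x * g⁻¹ = x * y ∨ g * x * g⁻¹ = (x * y)⁻¹) ∧
          (g * (g * x * g⁻¹) * g⁻¹ = x * y ∨ g * (g * x * g⁻¹) * g⁻¹ = (x * y)⁻¹)) := by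
      rcases F1 with h | h | h | h
      · exact Or.inl h
      · exact Or.inl (odd_fix g x hodd (Or.inl h))
      · rcases F2 with h' | h' | h' | h'
        · exact Or.inl (odd_fix g x hodd (Or.inr (Or.inl h')))
        · exact Or.inl (odd_fix g x hodd (Or.inr (Or.inr h')))
        · exact Or.inr ⟨Or.inl h, Or.inl h'⟩
        · exact Or.inr ⟨Or.inl h, Or.inr h'⟩
      · rcases F2 with h' | h' | h' | h'
        · exact Or.inl (odd_fix g x hodd (Or.inr (Or.inl h')))
        · exact Or.inl (odd_fix g x hodd (Or.inr (Or.inr h')))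
        · exact Or.inr ⟨Or.inr h, Or.inl h'⟩
        · exact Or.inr ⟨Or.inr h, Or.inr h'⟩
    rcases hfix_or with hfix | ⟨hA', hB'⟩
    · have hcy : g * y * g⁻¹ ≠ y := by
        intro hfy
        have hall : ∀ w ∈ S, g * w * g⁻¹ = w := by
          intro w hw
          rcases K2 x hx y hy w hw hx1 hxz hy1 hyz hyx hyx' with h | h | h | h | h | h | h | h <;>
            rw [h]
          · group
          · exact hcz
          · exact hfix
          · exact cinv x hfix
          · exact hfy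
          · exact cinv y hfy
          · exact cmul x y hfix hfy
          · exact cinv _ (cmul x y hfix hfy)
        exact hcq_ne (hall q (hQS hqQ))
      have hcy' : g * y * g⁻¹ ≠ y⁻¹ := fun h => hcy (odd_fix g y hodd (Or.inl h))
      have hcyT := hcT y hy1 hyz
      have hcyx : g * y * g⁻¹ ≠ x := by
        intro h
        rw [← hfix] at h
        exact hyx (mul_left_cancel (mul_right_cancel h))
      have hcyx' : g * y * g⁻¹ ≠ x⁻¹ := by
        intro h
        have h5 : g * x⁻¹ * g⁻¹ = x⁻¹ := cinv x hfix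
        rw [← h5] at h
        exact hyx' (mul_left_cancel (mul_right_cancel h))
      rcases K2 x hx y hy _ (hcS y hy) hx1 hxz hy1 hyz hyx hyx' with h | h | h | h | h | h | h | h
      · exact hcyT.1 h
      · exact hcyT.2 h
      · exact hcyx h
      · exact hcyx' h
      · exact hcy h
      · exact hcy' h
      · apply hcy
        apply odd_fix g y hodd
        right; right
        calc g * (g * y * g⁻¹) * g⁻¹ = g * (x * y) * g⁻¹ := by rw [h]
          _ = (g * x * g⁻¹) * (g * y * g⁻¹) := by group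
          _ = x * (x * y) := by rw [hfix, h]
          _ = (x * x) * y := by group
          _ = z * y := by rw [K1 x hx hx1 hxz]
          _ = y⁻¹ := (hinvT y hy hy1 hyz).symm
      · apply hcy
        apply odd_fix g y hodd
        right; right
        calc g * (g * y * g⁻¹) * g⁻¹ = g * (x * y)⁻¹ * g⁻¹ := by rw [h]
          _ = ((g * x * g⁻¹) * (g * y * g⁻¹))⁻¹ := by group
          _ = (x * (x * y)⁻¹)⁻¹ := by rw [hfix, h]
          _ = x * y * x⁻¹ := by group
          _ = y⁻¹ := K3 x hx y hy hx1 hxz hy1 hyz hyx hyx'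
    · have hcc : g * (g * x * g⁻¹) * g⁻¹ = g * x * g⁻¹ := by
        rcases hA' with h | h <;> rcases hB' with h' | h'
        · rw [h', h]
        · exact odd_fix g _ hodd (Or.inl (by rw [h', h]))
        · exact odd_fix g _ hodd (Or.inl (by rw [h', h, inv_inv]))
        · rw [h', h]
      have hcx_eq : g * x * g⁻¹ = x := mul_left_cancel (mul_right_cancel hcc)
      rcases hA' with h | h
      · rw [hcx_eq] at h
        exact hy1 (by simpa using h)
      · rw [hcx_eq] at h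
        have h3 : x * x * y = 1 := by
          calc x * x * y = x * (x * y) := by group
            _ = (x * y)⁻¹ * (x * y) := by rw [← h]
            _ = 1 := by group
        rw [K1 x hx hx1 hxz] at h3
        exact hyz (mul_left_cancel (h3.trans hzsq.symm))
  have hgen : ∀ A : Subgroup G, A ≤ S → Nat.card A = 4 →
      ∃ x ∈ S, x ≠ 1 ∧ x ≠ z ∧ A = Subgroup.zpowers x := by
    intro A hA hA4
    have hzo : orderOf z = 2 := orderOf_eq_prime (by rw [pow_two]; exact hzsq) hzne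
    have hnle : ¬ A ≤ Subgroup.zpowers z := by
      intro hle
      have := Subgroup.card_le_of_le hle
      rw [Nat.card_zpowers, hzo, hA4] at this
      omega
    obtain ⟨x, hxA, hxz⟩ := SetLike.not_le_iff_exists.mp hnle
    have hx1 : x ≠ 1 := fun h => hxz (by rw [h]; exact Subgroup.one_mem _)
    have hxz' : x ≠ z := fun h => hxz (by rw [h]; exact Subgroup.mem_zpowers z)
    have hxS := hA hxA
    refine ⟨x, hxS, hx1, hxz', ?_⟩
    have e4 : x ^ 4 = x * x * (x * x) := by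
      rw [show (4 : ℕ) = 2 * 2 from rfl, pow_mul, pow_two, pow_two]
    have hxo : orderOf x = 2 ^ (1 + 1) := by
      apply orderOf_eq_prime_pow
      · rw [pow_one, pow_two, K1 x hxS hx1 hxz']; exact hzne
      · have h22 : (2 : ℕ) ^ (1 + 1) = 4 := by norm_num
        rw [h22, e4, K1 x hxS hx1 hxz', hzsq]
    symm
    apply Subgroup.eq_of_le_of_card_ge
    · rw [Subgroup.zpowers_le]; exact hxA
    · rw [Nat.card_zpowers, hxo, hA4]; norm_num
  obtain ⟨x, hxS, hx1, hxz, hAx⟩ := hgen A hA hA4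
  obtain ⟨y, hyS, hy1, hyz, hBy⟩ := hgen B hB hB4
  have hconj : ∀ n : G, (n * x * n⁻¹ = y ∨ n * x * n⁻¹ = y⁻¹) →
      B = A.map (MulAut.conj n).toMonoidHom := by
    intro n hn
    rw [hAx, hBy, MonoidHom.map_zpowers]
    have hval : (MulAut.conj n).toMonoidHom x = n * x * n⁻¹ := rfl
    rw [hval]
    rcases hn with h | h
    · rw [h]
    · rw [h, Subgroup.zpowers_inv]
  rcases key x hxS y hyS hx1 hxz hy1 hyz with h | h | h
  · exact ⟨1, Subgroup.one_mem _, hconj 1 (by simpa using h)⟩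
  · exact ⟨g, hgNS, hconj g h⟩
  · refine ⟨g * g, Subgroup.mul_mem _ hgNS hgNS, hconj (g * g) ?_⟩
    have e : g * g * x * (g * g)⁻¹ = g * (g * x * g⁻¹) * g⁻¹ := by group
    rw [e]; exact h

/-- Let S be a Sylow 2-subgroup of the finite group G that is isomorphic to the quaternion group of order 8, and suppose S has no normal complement in G. Then any two subgroups of order 4 of S are conjugate by an element of the normalizer of S. -/
theorem result {G : Type*} [Group G] [Finite G] (S : Sylow 2 G) (e : (S : Subgroup G) ≃* QuaternionGroup 2) (hnc : ∀ N : Subgroup G, N.Normal → ¬ Subgroup.IsComplement' N (S : Subgroup G)) (A B : Subgroup G) (hA : A ≤ S) (hB : B ≤ S) (hA4 : Nat.card A = 4) (hB4 : Nat.card B = 4) : ∃ n ∈ Subgroup.normalizer ((S : Subgroup G) : Set G), B = A.map (MulAut.conj n).toMonoidHom := by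
  have hfr := Cfsg.Agent.S0071.result (p := 2) S
  have hneg : ¬ ∃ N : Subgroup G, N.Normal ∧ N.IsComplement' (S : Subgroup G) := by
    rintro ⟨N, hN, hc⟩
    exact hnc N hN hc
  rw [hfr] at hneg
  push_neg at hneg
  obtain ⟨Q, hQS, g, hgN, hodd, hgC⟩ := hneg
  exact main (S : Subgroup G) e Q hQS g hgN hodd hgC A B hA hB hA4 hB4


end Cfsg.Agent.S0950
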