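import Mathlib
import Cfsg.Agent.Helper2.Orbits2
import Cfsg.Statements.S0957

set_option autoImplicit false
open Cfsg

namespace Cfsg.Agent.S0957

/-- Let P be a Sylow p-subgroup of the finite group G, let g, h ∈ G and let p ^ d be the order of a Sylow p-subgroup of the centralizer of g. Then the number of pairs (y, z) with y conjugate to g, z conjugate to h and z * y⁻¹ ∈ P is divisible by the order of P divided by p ^ d. -/
theorem result {G : Type*} [Group G] [Finite G] (p : ℕ) [Fact p.Prime] (P : Sylow p G) (g h : G) (S : Sylow p (Subgroup.centralizer ({g} : Set G))) : Nat.card P / Nat.card S ∣ Nat.card {yz : G × G // IsConj g yz.1 ∧ IsConj h yz.2 ∧ yz.2 * yz.1⁻¹ ∈ (P : Subgroup G)} := by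
  classical
  have hmem : ∀ (u : ↥(P : Subgroup G))
      (yz : {yz : G × G // IsConj g yz.1 ∧ IsConj h yz.2 ∧ yz.2 * yz.1⁻¹ ∈ (P : Subgroup G)}),
      IsConj g ((u : G) * yz.1.1 * (u : G)⁻¹) ∧ IsConj h ((u : G) * yz.1.2 * (u : G)⁻¹) ∧
        ((u : G) * yz.1.2 * (u : G)⁻¹) * ((u : G) * yz.1.1 * (u : G)⁻¹)⁻¹ ∈ (P : Subgroup G) := by
    rintro ⟨u, hu⟩ ⟨⟨y, z⟩, hy, hz, hzy⟩
    refine ⟨?_, ?_, ?_⟩
    · exact hy.trans (isConj_iff.mpr ⟨u, rfl⟩)
    · exact hz.trans (isConj_iff.mpr ⟨u, rfl⟩)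
    · have : (u * z * u⁻¹) * (u * y * u⁻¹)⁻¹ = u * (z * y⁻¹) * u⁻¹ := by group
      show (u * z * u⁻¹) * (u * y * u⁻¹)⁻¹ ∈ (P : Subgroup G)
      rw [this]
      exact mul_mem (mul_mem hu hzy) (inv_mem hu)
  letI act : MulAction (↥(P : Subgroup G))
      {yz : G × G // IsConj g yz.1 ∧ IsConj h yz.2 ∧ yz.2 * yz.1⁻¹ ∈ (P : Subgroup G)} :=
    { smul := fun u yz => ⟨((u : G) * yz.1.1 * (u : G)⁻¹, (u : G) * yz.1.2 * (u : G)⁻¹), hmem u yz⟩
      one_smul := by
        rintro ⟨⟨y, z⟩, hyz⟩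
        apply Subtype.ext
        show (((1 : ↥(P : Subgroup G)) : G) * y * ((1 : ↥(P : Subgroup G)) : G)⁻¹,
          ((1 : ↥(P : Subgroup G)) : G) * z * ((1 : ↥(P : Subgroup G)) : G)⁻¹) = (y, z)
        simp
      mul_smul := by
        rintro u v ⟨⟨y, z⟩, hyz⟩
        apply Subtype.ext
        show (((u * v : ↥(P : Subgroup G)) : G) * y * ((u * v : ↥(P : Subgroup G)) : G)⁻¹,
          ((u * v : ↥(P : Subgroup G)) : G) * z * ((u * v : ↥(P : Subgroup G)) : G)⁻¹) =
          ((u : G) * ((v : G) * y * (v : G)⁻¹) * (u : G)⁻¹,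
            (u : G) * ((v : G) * z * (v : G)⁻¹) * (u : G)⁻¹)
        rw [Subgroup.coe_mul]
        congr 1 <;> group }
  have hSP : Nat.card (S : Subgroup (Subgroup.centralizer ({g} : Set G))) ∣
      Nat.card (P : Subgroup G) := by
    have h1 : IsPGroup p ((S : Subgroup (Subgroup.centralizer ({g} : Set G))).map
        (Subgroup.centralizer ({g} : Set G)).subtype) := S.2.map _
    have h2 := Cfsg.Agent.Helper2.isPGroup_card_dvd_sylow h1 P
    rwa [Subgroup.card_map_of_injective (Subgroup.subtype_injective _)] at h2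
  apply Cfsg.Agent.Helper2.dvd_card_of_forall_dvd_orbit (P := ↥(P : Subgroup G))
  rintro ⟨⟨y, z⟩, hy, hz, hzy⟩
  obtain ⟨a, ha⟩ : ∃ a : {yz : G × G // IsConj g yz.1 ∧ IsConj h yz.2 ∧
      yz.2 * yz.1⁻¹ ∈ (P : Subgroup G)}, a = ⟨(y, z), hy, hz, hzy⟩ := ⟨_, rfl⟩
  rw [← ha]
  have horb : Nat.card (MulAction.orbit (↥(P : Subgroup G)) a) *
      Nat.card (MulAction.stabilizer (↥(P : Subgroup G)) a) = Nat.card (P : Subgroup G) := by
    have h1 := (MulAction.stabilizer (↥(P : Subgroup G)) a).card_mul_index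
    rw [MulAction.index_stabilizer, ← Nat.card_coe_set_eq] at h1
    rw [mul_comm]; exact h1
  obtain ⟨k, hk⟩ := isConj_iff.mp hy
  have hSt_le : ((MulAction.stabilizer (↥(P : Subgroup G)) a).map (P : Subgroup G).subtype).map
      (MulAut.conj k⁻¹).toMonoidHom ≤ Subgroup.centralizer ({g} : Set G) := by
    rintro x ⟨x', ⟨u, hu, rfl⟩, rfl⟩
    have hu' : u • a = a := hu
    have hu2 : (u : G) * y * (u : G)⁻¹ = y := by
      have := congrArg (fun b : {yz : G × G // IsConj g yz.1 ∧ IsConj h yz.2 ∧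
        yz.2 * yz.1⁻¹ ∈ (P : Subgroup G)} => b.1.1) hu'
      rw [ha] at this
      exact this
    rw [Subgroup.mem_centralizer_iff]
    intro m hm
    rw [Set.mem_singleton_iff] at hm
    rw [hm]
    show g * (k⁻¹ * (u : G) * k⁻¹⁻¹) = (k⁻¹ * (u : G) * k⁻¹⁻¹) * g
    have e1 : g = k⁻¹ * y * k := by
      have hk' : k * g * k⁻¹ = y := hk
      rw [← hk']; group
    have e2 : y * (u : G) = (u : G) * y := by
      nth_rewrite 1 [← hu2]; group
    rw [e1]
    calc k⁻¹ * y * k * (k⁻¹ * (u : G) * k⁻¹⁻¹) = k⁻¹ * (y * (u : G)) * k := by group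
      _ = k⁻¹ * ((u : G) * y) * k := by rw [e2]
      _ = k⁻¹ * (u : G) * k⁻¹⁻¹ * (k⁻¹ * y * k) := by group
  have hSt_p : IsPGroup p (((MulAction.stabilizer (↥(P : Subgroup G)) a).map
      (P : Subgroup G).subtype).map (MulAut.conj k⁻¹).toMonoidHom) :=
    ((P.2.to_subgroup _).map _).map _
  have hB := Cfsg.Agent.Helper2.isPGroup_card_dvd_sylow
    (hSt_p.comap_subtype (K := Subgroup.centralizer ({g} : Set G))) S
  rw [Subgroup.comap_subtype, Nat.card_congr (Subgroup.subgroupOfEquivOfLe hSt_le).toEquiv,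
    Subgroup.card_map_of_injective (MulAut.conj k⁻¹).injective,
    Subgroup.card_map_of_injective (Subgroup.subtype_injective _)] at hB
  obtain ⟨m, hm⟩ := hB
  obtain ⟨t, ht⟩ := hSP
  have hSt_pos : 0 < Nat.card (MulAction.stabilizer (↥(P : Subgroup G)) a) := Nat.card_pos
  have hS_pos : 0 < Nat.card (S : Subgroup (Subgroup.centralizer ({g} : Set G))) := Nat.card_pos
  have h1 : Nat.card (MulAction.orbit (↥(P : Subgroup G)) a) = m * t := by
    rw [ht, hm] at horb
    have : Nat.card (MulAction.orbit (↥(P : Subgroup G)) a) *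
        Nat.card (MulAction.stabilizer (↥(P : Subgroup G)) a) =
        (m * t) * Nat.card (MulAction.stabilizer (↥(P : Subgroup G)) a) := by
      rw [horb]; ring
    exact Nat.eq_of_mul_eq_mul_right hSt_pos this
  have h2 : Nat.card (P : Subgroup G) / Nat.card (S : Subgroup (Subgroup.centralizer ({g} : Set G)))
      = t := by
    rw [ht]
    exact Nat.mul_div_cancel_left t hS_pos
  rw [h1]
  show Nat.card (P : Subgroup G) / Nat.card (S : Subgroup (Subgroup.centralizer ({g} : Set G))) ∣ m * t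
  rw [h2]
  exact Dvd.intro_left m rfl


end Cfsg.Agent.S0957
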