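import Mathlib
import Cfsg.Agent.Helper2.Orbits
import Cfsg.Statements.S0985

set_option autoImplicit false
open Cfsg

namespace Cfsg.Agent.S0985

/-- If the number of Sylow p-subgroups of a finite group is not congruent to 1 modulo p^k, then there are two distinct Sylow p-subgroups P and R such that the index of P ∩ R in P is at most p^(k-1). -/
theorem result {G : Type*} [Group G] [Finite G] (p k : ℕ) [Fact p.Prime] (h : ¬ Nat.card (Sylow p G) ≡ 1 [MOD p ^ k]) : ∃ P R : Sylow p G, P ≠ R ∧ ((R : Subgroup G).subgroupOf (P : Subgroup G)).index ≤ p ^ (k - 1) := by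
  classical
  have hp := (Fact.out : p.Prime)
  obtain ⟨P⟩ : Nonempty (Sylow p G) := inferInstance
  by_contra hcon
  push_neg at hcon
  apply h
  apply Cfsg.Agent.Helper2.card_modEq_one_of_orbits (P := ↥(P : Subgroup G)) (p ^ k) P
  · intro g
    exact Sylow.smul_eq_iff_mem_normalizer.mpr (Subgroup.le_normalizer g.2)
  · intro R hR
    rw [Cfsg.Agent.Helper2.sylow_card_orbit_eq]
    have h1 := hcon P R (Ne.symm hR)
    have h2 : ((R : Subgroup G).subgroupOf (P : Subgroup G)).index ∣ Nat.card (P : Subgroup G) :=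
      Subgroup.index_dvd_card _
    obtain ⟨m, hm⟩ := IsPGroup.iff_card.mp P.isPGroup'
    rw [hm] at h2
    obtain ⟨j, hj, hje⟩ := (Nat.dvd_prime_pow hp).mp h2
    rw [hje] at h1 ⊢
    apply pow_dvd_pow
    have := (Nat.pow_lt_pow_iff_right hp.one_lt).mp h1
    omega


end Cfsg.Agent.S0985
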