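import Cfsg.Statements.S0986
import Cfsg.Agent.Helper4.Basic
import Cfsg.Agent.Helper4.RelSylow

set_option autoImplicit false
open Cfsg

namespace Cfsg.Agent.S0986

/-- Let P and Q be distinct Sylow p-subgroups of a finite group G chosen so that the order of P ∩ Q is as large as possible among intersections of two distinct Sylow p-subgroups, and let N be the normalizer of P ∩ Q. Then N has more than one Sylow p-subgroup, any two distinct Sylow p-subgroups of N intersect exactly in P ∩ Q, and each Sylow p-subgroup of N lies in exactly one Sylow p-subgroup of G. -/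
theorem result {G : Type*} [Group G] [Finite G] (p : ℕ) [Fact p.Prime] (P Q : Sylow p G) (hPQ : P ≠ Q) (hmax : ∀ P' Q' : Sylow p G, P' ≠ Q' → Nat.card ↥((P' : Subgroup G) ⊓ (Q' : Subgroup G)) ≤ Nat.card ↥((P : Subgroup G) ⊓ (Q : Subgroup G))) : 1 < Nat.card (Sylow p ↥(Subgroup.normalizer (((P : Subgroup G) ⊓ (Q : Subgroup G) : Subgroup G) : Set G))) ∧ (∀ S T : Sylow p ↥(Subgroup.normalizer (((P : Subgroup G) ⊓ (Q : Subgroup G) : Subgroup G) : Set G)), S ≠ T → (S : Subgroup _) ⊓ (T : Subgroup _) = ((P : Subgroup G) ⊓ (Q : Subgroup G)).subgroupOf (Subgroup.normalizer (((P : Subgroup G) ⊓ (Q : Subgroup G) : Subgroup G) : Set G))) ∧ ∀ S : Sylow p ↥(Subgroup.normalizer (((P : Subgroup G) ⊓ (Q : Subgroup G) : Subgroup G) : Set G)), ∃! T : Sylow p G, (S : Subgroup _).map (Subgroup.normalizer (((P : Subgroup G) ⊓ (Q : Subgroup G) : Subgroup G) : Set G)).subtype ≤ (T : Subgroup G) := by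
  classical
  set D : Subgroup G := (P : Subgroup G) ⊓ (Q : Subgroup G) with hD
  set N : Subgroup G := Subgroup.normalizer (D : Set G) with hN
  have hDN : D ≤ N := Subgroup.le_normalizer
  have hDP : D < (P : Subgroup G) := by
    refine lt_of_le_of_ne inf_le_left ?_
    intro h
    have hPQ' : (P : Subgroup G) ≤ Q := by rw [← h]; exact inf_le_right
    exact hPQ (Sylow.ext (P.3 Q.2 hPQ').symm)
  have hDQ : D < (Q : Subgroup G) := by
    refine lt_of_le_of_ne inf_le_right ?_
    intro h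
    have hQP' : (Q : Subgroup G) ≤ P := by rw [← h]; exact inf_le_left
    exact hPQ (Sylow.ext (Q.3 P.2 hQP'))
  have hDP' : D < (P : Subgroup G) ⊓ N := Cfsg.Agent.Helper4.lt_inf_normalizer (P : Subgroup G) D P.2 hDP
  have hDQ' : D < (Q : Subgroup G) ⊓ N := Cfsg.Agent.Helper4.lt_inf_normalizer (Q : Subgroup G) D Q.2 hDQ
  haveI hDnorm : (D.subgroupOf N).Normal := Subgroup.normal_in_normalizer
  have hDS : ∀ S : Sylow p ↥N, D.subgroupOf N ≤ (S : Subgroup ↥N) := by
    intro S x hx
    have hDp : IsPGroup p (D.subgroupOf N) := (P.2.to_le inf_le_left).comap_subtype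
    obtain ⟨h, hh⟩ := Cfsg.Agent.Helper4.exists_conj_mem_sylow S (D.subgroupOf N) hDp
    have hy : h * x * h⁻¹ ∈ D.subgroupOf N := hDnorm.conj_mem x hx h
    have := hh _ hy
    have e : h⁻¹ * (h * x * h⁻¹) * h = x := by group
    rwa [e] at this
  have hex : ∀ S : Sylow p ↥N, ∃ T : Sylow p G,
      (S : Subgroup ↥N).map N.subtype ≤ (T : Subgroup G) := by
    intro S
    have : IsPGroup p ((S : Subgroup ↥N).map N.subtype) := S.2.map N.subtype
    exact this.exists_le_sylow
  have hsame : ∀ (S S' : Sylow p ↥N) (T : Sylow p G),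
      (S : Subgroup ↥N).map N.subtype ≤ (T : Subgroup G) →
      (S' : Subgroup ↥N).map N.subtype ≤ (T : Subgroup G) → S = S' := by
    intro S S' T hS hS'
    have hTp : IsPGroup p ((T : Subgroup G).subgroupOf N) := T.2.comap_subtype
    have h1 : (S : Subgroup ↥N) ≤ (T : Subgroup G).subgroupOf N := by
      intro x hx
      rw [Subgroup.mem_subgroupOf]
      exact hS (Subgroup.mem_map_of_mem _ hx)
    have h2 : (S' : Subgroup ↥N) ≤ (T : Subgroup G).subgroupOf N := by
      intro x hx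
      rw [Subgroup.mem_subgroupOf]
      exact hS' (Subgroup.mem_map_of_mem _ hx)
    have e1 := S.3 hTp h1
    have e2 := S'.3 hTp h2
    exact Sylow.ext (e1.symm.trans e2)
  have hcardlt : ∀ R : Subgroup G, D < R ⊓ N → Nat.card D < Nat.card ↥(R ⊓ N) := by
    intro R hR
    by_contra hcon
    push Not at hcon
    exact hR.ne (Subgroup.eq_of_le_of_card_ge hR.le hcon)
  have hcardS : ∀ S : Sylow p ↥N, Nat.card D < Nat.card (S : Subgroup ↥N) := by
    intro S
    have hp' : IsPGroup p (((P : Subgroup G) ⊓ N).subgroupOf N) :=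
      (P.2.to_le inf_le_left).comap_subtype
    obtain ⟨S', hS'⟩ := hp'.exists_le_sylow
    have h1 : Nat.card ↥(((P : Subgroup G) ⊓ N).subgroupOf N) ≤ Nat.card (S' : Subgroup ↥N) :=
      Subgroup.card_le_of_le hS'
    have h2 : Nat.card (S' : Subgroup ↥N) = Nat.card (S : Subgroup ↥N) := by
      rw [Sylow.card_eq_multiplicity S', Sylow.card_eq_multiplicity S]
    have h3 : Nat.card ↥(((P : Subgroup G) ⊓ N).subgroupOf N) = Nat.card ↥((P : Subgroup G) ⊓ N) :=
      Nat.card_congr (Subgroup.subgroupOfEquivOfLe inf_le_right).toEquiv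
    have h4 := hcardlt _ hDP'
    omega
  have key : ∀ (R : Sylow p G), D < (R : Subgroup G) ⊓ N → ∀ (S : Sylow p ↥N) (T : Sylow p G),
      (S : Subgroup ↥N).map N.subtype ≤ (T : Subgroup G) →
      ((R : Subgroup G) ⊓ N).subgroupOf N ≤ (S : Subgroup ↥N) → R = T := by
    intro R hR S T hST hRS
    by_contra hne
    have h1 := hmax R T hne
    have h2 : (R : Subgroup G) ⊓ N ≤ (R : Subgroup G) ⊓ (T : Subgroup G) := by
      intro x hx
      refine ⟨hx.1, ?_⟩
      have hxS : (⟨x, hx.2⟩ : ↥N) ∈ (S : Subgroup ↥N) := hRS (by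
        rw [Subgroup.mem_subgroupOf]; exact hx)
      exact hST ⟨_, hxS, rfl⟩
    have h3 := Subgroup.card_le_of_le h2
    have h4 := hcardlt _ hR
    omega
  refine ⟨?_, ?_, ?_⟩
  · have hpP : IsPGroup p (((P : Subgroup G) ⊓ N).subgroupOf N) :=
      (P.2.to_le inf_le_left).comap_subtype
    have hpQ : IsPGroup p (((Q : Subgroup G) ⊓ N).subgroupOf N) :=
      (Q.2.to_le inf_le_left).comap_subtype
    obtain ⟨S₁, hS₁⟩ := hpP.exists_le_sylow
    obtain ⟨S₂, hS₂⟩ := hpQ.exists_le_sylow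
    have hne : S₁ ≠ S₂ := by
      intro heq
      obtain ⟨T, hT⟩ := hex S₁
      have e1 := key P hDP' S₁ T hT hS₁
      have e2 := key Q hDQ' S₁ T hT (by rw [heq]; exact hS₂)
      exact hPQ (e1.trans e2.symm)
    haveI : Nontrivial (Sylow p ↥N) := ⟨⟨S₁, S₂, hne⟩⟩
    exact Finite.one_lt_card_iff_nontrivial.mpr inferInstance
  · intro S T hST
    obtain ⟨P', hP'⟩ := hex S
    obtain ⟨Q', hQ'⟩ := hex T
    have hne : P' ≠ Q' := by
      intro heq
      exact hST (hsame S T P' hP' (by rw [heq]; exact hQ'))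
    have h1 := hmax P' Q' hne
    have hDle : D ≤ (P' : Subgroup G) ⊓ (Q' : Subgroup G) := by
      intro x hx
      have hxN : (⟨x, hDN hx⟩ : ↥N) ∈ D.subgroupOf N := by
        rw [Subgroup.mem_subgroupOf]; exact hx
      exact ⟨hP' ⟨_, hDS S hxN, rfl⟩, hQ' ⟨_, hDS T hxN, rfl⟩⟩
    have hDeq : D = (P' : Subgroup G) ⊓ (Q' : Subgroup G) := Subgroup.eq_of_le_of_card_ge hDle h1
    apply le_antisymm
    · intro x hx
      rw [Subgroup.mem_subgroupOf, hDeq]
      exact ⟨hP' ⟨_, hx.1, rfl⟩, hQ' ⟨_, hx.2, rfl⟩⟩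
    · exact le_inf (hDS S) (hDS T)
  · intro S
    obtain ⟨T, hT⟩ := hex S
    refine ⟨T, hT, fun T' hT' => ?_⟩
    by_contra hne
    have h1 := hmax T' T hne
    have h2 : (S : Subgroup ↥N).map N.subtype ≤ (T' : Subgroup G) ⊓ (T : Subgroup G) :=
      le_inf hT' hT
    have h3 := Subgroup.card_le_of_le h2
    have h4 : Nat.card ↥((S : Subgroup ↥N).map N.subtype) = Nat.card (S : Subgroup ↥N) :=
      Subgroup.card_map_of_injective N.subtype_injective
    have h5 := hcardS S
    omega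

end Cfsg.Agent.S0986
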