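import Mathlib
import Cfsg.Agent.Helper2.SylowCard
import Cfsg.Statements.S0987

set_option autoImplicit false
open Cfsg

namespace Cfsg.Agent.S0987

/-- If a finite group has order pqr for primes p < q < r, then its Sylow r-subgroups are normal. -/
theorem result {G : Type*} [Group G] [Finite G] (p q r : ℕ) (hp : p.Prime) (hq : q.Prime) [Fact r.Prime] (hpq : p < q) (hqr : q < r) (hG : Nat.card G = p * q * r) (R : Sylow r G) : (R : Subgroup G).Normal := by
  classical
  haveI : Fact p.Prime := ⟨hp⟩
  haveI : Fact q.Prime := ⟨hq⟩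
  have hr : r.Prime := Fact.out
  have hpr : p < r := lt_trans hpq hqr
  have hp_q : ¬ p ∣ q := fun h => hpq.ne ((Nat.prime_dvd_prime_iff_eq hp hq).mp h)
  have hp_r : ¬ p ∣ r := fun h => hpr.ne ((Nat.prime_dvd_prime_iff_eq hp hr).mp h)
  have hr_p : ¬ r ∣ p := fun h => hpr.ne' ((Nat.prime_dvd_prime_iff_eq hr hp).mp h)
  have hr_q : ¬ r ∣ q := fun h => hqr.ne' ((Nat.prime_dvd_prime_iff_eq hr hq).mp h)
  obtain ⟨P⟩ : Nonempty (Sylow p G) := inferInstance
  have hP : Nat.card (P : Subgroup G) = p :=
    Cfsg.Agent.Helper2.card_sylow_eq_prime p (q * r) (by rw [hG]; ring)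
      (fun h => (hp.dvd_mul.mp h).elim hp_q hp_r) P
  have hPc : IsCyclic (P : Subgroup G) := isCyclic_of_prime_card hP
  have hmin : (Nat.card G).minFac = p := by
    have h1 : (Nat.card G).minFac ∣ p * q * r := by rw [← hG]; exact Nat.minFac_dvd _
    have hne : Nat.card G ≠ 1 := by
      rw [hG]
      have := hp.two_le
      have := hq.two_le
      have := hr.two_le
      intro h
      have h4 : 2 * 2 * 2 ≤ p * q * r := by gcongr
      omega
    have hmp : (Nat.card G).minFac.Prime := Nat.minFac_prime hne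
    have hle : (Nat.card G).minFac ≤ p := by
      apply Nat.minFac_le_of_dvd hp.two_le
      rw [hG]
      exact ⟨q * r, by ring⟩
    rcases (hmp.dvd_mul.mp h1) with h | h
    · rcases (hmp.dvd_mul.mp h) with h | h
      · exact (Nat.prime_dvd_prime_iff_eq hmp hp).mp h
      · have := (Nat.prime_dvd_prime_iff_eq hmp hq).mp h
        omega
    · have := (Nat.prime_dvd_prime_iff_eq hmp hr).mp h
      omega
  have hcompl := hPc.isComplement' hmin
  obtain ⟨K, hKdef⟩ : ∃ K : Subgroup G,
      K = (MonoidHom.transferSylow P (hPc.normalizer_le_centralizer hmin)).ker := ⟨_, rfl⟩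
  rw [← hKdef] at hcompl
  haveI hKn : K.Normal := by rw [hKdef]; infer_instance
  have hKcard : Nat.card K = r * q := by
    have h := hcompl.card_mul_card
    rw [hP, hG] at h
    have : Nat.card K * p = (r * q) * p := by rw [h]; ring
    exact Nat.eq_of_mul_eq_mul_right hp.pos this
  obtain ⟨RK⟩ : Nonempty (Sylow r K) := inferInstance
  have hRK : Nat.card (RK : Subgroup K) = r :=
    Cfsg.Agent.Helper2.card_sylow_eq_prime r q hKcard hr_q RK
  have hidx : (RK : Subgroup K).index = q := by
    have h := (RK : Subgroup K).card_mul_index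
    rw [hRK, hKcard] at h
    exact Nat.eq_of_mul_eq_mul_left hr.pos h
  have hn : Nat.card (Sylow r K) = 1 :=
    Cfsg.Agent.Helper2.card_sylow_eq_one_of_index_prime_lt r q hq hqr RK hidx
  have hRKn : (RK : Subgroup K).Normal :=
    Cfsg.Agent.Helper2.sylow_normal_of_card_eq_one r RK hn
  haveI : (RK : Subgroup K).Characteristic := Sylow.characteristic_of_normal RK hRKn
  have hN : ((RK : Subgroup K).map K.subtype).Normal := ConjAct.normal_of_characteristic_of_normal
  have hNcard : Nat.card ((RK : Subgroup K).map K.subtype) = r := by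
    rw [Subgroup.card_map_of_injective K.subtype_injective, hRK]
  have hRcard : Nat.card (R : Subgroup G) = r :=
    Cfsg.Agent.Helper2.card_sylow_eq_prime r (p * q) (by rw [hG]; ring)
      (fun h => (hr.dvd_mul.mp h).elim hr_p hr_q) R
  have hNp : IsPGroup r ((RK : Subgroup K).map K.subtype) := RK.2.map K.subtype
  obtain ⟨Q, hQ⟩ := hNp.exists_le_sylow
  have hQcard : Nat.card (Q : Subgroup G) = r :=
    Cfsg.Agent.Helper2.card_sylow_eq_prime r (p * q) (by rw [hG]; ring)
      (fun h => (hr.dvd_mul.mp h).elim hr_p hr_q) Q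
  have hQeq : (RK : Subgroup K).map K.subtype = (Q : Subgroup G) :=
    Subgroup.eq_of_le_of_card_ge hQ (by rw [hNcard, hQcard])
  have hQn : (Q : Subgroup G).Normal := hQeq ▸ hN
  haveI := Sylow.unique_of_normal Q hQn
  have : R = Q := Subsingleton.elim R Q
  rw [this]
  exact hQn


end Cfsg.Agent.S0987
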