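import Cfsg.Statements.S0989
import Mathlib

set_option autoImplicit false
open Cfsg

namespace Cfsg.Agent.S0989

/-- In the symmetric group on p or p + 1 letters, p a prime, the normalizer of a Sylow p-subgroup has order p * (p - 1). -/
theorem result {α : Type*} [Fintype α] [DecidableEq α] (p : ℕ) [Fact p.Prime] (hα : Fintype.card α = p ∨ Fintype.card α = p + 1) (P : Sylow p (Equiv.Perm α)) : Nat.card ↥(Subgroup.normalizer ((P : Subgroup (Equiv.Perm α)) : Set (Equiv.Perm α))) = p * (p - 1) := by
  classical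
  have hp : p.Prime := Fact.out
  have hp2 := hp.two_le
  have hct : ∀ σ : Equiv.Perm α, orderOf σ = p → σ.cycleType = {p} := by
    intro σ hσ
    obtain ⟨k, hk⟩ := Equiv.Perm.cycleType_prime_order (σ := σ) (by rw [hσ]; exact hp)
    rw [hσ] at hk
    have hle := Equiv.Perm.sum_cycleType_le σ
    rw [hk, Multiset.sum_replicate, smul_eq_mul] at hle
    have hk0 : k = 0 := by
      by_contra hk0
      have h2 : 2 * p ≤ (k + 1) * p := Nat.mul_le_mul_right p (by omega)
      rcases hα with h | h <;> rw [h] at hle <;> omega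
    rw [hk, hk0]; rfl
  have hcardG : Nat.card (Equiv.Perm α) = (Fintype.card α).factorial := by
    rw [Nat.card_eq_fintype_card, Fintype.card_perm]
  have hPc : Nat.card (P : Subgroup (Equiv.Perm α)) = p := by
    obtain ⟨k, hk⟩ := IsPGroup.iff_card.mp P.2
    have hmul := Subgroup.card_mul_index (P : Subgroup (Equiv.Perm α))
    rw [hk, hcardG] at hmul
    have hnd := P.not_dvd_index
    have hpdvd : p ∣ (Fintype.card α).factorial :=
      (Nat.Prime.dvd_factorial hp).mpr (by rcases hα with h | h <;> omega)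
    have hk1 : 1 ≤ k := by
      by_contra hcon
      have hk0 : k = 0 := by omega
      rw [hk0, pow_zero, one_mul] at hmul
      rw [hmul] at hnd
      exact hnd hpdvd
    have hk2 : k ≤ 1 := by
      by_contra hcon
      push Not at hcon
      have hpp : p ^ 2 ∣ (Fintype.card α).factorial :=
        (pow_dvd_pow p hcon).trans (Dvd.intro _ hmul)
      have hfact : ∃ m, (Fintype.card α).factorial = p * m ∧ ¬ p ∣ m := by
        have hq : p = (p - 1) + 1 := by omega
        rcases hα with h | h
        · refine ⟨(p - 1).factorial, ?_, ?_⟩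
          · rw [h]
            conv_lhs => rw [hq]
            rw [Nat.factorial_succ, ← hq]
          · rw [Nat.Prime.dvd_factorial hp]; omega
        · refine ⟨(p + 1) * (p - 1).factorial, ?_, ?_⟩
          · rw [h, Nat.factorial_succ]
            conv_lhs => rw [hq]
            rw [Nat.factorial_succ, ← hq]
            ring
          · rw [Nat.Prime.dvd_mul hp, Nat.Prime.dvd_factorial hp]
            rintro (h' | h')
            · have : p ∣ 1 := (Nat.dvd_add_right (dvd_refl p)).mp h'
              exact hp.one_lt.ne' (Nat.dvd_one.mp this)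
            · omega
      obtain ⟨m, hm, hpm⟩ := hfact
      rw [hm, pow_two] at hpp
      exact hpm ((Nat.mul_dvd_mul_iff_left hp.pos).mp hpp)
    have hk' : k = 1 := by omega
    rw [hk, hk', pow_one]
  haveI hcyc : IsCyclic ↥(P : Subgroup (Equiv.Perm α)) := isCyclic_of_prime_card hPc
  obtain ⟨g, hg⟩ := IsCyclic.exists_generator (α := ↥(P : Subgroup (Equiv.Perm α)))
  have hgo : orderOf g = p := by rw [orderOf_eq_card_of_forall_mem_zpowers hg, hPc]
  have hso : orderOf (g : Equiv.Perm α) = p := by rw [Subgroup.orderOf_coe, hgo]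
  have hPpow : ∀ x ∈ (P : Subgroup (Equiv.Perm α)), ∃ a : ℤ, x = (g : Equiv.Perm α) ^ a := by
    intro x hx
    obtain ⟨a, ha⟩ := Subgroup.mem_zpowers_iff.mp (hg ⟨x, hx⟩)
    refine ⟨a, ?_⟩
    have := congrArg Subtype.val ha
    simpa using this.symm
  have hcs : Nat.card (Subgroup.centralizer ({(g : Equiv.Perm α)} : Set (Equiv.Perm α)))
      = p := by
    rw [Equiv.Perm.nat_card_centralizer, hct _ hso]
    have hfac : (Fintype.card α - p).factorial = 1 := by
      rcases hα with h | h
      · rw [h, Nat.sub_self]; rfl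
      · rw [h, Nat.add_sub_cancel_left]; rfl
    simp [hfac]
  have hPC : (P : Subgroup (Equiv.Perm α)) ≤ (Subgroup.centralizer ((P : Subgroup (Equiv.Perm α)) : Set (Equiv.Perm α))) := by
    intro x hx
    rw [Subgroup.mem_centralizer_iff]
    intro y hy
    obtain ⟨a, rfl⟩ := hPpow x hx
    obtain ⟨b, rfl⟩ := hPpow y hy
    exact (Commute.zpow_zpow_self (g : Equiv.Perm α) b a).eq
  have hCle : Nat.card (Subgroup.centralizer ((P : Subgroup (Equiv.Perm α)) : Set (Equiv.Perm α))) ≤ p := by
    have hsub : (Subgroup.centralizer ((P : Subgroup (Equiv.Perm α)) : Set (Equiv.Perm α))) ≤ Subgroup.centralizer ({(g : Equiv.Perm α)} : Set (Equiv.Perm α)) :=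
      Subgroup.centralizer_le (by rw [Set.singleton_subset_iff]; exact g.2)
    exact le_of_le_of_eq (Subgroup.card_le_of_le hsub) hcs
  have hCc : Nat.card (Subgroup.centralizer ((P : Subgroup (Equiv.Perm α)) : Set (Equiv.Perm α))) = p :=
    le_antisymm hCle (hPc.symm.le.trans (Subgroup.card_le_of_le hPC))
  have key := Subgroup.card_dvd_of_injective _
    (QuotientGroup.kerLift_injective (P : Subgroup (Equiv.Perm α)).normalizerMonoidHom)
  rw [Subgroup.normalizerMonoidHom_ker, ← Subgroup.index, ← Subgroup.relIndex,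
    IsCyclic.card_mulAut, hPc, Nat.totient_prime hp] at key
  have hCN : (Subgroup.centralizer ((P : Subgroup (Equiv.Perm α)) : Set (Equiv.Perm α))) ≤ (Subgroup.normalizer ((P : Subgroup (Equiv.Perm α)) : Set (Equiv.Perm α))) := Subgroup.centralizer_le_normalizer _
  have hnorm : ∀ h : Equiv.Perm α, (∀ x ∈ (P : Subgroup (Equiv.Perm α)),
      h * x * h⁻¹ ∈ (P : Subgroup (Equiv.Perm α))) → h ∈ (Subgroup.normalizer ((P : Subgroup (Equiv.Perm α)) : Set (Equiv.Perm α))) := by
    intro h hh
    let f : ↥(P : Subgroup (Equiv.Perm α)) → ↥(P : Subgroup (Equiv.Perm α)) :=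
      fun x => ⟨h * x * h⁻¹, hh x x.2⟩
    have hfi : Function.Injective f := by
      intro x y hxy
      have h2 : h * (x : Equiv.Perm α) * h⁻¹ = h * (y : Equiv.Perm α) * h⁻¹ :=
        congrArg Subtype.val hxy
      exact Subtype.ext (mul_left_cancel (mul_right_cancel h2))
    have hfs : Function.Surjective f := Finite.injective_iff_surjective.mp hfi
    rw [Subgroup.mem_normalizer_iff]
    intro z
    constructor
    · exact hh z
    · intro hz
      obtain ⟨x, hx⟩ := hfs ⟨h * z * h⁻¹, hz⟩
      have h2 : h * (x : Equiv.Perm α) * h⁻¹ = h * z * h⁻¹ := congrArg Subtype.val hx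
      have h3 : (x : Equiv.Perm α) = z := mul_left_cancel (mul_right_cancel h2)
      rw [← h3]; exact x.2
  have hconj : ∀ k : Fin (p - 1), ∃ h : Equiv.Perm α, h ∈ (Subgroup.normalizer ((P : Subgroup (Equiv.Perm α)) : Set (Equiv.Perm α))) ∧
      h * (g : Equiv.Perm α) * h⁻¹ = (g : Equiv.Perm α) ^ ((k : ℕ) + 1) := by
    intro k
    have hk := k.2
    have hcop : Nat.Coprime p ((k : ℕ) + 1) := by
      rw [Nat.Prime.coprime_iff_not_dvd hp]
      intro hd
      have := Nat.le_of_dvd (Nat.succ_pos _) hd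
      omega
    have hord : orderOf ((g : Equiv.Perm α) ^ ((k : ℕ) + 1)) = p := by
      rw [Nat.Coprime.orderOf_pow (by rw [hso]; exact hcop), hso]
    have hcj : IsConj (g : Equiv.Perm α) ((g : Equiv.Perm α) ^ ((k : ℕ) + 1)) := by
      rw [Equiv.Perm.isConj_iff_cycleType_eq, hct _ hso, hct _ hord]
    obtain ⟨h, hh⟩ := isConj_iff.mp hcj
    refine ⟨h, hnorm h ?_, hh⟩
    intro x hx
    obtain ⟨a, rfl⟩ := hPpow x hx
    rw [← conj_zpow, hh]
    exact Subgroup.zpow_mem _ (Subgroup.pow_mem _ g.2 _) _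
  choose hfun hfunN hfunc using hconj
  have hlow : p - 1 ≤ (Subgroup.centralizer ((P : Subgroup (Equiv.Perm α)) : Set (Equiv.Perm α))).relIndex (Subgroup.normalizer ((P : Subgroup (Equiv.Perm α)) : Set (Equiv.Perm α))) := by
    have hinj : Function.Injective (fun k : Fin (p - 1) =>
        (QuotientGroup.mk (⟨hfun k, hfunN k⟩ : ↥(Subgroup.normalizer ((P : Subgroup (Equiv.Perm α)) : Set (Equiv.Perm α)))) : ↥(Subgroup.normalizer ((P : Subgroup (Equiv.Perm α)) : Set (Equiv.Perm α))) ⧸ (Subgroup.centralizer ((P : Subgroup (Equiv.Perm α)) : Set (Equiv.Perm α))).subgroupOf (Subgroup.normalizer ((P : Subgroup (Equiv.Perm α)) : Set (Equiv.Perm α))))) := by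
      intro k j hkj
      have h1 := QuotientGroup.eq.mp hkj
      rw [Subgroup.mem_subgroupOf] at h1
      have h2 : (hfun k)⁻¹ * hfun j ∈ (Subgroup.centralizer ((P : Subgroup (Equiv.Perm α)) : Set (Equiv.Perm α))) := h1
      rw [Subgroup.mem_centralizer_iff] at h2
      have h3 := h2 (g : Equiv.Perm α) g.2
      have h4 : hfun j * (g : Equiv.Perm α) * (hfun j)⁻¹ =
          hfun k * (g : Equiv.Perm α) * (hfun k)⁻¹ := by
        calc hfun j * (g : Equiv.Perm α) * (hfun j)⁻¹
            = hfun k * ((hfun k)⁻¹ * hfun j * (g : Equiv.Perm α)) * (hfun j)⁻¹ := by group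
          _ = hfun k * ((g : Equiv.Perm α) * ((hfun k)⁻¹ * hfun j)) * (hfun j)⁻¹ := by rw [h3]
          _ = hfun k * (g : Equiv.Perm α) * (hfun k)⁻¹ := by group
      rw [hfunc j, hfunc k] at h4
      have h5 := pow_eq_pow_iff_modEq.mp h4
      rw [hso] at h5
      unfold Nat.ModEq at h5
      have hk := k.2
      have hj := j.2
      rw [Nat.mod_eq_of_lt (by omega), Nat.mod_eq_of_lt (by omega)] at h5
      exact Fin.ext (by omega)
    have hle := Nat.card_le_card_of_injective _ hinj
    rw [Nat.card_fin] at hle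
    exact hle
  have hrel : (Subgroup.centralizer ((P : Subgroup (Equiv.Perm α)) : Set (Equiv.Perm α))).relIndex (Subgroup.normalizer ((P : Subgroup (Equiv.Perm α)) : Set (Equiv.Perm α))) = p - 1 := le_antisymm (Nat.le_of_dvd (by omega) key) hlow
  have h1 := Subgroup.relIndex_mul_index hCN
  have h2 := Subgroup.card_mul_index (Subgroup.centralizer ((P : Subgroup (Equiv.Perm α)) : Set (Equiv.Perm α)))
  have h3 := Subgroup.card_mul_index (Subgroup.normalizer ((P : Subgroup (Equiv.Perm α)) : Set (Equiv.Perm α)))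
  rw [hCc] at h2
  rw [hrel] at h1
  have hpos : 0 < (Subgroup.normalizer ((P : Subgroup (Equiv.Perm α)) : Set (Equiv.Perm α))).index := Nat.pos_of_ne_zero Subgroup.index_ne_zero_of_finite
  have h4 : Nat.card (Subgroup.normalizer ((P : Subgroup (Equiv.Perm α)) : Set (Equiv.Perm α))) * (Subgroup.normalizer ((P : Subgroup (Equiv.Perm α)) : Set (Equiv.Perm α))).index = p * (p - 1) * (Subgroup.normalizer ((P : Subgroup (Equiv.Perm α)) : Set (Equiv.Perm α))).index := by
    rw [h3, ← h2, ← h1]; ring
  exact Nat.eq_of_mul_eq_mul_right hpos h4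

end Cfsg.Agent.S0989
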