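import Cfsg.Statements.S0990
import Mathlib

set_option autoImplicit false
open Cfsg

namespace Cfsg.Agent.S0990

/-- Let p be an odd prime and P a Sylow p-subgroup of the symmetric group on a finite set with at least two elements. Then P is contained in the alternating group, and twice the order of the normalizer of P inside the alternating group equals the order of the normalizer of P in the symmetric group. -/
theorem result {α : Type*} [Fintype α] [DecidableEq α] (hα : 2 ≤ Fintype.card α) (p : ℕ) [Fact p.Prime] (hp : p ≠ 2) (P : Sylow p (Equiv.Perm α)) : (P : Subgroup (Equiv.Perm α)) ≤ alternatingGroup α ∧ 2 * Nat.card ↥(Subgroup.normalizer ((((P : Subgroup (Equiv.Perm α)).subgroupOf (alternatingGroup α) : Subgroup ↥(alternatingGroup α)) : Set ↥(alternatingGroup α)))) = Nat.card ↥(Subgroup.normalizer ((P : Subgroup (Equiv.Perm α)) : Set (Equiv.Perm α))) := by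
  classical
  have hpp : p.Prime := Fact.out
  haveI : Nontrivial α := Fintype.one_lt_card_iff_nontrivial.mp (by omega)
  have hPA : (P : Subgroup (Equiv.Perm α)) ≤ alternatingGroup α := by
    intro σ hσ
    rw [Equiv.Perm.mem_alternatingGroup]
    obtain ⟨k, hk⟩ := P.isPGroup' ⟨σ, hσ⟩
    have hσk : σ ^ p ^ k = 1 := congrArg Subtype.val hk
    have h1 : Equiv.Perm.sign σ ^ p ^ k = 1 := by rw [← map_pow, hσk, map_one]
    rcases Int.units_eq_one_or (Equiv.Perm.sign σ) with h | h
    · exact h
    · rw [h] at h1
      have hodd : Odd (p ^ k) := (hpp.odd_of_ne_two hp).pow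
      rw [Odd.neg_one_pow hodd] at h1
      exact absurd h1 (by decide)
  refine ⟨hPA, ?_⟩
  have hfr : Subgroup.normalizer ((P : Subgroup (Equiv.Perm α)) : Set (Equiv.Perm α)) ⊔
      alternatingGroup α = ⊤ := by
    have h := Sylow.normalizer_sup_eq_top (P.subtype hPA)
    rw [Sylow.coe_subtype, Subgroup.map_subgroupOf_eq_of_le hPA] at h
    exact h
  have h1 : (alternatingGroup α).relIndex
      (Subgroup.normalizer ((P : Subgroup (Equiv.Perm α)) : Set (Equiv.Perm α))) = 2 := by
    rw [← Subgroup.relIndex_sup_right, hfr, Subgroup.relIndex_top_right]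
    exact alternatingGroup.index_eq_two
  rw [← Subgroup.subgroupOf_normalizer_eq hPA]
  have h2 : Nat.card ((Subgroup.normalizer ((P : Subgroup (Equiv.Perm α)) : Set (Equiv.Perm α))).subgroupOf
      (alternatingGroup α)) = Nat.card ((alternatingGroup α).subgroupOf
      (Subgroup.normalizer ((P : Subgroup (Equiv.Perm α)) : Set (Equiv.Perm α)))) := by
    rw [← Subgroup.card_map_of_injective (Subgroup.subtype_injective (alternatingGroup α)),
      ← Subgroup.card_map_of_injective (Subgroup.subtype_injective
        (Subgroup.normalizer ((P : Subgroup (Equiv.Perm α)) : Set (Equiv.Perm α)))),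
      Subgroup.subgroupOf_map_subtype, Subgroup.subgroupOf_map_subtype, inf_comm]
  rw [h2]
  have h3 := Subgroup.card_mul_index ((alternatingGroup α).subgroupOf
      (Subgroup.normalizer ((P : Subgroup (Equiv.Perm α)) : Set (Equiv.Perm α))))
  have h4 : ((alternatingGroup α).subgroupOf
      (Subgroup.normalizer ((P : Subgroup (Equiv.Perm α)) : Set (Equiv.Perm α)))).index = 2 := h1
  rw [h4] at h3
  omega

end Cfsg.Agent.S0990
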