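import Mathlib
import Cfsg.Agent.Helper2.SelfCent
import Cfsg.Statements.S0995

set_option autoImplicit false
open Cfsg

namespace Cfsg.Agent.S0995

/-- Let G be a finite perfect group containing an element z of prime order p whose centralizer is the cyclic group it generates. Let t be the number of conjugacy classes of elements of order p. Then t divides p - 1, the number of Sylow p-subgroups has the form 1 + n * p, and |G| * t = (p - 1) * p * (1 + n * p). -/
theorem result {G : Type*} [Group G] [Finite G] (hperf : commutator G = ⊤) (p : ℕ) [Fact p.Prime] (z : G) (hz : orderOf z = p) (hC : Subgroup.centralizer ({z} : Set G) = Subgroup.zpowers z) : ∃ n t : ℕ, t = Nat.card {c : ConjClasses G // ∃ g : G, ConjClasses.mk g = c ∧ orderOf g = p} ∧ t ∣ p - 1 ∧ Nat.card (Sylow p G) = 1 + n * p ∧ Nat.card G * t = (p - 1) * p * (1 + n * p) := by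
  classical
  have hpp : p.Prime := Fact.out
  have hsyl := Helper2.SelfCent.sylow_card p z hz hC
  have hA := Helper2.SelfCent.card_E_classes (G := G) p (Helper2.SelfCent.card_centralizer p z hz hC)
  have hB := Helper2.SelfCent.card_E_sylow (G := G) p hsyl
  have hmod := card_sylow_modEq_one p G
  obtain ⟨Q⟩ : Nonempty (Sylow p G) := inferInstance
  have hidx := Sylow.card_eq_index_normalizer Q
  have hN := Subgroup.card_mul_index (Subgroup.normalizer (Q : Set G))
  have hdvd : p ∣ Nat.card (Subgroup.normalizer (Q : Set G)) := by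
    have := Subgroup.card_dvd_of_le (Subgroup.le_normalizer (H := (Q : Subgroup G)))
    rw [hsyl Q] at this; exact this
  obtain ⟨e, he⟩ := hdvd
  have hnp_pos : 0 < Nat.card (Sylow p G) := Nat.card_pos
  obtain ⟨n, hn⟩ : ∃ n, Nat.card (Sylow p G) = 1 + n * p := by
    have h1 : Nat.card (Sylow p G) % p = 1 % p := hmod
    rw [Nat.mod_eq_of_lt hpp.one_lt] at h1
    refine ⟨Nat.card (Sylow p G) / p, ?_⟩
    have := Nat.div_add_mod (Nat.card (Sylow p G)) p
    rw [h1] at this; linarith [mul_comm p (Nat.card (Sylow p G) / p)]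
  refine ⟨n, _, rfl, ?_, hn, ?_⟩
  · refine ⟨e, ?_⟩
    have h1 : Nat.card (Sylow p G) * (p - 1) * p =
        Nat.card {c : ConjClasses G // ∃ g : G, ConjClasses.mk g = c ∧ orderOf g = p} *
          (p * e * Nat.card (Sylow p G)) := by
      rw [← hB, hA, ← hN, he, ← hidx]
    have h2 : Nat.card (Sylow p G) * p * (p - 1) = Nat.card (Sylow p G) * p *
        (Nat.card {c : ConjClasses G // ∃ g : G, ConjClasses.mk g = c ∧ orderOf g = p} * e) := by
      calc Nat.card (Sylow p G) * p * (p - 1) = Nat.card (Sylow p G) * (p - 1) * p := by ring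
        _ = _ := h1
        _ = _ := by ring
    exact Nat.eq_of_mul_eq_mul_left (Nat.mul_pos hnp_pos hpp.pos) h2
  · rw [← hn, mul_comm (Nat.card G), ← hA, hB]; ring


end Cfsg.Agent.S0995
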