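import Cfsg.Statements.S1003
import Mathlib

set_option autoImplicit false
open Cfsg

namespace Cfsg.Agent.S1003

open scoped Pointwise
/-- Sylow subgroup order from a coprime decomposition of the group order. -/
theorem sylow_card {G : Type*} [Group G] [Finite G] {p : ℕ} [Fact p.Prime] (P : Sylow p G)
    (k m : ℕ) (h : Nat.card G = p ^ k * m) (hm : ¬ p ∣ m) :
    Nat.card (P : Subgroup G) = p ^ k := by
  have hp : p.Prime := Fact.out
  obtain ⟨n, hn⟩ := IsPGroup.iff_card.mp P.isPGroup'
  have h1 : p ^ k ∣ Nat.card (P : Subgroup G) :=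
    P.pow_dvd_card_of_pow_dvd_card (by rw [h]; exact dvd_mul_right _ _)
  have h2 : Nat.card (P : Subgroup G) ∣ Nat.card G := Subgroup.card_subgroup_dvd_card _
  rw [hn] at h1 h2 ⊢
  have hkn : k ≤ n := (Nat.pow_dvd_pow_iff_le_right hp.one_lt).mp h1
  have hnk : n ≤ k := by
    by_contra hlt
    push_neg at hlt
    have h3 : p ^ (k + 1) ∣ p ^ k * m := by
      rw [← h]
      exact (pow_dvd_pow p (Nat.succ_le_of_lt hlt)).trans h2
    rw [pow_succ] at h3
    exact hm ((Nat.mul_dvd_mul_iff_left (pow_pos hp.pos k)).mp h3)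
  rw [le_antisymm hnk hkn]

/-- In a simple group, a proper subgroup of index `k` forces `|G| ∣ k!`. -/
theorem fact_dvd {G : Type*} [Group G] [Finite G] [IsSimpleGroup G] (H : Subgroup G)
    (hH : H ≠ ⊤) : Nat.card G ∣ (H.index).factorial := by
  have hker : (MulAction.toPermHom G (G ⧸ H)).ker = ⊥ := by
    rcases (H.normalCore_normal).eq_bot_or_eq_top with h | h
    · rw [← Subgroup.normalCore_eq_ker]; exact h
    · exfalso
      apply hH
      apply top_le_iff.mp
      rw [← h]
      exact H.normalCore_le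
  have hinj : Function.Injective (MulAction.toPermHom G (G ⧸ H)) :=
    (MonoidHom.ker_eq_bot_iff _).mp hker
  have h1 := Subgroup.card_dvd_of_injective _ hinj
  rw [Nat.card_perm] at h1
  exact h1

/-- Sylow numbers in a simple group: `|G| ∣ n_p!` unless the Sylow subgroup is trivial or
everything. -/
theorem np_fact {G : Type*} [Group G] [Finite G] [IsSimpleGroup G] {p : ℕ} [Fact p.Prime]
    (P : Sylow p G) (h1 : Nat.card (P : Subgroup G) ≠ 1)
    (h2 : Nat.card (P : Subgroup G) ≠ Nat.card G) :
    Nat.card G ∣ (Nat.card (Sylow p G)).factorial := by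
  have hidx : Nat.card (Sylow p G) = (Subgroup.normalizer ((P : Subgroup G) : Set G)).index :=
    P.card_eq_index_normalizer
  rw [hidx]
  apply fact_dvd
  intro htop
  have hn : (P : Subgroup G).Normal :=
    (Subgroup.normalizer_eq_top_iff (H := (P : Subgroup G))).mp htop
  rcases hn.eq_bot_or_eq_top with h | h
  · apply h1; rw [h]; exact Subgroup.card_bot
  · apply h2; rw [h]; exact Subgroup.card_top

/-- If the Sylow `p`-subgroups have order `p` and `p ∣ orderOf g`, then `g` normalizes a Sylow
`p`-subgroup whose normalizer has order different from `orderOf g` (Burnside transfer). -/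
theorem burn {G : Type*} [Group G] [Finite G] [IsSimpleGroup G] {p : ℕ} [Fact p.Prime]
    (hp : ∀ P : Sylow p G, Nat.card (P : Subgroup G) = p) (hG : Nat.card G ≠ p)
    (g : G) (hg : p ∣ orderOf g) :
    ∃ P : Sylow p G, g ∈ Subgroup.normalizer ((P : Subgroup G) : Set G) ∧
      orderOf g ≠ Nat.card (Subgroup.normalizer ((P : Subgroup G) : Set G)) := by
  have hpp : p.Prime := Fact.out
  have hg0 : orderOf g ≠ 0 := (orderOf_pos g).ne'
  have hh : orderOf (g ^ (orderOf g / p)) = p := orderOf_pow_orderOf_div hg0 hg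
  generalize orderOf g / p = m at hh
  have hZ : IsPGroup p (Subgroup.zpowers (g ^ m)) :=
    IsPGroup.of_card (n := 1) (by rw [Nat.card_zpowers, hh, pow_one])
  obtain ⟨P, hP⟩ := hZ.exists_le_sylow
  have hPeq : Subgroup.zpowers (g ^ m) = (P : Subgroup G) :=
    Subgroup.eq_of_le_of_card_ge hP (le_of_eq (by rw [hp P, Nat.card_zpowers, hh]))
  have hcomm : ∀ x ∈ (P : Subgroup G), ∀ j : ℤ, Commute (g ^ j) x := by
    intro x hx j
    rw [← hPeq, Subgroup.mem_zpowers_iff] at hx
    obtain ⟨k, rfl⟩ := hx
    exact (((Commute.refl g).pow_right m).zpow_right k).zpow_left j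
  have hgN : g ∈ Subgroup.normalizer ((P : Subgroup G) : Set G) := by
    refine Subgroup.centralizer_le_normalizer _ ?_
    rw [Subgroup.mem_centralizer_iff]
    intro x hx
    have h1 := hcomm x (SetLike.mem_coe.mp hx) 1
    rw [zpow_one] at h1
    exact h1.eq.symm
  refine ⟨P, hgN, fun heq => ?_⟩
  have hZN : Subgroup.zpowers g = Subgroup.normalizer ((P : Subgroup G) : Set G) :=
    Subgroup.eq_of_le_of_card_ge (Subgroup.zpowers_le.mpr hgN)
      (le_of_eq (by rw [Nat.card_zpowers, heq]))
  have hNC : Subgroup.normalizer ((P : Subgroup G) : Set G) ≤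
      Subgroup.centralizer ((P : Subgroup G) : Set G) := by
    intro n hn
    rw [← hZN, Subgroup.mem_zpowers_iff] at hn
    obtain ⟨j, rfl⟩ := hn
    rw [Subgroup.mem_centralizer_iff]
    intro x hx
    exact (hcomm x (SetLike.mem_coe.mp hx) j).eq.symm
  have hc := MonoidHom.ker_transferSylow_isComplement' P hNC
  have hcard := hc.card_mul_card
  rw [hp P] at hcard
  rcases (MonoidHom.normal_ker (MonoidHom.transferSylow P hNC)).eq_bot_or_eq_top with h | h
  · rw [h, Subgroup.card_bot, one_mul] at hcard
    exact hG hcard.symm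
  · rw [h, Subgroup.card_top] at hcard
    have hpos : 0 < Nat.card G := Nat.card_pos
    have h1 : p = 1 := by
      have h' : Nat.card G * p = Nat.card G * 1 := by rw [mul_one]; exact hcard
      exact Nat.eq_of_mul_eq_mul_left hpos h'
    exact hpp.one_lt.ne' h1

/-- An element of prime power order lies in a Sylow subgroup. -/
theorem mem_sylow {G : Type*} [Group G] [Finite G] (p : ℕ) [Fact p.Prime] (k : ℕ) (g : G)
    (hg : orderOf g = p ^ k) : ∃ P : Sylow p G, g ∈ (P : Subgroup G) := by
  have hZ : IsPGroup p (Subgroup.zpowers g) :=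
    IsPGroup.of_card (n := k) (by rw [Nat.card_zpowers, hg])
  obtain ⟨P, hP⟩ := hZ.exists_le_sylow
  exact ⟨P, hP (Subgroup.mem_zpowers g)⟩

/-- Counting bound for the non-identity elements covered by the Sylow `p`-subgroups. -/
theorem cover_bound {G : Type*} [Group G] [Finite G] (p : ℕ) (c : ℕ)
    (hc : ∀ P : Sylow p G, Nat.card (P : Subgroup G) = c) (S : Finset G)
    (hS : ∀ g ∈ S, g ≠ 1 ∧ ∃ P : Sylow p G, g ∈ (P : Subgroup G)) :
    S.card ≤ Nat.card (Sylow p G) * (c - 1) := by
  classical
  haveI : Fintype G := Fintype.ofFinite G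
  haveI : Fintype (Sylow p G) := Fintype.ofFinite _
  have hsub : S ⊆ (Finset.univ : Finset (Sylow p G)).biUnion
      (fun P => ((Finset.univ : Finset G).filter (fun g => g ∈ (P : Subgroup G))).erase 1) := by
    intro g hg
    obtain ⟨hg1, P, hP⟩ := hS g hg
    simp only [Finset.mem_biUnion, Finset.mem_univ, true_and, Finset.mem_erase,
      Finset.mem_filter]
    exact ⟨P, hg1, hP⟩
  refine (Finset.card_le_card hsub).trans (Finset.card_biUnion_le.trans ?_)
  have hterm : ∀ P ∈ (Finset.univ : Finset (Sylow p G)),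
      (((Finset.univ : Finset G).filter (fun g => g ∈ (P : Subgroup G))).erase 1).card
        = c - 1 := by
    intro P _
    haveI : Fintype (P : Subgroup G) := Fintype.ofFinite _
    have h1 : Nat.card (P : Subgroup G) =
        ((Finset.univ : Finset G).filter (fun g => g ∈ (P : Subgroup G))).card := by
      rw [Nat.card_eq_fintype_card]
      exact Fintype.card_of_subtype _ (by simp)
    rw [Finset.card_erase_of_mem (by simp [one_mem]), ← h1, hc P]
  exact le_of_eq (by
    rw [Finset.sum_congr rfl hterm, Finset.sum_const, Finset.card_univ, smul_eq_mul,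
      Nat.card_eq_fintype_card])

theorem n7_arith (n : ℕ) (d : n ∣ 24) (m : n ≡ 1 [MOD 7]) (f : 168 ∣ n.factorial) : n = 8 := by
  have hle : n ≤ 24 := Nat.le_of_dvd (by norm_num) d
  have hpos : 0 < n := Nat.pos_of_dvd_of_pos d (by norm_num)
  unfold Nat.ModEq at m
  interval_cases n <;> first | omega | (exfalso; revert f; decide)

theorem n3_arith (n : ℕ) (d : n ∣ 56) (m : n ≡ 1 [MOD 3]) (f : 168 ∣ n.factorial) :
    n = 7 ∨ n = 28 := by
  have hle : n ≤ 56 := Nat.le_of_dvd (by norm_num) d
  have hpos : 0 < n := Nat.pos_of_dvd_of_pos d (by norm_num)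
  unfold Nat.ModEq at m
  interval_cases n <;> first | omega | (exfalso; revert f; decide)

theorem n2_arith (n : ℕ) (d : n ∣ 21) (m : n ≡ 1 [MOD 2]) (f : 168 ∣ n.factorial) :
    n = 7 ∨ n = 21 := by
  have hle : n ≤ 21 := Nat.le_of_dvd (by norm_num) d
  have hpos : 0 < n := Nat.pos_of_dvd_of_pos d (by norm_num)
  unfold Nat.ModEq at m
  interval_cases n <;> first | omega | (exfalso; revert f; decide)

theorem ar7 (n : ℕ) (h1 : n ∣ 21) (h2 : 7 ∣ n) (h3 : n ≠ 21) : n = 7 := by
  have hle : n ≤ 21 := Nat.le_of_dvd (by norm_num) h1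
  interval_cases n <;> omega

theorem ar3 (n : ℕ) (h1 : n ∣ 6) (h2 : 3 ∣ n) (h3 : n ≠ 6) : n = 3 := by
  have hle : n ≤ 6 := Nat.le_of_dvd (by norm_num) h1
  interval_cases n <;> omega

theorem ar (n : ℕ) (hd : n ∣ 168) (h7 : ¬ 7 ∣ n) (h3 : ¬ 3 ∣ n) :
    n = 1 ∨ n = 2 ∨ n = 4 ∨ n = 8 := by
  have hle : n ≤ 168 := Nat.le_of_dvd (by norm_num) hd
  interval_cases n <;> omega

/-- A simple group of order 168 has exactly 21 Sylow 2-subgroups, 28 Sylow 3-subgroups and 8 Sylow 7-subgroups. -/
theorem result {G : Type*} [Group G] [Finite G] [IsSimpleGroup G] (h : Nat.card G = 168) : Nat.card (Sylow 2 G) = 21 ∧ Nat.card (Sylow 3 G) = 28 ∧ Nat.card (Sylow 7 G) = 8 := by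
  classical
  haveI : Fact (Nat.Prime 2) := ⟨by norm_num⟩
  haveI : Fact (Nat.Prime 3) := ⟨by norm_num⟩
  haveI : Fact (Nat.Prime 7) := ⟨by norm_num⟩
  have c2 : ∀ P : Sylow 2 G, Nat.card (P : Subgroup G) = 8 := fun P =>
    (sylow_card P 3 21 (h.trans (by norm_num)) (by norm_num)).trans (by norm_num)
  have c3 : ∀ P : Sylow 3 G, Nat.card (P : Subgroup G) = 3 := fun P =>
    (sylow_card P 1 56 (h.trans (by norm_num)) (by norm_num)).trans (by norm_num)
  have c7 : ∀ P : Sylow 7 G, Nat.card (P : Subgroup G) = 7 := fun P =>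
    (sylow_card P 1 24 (h.trans (by norm_num)) (by norm_num)).trans (by norm_num)
  obtain ⟨P2⟩ : Nonempty (Sylow 2 G) := inferInstance
  obtain ⟨P3⟩ : Nonempty (Sylow 3 G) := inferInstance
  obtain ⟨P7⟩ : Nonempty (Sylow 7 G) := inferInstance
  have d2 : Nat.card (Sylow 2 G) ∣ 21 := by
    have h1 := P2.card_dvd_index
    have h2 := (P2 : Subgroup G).card_mul_index
    rw [c2 P2, h] at h2
    have h3 : (P2 : Subgroup G).index = 21 := by omega
    rwa [h3] at h1
  have d3 : Nat.card (Sylow 3 G) ∣ 56 := by
    have h1 := P3.card_dvd_index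
    have h2 := (P3 : Subgroup G).card_mul_index
    rw [c3 P3, h] at h2
    have h3 : (P3 : Subgroup G).index = 56 := by omega
    rwa [h3] at h1
  have d7 : Nat.card (Sylow 7 G) ∣ 24 := by
    have h1 := P7.card_dvd_index
    have h2 := (P7 : Subgroup G).card_mul_index
    rw [c7 P7, h] at h2
    have h3 : (P7 : Subgroup G).index = 24 := by omega
    rwa [h3] at h1
  have m2 := card_sylow_modEq_one 2 G
  have m3 := card_sylow_modEq_one 3 G
  have m7 := card_sylow_modEq_one 7 G
  have f2 := np_fact P2 (by rw [c2 P2]; norm_num) (by rw [c2 P2, h]; norm_num)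
  have f3 := np_fact P3 (by rw [c3 P3]; norm_num) (by rw [c3 P3, h]; norm_num)
  have f7 := np_fact P7 (by rw [c7 P7]; norm_num) (by rw [c7 P7, h]; norm_num)
  rw [h] at f2 f3 f7
  have e7 : Nat.card (Sylow 7 G) = 8 := n7_arith _ d7 m7 f7
  have hN7 : ∀ P : Sylow 7 G,
      Nat.card (Subgroup.normalizer ((P : Subgroup G) : Set G)) = 21 := by
    intro P
    have h1 : Nat.card (Sylow 7 G) = (Subgroup.normalizer ((P : Subgroup G) : Set G)).index :=
      P.card_eq_index_normalizer
    have h2 := (Subgroup.normalizer ((P : Subgroup G) : Set G)).card_mul_index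
    rw [← h1, e7, h] at h2
    omega
  have e3 : Nat.card (Sylow 3 G) = 28 := by
    rcases n3_arith _ d3 m3 f3 with e | e
    · exfalso
      have hN3 : ∀ Q : Sylow 3 G,
          Nat.card (Subgroup.normalizer ((Q : Subgroup G) : Set G)) = 24 := by
        intro Q
        have h1 : Nat.card (Sylow 3 G) =
            (Subgroup.normalizer ((Q : Subgroup G) : Set G)).index :=
          Q.card_eq_index_normalizer
        have h2 := (Subgroup.normalizer ((Q : Subgroup G) : Set G)).card_mul_index
        rw [← h1, e, h] at h2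
        omega
      obtain ⟨N, hNdef⟩ : ∃ N : Subgroup G,
          N = Subgroup.normalizer ((P7 : Subgroup G) : Set G) := ⟨_, rfl⟩
      have hNcard : Nat.card N = 21 := by rw [hNdef]; exact hN7 P7
      have hP7N : (P7 : Subgroup G) ≤ N := by rw [hNdef]; exact Subgroup.le_normalizer
      obtain ⟨x, hx⟩ := exists_prime_orderOf_dvd_card' (G := ↥N) 3 (by rw [hNcard]; norm_num)
      have hx' : orderOf (x : G) = 3 := by rw [Subgroup.orderOf_coe]; exact hx
      have hZ : IsPGroup 3 (Subgroup.zpowers (x : G)) :=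
        IsPGroup.of_card (n := 1) (by rw [Nat.card_zpowers, hx', pow_one])
      obtain ⟨Q, hQ⟩ := hZ.exists_le_sylow
      have hQeq : Subgroup.zpowers (x : G) = (Q : Subgroup G) :=
        Subgroup.eq_of_le_of_card_ge hQ (le_of_eq (by rw [c3 Q, Nat.card_zpowers, hx']))
      have hQN : (Q : Subgroup G) ≤ N := by
        rw [← hQeq]; exact Subgroup.zpowers_le.mpr x.2
      have hf : Function.Injective (fun y : (P7 : Subgroup G) => ((y : G) • Q : Sylow 3 G)) := by
        intro y z hyz
        have hyz' : (y : G) • Q = (z : G) • Q := hyz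
        have h1 : ((z : G)⁻¹ * (y : G)) • Q = Q := by
          rw [mul_smul, hyz', inv_smul_smul]
        have h2' := Sylow.smul_eq_iff_mem_normalizer.mp h1
        have h2 : (z : G)⁻¹ * (y : G) ∈ Subgroup.normalizer ((Q : Subgroup G) : Set G) := h2'
        have h3 : (z : G)⁻¹ * (y : G) ∈ (P7 : Subgroup G) := mul_mem (inv_mem z.2) y.2
        have h4 : orderOf ((z : G)⁻¹ * (y : G)) ∣ 24 := by
          have h4' := Subgroup.orderOf_dvd_natCard _ h2
          rwa [hN3 Q] at h4'
        have h5 : orderOf ((z : G)⁻¹ * (y : G)) ∣ 7 := by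
          have h5' := Subgroup.orderOf_dvd_natCard _ h3
          rwa [c7 P7] at h5'
        have h6 : orderOf ((z : G)⁻¹ * (y : G)) = 1 := by
          have h6' := Nat.dvd_gcd h4 h5
          simpa using h6'
        rw [orderOf_eq_one_iff] at h6
        exact Subtype.ext (inv_mul_eq_one.mp h6).symm
      have hbij : Function.Bijective
          (fun y : (P7 : Subgroup G) => ((y : G) • Q : Sylow 3 G)) := by
        rw [Nat.bijective_iff_injective_and_card]
        exact ⟨hf, by rw [c7 P7, e]⟩
      have hall : ∀ Q' : Sylow 3 G, (Q' : Subgroup G) ≤ N := by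
        intro Q'
        obtain ⟨y, rfl⟩ := hbij.2 Q'
        have hyN : (y : G) ∈ N := hP7N y.2
        have h1 : (((y : G) • Q : Sylow 3 G) : Subgroup G) =
            MulAut.conj (y : G) • (Q : Subgroup G) := Sylow.coe_subgroup_smul
        show (((y : G) • Q : Sylow 3 G) : Subgroup G) ≤ N
        rw [h1]
        exact Subgroup.conj_smul_le_of_le hQN ⟨(y : G), hyN⟩
      have hK : Subgroup.normalClosure ((Q : Subgroup G) : Set G) ≤ N := by
        rw [Subgroup.normalClosure, Subgroup.closure_le]
        intro a ha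
        rw [Group.mem_conjugatesOfSet_iff] at ha
        obtain ⟨b, hb, hab⟩ := ha
        rw [isConj_iff] at hab
        obtain ⟨c, rfl⟩ := hab
        have hmem : c * b * c⁻¹ ∈ ((c • Q : Sylow 3 G) : Subgroup G) := by
          rw [Sylow.coe_subgroup_smul]
          exact Subgroup.smul_mem_pointwise_smul b (MulAut.conj c) _ (SetLike.mem_coe.mp hb)
        exact hall (c • Q) hmem
      have hKtop : Subgroup.normalClosure ((Q : Subgroup G) : Set G) = ⊤ := by
        rcases (Subgroup.normalClosure_normal
          (s := ((Q : Subgroup G) : Set G))).eq_bot_or_eq_top with hb | ht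
        · exfalso
          have h0 : (Q : Subgroup G) ≤ ⊥ := by
            rw [← hb]; exact Subgroup.le_normalClosure
          have h1 : (Q : Subgroup G) = ⊥ := le_bot_iff.mp h0
          have h2 := c3 Q
          rw [h1, Subgroup.card_bot] at h2
          omega
        · exact ht
      have hNtop : N = ⊤ := by
        apply top_le_iff.mp
        rw [← hKtop]; exact hK
      rw [hNtop, Subgroup.card_top, h] at hNcard
      omega
    · exact e
  have e2 : Nat.card (Sylow 2 G) = 21 := by
    rcases n2_arith _ d2 m2 f2 with e | e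
    · exfalso
      have hN3 : ∀ Q : Sylow 3 G,
          Nat.card (Subgroup.normalizer ((Q : Subgroup G) : Set G)) = 6 := by
        intro Q
        have h1 : Nat.card (Sylow 3 G) =
            (Subgroup.normalizer ((Q : Subgroup G) : Set G)).index :=
          Q.card_eq_index_normalizer
        have h2 := (Subgroup.normalizer ((Q : Subgroup G) : Set G)).card_mul_index
        rw [← h1, e3, h] at h2
        omega
      have hord : ∀ g : G, orderOf g = 1 ∨ orderOf g = 2 ∨ orderOf g = 4 ∨ orderOf g = 8 ∨
          orderOf g = 3 ∨ orderOf g = 7 := by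
        intro g
        have hd : orderOf g ∣ 168 := by rw [← h]; exact orderOf_dvd_natCard g
        by_cases h7 : 7 ∣ orderOf g
        · obtain ⟨P, hP, hne⟩ := burn c7 (by rw [h]; norm_num) g h7
          have hd' := Subgroup.orderOf_dvd_natCard _ hP
          rw [hN7 P] at hd' hne
          exact Or.inr (Or.inr (Or.inr (Or.inr (Or.inr (ar7 _ hd' h7 hne)))))
        by_cases h3 : 3 ∣ orderOf g
        · obtain ⟨P, hP, hne⟩ := burn c3 (by rw [h]; norm_num) g h3
          have hd' := Subgroup.orderOf_dvd_natCard _ hP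
          rw [hN3 P] at hd' hne
          exact Or.inr (Or.inr (Or.inr (Or.inr (Or.inl (ar3 _ hd' h3 hne)))))
        rcases ar _ hd h7 h3 with ho | ho | ho | ho
        · exact Or.inl ho
        · exact Or.inr (Or.inl ho)
        · exact Or.inr (Or.inr (Or.inl ho))
        · exact Or.inr (Or.inr (Or.inr (Or.inl ho)))
      haveI : Fintype G := Fintype.ofFinite G
      obtain ⟨S2, hS2⟩ : ∃ S : Finset G, S = Finset.univ.filter
        (fun g => g ≠ 1 ∧ ∃ P : Sylow 2 G, g ∈ (P : Subgroup G)) := ⟨_, rfl⟩
      obtain ⟨S3, hS3⟩ : ∃ S : Finset G, S = Finset.univ.filter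
        (fun g => g ≠ 1 ∧ ∃ P : Sylow 3 G, g ∈ (P : Subgroup G)) := ⟨_, rfl⟩
      obtain ⟨S7, hS7⟩ : ∃ S : Finset G, S = Finset.univ.filter
        (fun g => g ≠ 1 ∧ ∃ P : Sylow 7 G, g ∈ (P : Subgroup G)) := ⟨_, rfl⟩
      have b2 : S2.card ≤ Nat.card (Sylow 2 G) * (8 - 1) :=
        cover_bound 2 8 c2 S2 (fun g hg => by rw [hS2] at hg; exact (Finset.mem_filter.mp hg).2)
      have b3 : S3.card ≤ Nat.card (Sylow 3 G) * (3 - 1) :=
        cover_bound 3 3 c3 S3 (fun g hg => by rw [hS3] at hg; exact (Finset.mem_filter.mp hg).2)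
      have b7 : S7.card ≤ Nat.card (Sylow 7 G) * (7 - 1) :=
        cover_bound 7 7 c7 S7 (fun g hg => by rw [hS7] at hg; exact (Finset.mem_filter.mp hg).2)
      rw [e] at b2
      rw [e3] at b3
      rw [e7] at b7
      have hcov : (Finset.univ : Finset G) ⊆ {1} ∪ (S2 ∪ (S3 ∪ S7)) := by
        intro g _
        by_cases hg1 : g = 1
        · exact Finset.mem_union_left _ (Finset.mem_singleton.mpr hg1)
        · have k2 : (∃ P : Sylow 2 G, g ∈ (P : Subgroup G)) → g ∈ {1} ∪ (S2 ∪ (S3 ∪ S7)) := by
            intro hP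
            refine Finset.mem_union_right _ (Finset.mem_union_left _ ?_)
            rw [hS2]
            exact Finset.mem_filter.mpr ⟨Finset.mem_univ _, hg1, hP⟩
          rcases hord g with ho | ho | ho | ho | ho | ho
          · exact absurd (orderOf_eq_one_iff.mp ho) hg1
          · exact k2 (mem_sylow 2 1 g (ho.trans (by norm_num)))
          · exact k2 (mem_sylow 2 2 g (ho.trans (by norm_num)))
          · exact k2 (mem_sylow 2 3 g (ho.trans (by norm_num)))
          · refine Finset.mem_union_right _ (Finset.mem_union_right _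
              (Finset.mem_union_left _ ?_))
            rw [hS3]
            exact Finset.mem_filter.mpr ⟨Finset.mem_univ _, hg1,
              mem_sylow 3 1 g (ho.trans (by norm_num))⟩
          · refine Finset.mem_union_right _ (Finset.mem_union_right _
              (Finset.mem_union_right _ ?_))
            rw [hS7]
            exact Finset.mem_filter.mpr ⟨Finset.mem_univ _, hg1,
              mem_sylow 7 1 g (ho.trans (by norm_num))⟩
      have hcard := Finset.card_le_card hcov
      have hu : (Finset.univ : Finset G).card = 168 := by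
        rw [Finset.card_univ, ← Nat.card_eq_fintype_card, h]
      have h1 := Finset.card_union_le ({1} : Finset G) (S2 ∪ (S3 ∪ S7))
      have h2 := Finset.card_union_le S2 (S3 ∪ S7)
      have h3 := Finset.card_union_le S3 S7
      rw [Finset.card_singleton] at h1
      omega
    · exact e
  exact ⟨e2, e3, e7⟩

end Cfsg.Agent.S1003
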