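import Cfsg.Statements.S1005
import Mathlib
import Cfsg.Agent.S1003

set_option autoImplicit false
open Cfsg

namespace Cfsg.Agent.S1005

open scoped Pointwise

/-- Basic data for a simple group of order 168. -/
theorem data {G : Type*} [Group G] [Finite G] [IsSimpleGroup G] (h : Nat.card G = 168) :
    (∀ P : Sylow 2 G, Nat.card (P : Subgroup G) = 8) ∧
    (∀ P : Sylow 3 G, Nat.card (P : Subgroup G) = 3) ∧
    (∀ P : Sylow 7 G, Nat.card (P : Subgroup G) = 7) ∧
    (∀ P : Sylow 2 G, Nat.card (Subgroup.normalizer ((P : Subgroup G) : Set G)) = 8) ∧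
    (∀ g : G, orderOf g = 1 ∨ orderOf g = 2 ∨ orderOf g = 4 ∨ orderOf g = 8 ∨
      orderOf g = 3 ∨ orderOf g = 7) := by
  haveI : Fact (Nat.Prime 2) := ⟨by norm_num⟩
  haveI : Fact (Nat.Prime 3) := ⟨by norm_num⟩
  haveI : Fact (Nat.Prime 7) := ⟨by norm_num⟩
  obtain ⟨e2, e3, e7⟩ := Cfsg.Agent.S1003.result h
  have c2 : ∀ P : Sylow 2 G, Nat.card (P : Subgroup G) = 8 := fun P =>
    (Cfsg.Agent.S1003.sylow_card P 3 21 (h.trans (by norm_num)) (by norm_num)).trans (by norm_num)
  have c3 : ∀ P : Sylow 3 G, Nat.card (P : Subgroup G) = 3 := fun P =>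
    (Cfsg.Agent.S1003.sylow_card P 1 56 (h.trans (by norm_num)) (by norm_num)).trans (by norm_num)
  have c7 : ∀ P : Sylow 7 G, Nat.card (P : Subgroup G) = 7 := fun P =>
    (Cfsg.Agent.S1003.sylow_card P 1 24 (h.trans (by norm_num)) (by norm_num)).trans (by norm_num)
  have hN7 : ∀ P : Sylow 7 G,
      Nat.card (Subgroup.normalizer ((P : Subgroup G) : Set G)) = 21 := by
    intro P
    have h1 : Nat.card (Sylow 7 G) = (Subgroup.normalizer ((P : Subgroup G) : Set G)).index :=
      P.card_eq_index_normalizer
    have h2 := (Subgroup.normalizer ((P : Subgroup G) : Set G)).card_mul_index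
    rw [← h1, e7, h] at h2
    omega
  have hN3 : ∀ P : Sylow 3 G,
      Nat.card (Subgroup.normalizer ((P : Subgroup G) : Set G)) = 6 := by
    intro P
    have h1 : Nat.card (Sylow 3 G) = (Subgroup.normalizer ((P : Subgroup G) : Set G)).index :=
      P.card_eq_index_normalizer
    have h2 := (Subgroup.normalizer ((P : Subgroup G) : Set G)).card_mul_index
    rw [← h1, e3, h] at h2
    omega
  have hN2 : ∀ P : Sylow 2 G,
      Nat.card (Subgroup.normalizer ((P : Subgroup G) : Set G)) = 8 := by
    intro P
    have h1 : Nat.card (Sylow 2 G) = (Subgroup.normalizer ((P : Subgroup G) : Set G)).index :=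
      P.card_eq_index_normalizer
    have h2 := (Subgroup.normalizer ((P : Subgroup G) : Set G)).card_mul_index
    rw [← h1, e2, h] at h2
    omega
  refine ⟨c2, c3, c7, hN2, ?_⟩
  intro g
  have hd : orderOf g ∣ 168 := by rw [← h]; exact orderOf_dvd_natCard g
  by_cases h7 : 7 ∣ orderOf g
  · obtain ⟨P, hP, hne⟩ := Cfsg.Agent.S1003.burn c7 (by rw [h]; norm_num) g h7
    have hd' := Subgroup.orderOf_dvd_natCard _ hP
    rw [hN7 P] at hd' hne
    exact Or.inr (Or.inr (Or.inr (Or.inr (Or.inr (Cfsg.Agent.S1003.ar7 _ hd' h7 hne)))))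
  by_cases h3 : 3 ∣ orderOf g
  · obtain ⟨P, hP, hne⟩ := Cfsg.Agent.S1003.burn c3 (by rw [h]; norm_num) g h3
    have hd' := Subgroup.orderOf_dvd_natCard _ hP
    rw [hN3 P] at hd' hne
    exact Or.inr (Or.inr (Or.inr (Or.inr (Or.inl (Cfsg.Agent.S1003.ar3 _ hd' h3 hne)))))
  rcases Cfsg.Agent.S1003.ar _ hd h7 h3 with ho | ho | ho | ho
  · exact Or.inl ho
  · exact Or.inr (Or.inl ho)
  · exact Or.inr (Or.inr (Or.inl ho))
  · exact Or.inr (Or.inr (Or.inr (Or.inl ho)))

/-- A Sylow 2-subgroup of a simple group of order 168 is not abelian (Burnside transfer). -/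
theorem nonab {G : Type*} [Group G] [Finite G] [IsSimpleGroup G] (h : Nat.card G = 168)
    (T : Sylow 2 G)
    (hab : ∀ a ∈ (T : Subgroup G), ∀ b ∈ (T : Subgroup G), a * b = b * a) : False := by
  haveI : Fact (Nat.Prime 2) := ⟨by norm_num⟩
  obtain ⟨c2, -, -, hN2, -⟩ := data h
  have hTN : (T : Subgroup G) = Subgroup.normalizer ((T : Subgroup G) : Set G) :=
    Subgroup.eq_of_le_of_card_ge Subgroup.le_normalizer (le_of_eq (by rw [hN2 T, c2 T]))
  have hNC : Subgroup.normalizer ((T : Subgroup G) : Set G) ≤
      Subgroup.centralizer ((T : Subgroup G) : Set G) := by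
    intro n hn
    rw [← hTN] at hn
    rw [Subgroup.mem_centralizer_iff]
    intro x hx
    exact hab x (SetLike.mem_coe.mp hx) n hn
  have hc := MonoidHom.ker_transferSylow_isComplement' T hNC
  have hcard := hc.card_mul_card
  rw [c2 T, h] at hcard
  rcases (MonoidHom.normal_ker (MonoidHom.transferSylow T hNC)).eq_bot_or_eq_top with h1 | h1
  · rw [h1, Subgroup.card_bot] at hcard
    omega
  · rw [h1, Subgroup.card_top, h] at hcard
    omega

/-- The centralizer of an involution has order dividing 8. -/
theorem cent_dvd {G : Type*} [Group G] [Finite G] [IsSimpleGroup G] (h : Nat.card G = 168)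
    (z : G) (hz : orderOf z = 2) : Nat.card (Subgroup.centralizer ({z} : Set G)) ∣ 8 := by
  haveI : Fact (Nat.Prime 3) := ⟨by norm_num⟩
  haveI : Fact (Nat.Prime 7) := ⟨by norm_num⟩
  obtain ⟨-, -, -, -, hord⟩ := data h
  have hd : Nat.card (Subgroup.centralizer ({z} : Set G)) ∣ 168 := by
    rw [← h]; exact Subgroup.card_subgroup_dvd_card _
  have key : ∀ p : ℕ, p = 3 ∨ p = 7 → ∀ x : G, x ∈ Subgroup.centralizer ({z} : Set G) →
      orderOf x ≠ p := by
    intro p hp x hx hxp
    have hcomm : Commute x z := by
      rw [Subgroup.mem_centralizer_iff] at hx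
      exact (hx z (Set.mem_singleton z)).symm
    have hco : (orderOf x).Coprime (orderOf z) := by
      rw [hxp, hz]; rcases hp with rfl | rfl <;> decide
    have hmul := hcomm.orderOf_mul_eq_mul_orderOf_of_coprime hco
    rw [hxp, hz] at hmul
    rcases hp with rfl | rfl
    · rcases hord (x * z) with ho | ho | ho | ho | ho | ho <;> omega
    · rcases hord (x * z) with ho | ho | ho | ho | ho | ho <;> omega
  have h3 : ¬ 3 ∣ Nat.card (Subgroup.centralizer ({z} : Set G)) := by
    intro hdvd
    obtain ⟨x, hx⟩ := exists_prime_orderOf_dvd_card'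
      (G := ↥(Subgroup.centralizer ({z} : Set G))) 3 hdvd
    exact key 3 (Or.inl rfl) (x : G) x.2 (by rw [Subgroup.orderOf_coe]; exact hx)
  have h7 : ¬ 7 ∣ Nat.card (Subgroup.centralizer ({z} : Set G)) := by
    intro hdvd
    obtain ⟨x, hx⟩ := exists_prime_orderOf_dvd_card'
      (G := ↥(Subgroup.centralizer ({z} : Set G))) 7 hdvd
    exact key 7 (Or.inr rfl) (x : G) x.2 (by rw [Subgroup.orderOf_coe]; exact hx)
  have hfin := Cfsg.Agent.S1003.ar _ hd h7 h3
  generalize Nat.card (Subgroup.centralizer ({z} : Set G)) = n at hfin ⊢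
  rcases hfin with rfl | rfl | rfl | rfl <;> decide

/-- Class equation for one class: `|class(x)| · |C(x)| = |G|`. -/
theorem class_card {G : Type*} [Group G] [Finite G] (x : G) :
    Nat.card {g : G // IsConj x g} * Nat.card (Subgroup.centralizer ({x} : Set G))
      = Nat.card G := by
  have h1 := MulAction.index_stabilizer (G := ConjAct G) (x := x)
  have h2 := (MulAction.stabilizer (ConjAct G) x).card_mul_index
  have h3 : Nat.card (MulAction.stabilizer (ConjAct G) x) =
      Nat.card (Subgroup.centralizer ({x} : Set G)) := by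
    rw [ConjAct.stabilizer_eq_centralizer]; rfl
  have h4 : (MulAction.orbit (ConjAct G) x).ncard = Nat.card {g : G // IsConj x g} := by
    rw [← Nat.card_coe_set_eq]
    apply Nat.card_congr
    exact Equiv.subtypeEquivRight (fun g => by
      rw [ConjAct.mem_orbit_conjAct]; exact isConj_comm)
  have h5 : Nat.card (ConjAct G) = Nat.card G := rfl
  rw [h3, h1, h4, h5] at h2
  rw [mul_comm]; exact h2

theorem ord_conj {G : Type*} [Group G] (c x : G) : orderOf (c * x * c⁻¹) = orderOf x :=
  orderOf_injective (MulAut.conj c).toMonoidHom (MulAut.conj c).injective x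

/-- Lower bound for the number of elements of order `p` when Sylow `p`-subgroups have order `p`. -/
theorem order_count {G : Type*} [Group G] [Finite G] (p : ℕ) [Fact p.Prime]
    (hc : ∀ P : Sylow p G, Nat.card (P : Subgroup G) = p) (S : Finset G)
    (hS : ∀ g : G, orderOf g = p → g ∈ S) :
    Nat.card (Sylow p G) * (p - 1) ≤ S.card := by
  classical
  have hp : p.Prime := Fact.out
  haveI : Fintype G := Fintype.ofFinite G
  haveI : Fintype (Sylow p G) := Fintype.ofFinite _
  have hterm : ∀ P ∈ (Finset.univ : Finset (Sylow p G)),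
      (((Finset.univ : Finset G).filter (fun g => g ∈ (P : Subgroup G))).erase 1).card
        = p - 1 := by
    intro P _
    haveI : Fintype (P : Subgroup G) := Fintype.ofFinite _
    have h1 : Nat.card (P : Subgroup G) =
        ((Finset.univ : Finset G).filter (fun g => g ∈ (P : Subgroup G))).card := by
      rw [Nat.card_eq_fintype_card]
      exact Fintype.card_of_subtype _ (by simp)
    rw [Finset.card_erase_of_mem (by simp [one_mem]), ← h1, hc P]
  have hord : ∀ (Q : Sylow p G) (g : G), g ≠ 1 → g ∈ (Q : Subgroup G) → orderOf g = p := by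
    intro Q g hg1 hQ
    have hd := Subgroup.orderOf_dvd_natCard _ hQ
    rw [hc Q] at hd
    rcases (Nat.dvd_prime hp).mp hd with h1 | h1
    · exact absurd (orderOf_eq_one_iff.mp h1) hg1
    · exact h1
  have hdisj : ∀ P P' : Sylow p G, P ≠ P' →
      Disjoint (((Finset.univ : Finset G).filter (fun g => g ∈ (P : Subgroup G))).erase 1)
        (((Finset.univ : Finset G).filter (fun g => g ∈ (P' : Subgroup G))).erase 1) := by
    intro P P' hne
    rw [Finset.disjoint_left]
    intro g hg hg'
    simp only [Finset.mem_erase, Finset.mem_filter, Finset.mem_univ, true_and] at hg hg'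
    apply hne
    have key : ∀ Q : Sylow p G, g ∈ (Q : Subgroup G) →
        Subgroup.zpowers g = (Q : Subgroup G) := by
      intro Q hQ
      exact Subgroup.eq_of_le_of_card_ge (Subgroup.zpowers_le.mpr hQ)
        (le_of_eq (by rw [hc Q, Nat.card_zpowers, hord Q g hg.1 hQ]))
    exact Sylow.ext ((key P hg.2).symm.trans (key P' hg'.2))
  have hsub : (Finset.univ : Finset (Sylow p G)).biUnion
      (fun P => ((Finset.univ : Finset G).filter (fun g => g ∈ (P : Subgroup G))).erase 1)
        ⊆ S := by
    intro g hg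
    simp only [Finset.mem_biUnion, Finset.mem_univ, true_and, Finset.mem_erase,
      Finset.mem_filter] at hg
    obtain ⟨P, hg1, hP⟩ := hg
    exact hS g (hord P g hg1 hP)
  have hcard := Finset.card_le_card hsub
  rw [Finset.card_biUnion (fun P _ P' _ hne => hdisj P P' hne), Finset.sum_congr rfl hterm,
    Finset.sum_const, Finset.card_univ, smul_eq_mul, ← Nat.card_eq_fintype_card] at hcard
  exact hcard

theorem arU (m c : ℕ) (h1 : m ∣ 8) (h2 : 3 ≤ m) (h3 : m < c) (h4 : c < 8) (h5 : c ∣ 8) :
    False := by
  have h6 : 4 ≤ c := by omega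
  interval_cases c <;> interval_cases m <;> omega

/-- A Sylow 2-subgroup has at most one non-identity central element. -/
theorem central_unique {G : Type*} [Group G] [Finite G] [IsSimpleGroup G]
    (h : Nat.card G = 168) (T : Sylow 2 G) (z w : G)
    (hz : z ∈ (T : Subgroup G)) (hw : w ∈ (T : Subgroup G))
    (hzc : ∀ t ∈ (T : Subgroup G), t * z = z * t)
    (hwc : ∀ t ∈ (T : Subgroup G), t * w = w * t)
    (hz1 : z ≠ 1) (hw1 : w ≠ 1) (hzw : z ≠ w) : False := by
  classical
  obtain ⟨c2, -, -, -, -⟩ := data h
  apply nonab h T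
  obtain ⟨Z, hZ⟩ : ∃ Z : Subgroup G,
      Z = (T : Subgroup G) ⊓ Subgroup.centralizer ((T : Subgroup G) : Set G) := ⟨_, rfl⟩
  have hZT : Z ≤ (T : Subgroup G) := by rw [hZ]; exact inf_le_left
  have hZd : Nat.card Z ∣ 8 := by rw [← c2 T]; exact Subgroup.card_dvd_of_le hZT
  have memZ : ∀ u : G, u ∈ (T : Subgroup G) → (∀ t ∈ (T : Subgroup G), t * u = u * t) →
      u ∈ Z := by
    intro u hu huc
    rw [hZ]
    refine Subgroup.mem_inf.mpr ⟨hu, ?_⟩
    rw [Subgroup.mem_centralizer_iff]
    intro t ht
    exact huc t (SetLike.mem_coe.mp ht)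
  have Zmem : ∀ u : G, u ∈ Z → ∀ t ∈ (T : Subgroup G), t * u = u * t := by
    intro u hu t ht
    rw [hZ] at hu
    have h2 := (Subgroup.mem_inf.mp hu).2
    rw [Subgroup.mem_centralizer_iff] at h2
    exact h2 t (SetLike.mem_coe.mpr ht)
  have hZ3 : 3 ≤ Nat.card Z := by
    haveI : Fintype Z := Fintype.ofFinite _
    have h3 : ({⟨1, Z.one_mem⟩, ⟨z, memZ z hz hzc⟩, ⟨w, memZ w hw hwc⟩} : Finset Z).card
        = 3 := by
      rw [Finset.card_eq_three]
      refine ⟨_, _, _, ?_, ?_, ?_, rfl⟩
      · intro heq; exact hz1 (congrArg Subtype.val heq).symm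
      · intro heq; exact hw1 (congrArg Subtype.val heq).symm
      · intro heq; exact hzw (congrArg Subtype.val heq)
    rw [Nat.card_eq_fintype_card, ← h3]
    exact Finset.card_le_univ _
  have hall : ∀ a ∈ (T : Subgroup G), a ∈ Z := by
    intro a ha
    by_contra haZ
    obtain ⟨Ca, hCa⟩ : ∃ Ca : Subgroup G,
        Ca = (T : Subgroup G) ⊓ Subgroup.centralizer ({a} : Set G) := ⟨_, rfl⟩
    have hCaT : Ca ≤ (T : Subgroup G) := by rw [hCa]; exact inf_le_left
    have hZCa : Z ≤ Ca := by
      intro u hu
      rw [hCa]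
      refine Subgroup.mem_inf.mpr ⟨hZT hu, ?_⟩
      rw [Subgroup.mem_centralizer_iff]
      intro t ht
      rw [Set.mem_singleton_iff] at ht
      rw [ht]
      exact Zmem u hu a ha
    have haCa : a ∈ Ca := by
      rw [hCa]
      refine Subgroup.mem_inf.mpr ⟨ha, ?_⟩
      rw [Subgroup.mem_centralizer_iff]
      intro t ht
      rw [Set.mem_singleton_iff] at ht
      rw [ht]
    have hCad : Nat.card Ca ∣ 8 := by rw [← c2 T]; exact Subgroup.card_dvd_of_le hCaT
    have hlt1 : Nat.card Z < Nat.card Ca := by
      by_contra hge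
      push_neg at hge
      have heq := Subgroup.eq_of_le_of_card_ge hZCa hge
      apply haZ
      rw [heq]; exact haCa
    have hCaT' : Ca ≠ (T : Subgroup G) := by
      intro heq
      apply haZ
      apply memZ a ha
      intro t ht
      have htC : t ∈ Ca := by rw [heq]; exact ht
      rw [hCa] at htC
      have h2 := (Subgroup.mem_inf.mp htC).2
      rw [Subgroup.mem_centralizer_iff] at h2
      exact (h2 a (Set.mem_singleton a)).symm
    have hlt2 : Nat.card Ca < 8 := by
      by_contra hge
      push_neg at hge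
      apply hCaT'
      exact Subgroup.eq_of_le_of_card_ge hCaT (by rw [c2 T]; exact hge)
    exact arU _ _ hZd hZ3 hlt1 hlt2 hCad
  intro a ha b hb
  exact Zmem b (hall b hb) a ha

/-- In a simple group of order 168 every element has order 1, 2, 3, 4 or 7; there are exactly 21 elements of order 2, and any two of them are conjugate. -/
theorem result {G : Type*} [Group G] [Finite G] [IsSimpleGroup G] (h : Nat.card G = 168) : (∀ g : G, orderOf g = 1 ∨ orderOf g = 2 ∨ orderOf g = 3 ∨ orderOf g = 4 ∨ orderOf g = 7) ∧ Nat.card {g : G // orderOf g = 2} = 21 ∧ ∀ s t : G, orderOf s = 2 → orderOf t = 2 → IsConj s t := by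
  classical
  haveI : Fact (Nat.Prime 2) := ⟨by norm_num⟩
  haveI : Fact (Nat.Prime 3) := ⟨by norm_num⟩
  haveI : Fact (Nat.Prime 7) := ⟨by norm_num⟩
  obtain ⟨e2, e3, e7⟩ := Cfsg.Agent.S1003.result h
  obtain ⟨c2, c3, c7, hN2, hord⟩ := data h
  have h8 : ∀ g : G, orderOf g ≠ 8 := by
    intro g hg
    obtain ⟨T, hT⟩ := Cfsg.Agent.S1003.mem_sylow 2 3 g (hg.trans (by norm_num))
    have hTeq : Subgroup.zpowers g = (T : Subgroup G) :=
      Subgroup.eq_of_le_of_card_ge (Subgroup.zpowers_le.mpr hT)
        (le_of_eq (by rw [c2 T, Nat.card_zpowers, hg]))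
    apply nonab h T
    intro a ha b hb
    rw [← hTeq, Subgroup.mem_zpowers_iff] at ha hb
    obtain ⟨i, rfl⟩ := ha
    obtain ⟨j, rfl⟩ := hb
    exact (((Commute.refl g).zpow_right j).zpow_left i).eq
  have part1 : ∀ g : G, orderOf g = 1 ∨ orderOf g = 2 ∨ orderOf g = 3 ∨ orderOf g = 4 ∨
      orderOf g = 7 := by
    intro g
    rcases hord g with ho | ho | ho | ho | ho | ho
    · exact Or.inl ho
    · exact Or.inr (Or.inl ho)
    · exact Or.inr (Or.inr (Or.inr (Or.inl ho)))
    · exact absurd ho (h8 g)
    · exact Or.inr (Or.inr (Or.inl ho))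
    · exact Or.inr (Or.inr (Or.inr (Or.inr ho)))
  obtain ⟨T0⟩ : Nonempty (Sylow 2 G) := inferInstance
  obtain ⟨z0, hz0T, hz0o, hz0c⟩ : ∃ z : G, z ∈ (T0 : Subgroup G) ∧ orderOf z = 2 ∧
      ∀ t ∈ (T0 : Subgroup G), t * z = z * t := by
    haveI : Nontrivial (T0 : Subgroup G) := by
      rw [← Finite.one_lt_card_iff_nontrivial, c2 T0]; norm_num
    have hpg : IsPGroup 2 (T0 : Subgroup G) := T0.isPGroup'
    haveI := hpg.center_nontrivial
    have hcpg : IsPGroup 2 (Subgroup.center (T0 : Subgroup G)) := hpg.to_subgroup _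
    have hdvd : 2 ∣ Nat.card (Subgroup.center (T0 : Subgroup G)) := by
      rcases hcpg.card_eq_or_dvd with h1 | h1
      · exfalso
        have h2 := Finite.one_lt_card_iff_nontrivial.mpr
          (inferInstance : Nontrivial (Subgroup.center (T0 : Subgroup G)))
        omega
      · exact h1
    obtain ⟨c, hc⟩ := exists_prime_orderOf_dvd_card'
      (G := ↥(Subgroup.center (T0 : Subgroup G))) 2 hdvd
    refine ⟨((c : (T0 : Subgroup G)) : G), (c : (T0 : Subgroup G)).2, ?_, ?_⟩
    · rw [Subgroup.orderOf_coe, Subgroup.orderOf_coe]; exact hc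
    · intro t ht
      have h1 := Subgroup.mem_center_iff.mp c.2 ⟨t, ht⟩
      exact congrArg Subtype.val h1
  have hC0 : Nat.card (Subgroup.centralizer ({z0} : Set G)) = 8 := by
    have hd := cent_dvd h z0 hz0o
    have hle : (T0 : Subgroup G) ≤ Subgroup.centralizer ({z0} : Set G) := by
      intro t ht
      rw [Subgroup.mem_centralizer_iff]
      intro u hu
      rw [Set.mem_singleton_iff] at hu
      rw [hu]
      exact (hz0c t ht).symm
    have hd2 := Subgroup.card_dvd_of_le hle
    rw [c2 T0] at hd2
    exact Nat.dvd_antisymm hd hd2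
  have hK0 := class_card z0
  rw [hC0, h] at hK0
  have hK0' : Nat.card {g : G // IsConj z0 g} = 21 := by omega
  have hconj : ∀ t : G, orderOf t = 2 → IsConj z0 t := by
    intro t ht
    by_contra hnc
    have hCt := cent_dvd h t ht
    have hKt := class_card t
    rw [h] at hKt
    by_cases h8' : Nat.card (Subgroup.centralizer ({t} : Set G)) = 8
    · have hpg : IsPGroup 2 (Subgroup.centralizer ({t} : Set G)) :=
        IsPGroup.of_card (n := 3) (by rw [h8']; norm_num)
      obtain ⟨T', hT'⟩ := hpg.exists_le_sylow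
      have hTeq : Subgroup.centralizer ({t} : Set G) = (T' : Subgroup G) :=
        Subgroup.eq_of_le_of_card_ge hT' (le_of_eq (by rw [c2 T', h8']))
      obtain ⟨g, hg⟩ := MulAction.exists_smul_eq G T0 T'
      have hmem : ∀ x : G, x ∈ (T' : Subgroup G) ↔ g⁻¹ * x * g ∈ (T0 : Subgroup G) := by
        intro x
        rw [← hg, Sylow.coe_subgroup_smul, Subgroup.mem_pointwise_smul_iff_inv_smul_mem]
        simp [MulAut.smul_def]
      apply central_unique h T' t (g * z0 * g⁻¹)
      · rw [← hTeq, Subgroup.mem_centralizer_iff]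
        intro u hu; rw [Set.mem_singleton_iff] at hu; rw [hu]
      · rw [hmem]
        have h1 : g⁻¹ * (g * z0 * g⁻¹) * g = z0 := by group
        rw [h1]; exact hz0T
      · intro u hu
        rw [← hTeq, Subgroup.mem_centralizer_iff] at hu
        exact (hu t (Set.mem_singleton t)).symm
      · intro u hu
        have h1 := hz0c _ ((hmem u).mp hu)
        have h2 : u * (g * z0 * g⁻¹) = g * ((g⁻¹ * u * g) * z0) * g⁻¹ := by group
        have h3 : (g * z0 * g⁻¹) * u = g * (z0 * (g⁻¹ * u * g)) * g⁻¹ := by group
        rw [h2, h3, h1]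
      · intro ht1; rw [ht1, orderOf_one] at ht; omega
      · intro h1
        have h2 : z0 = g⁻¹ * (g * z0 * g⁻¹) * g := by group
        rw [h1] at h2
        have h3 : z0 = 1 := by rw [h2]; group
        rw [h3, orderOf_one] at hz0o; omega
      · intro heq
        apply hnc
        rw [isConj_iff]
        exact ⟨g, heq.symm⟩
    · have hKt42 : 42 ≤ Nat.card {g : G // IsConj t g} := by
        have hle := Nat.le_of_dvd (by norm_num) hCt
        have hpos : 0 < Nat.card (Subgroup.centralizer ({t} : Set G)) := Nat.card_pos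
        generalize Nat.card (Subgroup.centralizer ({t} : Set G)) = c at hCt hKt h8' hle hpos
        generalize Nat.card {g : G // IsConj t g} = k at hKt ⊢
        interval_cases c <;> omega
      have h4 : ∃ g4 : G, orderOf g4 = 4 := by
        by_contra hno
        push_neg at hno
        apply nonab h T0
        have hsq : ∀ a : G, a ∈ (T0 : Subgroup G) → a * a = 1 := by
          intro a ha
          have hd := Subgroup.orderOf_dvd_natCard _ ha
          rw [c2 T0] at hd
          rcases part1 a with ho | ho | ho | ho | ho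
          · rw [orderOf_eq_one_iff] at ho; rw [ho, mul_one]
          · rw [← pow_two, ← ho]; exact pow_orderOf_eq_one a
          · rw [ho] at hd; omega
          · exact absurd ho (hno a)
          · rw [ho] at hd; omega
        intro a ha b hb
        have h1 := hsq a ha
        have h2 := hsq b hb
        have h3 := hsq (a * b) (mul_mem ha hb)
        have ha' : a⁻¹ = a := inv_eq_of_mul_eq_one_left h1
        have hb' : b⁻¹ = b := inv_eq_of_mul_eq_one_left h2
        have hab' : (a * b)⁻¹ = a * b := inv_eq_of_mul_eq_one_left h3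
        rw [← hab', mul_inv_rev, ha', hb']
      obtain ⟨g4, hg4⟩ := h4
      haveI : Fintype G := Fintype.ofFinite G
      have hsum := Finset.card_eq_sum_card_fiberwise (f := fun g : G => orderOf g)
        (s := Finset.univ) (t := ({1, 2, 3, 4, 7} : Finset ℕ)) (fun g _ => by
          simp only [Finset.coe_insert, Finset.coe_singleton, Set.mem_insert_iff,
            Set.mem_singleton_iff, Finset.mem_insert, Finset.mem_singleton]
          exact part1 g)
      have hsum' : (Finset.univ : Finset G).card =
          (Finset.univ.filter (fun g : G => orderOf g = 1)).card +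
          ((Finset.univ.filter (fun g : G => orderOf g = 2)).card +
          ((Finset.univ.filter (fun g : G => orderOf g = 3)).card +
          ((Finset.univ.filter (fun g : G => orderOf g = 4)).card +
          (Finset.univ.filter (fun g : G => orderOf g = 7)).card))) := by
        rw [hsum, Finset.sum_insert (by decide), Finset.sum_insert (by decide),
          Finset.sum_insert (by decide), Finset.sum_insert (by decide), Finset.sum_singleton]
      have hu : (Finset.univ : Finset G).card = 168 := by
        rw [Finset.card_univ, ← Nat.card_eq_fintype_card, h]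
      have b3 : 56 ≤ (Finset.univ.filter (fun g : G => orderOf g = 3)).card := by
        have h1 := order_count 3 c3 (Finset.univ.filter (fun g : G => orderOf g = 3))
          (fun g hg => Finset.mem_filter.mpr ⟨Finset.mem_univ _, hg⟩)
        rw [e3] at h1
        omega
      have b7 : 48 ≤ (Finset.univ.filter (fun g : G => orderOf g = 7)).card := by
        have h1 := order_count 7 c7 (Finset.univ.filter (fun g : G => orderOf g = 7))
          (fun g hg => Finset.mem_filter.mpr ⟨Finset.mem_univ _, hg⟩)
        rw [e7] at h1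
        omega
      have b1 : 1 ≤ (Finset.univ.filter (fun g : G => orderOf g = 1)).card :=
        Finset.card_pos.mpr ⟨1, Finset.mem_filter.mpr ⟨Finset.mem_univ _, orderOf_one⟩⟩
      have b4 : 1 ≤ (Finset.univ.filter (fun g : G => orderOf g = 4)).card :=
        Finset.card_pos.mpr ⟨g4, Finset.mem_filter.mpr ⟨Finset.mem_univ _, hg4⟩⟩
      have hK0c : Nat.card {g : G // IsConj z0 g} =
          (Finset.univ.filter (fun g : G => IsConj z0 g)).card := by
        rw [Nat.card_eq_fintype_card]
        exact Fintype.card_of_subtype _ (by simp)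
      have hKtc : Nat.card {g : G // IsConj t g} =
          (Finset.univ.filter (fun g : G => IsConj t g)).card := by
        rw [Nat.card_eq_fintype_card]
        exact Fintype.card_of_subtype _ (by simp)
      have hdisj : Disjoint (Finset.univ.filter (fun g : G => IsConj z0 g))
          (Finset.univ.filter (fun g : G => IsConj t g)) :=
        Finset.disjoint_left.mpr (fun g hg hg' =>
          hnc ((Finset.mem_filter.mp hg).2.trans (Finset.mem_filter.mp hg').2.symm))
      have hsub : (Finset.univ.filter (fun g : G => IsConj z0 g)) ∪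
          (Finset.univ.filter (fun g : G => IsConj t g)) ⊆
          Finset.univ.filter (fun g : G => orderOf g = 2) := by
        intro g hg
        rcases Finset.mem_union.mp hg with hg | hg
        · obtain ⟨c, rfl⟩ := isConj_iff.mp (Finset.mem_filter.mp hg).2
          exact Finset.mem_filter.mpr ⟨Finset.mem_univ _, (ord_conj c z0).trans hz0o⟩
        · obtain ⟨c, rfl⟩ := isConj_iff.mp (Finset.mem_filter.mp hg).2
          exact Finset.mem_filter.mpr ⟨Finset.mem_univ _, (ord_conj c t).trans ht⟩
      have b2 := Finset.card_le_card hsub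
      rw [Finset.card_union_of_disjoint hdisj] at b2
      omega
  refine ⟨part1, ?_, ?_⟩
  · rw [← hK0']
    apply Nat.card_congr
    exact Equiv.subtypeEquivRight (fun g => ⟨fun hg => hconj g hg, fun hg => by
      obtain ⟨c, rfl⟩ := isConj_iff.mp hg
      exact (ord_conj c z0).trans hz0o⟩)
  · intro s t hs ht
    exact (hconj s hs).symm.trans (hconj t ht)

end Cfsg.Agent.S1005
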