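import Cfsg.Statements.S1006
import Mathlib
import Cfsg.Agent.S1003
import Cfsg.Agent.S1005

set_option autoImplicit false
open Cfsg

namespace Cfsg.Agent.S1006

open scoped Pointwise

theorem nat_card_sub {α : Type*} [Fintype α] (p : α → Prop) [DecidablePred p] :
    Nat.card {a : α // p a} = (Finset.univ.filter p).card := by
  rw [Nat.card_eq_fintype_card]; exact Fintype.card_of_subtype _ (by simp)

/-- Centralizers have no elements of a coprime prime order. -/
theorem cent_coprime {G : Type*} [Group G] [Finite G] [IsSimpleGroup G] (h : Nat.card G = 168)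
    (y : G) (p : ℕ) (hp : p = 2 ∨ p = 3 ∨ p = 7) (hy : orderOf y ≠ 1)
    (hco : Nat.Coprime p (orderOf y)) :
    ¬ p ∣ Nat.card (Subgroup.centralizer ({y} : Set G)) := by
  have part1 := (Cfsg.Agent.S1005.result h).1
  intro hdvd
  haveI : Fact p.Prime := ⟨by rcases hp with rfl | rfl | rfl <;> norm_num⟩
  obtain ⟨x, hx⟩ := exists_prime_orderOf_dvd_card'
    (G := ↥(Subgroup.centralizer ({y} : Set G))) p hdvd
  have hxo : orderOf (x : G) = p := by rw [Subgroup.orderOf_coe]; exact hx
  have hcomm : Commute (x : G) y := by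
    have hx2 := x.2
    rw [Subgroup.mem_centralizer_iff] at hx2
    exact (hx2 y (Set.mem_singleton y)).symm
  have hmul := hcomm.orderOf_mul_eq_mul_orderOf_of_coprime (by rw [hxo]; exact hco)
  rw [hxo] at hmul
  have hy' := part1 y
  have hxy := part1 ((x : G) * y)
  rw [hmul] at hxy
  clear hmul hcomm hxo hx hdvd
  generalize orderOf y = n at hy hco hy' hxy
  rcases hp with rfl | rfl | rfl <;> rcases hy' with rfl | rfl | rfl | rfl | rfl <;>
    first | omega | (exfalso; revert hco; decide)

theorem ar3' (n : ℕ) (hd : n ∣ 168) (h2 : ¬ 2 ∣ n) (h7 : ¬ 7 ∣ n) (h3 : 3 ∣ n) : n = 3 := by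
  have hle : n ≤ 168 := Nat.le_of_dvd (by norm_num) hd
  interval_cases n <;> omega

theorem ar7' (n : ℕ) (hd : n ∣ 168) (h2 : ¬ 2 ∣ n) (h3 : ¬ 3 ∣ n) (h7 : 7 ∣ n) : n = 7 := by
  have hle : n ≤ 168 := Nat.le_of_dvd (by norm_num) hd
  interval_cases n <;> omega

/-- If every class of elements of order `k` has as many elements as there are elements of
order `k`, all of them are conjugate. -/
theorem all_conj {G : Type*} [Group G] [Finite G] (k N : ℕ)
    (hN : Nat.card {g : G // orderOf g = k} = N)
    (hcl : ∀ t : G, orderOf t = k → Nat.card {g : G // IsConj t g} = N) :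
    ∀ s t : G, orderOf s = k → orderOf t = k → IsConj s t := by
  classical
  haveI : Fintype G := Fintype.ofFinite G
  intro s t hs ht
  have hsub : (Finset.univ.filter (fun g : G => IsConj s g)) ⊆
      Finset.univ.filter (fun g : G => orderOf g = k) := by
    intro g hg
    obtain ⟨c, rfl⟩ := isConj_iff.mp (Finset.mem_filter.mp hg).2
    exact Finset.mem_filter.mpr ⟨Finset.mem_univ _, (Cfsg.Agent.S1005.ord_conj c s).trans hs⟩
  have h1 : Nat.card {g : G // IsConj s g} =
      (Finset.univ.filter (fun g : G => IsConj s g)).card := nat_card_sub _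
  have h2 : Nat.card {g : G // orderOf g = k} =
      (Finset.univ.filter (fun g : G => orderOf g = k)).card := nat_card_sub _
  have heq := Finset.eq_of_subset_of_card_le hsub (le_of_eq (by rw [← h1, ← h2, hN, hcl s hs]))
  have hmem : t ∈ Finset.univ.filter (fun g : G => IsConj s g) := by
    rw [heq]; exact Finset.mem_filter.mpr ⟨Finset.mem_univ _, ht⟩
  exact (Finset.mem_filter.mp hmem).2

/-- In a simple group of order 168 there are 56 elements of order 3, all conjugate; 42 elements of order 4, all conjugate; and 48 elements of order 7 falling into two conjugacy classes of size 24, an element of order 7 not being conjugate to its inverse. -/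
theorem result {G : Type*} [Group G] [Finite G] [IsSimpleGroup G] (h : Nat.card G = 168) : Nat.card {g : G // orderOf g = 3} = 56 ∧ (∀ s t : G, orderOf s = 3 → orderOf t = 3 → IsConj s t) ∧ Nat.card {g : G // orderOf g = 4} = 42 ∧ (∀ s t : G, orderOf s = 4 → orderOf t = 4 → IsConj s t) ∧ Nat.card {g : G // orderOf g = 7} = 48 ∧ ∀ x : G, orderOf x = 7 → Nat.card {g : G // IsConj x g} = 24 ∧ ¬ IsConj x x⁻¹ := by
  classical
  haveI : Fact (Nat.Prime 2) := ⟨by norm_num⟩
  haveI : Fact (Nat.Prime 3) := ⟨by norm_num⟩
  haveI : Fact (Nat.Prime 7) := ⟨by norm_num⟩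
  obtain ⟨e2, e3, e7⟩ := Cfsg.Agent.S1003.result h
  obtain ⟨c2, c3, c7, hN2, hord⟩ := Cfsg.Agent.S1005.data h
  obtain ⟨part1, hinv, -⟩ := Cfsg.Agent.S1005.result h
  haveI : Fintype G := Fintype.ofFinite G
  have hsum := Finset.card_eq_sum_card_fiberwise (f := fun g : G => orderOf g)
    (s := Finset.univ) (t := ({1, 2, 3, 4, 7} : Finset ℕ)) (fun g _ => by
      simp only [Finset.coe_insert, Finset.coe_singleton, Set.mem_insert_iff,
        Set.mem_singleton_iff, Finset.mem_insert, Finset.mem_singleton]
      exact part1 g)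
  have hsum' : (Finset.univ : Finset G).card =
      (Finset.univ.filter (fun g : G => orderOf g = 1)).card +
      ((Finset.univ.filter (fun g : G => orderOf g = 2)).card +
      ((Finset.univ.filter (fun g : G => orderOf g = 3)).card +
      ((Finset.univ.filter (fun g : G => orderOf g = 4)).card +
      (Finset.univ.filter (fun g : G => orderOf g = 7)).card))) := by
    rw [hsum, Finset.sum_insert (by decide), Finset.sum_insert (by decide),
      Finset.sum_insert (by decide), Finset.sum_insert (by decide), Finset.sum_singleton]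
  have hu : (Finset.univ : Finset G).card = 168 := by
    rw [Finset.card_univ, ← Nat.card_eq_fintype_card, h]
  have a1 : (Finset.univ.filter (fun g : G => orderOf g = 1)).card = 1 := by
    rw [Finset.card_eq_one]
    refine ⟨1, ?_⟩
    ext g
    simp [orderOf_eq_one_iff]
  have a2 : (Finset.univ.filter (fun g : G => orderOf g = 2)).card = 21 := by
    rw [← nat_card_sub]; exact hinv
  have b3l : 56 ≤ (Finset.univ.filter (fun g : G => orderOf g = 3)).card := by
    have h1 := Cfsg.Agent.S1005.order_count 3 c3 (Finset.univ.filter (fun g : G => orderOf g = 3))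
      (fun g hg => Finset.mem_filter.mpr ⟨Finset.mem_univ _, hg⟩)
    rw [e3] at h1
    omega
  have b7l : 48 ≤ (Finset.univ.filter (fun g : G => orderOf g = 7)).card := by
    have h1 := Cfsg.Agent.S1005.order_count 7 c7 (Finset.univ.filter (fun g : G => orderOf g = 7))
      (fun g hg => Finset.mem_filter.mpr ⟨Finset.mem_univ _, hg⟩)
    rw [e7] at h1
    omega
  have b3u : (Finset.univ.filter (fun g : G => orderOf g = 3)).card ≤ 56 := by
    have h1 := Cfsg.Agent.S1003.cover_bound 3 3 c3
      (Finset.univ.filter (fun g : G => orderOf g = 3))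
      (fun g hg => ⟨fun h1 => by
          have h2 := (Finset.mem_filter.mp hg).2
          rw [h1, orderOf_one] at h2
          omega,
        Cfsg.Agent.S1003.mem_sylow 3 1 g ((Finset.mem_filter.mp hg).2.trans (by norm_num))⟩)
    rw [e3] at h1
    omega
  have b7u : (Finset.univ.filter (fun g : G => orderOf g = 7)).card ≤ 48 := by
    have h1 := Cfsg.Agent.S1003.cover_bound 7 7 c7
      (Finset.univ.filter (fun g : G => orderOf g = 7))
      (fun g hg => ⟨fun h1 => by
          have h2 := (Finset.mem_filter.mp hg).2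
          rw [h1, orderOf_one] at h2
          omega,
        Cfsg.Agent.S1003.mem_sylow 7 1 g ((Finset.mem_filter.mp hg).2.trans (by norm_num))⟩)
    rw [e7] at h1
    omega
  have n3 : Nat.card {g : G // orderOf g = 3} = 56 := by rw [nat_card_sub]; omega
  have n7 : Nat.card {g : G // orderOf g = 7} = 48 := by rw [nat_card_sub]; omega
  have n4 : Nat.card {g : G // orderOf g = 4} = 42 := by rw [nat_card_sub]; omega
  have hself : ∀ t : G, t ∈ Subgroup.centralizer ({t} : Set G) := by
    intro t
    rw [Subgroup.mem_centralizer_iff]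
    intro u hu
    rw [Set.mem_singleton_iff] at hu
    rw [hu]
  have hCd : ∀ t : G, Nat.card (Subgroup.centralizer ({t} : Set G)) ∣ 168 := by
    intro t
    rw [← h]; exact Subgroup.card_subgroup_dvd_card _
  have hC3 : ∀ t : G, orderOf t = 3 → Nat.card {g : G // IsConj t g} = 56 := by
    intro t ht
    have hcl := Cfsg.Agent.S1005.class_card t
    rw [h] at hcl
    have h2 := cent_coprime h t 2 (Or.inl rfl) (by rw [ht]; norm_num) (by rw [ht]; decide)
    have h7 := cent_coprime h t 7 (Or.inr (Or.inr rfl)) (by rw [ht]; norm_num)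
      (by rw [ht]; decide)
    have h3 : 3 ∣ Nat.card (Subgroup.centralizer ({t} : Set G)) := by
      have h3' := Subgroup.orderOf_dvd_natCard _ (hself t)
      rwa [ht] at h3'
    have hc3 : Nat.card (Subgroup.centralizer ({t} : Set G)) = 3 := ar3' _ (hCd t) h2 h7 h3
    rw [hc3] at hcl
    omega
  have hC7 : ∀ t : G, orderOf t = 7 → Nat.card {g : G // IsConj t g} = 24 := by
    intro t ht
    have hcl := Cfsg.Agent.S1005.class_card t
    rw [h] at hcl
    have h2 := cent_coprime h t 2 (Or.inl rfl) (by rw [ht]; norm_num) (by rw [ht]; decide)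
    have h3 := cent_coprime h t 3 (Or.inr (Or.inl rfl)) (by rw [ht]; norm_num)
      (by rw [ht]; decide)
    have h7 : 7 ∣ Nat.card (Subgroup.centralizer ({t} : Set G)) := by
      have h7' := Subgroup.orderOf_dvd_natCard _ (hself t)
      rwa [ht] at h7'
    have hc7 : Nat.card (Subgroup.centralizer ({t} : Set G)) = 7 := ar7' _ (hCd t) h2 h3 h7
    rw [hc7] at hcl
    omega
  have hC4 : ∀ u : G, orderOf u = 4 → Nat.card {g : G // IsConj u g} = 42 := by
    intro u hu
    have hcl := Cfsg.Agent.S1005.class_card u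
    rw [h] at hcl
    have h3 := cent_coprime h u 3 (Or.inr (Or.inl rfl)) (by rw [hu]; norm_num)
      (by rw [hu]; decide)
    have h7 := cent_coprime h u 7 (Or.inr (Or.inr rfl)) (by rw [hu]; norm_num)
      (by rw [hu]; decide)
    have h4 : 4 ∣ Nat.card (Subgroup.centralizer ({u} : Set G)) := by
      have h4' := Subgroup.orderOf_dvd_natCard _ (hself u)
      rwa [hu] at h4'
    have hcases := Cfsg.Agent.S1003.ar _ (hCd u) h7 h3
    have hne8 : Nat.card (Subgroup.centralizer ({u} : Set G)) ≠ 8 := by
      intro h8'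
      have hpg : IsPGroup 2 (Subgroup.centralizer ({u} : Set G)) :=
        IsPGroup.of_card (n := 3) (by rw [h8']; norm_num)
      obtain ⟨T', hT'⟩ := hpg.exists_le_sylow
      have hTeq : Subgroup.centralizer ({u} : Set G) = (T' : Subgroup G) :=
        Subgroup.eq_of_le_of_card_ge hT' (le_of_eq (by rw [c2 T', h8']))
      have huT : u ∈ (T' : Subgroup G) := by rw [← hTeq]; exact hself u
      have hucen : ∀ t ∈ (T' : Subgroup G), t * u = u * t := by
        intro t ht
        rw [← hTeq, Subgroup.mem_centralizer_iff] at ht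
        exact (ht u (Set.mem_singleton u)).symm
      have hu1 : u ≠ 1 := by
        intro h1; rw [h1, orderOf_one] at hu; omega
      have huu1 : u * u ≠ 1 := by
        intro h1
        have h2 := orderOf_dvd_of_pow_eq_one (by rw [pow_two]; exact h1 : u ^ 2 = 1)
        rw [hu] at h2; omega
      exact Cfsg.Agent.S1005.central_unique h T' u (u * u) huT (mul_mem huT huT) hucen
        (fun t ht => by
          rw [← mul_assoc, hucen t ht, mul_assoc, hucen t ht, ← mul_assoc]) hu1 huu1
        (fun heq => hu1 (by
          have h5 : u * 1 = u * u := by rw [mul_one]; exact heq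
          exact (mul_left_cancel h5).symm))
    generalize Nat.card (Subgroup.centralizer ({u} : Set G)) = n at hcl h4 hcases hne8
    rcases hcases with rfl | rfl | rfl | rfl <;> omega
  have hN7 : ∀ P : Sylow 7 G,
      Nat.card (Subgroup.normalizer ((P : Subgroup G) : Set G)) = 21 := by
    intro P
    have h1 : Nat.card (Sylow 7 G) = (Subgroup.normalizer ((P : Subgroup G) : Set G)).index :=
      P.card_eq_index_normalizer
    have h2 := (Subgroup.normalizer ((P : Subgroup G) : Set G)).card_mul_index
    rw [← h1, e7, h] at h2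
    omega
  refine ⟨n3, all_conj 3 56 n3 hC3, n4, all_conj 4 42 n4 hC4, n7, ?_⟩
  intro x hx7
  refine ⟨hC7 x hx7, ?_⟩
  intro hconj
  obtain ⟨c, hc⟩ := isConj_iff.mp hconj
  obtain ⟨P, hxP⟩ := Cfsg.Agent.S1003.mem_sylow 7 1 x (hx7.trans (by norm_num))
  have key7 : ∀ Q : Sylow 7 G, x ∈ (Q : Subgroup G) →
      Subgroup.zpowers x = (Q : Subgroup G) := fun Q hQ =>
    Subgroup.eq_of_le_of_card_ge (Subgroup.zpowers_le.mpr hQ)
      (le_of_eq (by rw [c7 Q, Nat.card_zpowers, hx7]))
  have hxcP : x ∈ ((c • P : Sylow 7 G) : Subgroup G) := by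
    have h1 : c * x * c⁻¹ ∈ ((c • P : Sylow 7 G) : Subgroup G) := by
      rw [Sylow.coe_subgroup_smul]
      exact Subgroup.smul_mem_pointwise_smul x (MulAut.conj c) _ hxP
    rw [hc] at h1
    exact inv_mem_iff.mp h1
  have hcP : c • P = P := Sylow.ext ((key7 (c • P) hxcP).symm.trans (key7 P hxP))
  have hcN' := Sylow.smul_eq_iff_mem_normalizer.mp hcP
  have hcN : c ∈ Subgroup.normalizer ((P : Subgroup G) : Set G) := hcN'
  have hd := Subgroup.orderOf_dvd_natCard _ hcN
  rw [hN7 P] at hd
  have h1 : c * x⁻¹ * c⁻¹ = x := by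
    have h0 : c * x⁻¹ * c⁻¹ = (c * x * c⁻¹)⁻¹ := by group
    rw [h0, hc, inv_inv]
  have hcomm : Commute (c * c) x := by
    show c * c * x = x * (c * c)
    calc c * c * x = c * (c * x * c⁻¹) * c := by group
      _ = c * x⁻¹ * c := by rw [hc]
      _ = (c * x⁻¹ * c⁻¹) * (c * c) := by group
      _ = x * (c * c) := by rw [h1]
  have key : ∀ m : ℕ, 2 * m = orderOf c + 1 → Commute c x := by
    intro m hm
    have h2 : (c * c) ^ m = c := by
      rw [← pow_two, ← pow_mul, hm, pow_succ, pow_orderOf_eq_one, one_mul]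
    have h3 := hcomm.pow_left m
    rwa [h2] at h3
  have hcx : Commute c x := by
    rcases part1 c with ho | ho | ho | ho | ho
    · exact key 1 (by omega)
    · rw [ho] at hd; omega
    · exact key 2 (by omega)
    · rw [ho] at hd; omega
    · exact key 4 (by omega)
  have hxx : x⁻¹ = x := by rw [← hc, hcx.eq, mul_inv_cancel_right]
  have hx2 : x ^ 2 = 1 := by
    calc x ^ 2 = x * x := pow_two x
      _ = x⁻¹ * x := by rw [hxx]
      _ = 1 := inv_mul_cancel x
  have hdv := orderOf_dvd_of_pow_eq_one hx2
  rw [hx7] at hdv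
  omega

end Cfsg.Agent.S1006
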