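import Cfsg.Statements.S1004
import Mathlib
import Cfsg.Agent.S1003
import Cfsg.Agent.S1005
import Cfsg.Agent.S1006

set_option autoImplicit false
open Cfsg

namespace Cfsg.Agent.S1004

open scoped Pointwise

theorem sq_order {G : Type*} [Group G] (u : G) (hu : orderOf u = 4) : orderOf (u * u) = 2 := by
  have h1 : (u * u) ^ 2 = 1 := by
    rw [← pow_two, ← pow_mul]
    have h0 := pow_orderOf_eq_one u
    rw [hu] at h0
    exact h0
  have h2 := orderOf_dvd_of_pow_eq_one h1
  rcases (Nat.dvd_prime Nat.prime_two).mp h2 with h3 | h3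
  · exfalso
    rw [orderOf_eq_one_iff] at h3
    have h4 := orderOf_dvd_of_pow_eq_one (by rw [pow_two]; exact h3 : u ^ 2 = 1)
    rw [hu] at h4
    omega
  · exact h3

theorem zpow_cases {G : Type*} [Group G] (R : G) (hR : orderOf R = 4) (k : ℤ) :
    R ^ k = 1 ∨ R ^ k = R ∨ R ^ k = R * R ∨ R ^ k = R⁻¹ := by
  have h4 : R ^ (4 : ℕ) = 1 := by
    have h0 := pow_orderOf_eq_one R
    rwa [hR] at h0
  have hmod : R ^ (k % 4) = R ^ k := by
    have h0 := zpow_mod_orderOf R k
    rw [hR] at h0
    exact_mod_cast h0
  have hnn : 0 ≤ k % 4 := Int.emod_nonneg _ (by norm_num)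
  have hlt : k % 4 < 4 := Int.emod_lt_of_pos _ (by norm_num)
  obtain ⟨j, hj⟩ : ∃ j : ℕ, k % 4 = (j : ℤ) :=
    ⟨(k % 4).toNat, (Int.toNat_of_nonneg hnn).symm⟩
  rw [← hmod, hj, zpow_natCast]
  have hj4 : j < 4 := by omega
  clear hj hmod hnn hlt
  interval_cases j
  · left; exact pow_zero R
  · right; left; exact pow_one R
  · right; right; left; exact pow_two R
  · right; right; right
    apply eq_inv_of_mul_eq_one_left
    rw [← pow_succ]; exact h4

/-- Recognition of the dihedral group of order 8. -/
theorem dihedral_iso {H : Type*} [Group H] [Finite H] (R S : H) (hR : orderOf R = 4)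
    (hS : S * S = 1) (hSR : S * R * S⁻¹ = R⁻¹) (hP : S ∉ Subgroup.zpowers R)
    (hcard : Nat.card H = 8) : Nonempty (H ≃* DihedralGroup 4) := by
  have h4 : ∀ n : ℕ, R ^ (n % 4) = R ^ n := fun n => by
    have h0 := pow_mod_orderOf R n
    rwa [hR] at h0
  have A : ∀ i j : ZMod 4, R ^ (i + j).val = R ^ i.val * R ^ j.val := by
    intro i j
    rw [ZMod.val_add, h4, pow_add]
  have B : ∀ i j : ZMod 4, R ^ (j - i).val = (R ^ i.val)⁻¹ * R ^ j.val := by
    intro i j
    have h1 := A (j - i) i
    rw [sub_add_cancel] at h1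
    have h2 : R ^ (j - i).val = R ^ j.val * (R ^ i.val)⁻¹ := eq_mul_inv_of_mul_eq h1.symm
    rw [h2]
    exact ((Commute.pow_pow_self R j.val i.val).inv_right).eq
  have C : ∀ n : ℕ, R ^ n * S = S * (R ^ n)⁻¹ := by
    intro n
    have h1 : S * R ^ n * S⁻¹ = (R ^ n)⁻¹ := by rw [← conj_pow, hSR, inv_pow]
    have h2 : R ^ n = S * (R ^ n)⁻¹ * S⁻¹ := by
      have h3 : S * (R ^ n)⁻¹ * S⁻¹ = (S * R ^ n * S⁻¹)⁻¹ := by group
      rw [h3, h1, inv_inv]
    calc R ^ n * S = S * (R ^ n)⁻¹ * S⁻¹ * S := by rw [← h2]
      _ = S * (R ^ n)⁻¹ := by group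
  have hmul : ∀ a b : DihedralGroup 4,
      (match a * b with
        | DihedralGroup.r i => R ^ i.val
        | DihedralGroup.sr i => S * R ^ i.val) =
      (match a with
        | DihedralGroup.r i => R ^ i.val
        | DihedralGroup.sr i => S * R ^ i.val) *
      (match b with
        | DihedralGroup.r i => R ^ i.val
        | DihedralGroup.sr i => S * R ^ i.val) := by
    intro a b
    cases a with
    | r i =>
      cases b with
      | r j =>
        rw [DihedralGroup.r_mul_r]
        exact A i j
      | sr j =>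
        rw [DihedralGroup.r_mul_sr]
        show S * R ^ (j - i).val = R ^ i.val * (S * R ^ j.val)
        calc S * R ^ (j - i).val = S * ((R ^ i.val)⁻¹ * R ^ j.val) := by rw [B i j]
          _ = (S * (R ^ i.val)⁻¹) * R ^ j.val := by rw [mul_assoc]
          _ = (R ^ i.val * S) * R ^ j.val := by rw [C]
          _ = R ^ i.val * (S * R ^ j.val) := by rw [mul_assoc]
    | sr i =>
      cases b with
      | r j =>
        rw [DihedralGroup.sr_mul_r]
        show S * R ^ (i + j).val = S * R ^ i.val * R ^ j.val
        rw [A, mul_assoc]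
      | sr j =>
        rw [DihedralGroup.sr_mul_sr]
        show R ^ (j - i).val = S * R ^ i.val * (S * R ^ j.val)
        calc R ^ (j - i).val = (R ^ i.val)⁻¹ * R ^ j.val := B i j
          _ = (S * S) * ((R ^ i.val)⁻¹ * R ^ j.val) := by rw [hS, one_mul]
          _ = S * (S * (R ^ i.val)⁻¹) * R ^ j.val := by simp only [mul_assoc]
          _ = S * (R ^ i.val * S) * R ^ j.val := by rw [C]
          _ = S * R ^ i.val * (S * R ^ j.val) := by simp only [mul_assoc]
  obtain ⟨F, hF⟩ : ∃ F : DihedralGroup 4 →* H, ∀ a, F a =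
      (match a with
        | DihedralGroup.r i => R ^ i.val
        | DihedralGroup.sr i => S * R ^ i.val) :=
    ⟨MonoidHom.mk' (fun a => match a with
        | DihedralGroup.r i => R ^ i.val
        | DihedralGroup.sr i => S * R ^ i.val) hmul, fun a => rfl⟩
  have hinj : Function.Injective F := by
    rw [injective_iff_map_eq_one]
    intro a ha
    rw [hF] at ha
    cases a with
    | r i =>
      have ha' : R ^ i.val = 1 := ha
      have h1 := orderOf_dvd_of_pow_eq_one ha'
      rw [hR] at h1
      have h2 := ZMod.val_lt i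
      have h3 : i.val = 0 := Nat.eq_zero_of_dvd_of_lt h1 h2
      have h5 : i = 0 := (ZMod.val_eq_zero i).mp h3
      rw [h5]; rfl
    | sr i =>
      exfalso
      have ha' : S * R ^ i.val = 1 := ha
      have h1 : S = (R ^ i.val)⁻¹ := eq_inv_of_mul_eq_one_left ha'
      apply hP
      rw [h1]
      exact (Subgroup.zpowers R).inv_mem (Subgroup.npow_mem_zpowers R _)
  have hbij : Function.Bijective F := by
    rw [Nat.bijective_iff_injective_and_card]
    refine ⟨hinj, ?_⟩
    have h1 := DihedralGroup.nat_card (n := 4)
    omega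
  exact ⟨(MulEquiv.ofBijective F hbij).symm⟩

/-- Let G be a simple group of order 168 and T a Sylow 2-subgroup. Then T is dihedral of order 8, T is its own normalizer, and T is the centralizer of any non-identity element of T that commutes with every element of T. -/
theorem result {G : Type*} [Group G] [Finite G] [IsSimpleGroup G] (h : Nat.card G = 168) (T : Sylow 2 G) : Nonempty (↥(T : Subgroup G) ≃* DihedralGroup 4) ∧ Subgroup.normalizer ((T : Subgroup G) : Set G) = T ∧ ∀ z : G, z ∈ (T : Subgroup G) → z ≠ 1 → (∀ t ∈ (T : Subgroup G), t * z = z * t) → Subgroup.centralizer ({z} : Set G) = T := by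
  classical
  haveI : Fact (Nat.Prime 2) := ⟨by norm_num⟩
  obtain ⟨c2, c3, c7, hN2, hord⟩ := Cfsg.Agent.S1005.data h
  obtain ⟨part1, hinv, hconj2⟩ := Cfsg.Agent.S1005.result h
  obtain ⟨-, -, n4, hconj4, -, -⟩ := Cfsg.Agent.S1006.result h
  have hself : ∀ t : G, t ∈ Subgroup.centralizer ({t} : Set G) := by
    intro t
    rw [Subgroup.mem_centralizer_iff]
    intro u hu
    rw [Set.mem_singleton_iff] at hu
    rw [hu]
  have hTord : ∀ a : G, a ∈ (T : Subgroup G) →
      orderOf a = 1 ∨ orderOf a = 2 ∨ orderOf a = 4 := by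
    intro a ha
    have hd := Subgroup.orderOf_dvd_natCard _ ha
    rw [c2 T] at hd
    rcases part1 a with ho | ho | ho | ho | ho
    · exact Or.inl ho
    · exact Or.inr (Or.inl ho)
    · rw [ho] at hd; omega
    · exact Or.inr (Or.inr ho)
    · rw [ho] at hd; omega
  refine ⟨?_, ?_, ?_⟩
  · -- dihedral
    have hR : ∃ R : G, R ∈ (T : Subgroup G) ∧ orderOf R = 4 := by
      by_contra hno
      push_neg at hno
      apply Cfsg.Agent.S1005.nonab h T
      have hsq : ∀ a : G, a ∈ (T : Subgroup G) → a * a = 1 := by
        intro a ha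
        rcases hTord a ha with ho | ho | ho
        · rw [orderOf_eq_one_iff] at ho; rw [ho, mul_one]
        · rw [← pow_two, ← ho]; exact pow_orderOf_eq_one a
        · exact absurd ho (hno a ha)
      intro a ha b hb
      have h1 := hsq a ha
      have h2 := hsq b hb
      have h3 := hsq (a * b) (mul_mem ha hb)
      have ha' : a⁻¹ = a := inv_eq_of_mul_eq_one_left h1
      have hb' : b⁻¹ = b := inv_eq_of_mul_eq_one_left h2
      have hab' : (a * b)⁻¹ = a * b := inv_eq_of_mul_eq_one_left h3
      rw [← hab', mul_inv_rev, ha', hb']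
    obtain ⟨R, hRT, hRo⟩ := hR
    have hzo : orderOf (R * R) = 2 := sq_order R hRo
    have hz1 : R * R ≠ 1 := by
      intro h1; rw [h1, orderOf_one] at hzo; omega
    have hS : ∃ S : G, S ∈ (T : Subgroup G) ∧ orderOf S = 2 ∧ S ≠ R * R := by
      by_contra hno
      push_neg at hno
      haveI : Fintype G := Fintype.ofFinite G
      have hfz : 6 ≤ ((Finset.univ.filter (fun u : G => orderOf u = 4)).filter
          (fun u => u * u = R * R)).card := by
        have hsub : (((Finset.univ : Finset G).filter
            (fun g => g ∈ (T : Subgroup G))).erase 1).erase (R * R) ⊆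
            (Finset.univ.filter (fun u : G => orderOf u = 4)).filter
              (fun u => u * u = R * R) := by
          intro u hu
          simp only [Finset.mem_erase, Finset.mem_filter, Finset.mem_univ, true_and] at hu
          obtain ⟨huz, hu1, huT⟩ := hu
          have ho4 : orderOf u = 4 := by
            rcases hTord u huT with ho | ho | ho
            · exact absurd (orderOf_eq_one_iff.mp ho) hu1
            · exact absurd (hno u huT ho) huz
            · exact ho
          exact Finset.mem_filter.mpr ⟨Finset.mem_filter.mpr ⟨Finset.mem_univ _, ho4⟩,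
            hno (u * u) (mul_mem huT huT) (sq_order u ho4)⟩
        have hcardT : ((Finset.univ : Finset G).filter
            (fun g => g ∈ (T : Subgroup G))).card = 8 :=
          (Cfsg.Agent.S1006.nat_card_sub (fun g : G => g ∈ (T : Subgroup G))).symm.trans (c2 T)
        have m1 : (1 : G) ∈ (Finset.univ : Finset G).filter
            (fun g => g ∈ (T : Subgroup G)) :=
          Finset.mem_filter.mpr ⟨Finset.mem_univ _, one_mem _⟩
        have m2 : R * R ∈ ((Finset.univ : Finset G).filter
            (fun g => g ∈ (T : Subgroup G))).erase 1 :=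
          Finset.mem_erase.mpr ⟨hz1, Finset.mem_filter.mpr ⟨Finset.mem_univ _,
            mul_mem hRT hRT⟩⟩
        have h1 := Finset.card_le_card hsub
        rw [Finset.card_erase_of_mem m2, Finset.card_erase_of_mem m1, hcardT] at h1
        omega
      have hfib : ∀ w : G, orderOf w = 2 →
          6 ≤ ((Finset.univ.filter (fun u : G => orderOf u = 4)).filter
            (fun u => u * u = w)).card := by
        intro w hw
        obtain ⟨g, hg⟩ := isConj_iff.mp (hconj2 (R * R) w hzo hw)
        refine hfz.trans (Finset.card_le_card_of_injOn (fun u => g * u * g⁻¹) ?_ ?_)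
        · intro u hu
          simp only [Finset.mem_coe, Finset.mem_filter, Finset.mem_univ, true_and] at hu ⊢
          refine ⟨(Cfsg.Agent.S1005.ord_conj g u).trans hu.1, ?_⟩
          have h1 : g * u * g⁻¹ * (g * u * g⁻¹) = g * (u * u) * g⁻¹ := by group
          rw [h1, hu.2, hg]
        · intro u _ u' _ huu
          have huu' : g * u * g⁻¹ = g * u' * g⁻¹ := huu
          exact mul_left_cancel (mul_right_cancel huu')
      have hsum := Finset.card_eq_sum_card_fiberwise (f := fun u : G => u * u)
        (s := Finset.univ.filter (fun u : G => orderOf u = 4))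
        (t := Finset.univ.filter (fun w : G => orderOf w = 2)) (fun u hu => by
          simp only [Finset.mem_coe, Finset.mem_filter, Finset.mem_univ, true_and] at hu ⊢
          exact sq_order u hu)
      have hge : (Finset.univ.filter (fun w : G => orderOf w = 2)).card * 6 ≤
          ∑ w ∈ Finset.univ.filter (fun w : G => orderOf w = 2),
            ((Finset.univ.filter (fun u : G => orderOf u = 4)).filter
              (fun u => u * u = w)).card := by
        rw [← smul_eq_mul, ← Finset.sum_const]
        exact Finset.sum_le_sum (fun w hw => hfib w (Finset.mem_filter.mp hw).2)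
      have a2 : (Finset.univ.filter (fun g : G => orderOf g = 2)).card = 21 := by
        rw [← Cfsg.Agent.S1006.nat_card_sub]; exact hinv
      have a4 : (Finset.univ.filter (fun g : G => orderOf g = 4)).card = 42 := by
        rw [← Cfsg.Agent.S1006.nat_card_sub]; exact n4
      rw [← hsum, a2, a4] at hge
      omega
    obtain ⟨S, hST, hSo, hSne⟩ := hS
    have hSS : S * S = 1 := by rw [← pow_two, ← hSo]; exact pow_orderOf_eq_one S
    have hS1 : S ≠ 1 := by
      intro h1; rw [h1, orderOf_one] at hSo; omega
    have hRinv : orderOf R⁻¹ = 4 := by rw [orderOf_inv]; exact hRo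
    have hP : S ∉ Subgroup.zpowers R := by
      intro hmem
      obtain ⟨k, hk⟩ := Subgroup.mem_zpowers_iff.mp hmem
      rcases zpow_cases R hRo k with h1 | h1 | h1 | h1
      · exact hS1 (hk.symm.trans h1)
      · rw [← hk, h1, hRo] at hSo; omega
      · exact hSne (hk.symm.trans h1)
      · rw [← hk, h1, hRinv] at hSo; omega
    have hCR : Subgroup.centralizer ({R} : Set G) = Subgroup.zpowers R := by
      have hcl := Cfsg.Agent.S1005.class_card R
      have hK : Nat.card {g : G // IsConj R g} = 42 := by
        rw [← n4]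
        apply Nat.card_congr
        exact Equiv.subtypeEquivRight (fun g => ⟨fun hg => by
          obtain ⟨c, rfl⟩ := isConj_iff.mp hg
          exact (Cfsg.Agent.S1005.ord_conj c R).trans hRo, fun hg => hconj4 R g hRo hg⟩)
      rw [hK, h] at hcl
      have hc4 : Nat.card (Subgroup.centralizer ({R} : Set G)) = 4 := by omega
      have hle : Subgroup.zpowers R ≤ Subgroup.centralizer ({R} : Set G) :=
        Subgroup.zpowers_le.mpr (hself R)
      exact (Subgroup.eq_of_le_of_card_ge hle
        (le_of_eq (by rw [hc4, Nat.card_zpowers, hRo]))).symm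
    have hSR : S * R * S⁻¹ = R⁻¹ := by
      have hidx : (Subgroup.zpowers (⟨R, hRT⟩ : (T : Subgroup G))).index = 2 := by
        have h1 := (Subgroup.zpowers (⟨R, hRT⟩ : (T : Subgroup G))).card_mul_index
        rw [Nat.card_zpowers, Subgroup.orderOf_mk, hRo, c2 T] at h1
        omega
      have hnorm := Subgroup.normal_of_index_eq_two hidx
      have hmem := hnorm.conj_mem (⟨R, hRT⟩ : (T : Subgroup G)) (Subgroup.mem_zpowers _)
        (⟨S, hST⟩ : (T : Subgroup G))
      obtain ⟨k, hk⟩ := Subgroup.mem_zpowers_iff.mp hmem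
      have hk' : R ^ k = S * R * S⁻¹ := by
        have h0 := congrArg Subtype.val hk
        simpa using h0
      have ho : orderOf (S * R * S⁻¹) = 4 := (Cfsg.Agent.S1005.ord_conj S R).trans hRo
      rcases zpow_cases R hRo k with h1 | h1 | h1 | h1
      · rw [← hk', h1, orderOf_one] at ho; omega
      · exfalso
        apply hP
        rw [← hCR, Subgroup.mem_centralizer_iff]
        intro u hu
        rw [Set.mem_singleton_iff] at hu
        rw [hu]
        have h2 : S * R * S⁻¹ = R := hk'.symm.trans h1
        calc R * S = S * R * S⁻¹ * S := by rw [h2]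
          _ = S * R := by group
      · rw [← hk', h1, hzo] at ho; omega
      · exact hk'.symm.trans h1
    have hP' : (⟨S, hST⟩ : (T : Subgroup G)) ∉
        Subgroup.zpowers (⟨R, hRT⟩ : (T : Subgroup G)) := by
      intro hmem
      obtain ⟨k, hk⟩ := Subgroup.mem_zpowers_iff.mp hmem
      apply hP
      refine Subgroup.mem_zpowers_iff.mpr ⟨k, ?_⟩
      have h0 := congrArg Subtype.val hk
      simpa using h0
    exact dihedral_iso (⟨R, hRT⟩ : (T : Subgroup G)) ⟨S, hST⟩
      ((Subgroup.orderOf_mk R hRT).trans hRo) (Subtype.ext hSS) (Subtype.ext hSR) hP' (c2 T)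
  · exact (Subgroup.eq_of_le_of_card_ge Subgroup.le_normalizer
      (le_of_eq (by rw [hN2 T, c2 T]))).symm
  · intro z hzT hz1 hzc
    have ho : orderOf z = 2 ∨ orderOf z = 4 := by
      rcases hTord z hzT with ho | ho | ho
      · exact absurd (orderOf_eq_one_iff.mp ho) hz1
      · exact Or.inl ho
      · exact Or.inr ho
    have hne1 : orderOf z ≠ 1 := by
      rcases ho with ho | ho <;> rw [ho] <;> norm_num
    have h3 := Cfsg.Agent.S1006.cent_coprime h z 3 (Or.inr (Or.inl rfl)) hne1
      (by rcases ho with ho | ho <;> rw [ho] <;> decide)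
    have h7 := Cfsg.Agent.S1006.cent_coprime h z 7 (Or.inr (Or.inr rfl)) hne1
      (by rcases ho with ho | ho <;> rw [ho] <;> decide)
    have hCd : Nat.card (Subgroup.centralizer ({z} : Set G)) ∣ 168 := by
      rw [← h]; exact Subgroup.card_subgroup_dvd_card _
    have hcases := Cfsg.Agent.S1003.ar _ hCd h7 h3
    have hle : (T : Subgroup G) ≤ Subgroup.centralizer ({z} : Set G) := by
      intro t ht
      rw [Subgroup.mem_centralizer_iff]
      intro u hu
      rw [Set.mem_singleton_iff] at hu
      rw [hu]
      exact (hzc t ht).symm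
    have hd2 := Subgroup.card_dvd_of_le hle
    rw [c2 T] at hd2
    have hc8 : Nat.card (Subgroup.centralizer ({z} : Set G)) = 8 := by
      generalize Nat.card (Subgroup.centralizer ({z} : Set G)) = n at hcases hd2
      rcases hcases with rfl | rfl | rfl | rfl <;> omega
    exact (Subgroup.eq_of_le_of_card_ge hle (le_of_eq (by rw [c2 T, hc8]))).symm

end Cfsg.Agent.S1004
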