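import Cfsg.Statements.S5344
import Mathlib

set_option autoImplicit false
open Cfsg

namespace Cfsg.Agent.S5344

inductive Gn | A | B | C
  deriving DecidableEq

def sw : Gn → Equiv.Perm (Fin 4)
  | .A => Equiv.swap 0 1
  | .B => Equiv.swap 1 2
  | .C => Equiv.swap 2 3

def pw : List Gn → Equiv.Perm (Fin 4)
  | [] => 1
  | i :: l => sw i * pw l

def words : List (List Gn) := [[], [Gn.A], [Gn.B], [Gn.C], [Gn.A, Gn.B], [Gn.A, Gn.C], [Gn.B, Gn.A], [Gn.B, Gn.C], [Gn.C, Gn.B], [Gn.A, Gn.B, Gn.A], [Gn.A, Gn.B, Gn.C], [Gn.A, Gn.C, Gn.B], [Gn.B, Gn.A, Gn.C], [Gn.B, Gn.C, Gn.B], [Gn.C, Gn.B, Gn.A], [Gn.A, Gn.B, Gn.A, Gn.C], [Gn.A, Gn.B, Gn.C, Gn.B], [Gn.A, Gn.C, Gn.B, Gn.A], [Gn.B, Gn.A, Gn.C, Gn.B], [Gn.B, Gn.C, Gn.B, Gn.A], [Gn.A, Gn.B, Gn.A, Gn.C, Gn.B], [Gn.A, Gn.B, Gn.C, Gn.B, Gn.A], [Gn.B, Gn.A, Gn.C, Gn.B, Gn.A], [Gn.A, Gn.B, Gn.A, Gn.C, Gn.B, Gn.A]]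

def nf (σ : Equiv.Perm (Fin 4)) : List Gn :=
  (words.find? (fun u => decide (pw u = σ))).getD []

def gv {G : Type*} (a b c : G) : Gn → G
  | .A => a
  | .B => b
  | .C => c

def ev {G : Type*} [Group G] (a b c : G) : List Gn → G
  | [] => 1
  | i :: l => gv a b c i * ev a b c l

set_option maxRecDepth 100000 in
theorem pw_nf : ∀ σ : Equiv.Perm (Fin 4), pw (nf σ) = σ ∧ nf σ ∈ words := by decide

set_option maxRecDepth 100000 in
theorem nclos : ∀ σ : Equiv.Perm (Fin 4), σ ≠ 1 →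
    ∃ x y : Equiv.Perm (Fin 4), x * σ * x⁻¹ = Equiv.swap 0 1 * Equiv.swap 2 3 ∨
      x * σ * x⁻¹ * (y * σ * y⁻¹) = Equiv.swap 0 1 * Equiv.swap 2 3 := by decide

set_option maxRecDepth 100000 in
set_option maxHeartbeats 4000000 in
theorem key {G : Type*} [Group G] (a b c : G)
    (hA : ∀ x, a * (a * x) = x) (hB : ∀ x, b * (b * x) = x) (hC : ∀ x, c * (c * x) = x)
    (hCA : ∀ x, c * (a * x) = a * (c * x))
    (hBAB : ∀ x, b * (a * (b * x)) = a * (b * (a * x)))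
    (hCBC : ∀ x, c * (b * (c * x)) = b * (c * (b * x)))
    (hCBAC : ∀ x, c * (b * (a * (c * x))) = b * (c * (b * (a * x))))
    (i : Gn) (σ : Equiv.Perm (Fin 4)) :
    gv a b c i * ev a b c (nf σ) = ev a b c (nf (sw i * σ)) := by
  have hmain : ∀ u ∈ words, ∀ i : Gn, gv a b c i * ev a b c u = ev a b c (nf (sw i * pw u)) := by
    intro u hu i
    simp only [words, List.mem_cons, List.not_mem_nil, or_false] at hu
    rcases hu with rfl | rfl | rfl | rfl | rfl | rfl | rfl | rfl | rfl | rfl | rfl | rfl | rfl | rfl | rfl | rfl | rfl | rfl | rfl | rfl | rfl | rfl | rfl | rfl <;> cases i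
    · rw [show nf (sw Gn.A * pw []) = [Gn.A] from by decide]
      simp only [ev, gv, hA, hB, hC, hCA, hBAB, hCBC, hCBAC]
    · rw [show nf (sw Gn.B * pw []) = [Gn.B] from by decide]
      simp only [ev, gv, hA, hB, hC, hCA, hBAB, hCBC, hCBAC]
    · rw [show nf (sw Gn.C * pw []) = [Gn.C] from by decide]
      simp only [ev, gv, hA, hB, hC, hCA, hBAB, hCBC, hCBAC]
    · rw [show nf (sw Gn.A * pw [Gn.A]) = [] from by decide]
      simp only [ev, gv, hA, hB, hC, hCA, hBAB, hCBC, hCBAC]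
    · rw [show nf (sw Gn.B * pw [Gn.A]) = [Gn.B, Gn.A] from by decide]
      simp only [ev, gv, hA, hB, hC, hCA, hBAB, hCBC, hCBAC]
    · rw [show nf (sw Gn.C * pw [Gn.A]) = [Gn.A, Gn.C] from by decide]
      simp only [ev, gv, hA, hB, hC, hCA, hBAB, hCBC, hCBAC]
    · rw [show nf (sw Gn.A * pw [Gn.B]) = [Gn.A, Gn.B] from by decide]
      simp only [ev, gv, hA, hB, hC, hCA, hBAB, hCBC, hCBAC]
    · rw [show nf (sw Gn.B * pw [Gn.B]) = [] from by decide]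
      simp only [ev, gv, hA, hB, hC, hCA, hBAB, hCBC, hCBAC]
    · rw [show nf (sw Gn.C * pw [Gn.B]) = [Gn.C, Gn.B] from by decide]
      simp only [ev, gv, hA, hB, hC, hCA, hBAB, hCBC, hCBAC]
    · rw [show nf (sw Gn.A * pw [Gn.C]) = [Gn.A, Gn.C] from by decide]
      simp only [ev, gv, hA, hB, hC, hCA, hBAB, hCBC, hCBAC]
    · rw [show nf (sw Gn.B * pw [Gn.C]) = [Gn.B, Gn.C] from by decide]
      simp only [ev, gv, hA, hB, hC, hCA, hBAB, hCBC, hCBAC]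
    · rw [show nf (sw Gn.C * pw [Gn.C]) = [] from by decide]
      simp only [ev, gv, hA, hB, hC, hCA, hBAB, hCBC, hCBAC]
    · rw [show nf (sw Gn.A * pw [Gn.A, Gn.B]) = [Gn.B] from by decide]
      simp only [ev, gv, hA, hB, hC, hCA, hBAB, hCBC, hCBAC]
    · rw [show nf (sw Gn.B * pw [Gn.A, Gn.B]) = [Gn.A, Gn.B, Gn.A] from by decide]
      simp only [ev, gv, hA, hB, hC, hCA, hBAB, hCBC, hCBAC]
    · rw [show nf (sw Gn.C * pw [Gn.A, Gn.B]) = [Gn.A, Gn.C, Gn.B] from by decide]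
      simp only [ev, gv, hA, hB, hC, hCA, hBAB, hCBC, hCBAC]
    · rw [show nf (sw Gn.A * pw [Gn.A, Gn.C]) = [Gn.C] from by decide]
      simp only [ev, gv, hA, hB, hC, hCA, hBAB, hCBC, hCBAC]
    · rw [show nf (sw Gn.B * pw [Gn.A, Gn.C]) = [Gn.B, Gn.A, Gn.C] from by decide]
      simp only [ev, gv, hA, hB, hC, hCA, hBAB, hCBC, hCBAC]
    · rw [show nf (sw Gn.C * pw [Gn.A, Gn.C]) = [Gn.A] from by decide]
      simp only [ev, gv, hA, hB, hC, hCA, hBAB, hCBC, hCBAC]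
    · rw [show nf (sw Gn.A * pw [Gn.B, Gn.A]) = [Gn.A, Gn.B, Gn.A] from by decide]
      simp only [ev, gv, hA, hB, hC, hCA, hBAB, hCBC, hCBAC]
    · rw [show nf (sw Gn.B * pw [Gn.B, Gn.A]) = [Gn.A] from by decide]
      simp only [ev, gv, hA, hB, hC, hCA, hBAB, hCBC, hCBAC]
    · rw [show nf (sw Gn.C * pw [Gn.B, Gn.A]) = [Gn.C, Gn.B, Gn.A] from by decide]
      simp only [ev, gv, hA, hB, hC, hCA, hBAB, hCBC, hCBAC]
    · rw [show nf (sw Gn.A * pw [Gn.B, Gn.C]) = [Gn.A, Gn.B, Gn.C] from by decide]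
      simp only [ev, gv, hA, hB, hC, hCA, hBAB, hCBC, hCBAC]
    · rw [show nf (sw Gn.B * pw [Gn.B, Gn.C]) = [Gn.C] from by decide]
      simp only [ev, gv, hA, hB, hC, hCA, hBAB, hCBC, hCBAC]
    · rw [show nf (sw Gn.C * pw [Gn.B, Gn.C]) = [Gn.B, Gn.C, Gn.B] from by decide]
      simp only [ev, gv, hA, hB, hC, hCA, hBAB, hCBC, hCBAC]
    · rw [show nf (sw Gn.A * pw [Gn.C, Gn.B]) = [Gn.A, Gn.C, Gn.B] from by decide]
      simp only [ev, gv, hA, hB, hC, hCA, hBAB, hCBC, hCBAC]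
    · rw [show nf (sw Gn.B * pw [Gn.C, Gn.B]) = [Gn.B, Gn.C, Gn.B] from by decide]
      simp only [ev, gv, hA, hB, hC, hCA, hBAB, hCBC, hCBAC]
    · rw [show nf (sw Gn.C * pw [Gn.C, Gn.B]) = [Gn.B] from by decide]
      simp only [ev, gv, hA, hB, hC, hCA, hBAB, hCBC, hCBAC]
    · rw [show nf (sw Gn.A * pw [Gn.A, Gn.B, Gn.A]) = [Gn.B, Gn.A] from by decide]
      simp only [ev, gv, hA, hB, hC, hCA, hBAB, hCBC, hCBAC]
    · rw [show nf (sw Gn.B * pw [Gn.A, Gn.B, Gn.A]) = [Gn.A, Gn.B] from by decide]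
      simp only [ev, gv, hA, hB, hC, hCA, hBAB, hCBC, hCBAC]
    · rw [show nf (sw Gn.C * pw [Gn.A, Gn.B, Gn.A]) = [Gn.A, Gn.C, Gn.B, Gn.A] from by decide]
      simp only [ev, gv, hA, hB, hC, hCA, hBAB, hCBC, hCBAC]
    · rw [show nf (sw Gn.A * pw [Gn.A, Gn.B, Gn.C]) = [Gn.B, Gn.C] from by decide]
      simp only [ev, gv, hA, hB, hC, hCA, hBAB, hCBC, hCBAC]
    · rw [show nf (sw Gn.B * pw [Gn.A, Gn.B, Gn.C]) = [Gn.A, Gn.B, Gn.A, Gn.C] from by decide]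
      simp only [ev, gv, hA, hB, hC, hCA, hBAB, hCBC, hCBAC]
    · rw [show nf (sw Gn.C * pw [Gn.A, Gn.B, Gn.C]) = [Gn.A, Gn.B, Gn.C, Gn.B] from by decide]
      simp only [ev, gv, hA, hB, hC, hCA, hBAB, hCBC, hCBAC]
    · rw [show nf (sw Gn.A * pw [Gn.A, Gn.C, Gn.B]) = [Gn.C, Gn.B] from by decide]
      simp only [ev, gv, hA, hB, hC, hCA, hBAB, hCBC, hCBAC]
    · rw [show nf (sw Gn.B * pw [Gn.A, Gn.C, Gn.B]) = [Gn.B, Gn.A, Gn.C, Gn.B] from by decide]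
      simp only [ev, gv, hA, hB, hC, hCA, hBAB, hCBC, hCBAC]
    · rw [show nf (sw Gn.C * pw [Gn.A, Gn.C, Gn.B]) = [Gn.A, Gn.B] from by decide]
      simp only [ev, gv, hA, hB, hC, hCA, hBAB, hCBC, hCBAC]
    · rw [show nf (sw Gn.A * pw [Gn.B, Gn.A, Gn.C]) = [Gn.A, Gn.B, Gn.A, Gn.C] from by decide]
      simp only [ev, gv, hA, hB, hC, hCA, hBAB, hCBC, hCBAC]
    · rw [show nf (sw Gn.B * pw [Gn.B, Gn.A, Gn.C]) = [Gn.A, Gn.C] from by decide]
      simp only [ev, gv, hA, hB, hC, hCA, hBAB, hCBC, hCBAC]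
    · rw [show nf (sw Gn.C * pw [Gn.B, Gn.A, Gn.C]) = [Gn.B, Gn.C, Gn.B, Gn.A] from by decide]
      simp only [ev, gv, hA, hB, hC, hCA, hBAB, hCBC, hCBAC]
    · rw [show nf (sw Gn.A * pw [Gn.B, Gn.C, Gn.B]) = [Gn.A, Gn.B, Gn.C, Gn.B] from by decide]
      simp only [ev, gv, hA, hB, hC, hCA, hBAB, hCBC, hCBAC]
    · rw [show nf (sw Gn.B * pw [Gn.B, Gn.C, Gn.B]) = [Gn.C, Gn.B] from by decide]
      simp only [ev, gv, hA, hB, hC, hCA, hBAB, hCBC, hCBAC]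
    · rw [show nf (sw Gn.C * pw [Gn.B, Gn.C, Gn.B]) = [Gn.B, Gn.C] from by decide]
      simp only [ev, gv, hA, hB, hC, hCA, hBAB, hCBC, hCBAC]
    · rw [show nf (sw Gn.A * pw [Gn.C, Gn.B, Gn.A]) = [Gn.A, Gn.C, Gn.B, Gn.A] from by decide]
      simp only [ev, gv, hA, hB, hC, hCA, hBAB, hCBC, hCBAC]
    · rw [show nf (sw Gn.B * pw [Gn.C, Gn.B, Gn.A]) = [Gn.B, Gn.C, Gn.B, Gn.A] from by decide]
      simp only [ev, gv, hA, hB, hC, hCA, hBAB, hCBC, hCBAC]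
    · rw [show nf (sw Gn.C * pw [Gn.C, Gn.B, Gn.A]) = [Gn.B, Gn.A] from by decide]
      simp only [ev, gv, hA, hB, hC, hCA, hBAB, hCBC, hCBAC]
    · rw [show nf (sw Gn.A * pw [Gn.A, Gn.B, Gn.A, Gn.C]) = [Gn.B, Gn.A, Gn.C] from by decide]
      simp only [ev, gv, hA, hB, hC, hCA, hBAB, hCBC, hCBAC]
    · rw [show nf (sw Gn.B * pw [Gn.A, Gn.B, Gn.A, Gn.C]) = [Gn.A, Gn.B, Gn.C] from by decide]
      simp only [ev, gv, hA, hB, hC, hCA, hBAB, hCBC, hCBAC]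
    · rw [show nf (sw Gn.C * pw [Gn.A, Gn.B, Gn.A, Gn.C]) = [Gn.A, Gn.B, Gn.C, Gn.B, Gn.A] from by decide]
      simp only [ev, gv, hA, hB, hC, hCA, hBAB, hCBC, hCBAC]
    · rw [show nf (sw Gn.A * pw [Gn.A, Gn.B, Gn.C, Gn.B]) = [Gn.B, Gn.C, Gn.B] from by decide]
      simp only [ev, gv, hA, hB, hC, hCA, hBAB, hCBC, hCBAC]
    · rw [show nf (sw Gn.B * pw [Gn.A, Gn.B, Gn.C, Gn.B]) = [Gn.A, Gn.B, Gn.A, Gn.C, Gn.B] from by decide]
      simp only [ev, gv, hA, hB, hC, hCA, hBAB, hCBC, hCBAC]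
    · rw [show nf (sw Gn.C * pw [Gn.A, Gn.B, Gn.C, Gn.B]) = [Gn.A, Gn.B, Gn.C] from by decide]
      simp only [ev, gv, hA, hB, hC, hCA, hBAB, hCBC, hCBAC]
    · rw [show nf (sw Gn.A * pw [Gn.A, Gn.C, Gn.B, Gn.A]) = [Gn.C, Gn.B, Gn.A] from by decide]
      simp only [ev, gv, hA, hB, hC, hCA, hBAB, hCBC, hCBAC]
    · rw [show nf (sw Gn.B * pw [Gn.A, Gn.C, Gn.B, Gn.A]) = [Gn.B, Gn.A, Gn.C, Gn.B, Gn.A] from by decide]
      simp only [ev, gv, hA, hB, hC, hCA, hBAB, hCBC, hCBAC]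
    · rw [show nf (sw Gn.C * pw [Gn.A, Gn.C, Gn.B, Gn.A]) = [Gn.A, Gn.B, Gn.A] from by decide]
      simp only [ev, gv, hA, hB, hC, hCA, hBAB, hCBC, hCBAC]
    · rw [show nf (sw Gn.A * pw [Gn.B, Gn.A, Gn.C, Gn.B]) = [Gn.A, Gn.B, Gn.A, Gn.C, Gn.B] from by decide]
      simp only [ev, gv, hA, hB, hC, hCA, hBAB, hCBC, hCBAC]
    · rw [show nf (sw Gn.B * pw [Gn.B, Gn.A, Gn.C, Gn.B]) = [Gn.A, Gn.C, Gn.B] from by decide]
      simp only [ev, gv, hA, hB, hC, hCA, hBAB, hCBC, hCBAC]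
    · rw [show nf (sw Gn.C * pw [Gn.B, Gn.A, Gn.C, Gn.B]) = [Gn.B, Gn.A, Gn.C, Gn.B, Gn.A] from by decide]
      simp only [ev, gv, hA, hB, hC, hCA, hBAB, hCBC, hCBAC]
    · rw [show nf (sw Gn.A * pw [Gn.B, Gn.C, Gn.B, Gn.A]) = [Gn.A, Gn.B, Gn.C, Gn.B, Gn.A] from by decide]
      simp only [ev, gv, hA, hB, hC, hCA, hBAB, hCBC, hCBAC]
    · rw [show nf (sw Gn.B * pw [Gn.B, Gn.C, Gn.B, Gn.A]) = [Gn.C, Gn.B, Gn.A] from by decide]
      simp only [ev, gv, hA, hB, hC, hCA, hBAB, hCBC, hCBAC]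
    · rw [show nf (sw Gn.C * pw [Gn.B, Gn.C, Gn.B, Gn.A]) = [Gn.B, Gn.A, Gn.C] from by decide]
      simp only [ev, gv, hA, hB, hC, hCA, hBAB, hCBC, hCBAC]
    · rw [show nf (sw Gn.A * pw [Gn.A, Gn.B, Gn.A, Gn.C, Gn.B]) = [Gn.B, Gn.A, Gn.C, Gn.B] from by decide]
      simp only [ev, gv, hA, hB, hC, hCA, hBAB, hCBC, hCBAC]
    · rw [show nf (sw Gn.B * pw [Gn.A, Gn.B, Gn.A, Gn.C, Gn.B]) = [Gn.A, Gn.B, Gn.C, Gn.B] from by decide]
      simp only [ev, gv, hA, hB, hC, hCA, hBAB, hCBC, hCBAC]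
    · rw [show nf (sw Gn.C * pw [Gn.A, Gn.B, Gn.A, Gn.C, Gn.B]) = [Gn.A, Gn.B, Gn.A, Gn.C, Gn.B, Gn.A] from by decide]
      simp only [ev, gv, hA, hB, hC, hCA, hBAB, hCBC, hCBAC]
    · rw [show nf (sw Gn.A * pw [Gn.A, Gn.B, Gn.C, Gn.B, Gn.A]) = [Gn.B, Gn.C, Gn.B, Gn.A] from by decide]
      simp only [ev, gv, hA, hB, hC, hCA, hBAB, hCBC, hCBAC]
    · rw [show nf (sw Gn.B * pw [Gn.A, Gn.B, Gn.C, Gn.B, Gn.A]) = [Gn.A, Gn.B, Gn.A, Gn.C, Gn.B, Gn.A] from by decide]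
      simp only [ev, gv, hA, hB, hC, hCA, hBAB, hCBC, hCBAC]
    · rw [show nf (sw Gn.C * pw [Gn.A, Gn.B, Gn.C, Gn.B, Gn.A]) = [Gn.A, Gn.B, Gn.A, Gn.C] from by decide]
      simp only [ev, gv, hA, hB, hC, hCA, hBAB, hCBC, hCBAC]
    · rw [show nf (sw Gn.A * pw [Gn.B, Gn.A, Gn.C, Gn.B, Gn.A]) = [Gn.A, Gn.B, Gn.A, Gn.C, Gn.B, Gn.A] from by decide]
      simp only [ev, gv, hA, hB, hC, hCA, hBAB, hCBC, hCBAC]
    · rw [show nf (sw Gn.B * pw [Gn.B, Gn.A, Gn.C, Gn.B, Gn.A]) = [Gn.A, Gn.C, Gn.B, Gn.A] from by decide]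
      simp only [ev, gv, hA, hB, hC, hCA, hBAB, hCBC, hCBAC]
    · rw [show nf (sw Gn.C * pw [Gn.B, Gn.A, Gn.C, Gn.B, Gn.A]) = [Gn.B, Gn.A, Gn.C, Gn.B] from by decide]
      simp only [ev, gv, hA, hB, hC, hCA, hBAB, hCBC, hCBAC]
    · rw [show nf (sw Gn.A * pw [Gn.A, Gn.B, Gn.A, Gn.C, Gn.B, Gn.A]) = [Gn.B, Gn.A, Gn.C, Gn.B, Gn.A] from by decide]
      simp only [ev, gv, hA, hB, hC, hCA, hBAB, hCBC, hCBAC]
    · rw [show nf (sw Gn.B * pw [Gn.A, Gn.B, Gn.A, Gn.C, Gn.B, Gn.A]) = [Gn.A, Gn.B, Gn.C, Gn.B, Gn.A] from by decide]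
      simp only [ev, gv, hA, hB, hC, hCA, hBAB, hCBC, hCBAC]
    · rw [show nf (sw Gn.C * pw [Gn.A, Gn.B, Gn.A, Gn.C, Gn.B, Gn.A]) = [Gn.A, Gn.B, Gn.A, Gn.C, Gn.B] from by decide]
      simp only [ev, gv, hA, hB, hC, hCA, hBAB, hCBC, hCBAC]
  have h := hmain (nf σ) (pw_nf σ).2 i
  rw [(pw_nf σ).1] at h
  exact h

theorem evpw {G : Type*} [Group G] (a b c : G)
    (hkey : ∀ (i : Gn) (σ : Equiv.Perm (Fin 4)),
      gv a b c i * ev a b c (nf σ) = ev a b c (nf (sw i * σ)))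
    (w : List Gn) (τ : Equiv.Perm (Fin 4)) :
    ev a b c (nf (pw w * τ)) = ev a b c w * ev a b c (nf τ) := by
  induction w with
  | nil => simp only [pw, ev, one_mul]
  | cons i w ih =>
    simp only [pw, ev]
    rw [mul_assoc, ← hkey, ih, mul_assoc]

/-- In a set of 3-transpositions, let a, b, c be members with a and c different and commuting, while neither a nor c commutes with b (a 3-string). Then there is an injective homomorphism from the symmetric group of degree 4 into the ambient group sending the transpositions (0 1), (1 2), (2 3) to a, b, c; so a, b, c generate a copy of the symmetric group of degree 4 in which they are transpositions. -/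
theorem result {G : Type*} [Group G] {D : Set G} (hD : Cfsg.IsThreeTranspositionSet D) {a b c : G} (ha : a ∈ D) (hb : b ∈ D) (hc : c ∈ D) (hac : a ≠ c) (hac' : Commute a c) (hab : ¬ Commute a b) (hbc : ¬ Commute b c) : ∃ φ : Equiv.Perm (Fin 4) →* G, Function.Injective φ ∧ φ (Equiv.swap 0 1) = a ∧ φ (Equiv.swap 1 2) = b ∧ φ (Equiv.swap 2 3) = c := by
  obtain ⟨hord, hprod⟩ := hD
  have ha2 : a * a = 1 := by
    have := pow_orderOf_eq_one a; rw [hord a ha, pow_two] at this; exact this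
  have hb2 : b * b = 1 := by
    have := pow_orderOf_eq_one b; rw [hord b hb, pow_two] at this; exact this
  have hc2 : c * c = 1 := by
    have := pow_orderOf_eq_one c; rw [hord c hc, pow_two] at this; exact this
  have hai : a⁻¹ = a := inv_eq_of_mul_eq_one_right ha2
  have hbi : b⁻¹ = b := inv_eq_of_mul_eq_one_right hb2
  have hci : c⁻¹ = c := inv_eq_of_mul_eq_one_right hc2
  have hA : ∀ x, a * (a * x) = x := fun x => by rw [← mul_assoc, ha2, one_mul]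
  have hB : ∀ x, b * (b * x) = x := fun x => by rw [← mul_assoc, hb2, one_mul]
  have hC : ∀ x, c * (c * x) = x := fun x => by rw [← mul_assoc, hc2, one_mul]
  have hca : c * a = a * c := hac'.eq.symm
  have hCA : ∀ x, c * (a * x) = a * (c * x) := fun x => by
    rw [← mul_assoc, hca, mul_assoc]
  -- braid relations
  have braid : ∀ x y : G, x * x = 1 → y * y = 1 → x⁻¹ = x → y⁻¹ = y →
      ((x * y) ^ 2 = 1 ∨ (x * y) ^ 3 = 1) → ¬ Commute x y →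
      y * (x * y) = x * (y * x) := by
    intro x y hx2 hy2 hxi hyi h hnc
    rcases h with h | h
    · exfalso
      apply hnc
      have h1 : (x * y)⁻¹ = x * y := inv_eq_of_mul_eq_one_right (by rw [← pow_two]; exact h)
      rw [mul_inv_rev, hxi, hyi] at h1
      exact h1.symm
    · have h1 : (x * y)⁻¹ = x * y * (x * y) :=
        inv_eq_of_mul_eq_one_right (by rw [← mul_assoc, ← pow_two, ← pow_succ]; exact h)
      rw [mul_inv_rev, hxi, hyi] at h1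
      -- h1 : y * x = x * y * (x * y)
      rw [h1]
      rw [mul_assoc x y, ← mul_assoc x x, hx2, one_mul]
  have hbab : b * (a * b) = a * (b * a) :=
    braid a b ha2 hb2 hai hbi (hprod a ha b hb) hab
  have hcbc : c * (b * c) = b * (c * b) :=
    braid b c hb2 hc2 hbi hci (hprod b hb c hc) hbc
  have hBAB : ∀ x, b * (a * (b * x)) = a * (b * (a * x)) := fun x => by
    rw [← mul_assoc a b x, ← mul_assoc b (a * b) x, hbab, mul_assoc, mul_assoc]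
  have hCBC : ∀ x, c * (b * (c * x)) = b * (c * (b * x)) := fun x => by
    rw [← mul_assoc b c x, ← mul_assoc c (b * c) x, hcbc, mul_assoc, mul_assoc]
  have hCBAC : ∀ x, c * (b * (a * (c * x))) = b * (c * (b * (a * x))) := fun x => by
    rw [← hCA x, hCBC]
  have hkey := key a b c hA hB hC hCA hBAB hCBC hCBAC
  have hmul : ∀ σ τ : Equiv.Perm (Fin 4),
      ev a b c (nf (σ * τ)) = ev a b c (nf σ) * ev a b c (nf τ) := by
    intro σ τ
    have h := evpw a b c hkey (nf σ) τ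
    rw [(pw_nf σ).1] at h
    exact h
  refine ⟨MonoidHom.mk' (fun σ => ev a b c (nf σ)) hmul, ?_, ?_, ?_, ?_⟩
  · rw [injective_iff_map_eq_one]
    intro σ hσ
    by_contra hne
    have hv : (MonoidHom.mk' (fun σ => ev a b c (nf σ)) hmul)
        (Equiv.swap 0 1 * Equiv.swap 2 3) = a * c := by
      show ev a b c (nf (Equiv.swap 0 1 * Equiv.swap 2 3)) = a * c
      rw [show nf (Equiv.swap 0 1 * Equiv.swap 2 3) = [Gn.A, Gn.C] from by decide]
      simp only [ev, gv, mul_one]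
    have hacne : a * c ≠ 1 := by
      intro h
      apply hac
      have := eq_inv_of_mul_eq_one_left h
      rw [hci] at this
      exact this
    obtain ⟨x, y, h | h⟩ := nclos σ hne
    · apply hacne
      rw [← hv, ← h, map_mul, map_mul, hσ, mul_one, ← map_mul, mul_inv_cancel, map_one]
    · apply hacne
      rw [← hv, ← h, map_mul, map_mul, map_mul, map_mul, map_mul, hσ, mul_one, mul_one,
        ← map_mul, ← map_mul, mul_inv_cancel, mul_inv_cancel, map_one, mul_one]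
  · show ev a b c (nf (Equiv.swap 0 1)) = a
    rw [show nf (Equiv.swap 0 1) = [Gn.A] from by decide]
    simp only [ev, gv, mul_one]
  · show ev a b c (nf (Equiv.swap 1 2)) = b
    rw [show nf (Equiv.swap 1 2) = [Gn.B] from by decide]
    simp only [ev, gv, mul_one]
  · show ev a b c (nf (Equiv.swap 2 3)) = c
    rw [show nf (Equiv.swap 2 3) = [Gn.C] from by decide]
    simp only [ev, gv, mul_one]

end Cfsg.Agent.S5344
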