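import Cfsg.Statements.S1007
import Mathlib
import Cfsg.Agent.S1003
import Cfsg.Agent.S1005
import Cfsg.Agent.S1006
import Cfsg.Agent.S1004
import Cfsg.Agent.S5344

set_option autoImplicit false
open Cfsg

namespace Cfsg.Agent.S1007

open scoped Pointwise

theorem four_card {α : Type*} [DecidableEq α] (a b c d : α) (hab : a ≠ b) (hac : a ≠ c)
    (had : a ≠ d) (hbc : b ≠ c) (hbd : b ≠ d) (hcd : c ≠ d) :
    ({a, b, c, d} : Finset α).card = 4 := by
  have h3 : ({c, d} : Finset α).card = 2 := Finset.card_pair hcd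
  have h2 := Finset.card_insert_of_notMem (s := ({c, d} : Finset α)) (a := b)
    (by simp [hbc, hbd])
  have h1 := Finset.card_insert_of_notMem (s := ({b, c, d} : Finset α)) (a := a)
    (by simp [hab, hac, had])
  omega

theorem four_elems {α : Type*} [Finite α] (hc : Nat.card α = 4) (a b c d : α) (hab : a ≠ b)
    (hac : a ≠ c) (had : a ≠ d) (hbc : b ≠ c) (hbd : b ≠ d) (hcd : c ≠ d) (x : α) :
    x = a ∨ x = b ∨ x = c ∨ x = d := by
  classical
  haveI : Fintype α := Fintype.ofFinite α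
  have hS := four_card a b c d hab hac had hbc hbd hcd
  have huniv : ({a, b, c, d} : Finset α) = Finset.univ := by
    apply Finset.eq_univ_of_card
    rw [hS, ← Nat.card_eq_fintype_card, hc]
  have hx : x ∈ ({a, b, c, d} : Finset α) := by rw [huniv]; exact Finset.mem_univ x
  simpa using hx

theorem four_le {α : Type*} [Finite α] (a b c d : α) (hab : a ≠ b)
    (hac : a ≠ c) (had : a ≠ d) (hbc : b ≠ c) (hbd : b ≠ d) (hcd : c ≠ d) :
    4 ≤ Nat.card α := by
  classical
  haveI : Fintype α := Fintype.ofFinite α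
  have hS := four_card a b c d hab hac had hbc hbd hcd
  rw [Nat.card_eq_fintype_card, ← hS]
  exact Finset.card_le_univ _

theorem klein_sq {G : Type*} [Group G] (U : Subgroup G) (hU : IsKleinFour ↥U) :
    ∀ x ∈ U, x * x = 1 := by
  intro x hx
  haveI := hU
  have h1 := Monoid.pow_exponent_eq_one (⟨x, hx⟩ : ↥U)
  rw [IsKleinFour.exponent_two] at h1
  have h2 := congrArg Subtype.val h1
  simpa [pow_two] using h2

theorem klein_comm {G : Type*} [Group G] (U : Subgroup G) (hsq : ∀ x ∈ U, x * x = 1) :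
    ∀ a ∈ U, ∀ b ∈ U, a * b = b * a := by
  intro a ha b hb
  have h1 := hsq a ha
  have h2 := hsq b hb
  have h3 := hsq (a * b) (mul_mem ha hb)
  have ha' : a⁻¹ = a := inv_eq_of_mul_eq_one_left h1
  have hb' : b⁻¹ = b := inv_eq_of_mul_eq_one_left h2
  have hab' : (a * b)⁻¹ = a * b := inv_eq_of_mul_eq_one_left h3
  rw [← hab', mul_inv_rev, ha', hb']

theorem klein_of {G : Type*} [Group G] (H : Subgroup G) (hc : Nat.card H = 4)
    (hsq : ∀ x ∈ H, x * x = 1) : IsKleinFour ↥H := by
  haveI : Finite ↥H := Nat.finite_of_card_ne_zero (by rw [hc]; norm_num)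
  haveI : Nontrivial ↥H := by
    rw [← Finite.one_lt_card_iff_nontrivial, hc]; norm_num
  refine ⟨hc, ?_⟩
  rw [Monoid.exponent_eq_prime_iff Nat.prime_two]
  intro g hg
  haveI : Fact (Nat.Prime 2) := ⟨Nat.prime_two⟩
  exact orderOf_eq_prime (by rw [pow_two]; exact Subtype.ext (hsq g g.2)) hg

theorem self_cent {G : Type*} [Group G] (t : G) : t ∈ Subgroup.centralizer ({t} : Set G) := by
  rw [Subgroup.mem_centralizer_iff]
  intro u hu
  rw [Set.mem_singleton_iff] at hu
  rw [hu]

theorem mem_cent {G : Type*} [Group G] (t x : G) :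
    x ∈ Subgroup.centralizer ({t} : Set G) ↔ t * x = x * t := by
  rw [Subgroup.mem_centralizer_iff]
  constructor
  · intro hx; exact hx t (Set.mem_singleton t)
  · intro hx u hu; rw [Set.mem_singleton_iff] at hu; rw [hu]; exact hx

/-- Every involution has centralizer of order 8. -/
theorem inv_cent {G : Type*} [Group G] [Finite G] [IsSimpleGroup G] (h : Nat.card G = 168)
    (t : G) (ht : orderOf t = 2) : Nat.card (Subgroup.centralizer ({t} : Set G)) = 8 := by
  obtain ⟨-, hinv, hconj2⟩ := Cfsg.Agent.S1005.result h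
  have hcl := Cfsg.Agent.S1005.class_card t
  have hK : Nat.card {g : G // IsConj t g} = 21 := by
    rw [← hinv]
    apply Nat.card_congr
    exact Equiv.subtypeEquivRight (fun g => ⟨fun hg => by
      obtain ⟨c, rfl⟩ := isConj_iff.mp hg
      exact (Cfsg.Agent.S1005.ord_conj c t).trans ht, fun hg => hconj2 t g ht hg⟩)
  rw [hK, h] at hcl
  omega

/-- Distinct involutions have distinct centralizers. -/
theorem cent_inj {G : Type*} [Group G] [Finite G] [IsSimpleGroup G] (h : Nat.card G = 168)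
    (t u : G) (ht : orderOf t = 2) (hu : orderOf u = 2) (htu : t ≠ u)
    (heq : Subgroup.centralizer ({t} : Set G) = Subgroup.centralizer ({u} : Set G)) :
    False := by
  haveI : Fact (Nat.Prime 2) := ⟨by norm_num⟩
  obtain ⟨c2, -, -, -, -⟩ := Cfsg.Agent.S1005.data h
  have hpg : IsPGroup 2 (Subgroup.centralizer ({t} : Set G)) :=
    IsPGroup.of_card (n := 3) ((inv_cent h t ht).trans (by norm_num))
  obtain ⟨P, hP⟩ := hpg.exists_le_sylow
  have hPeq : Subgroup.centralizer ({t} : Set G) = (P : Subgroup G) :=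
    Subgroup.eq_of_le_of_card_ge hP (le_of_eq (by rw [c2 P, inv_cent h t ht]))
  have ht1 : t ≠ 1 := by
    intro h1; rw [h1, orderOf_one] at ht; omega
  have hu1 : u ≠ 1 := by
    intro h1; rw [h1, orderOf_one] at hu; omega
  refine Cfsg.Agent.S1005.central_unique h P t u ?_ ?_ ?_ ?_ ht1 hu1 htu
  · rw [← hPeq]; exact self_cent t
  · rw [← hPeq, heq]; exact self_cent u
  · intro x hx
    rw [← hPeq, mem_cent] at hx
    exact hx.symm
  · intro x hx
    rw [← hPeq, heq, mem_cent] at hx
    exact hx.symm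

theorem klein_struct {G : Type*} [Group G] (U : Subgroup G) (hU : IsKleinFour ↥U) :
    ∃ t u : G, t ∈ U ∧ u ∈ U ∧ t ≠ 1 ∧ u ≠ 1 ∧ t ≠ u ∧
      ∀ x ∈ U, x = 1 ∨ x = t ∨ x = u ∨ x = t * u := by
  haveI := hU
  have hcard : Nat.card U = 4 := IsKleinFour.card_four
  have hsq := klein_sq U hU
  have h1 : ∃ t ∈ U, t ≠ 1 := by
    by_contra hno
    push_neg at hno
    have hb : U = ⊥ := (Subgroup.eq_bot_iff_forall U).mpr hno
    rw [hb, Subgroup.card_bot] at hcard
    omega
  obtain ⟨t, htU, ht1⟩ := h1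
  haveI : Fact (Nat.Prime 2) := ⟨Nat.prime_two⟩
  have hto : orderOf t = 2 := orderOf_eq_prime (by rw [pow_two]; exact hsq t htU) ht1
  have h2 : ∃ u ∈ U, u ∉ Subgroup.zpowers t := by
    by_contra hno
    push_neg at hno
    have hle : U ≤ Subgroup.zpowers t := hno
    have hd := Subgroup.card_dvd_of_le hle
    rw [hcard, Nat.card_zpowers, hto] at hd
    omega
  obtain ⟨u, huU, hut⟩ := h2
  have hu1 : u ≠ 1 := fun h => hut (by rw [h]; exact one_mem _)
  have htu : t ≠ u := fun h => hut (by rw [← h]; exact Subgroup.mem_zpowers t)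
  refine ⟨t, u, htU, huU, ht1, hu1, htu, ?_⟩
  intro x hx
  haveI : Finite ↥U := Nat.finite_of_card_ne_zero (by rw [hcard]; norm_num)
  have huu := hsq u huU
  have key := four_elems hcard (⟨1, one_mem U⟩ : ↥U) ⟨t, htU⟩ ⟨u, huU⟩
    ⟨t * u, mul_mem htU huU⟩
    (fun h => ht1 (congrArg Subtype.val h).symm)
    (fun h => hu1 (congrArg Subtype.val h).symm)
    (fun h => by
      have h' : (1 : G) = t * u := congrArg Subtype.val h
      apply htu
      have e1 : t = u⁻¹ := eq_inv_of_mul_eq_one_left h'.symm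
      rw [e1]; exact inv_eq_of_mul_eq_one_left huu)
    (fun h => htu (congrArg Subtype.val h))
    (fun h => by
      have h' : t = t * u := congrArg Subtype.val h
      exact hu1 (by simpa using h'))
    (fun h => by
      have h' : u = t * u := congrArg Subtype.val h
      exact ht1 (by simpa using h'))
    ⟨x, hx⟩
  rcases key with k | k | k | k
  · exact Or.inl (congrArg Subtype.val k)
  · exact Or.inr (Or.inl (congrArg Subtype.val k))
  · exact Or.inr (Or.inr (Or.inl (congrArg Subtype.val k)))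
  · exact Or.inr (Or.inr (Or.inr (congrArg Subtype.val k)))

theorem cent_le_norm {G : Type*} [Group G] [Finite G] [IsSimpleGroup G] (h : Nat.card G = 168)
    (U : Subgroup G) (hU : IsKleinFour ↥U) (t : G) (htU : t ∈ U) (ht1 : t ≠ 1) :
    U ≤ Subgroup.centralizer ({t} : Set G) ∧
    Subgroup.centralizer ({t} : Set G) ≤ Subgroup.normalizer (U : Set G) := by
  haveI := hU
  have hcard : Nat.card U = 4 := IsKleinFour.card_four
  have hsq := klein_sq U hU
  have hcomm := klein_comm U hsq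
  haveI : Fact (Nat.Prime 2) := ⟨Nat.prime_two⟩
  have hto : orderOf t = 2 := orderOf_eq_prime (by rw [pow_two]; exact hsq t htU) ht1
  have hUC : U ≤ Subgroup.centralizer ({t} : Set G) := by
    intro x hx
    rw [mem_cent]
    exact hcomm t htU x hx
  refine ⟨hUC, ?_⟩
  have hC8 := inv_cent h t hto
  have hrel : (U.subgroupOf (Subgroup.centralizer ({t} : Set G))).index = 2 := by
    have h1 := Subgroup.relIndex_mul_index hUC
    have h2 := U.card_mul_index
    have h3 := (Subgroup.centralizer ({t} : Set G)).card_mul_index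
    rw [hcard, h] at h2
    rw [hC8, h] at h3
    have h4 : U.index = 42 := by omega
    have h5 : (Subgroup.centralizer ({t} : Set G)).index = 21 := by omega
    rw [h4, h5] at h1
    change U.relIndex (Subgroup.centralizer ({t} : Set G)) = 2
    omega
  haveI := Subgroup.normal_of_index_eq_two hrel
  exact Subgroup.le_normalizer_of_normal_subgroupOf hUC

theorem cent_inf {G : Type*} [Group G] [Finite G] [IsSimpleGroup G] (h : Nat.card G = 168)
    (U : Subgroup G) (hU : IsKleinFour ↥U) (t u : G) (htU : t ∈ U) (huU : u ∈ U)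
    (ht1 : t ≠ 1) (hu1 : u ≠ 1) (htu : t ≠ u) (x : G)
    (hxt : x ∈ Subgroup.centralizer ({t} : Set G))
    (hxu : x ∈ Subgroup.centralizer ({u} : Set G)) : x ∈ U := by
  haveI := hU
  have hcard : Nat.card U = 4 := IsKleinFour.card_four
  have hsq := klein_sq U hU
  haveI : Fact (Nat.Prime 2) := ⟨Nat.prime_two⟩
  have hto : orderOf t = 2 := orderOf_eq_prime (by rw [pow_two]; exact hsq t htU) ht1
  have huo : orderOf u = 2 := orderOf_eq_prime (by rw [pow_two]; exact hsq u huU) hu1
  obtain ⟨W, hW⟩ : ∃ W : Subgroup G, W = Subgroup.centralizer ({t} : Set G) ⊓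
      Subgroup.centralizer ({u} : Set G) := ⟨_, rfl⟩
  have hUW : U ≤ W := by
    rw [hW]
    exact le_inf (cent_le_norm h U hU t htU ht1).1 (cent_le_norm h U hU u huU hu1).1
  have hWC : W ≤ Subgroup.centralizer ({t} : Set G) := by rw [hW]; exact inf_le_left
  have hWC' : W ≤ Subgroup.centralizer ({u} : Set G) := by rw [hW]; exact inf_le_right
  have hd1 := Subgroup.card_dvd_of_le hUW
  have hd2 := Subgroup.card_dvd_of_le hWC
  rw [hcard] at hd1
  rw [inv_cent h t hto] at hd2
  have hne8 : Nat.card W ≠ 8 := by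
    intro h8
    have e1 : W = Subgroup.centralizer ({t} : Set G) :=
      Subgroup.eq_of_le_of_card_ge hWC (le_of_eq (by rw [h8, inv_cent h t hto]))
    have hle : Subgroup.centralizer ({t} : Set G) ≤ Subgroup.centralizer ({u} : Set G) := by
      rw [← e1]; exact hWC'
    have e2 : Subgroup.centralizer ({t} : Set G) = Subgroup.centralizer ({u} : Set G) :=
      Subgroup.eq_of_le_of_card_ge hle
        (le_of_eq (by rw [inv_cent h t hto, inv_cent h u huo]))
    exact cent_inj h t u hto huo htu e2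
  have hW4 : Nat.card W = 4 := by
    have hle := Nat.le_of_dvd (by norm_num) hd2
    have hpos : 0 < Nat.card W := Nat.card_pos
    generalize Nat.card W = n at hd1 hd2 hne8 hle hpos
    interval_cases n <;> omega
  have hUW' : U = W := Subgroup.eq_of_le_of_card_ge hUW (le_of_eq (by rw [hW4, hcard]))
  have hxW : x ∈ W := by rw [hW]; exact Subgroup.mem_inf.mpr ⟨hxt, hxu⟩
  rw [hUW']; exact hxW

theorem norm_card {G : Type*} [Group G] [Finite G] [IsSimpleGroup G] (h : Nat.card G = 168)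
    (U : Subgroup G) (hU : IsKleinFour ↥U) :
    Nat.card (Subgroup.normalizer (U : Set G)) = 24 := by
  obtain ⟨t, u, htU, huU, ht1, hu1, htu, -⟩ := klein_struct U hU
  haveI := hU
  have hcard : Nat.card U = 4 := IsKleinFour.card_four
  have hsq := klein_sq U hU
  haveI : Fact (Nat.Prime 2) := ⟨Nat.prime_two⟩
  have hto : orderOf t = 2 := orderOf_eq_prime (by rw [pow_two]; exact hsq t htU) ht1
  have huo : orderOf u = 2 := orderOf_eq_prime (by rw [pow_two]; exact hsq u huU) hu1
  have h1 := (cent_le_norm h U hU t htU ht1).2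
  have h2 := (cent_le_norm h U hU u huU hu1).2
  have hd1 := Subgroup.card_dvd_of_le h1
  rw [inv_cent h t hto] at hd1
  have hd : Nat.card (Subgroup.normalizer (U : Set G)) ∣ 168 := by
    rw [← h]; exact Subgroup.card_subgroup_dvd_card _
  have hne8 : Nat.card (Subgroup.normalizer (U : Set G)) ≠ 8 := by
    intro h8
    have e1 := Subgroup.eq_of_le_of_card_ge h1 (le_of_eq (by rw [h8, inv_cent h t hto]))
    have e2 := Subgroup.eq_of_le_of_card_ge h2 (le_of_eq (by rw [h8, inv_cent h u huo]))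
    exact cent_inj h t u hto huo htu (e1.trans e2.symm)
  have hne56 : Nat.card (Subgroup.normalizer (U : Set G)) ≠ 56 := by
    intro h56
    have hidx := (Subgroup.normalizer (U : Set G)).card_mul_index
    rw [h56, h] at hidx
    have hi3 : (Subgroup.normalizer (U : Set G)).index = 3 := by omega
    have hnt : Subgroup.normalizer (U : Set G) ≠ ⊤ := by
      intro htop
      rw [htop, Subgroup.index_top] at hi3
      omega
    have hf := Cfsg.Agent.S1003.fact_dvd _ hnt
    rw [hi3, h] at hf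
    revert hf; decide
  have hne168 : Nat.card (Subgroup.normalizer (U : Set G)) ≠ 168 := by
    intro h168
    have htop : Subgroup.normalizer (U : Set G) = ⊤ := by
      apply Subgroup.eq_top_of_card_eq
      rw [h168, h]
    have hn : U.Normal := (Subgroup.normalizer_eq_top_iff (H := U)).mp htop
    rcases hn.eq_bot_or_eq_top with hb | hb
    · rw [hb, Subgroup.card_bot] at hcard; omega
    · rw [hb, Subgroup.card_top, h] at hcard; omega
  have hle := Nat.le_of_dvd (by norm_num) hd
  generalize Nat.card (Subgroup.normalizer (U : Set G)) = n at hd hd1 hne8 hne56 hne168 hle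
  interval_cases n <;> omega

theorem swap_lemma {G : Type*} [Group G] [Finite G] [IsSimpleGroup G] (h : Nat.card G = 168)
    (U : Subgroup G) (hU : IsKleinFour ↥U) (t u : G) (htU : t ∈ U) (huU : u ∈ U)
    (ht1 : t ≠ 1) (hu1 : u ≠ 1) (htu : t ≠ u)
    (hel : ∀ x ∈ U, x = 1 ∨ x = t ∨ x = u ∨ x = t * u)
    (a : G) (ha : a ∈ Subgroup.centralizer ({t} : Set G)) (haU : a ∉ U) :
    a * u * a⁻¹ = t * u := by
  have haN := (cent_le_norm h U hU t htU ht1).2 ha
  have hmem : a * u * a⁻¹ ∈ U := (Subgroup.mem_normalizer_iff.mp haN u).mp huU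
  have hat : t * a = a * t := (mem_cent t a).mp ha
  rcases hel _ hmem with k | k | k | k
  · exfalso; exact hu1 (conj_eq_one_iff.mp k)
  · exfalso
    apply htu
    have h1 : a * t * a⁻¹ = t := by rw [← hat, mul_inv_cancel_right]
    have h2 : a * u * a⁻¹ = a * t * a⁻¹ := k.trans h1.symm
    exact (mul_left_cancel (mul_right_cancel h2)).symm
  · exfalso
    apply haU
    apply cent_inf h U hU t u htU huU ht1 hu1 htu a ha
    rw [mem_cent]
    have h1 : a * u = u * a := by
      calc a * u = a * u * a⁻¹ * a := by group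
        _ = u * a := by rw [k]
    exact h1.symm
  · exact k

theorem order_three {G : Type*} [Group G] [Finite G] [IsSimpleGroup G] (h : Nat.card G = 168)
    (U : Subgroup G) (hU : IsKleinFour ↥U) (t u : G) (htU : t ∈ U) (huU : u ∈ U)
    (ht1 : t ≠ 1) (hu1 : u ≠ 1) (htu : t ≠ u)
    (hel : ∀ x ∈ U, x = 1 ∨ x = t ∨ x = u ∨ x = t * u)
    (x y : G) (hx : x ∈ Subgroup.centralizer ({t} : Set G)) (hxU : x ∉ U)
    (hy : y ∈ Subgroup.centralizer ({t * u} : Set G)) (hyU : y ∉ U) :
    orderOf (x * y) = 3 := by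
  have part1 := (Cfsg.Agent.S1005.result h).1
  have hsq := klein_sq U hU
  have hcomm := klein_comm U hsq
  have htt := hsq t htU
  have huu := hsq u huU
  have htuc : t * u = u * t := hcomm t htU u huU
  have htuU : t * u ∈ U := mul_mem htU huU
  have htu1 : t * u ≠ 1 := by
    intro h1
    apply htu
    have e1 : t = u⁻¹ := eq_inv_of_mul_eq_one_left h1
    rw [e1]; exact inv_eq_of_mul_eq_one_left huu
  have htut : t * u ≠ t := by
    intro h1; exact hu1 (by simpa using h1)
  have hel' : ∀ z ∈ U, z = 1 ∨ z = t * u ∨ z = t ∨ z = t * u * t := by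
    intro z hz
    have e : t * u * t = u := by rw [htuc, mul_assoc, htt, mul_one]
    rcases hel z hz with k | k | k | k
    · exact Or.inl k
    · exact Or.inr (Or.inr (Or.inl k))
    · exact Or.inr (Or.inr (Or.inr (k.trans e.symm)))
    · exact Or.inr (Or.inl k)
  have hx_t : x * t * x⁻¹ = t := by
    have hxt : t * x = x * t := (mem_cent t x).mp hx
    rw [← hxt, mul_inv_cancel_right]
  have hx_u : x * u * x⁻¹ = t * u :=
    swap_lemma h U hU t u htU huU ht1 hu1 htu hel x hx hxU
  have hx_tu : x * (t * u) * x⁻¹ = u := by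
    have e : x * (t * u) * x⁻¹ = (x * t * x⁻¹) * (x * u * x⁻¹) := by group
    rw [e, hx_t, hx_u, ← mul_assoc, htt, one_mul]
  have hy_tu : y * (t * u) * y⁻¹ = t * u := by
    have hyt : t * u * y = y * (t * u) := (mem_cent (t * u) y).mp hy
    rw [← hyt, mul_inv_cancel_right]
  have hy_t : y * t * y⁻¹ = u := by
    have e := swap_lemma h U hU (t * u) t htuU htU htu1 ht1 htut hel' y hy hyU
    rw [e, htuc, mul_assoc, htt, mul_one]
  have hy_u : y * u * y⁻¹ = t := by
    have e : y * u * y⁻¹ = (y * t * y⁻¹)⁻¹ * (y * (t * u) * y⁻¹) := by group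
    have huinv : u⁻¹ = u := inv_eq_of_mul_eq_one_left huu
    rw [e, hy_t, hy_tu, huinv, ← mul_assoc, ← htuc, mul_assoc, huu, mul_one]
  have hg1 : (x * y) * t * (x * y)⁻¹ = t * u := by
    have e : (x * y) * t * (x * y)⁻¹ = x * (y * t * y⁻¹) * x⁻¹ := by group
    rw [e, hy_t, hx_u]
  have hg2 : (x * y) * (t * u) * (x * y)⁻¹ = u := by
    have e : (x * y) * (t * u) * (x * y)⁻¹ = x * (y * (t * u) * y⁻¹) * x⁻¹ := by group
    rw [e, hy_tu, hx_tu]
  have hg3 : (x * y) * u * (x * y)⁻¹ = t := by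
    have e : (x * y) * u * (x * y)⁻¹ = x * (y * u * y⁻¹) * x⁻¹ := by group
    rw [e, hy_u, hx_t]
  obtain ⟨g, hg⟩ : ∃ g : G, g = x * y := ⟨_, rfl⟩
  rw [← hg] at hg1 hg2 hg3 ⊢
  have hstep : ∀ (n : ℕ) (v w : G), g ^ n * t * (g ^ n)⁻¹ = v → g * v * g⁻¹ = w →
      g ^ (n + 1) * t * (g ^ (n + 1))⁻¹ = w := by
    intro n v w h1 h2
    rw [← h2, ← h1, pow_succ']
    group
  have p0 : g ^ 0 * t * (g ^ 0)⁻¹ = t := by simp
  have p1 : g ^ 1 * t * (g ^ 1)⁻¹ = t * u := hstep 0 _ _ p0 hg1
  have p2 : g ^ 2 * t * (g ^ 2)⁻¹ = u := hstep 1 _ _ p1 hg2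
  have p3 : g ^ 3 * t * (g ^ 3)⁻¹ = t := hstep 2 _ _ p2 hg3
  have p4 : g ^ 4 * t * (g ^ 4)⁻¹ = t * u := hstep 3 _ _ p3 hg1
  have p5 : g ^ 5 * t * (g ^ 5)⁻¹ = u := hstep 4 _ _ p4 hg2
  have p6 : g ^ 6 * t * (g ^ 6)⁻¹ = t := hstep 5 _ _ p5 hg3
  have p7 : g ^ 7 * t * (g ^ 7)⁻¹ = t * u := hstep 6 _ _ p6 hg1
  have hpow := pow_orderOf_eq_one g
  rcases part1 g with ho | ho | ho | ho | ho
  · exfalso; rw [ho] at hpow; rw [hpow] at p1; exact hu1 (by simpa using p1)
  · exfalso; rw [ho] at hpow; rw [hpow] at p2; exact htu (by simpa using p2)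
  · exact ho
  · exfalso; rw [ho] at hpow; rw [hpow] at p4; exact hu1 (by simpa using p4)
  · exfalso; rw [ho] at hpow; rw [hpow] at p7; exact hu1 (by simpa using p7)

theorem exists_outside {G : Type*} [Group G] [Finite G] [IsSimpleGroup G]
    (h : Nat.card G = 168) (U : Subgroup G) (hU : IsKleinFour ↥U) (t : G) (htU : t ∈ U)
    (ht1 : t ≠ 1) :
    ∃ a : G, a ∈ Subgroup.centralizer ({t} : Set G) ∧ a ∉ U ∧ a * a = 1 := by
  haveI : Fact (Nat.Prime 2) := ⟨Nat.prime_two⟩
  obtain ⟨c2, -, -, -, -⟩ := Cfsg.Agent.S1005.data h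
  have hsq := klein_sq U hU
  have hto : orderOf t = 2 := orderOf_eq_prime (by rw [pow_two]; exact hsq t htU) ht1
  have hpg : IsPGroup 2 (Subgroup.centralizer ({t} : Set G)) :=
    IsPGroup.of_card (n := 3) ((inv_cent h t hto).trans (by norm_num))
  obtain ⟨P, hP⟩ := hpg.exists_le_sylow
  have hPeq : Subgroup.centralizer ({t} : Set G) = (P : Subgroup G) :=
    Subgroup.eq_of_le_of_card_ge hP (le_of_eq (by rw [c2 P, inv_cent h t hto]))
  obtain ⟨e⟩ := (Cfsg.Agent.S1004.result h P).1
  have d0 : (DihedralGroup.sr 0 * DihedralGroup.sr 0 : DihedralGroup 4) = 1 := by decide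
  have d1 : (DihedralGroup.sr 1 * DihedralGroup.sr 1 : DihedralGroup 4) = 1 := by decide
  have d01 : (DihedralGroup.sr 0 * DihedralGroup.sr 1 *
      (DihedralGroup.sr 0 * DihedralGroup.sr 1) : DihedralGroup 4) ≠ 1 := by decide
  have s0 : (e.symm (DihedralGroup.sr 0) : ↥(P : Subgroup G)) *
      e.symm (DihedralGroup.sr 0) = 1 := by
    rw [← map_mul, d0, map_one]
  have s1 : (e.symm (DihedralGroup.sr 1) : ↥(P : Subgroup G)) *
      e.symm (DihedralGroup.sr 1) = 1 := by
    rw [← map_mul, d1, map_one]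
  by_cases h0 : ((e.symm (DihedralGroup.sr 0) : ↥(P : Subgroup G)) : G) ∈ U
  · by_cases h1 : ((e.symm (DihedralGroup.sr 1) : ↥(P : Subgroup G)) : G) ∈ U
    · exfalso
      have h2 := hsq _ (mul_mem h0 h1)
      have h3 : (e.symm (DihedralGroup.sr 0) * e.symm (DihedralGroup.sr 1)) *
          (e.symm (DihedralGroup.sr 0) * e.symm (DihedralGroup.sr 1)) =
          (1 : ↥(P : Subgroup G)) := Subtype.ext h2
      rw [← map_mul, ← map_mul] at h3
      exact d01 ((MulEquiv.map_eq_one_iff e.symm).mp h3)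
    · refine ⟨_, ?_, h1, congrArg Subtype.val s1⟩
      rw [hPeq]; exact (e.symm (DihedralGroup.sr 1)).2
  · refine ⟨_, ?_, h0, congrArg Subtype.val s0⟩
    rw [hPeq]; exact (e.symm (DihedralGroup.sr 0)).2

/-- The normalizer of a Klein four-subgroup is the symmetric group of degree 4. -/
theorem norm_s4 {G : Type*} [Group G] [Finite G] [IsSimpleGroup G] (h : Nat.card G = 168)
    (U : Subgroup G) (hU : IsKleinFour ↥U) :
    Nonempty (↥(Subgroup.normalizer (U : Set G)) ≃* Equiv.Perm (Fin 4)) := by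
  haveI : Fact (Nat.Prime 2) := ⟨Nat.prime_two⟩
  obtain ⟨t, u, htU, huU, ht1, hu1, htu, hel⟩ := klein_struct U hU
  have hsq := klein_sq U hU
  have htt := hsq t htU
  have huu := hsq u huU
  have htuU : t * u ∈ U := mul_mem htU huU
  have htu1 : t * u ≠ 1 := by
    intro h1
    apply htu
    have e1 : t = u⁻¹ := eq_inv_of_mul_eq_one_left h1
    rw [e1]; exact inv_eq_of_mul_eq_one_left huu
  obtain ⟨a, haC, haU, haa⟩ := exists_outside h U hU t htU ht1
  obtain ⟨b, hbC, hbU, hbb⟩ := exists_outside h U hU (t * u) htuU htu1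
  have hat : t * a = a * t := (mem_cent t a).mp haC
  obtain ⟨c, hcdef⟩ : ∃ c : G, c = a * t := ⟨_, rfl⟩
  have hcC : c ∈ Subgroup.centralizer ({t} : Set G) := by
    rw [hcdef]; exact mul_mem haC (self_cent t)
  have hcU : c ∉ U := by
    intro hc
    apply haU
    have e1 : a = c * t := by rw [hcdef, mul_assoc, htt, mul_one]
    rw [e1]; exact mul_mem hc htU
  have hcc : c * c = 1 := by
    rw [hcdef]
    calc a * t * (a * t) = a * (t * a) * t := by group
      _ = a * (a * t) * t := by rw [hat]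
      _ = (a * a) * (t * t) := by group
      _ = 1 := by rw [haa, htt, one_mul]
  have hac_mul : a * c = t := by rw [hcdef, ← mul_assoc, haa, one_mul]
  have hca_mul : c * a = t := by rw [hcdef, mul_assoc, hat, ← mul_assoc, haa, one_mul]
  have ha1 : a ≠ 1 := fun h1 => haU (by rw [h1]; exact one_mem U)
  have hb1 : b ≠ 1 := fun h1 => hbU (by rw [h1]; exact one_mem U)
  have hc1 : c ≠ 1 := fun h1 => hcU (by rw [h1]; exact one_mem U)
  have hao : orderOf a = 2 := orderOf_eq_prime (by rw [pow_two]; exact haa) ha1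
  have hbo : orderOf b = 2 := orderOf_eq_prime (by rw [pow_two]; exact hbb) hb1
  have hco : orderOf c = 2 := orderOf_eq_prime (by rw [pow_two]; exact hcc) hc1
  have o_ab : orderOf (a * b) = 3 :=
    order_three h U hU t u htU huU ht1 hu1 htu hel a b haC haU hbC hbU
  have o_cb : orderOf (c * b) = 3 :=
    order_three h U hU t u htU huU ht1 hu1 htu hel c b hcC hcU hbC hbU
  have o_ba : orderOf (b * a) = 3 := by
    have e1 : b * a = b * (a * b) * b⁻¹ := by group
    rw [e1, Cfsg.Agent.S1005.ord_conj]; exact o_ab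
  have o_bc : orderOf (b * c) = 3 := by
    have e1 : b * c = b * (c * b) * b⁻¹ := by group
    rw [e1, Cfsg.Agent.S1005.ord_conj]; exact o_cb
  have p3 : ∀ g : G, orderOf g = 3 → g ^ 3 = 1 := fun g hg => by
    have h1 := pow_orderOf_eq_one g
    rwa [hg] at h1
  have hD : Cfsg.IsThreeTranspositionSet ({a, b, c} : Set G) := by
    refine ⟨?_, ?_⟩
    · intro d hd
      simp only [Set.mem_insert_iff, Set.mem_singleton_iff] at hd
      rcases hd with hd | hd | hd
      · rw [hd]; exact hao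
      · rw [hd]; exact hbo
      · rw [hd]; exact hco
    · intro d hd e he
      simp only [Set.mem_insert_iff, Set.mem_singleton_iff] at hd he
      rcases hd with hd | hd | hd <;> rcases he with he | he | he <;> rw [hd, he]
      · left; rw [haa, one_pow]
      · right; exact p3 _ o_ab
      · left; rw [hac_mul, pow_two, htt]
      · right; exact p3 _ o_ba
      · left; rw [hbb, one_pow]
      · right; exact p3 _ o_bc
      · left; rw [hca_mul, pow_two, htt]
      · right; exact p3 _ o_cb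
      · left; rw [hcc, one_pow]
  obtain ⟨φ, hinj, h01, h12, h23⟩ := Cfsg.Agent.S5344.result hD (a := a) (b := b) (c := c)
    (Or.inl rfl) (Or.inr (Or.inl rfl)) (Or.inr (Or.inr rfl))
    (fun hac => ht1 (by
      have e1 : a = a * t := hac.trans hcdef
      simpa using e1))
    (hac_mul.trans hca_mul.symm)
    (fun hcm => by
      have e1 : (a * b) ^ 2 = 1 := by rw [hcm.mul_pow, pow_two, pow_two, haa, hbb, one_mul]
      have e2 := orderOf_dvd_of_pow_eq_one e1
      rw [o_ab] at e2; omega)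
    (fun hcm => by
      have e1 : (b * c) ^ 2 = 1 := by rw [hcm.mul_pow, pow_two, pow_two, hbb, hcc, one_mul]
      have e2 := orderOf_dvd_of_pow_eq_one e1
      rw [o_bc] at e2; omega)
  have hN24 := norm_card h U hU
  have haN := (cent_le_norm h U hU t htU ht1).2 haC
  have hcN := (cent_le_norm h U hU t htU ht1).2 hcC
  have hbN := (cent_le_norm h U hU (t * u) htuU htu1).2 hbC
  have hall : ∀ σ : Equiv.Perm (Fin 4), φ σ ∈ Subgroup.normalizer (U : Set G) := by
    intro σ
    have hσ : σ ∈ Submonoid.closure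
        (Set.range fun i : Fin 3 => Equiv.swap i.castSucc i.succ) := by
      rw [Equiv.Perm.mclosure_swap_castSucc_succ 3]; exact Submonoid.mem_top σ
    induction hσ using Submonoid.closure_induction with
    | mem x hx =>
      obtain ⟨i, rfl⟩ := hx
      fin_cases i
      · change φ (Equiv.swap 0 1) ∈ _
        rw [h01]; exact haN
      · change φ (Equiv.swap 1 2) ∈ _
        rw [h12]; exact hbN
      · change φ (Equiv.swap 2 3) ∈ _
        rw [h23]; exact hcN
    | one => rw [map_one]; exact one_mem _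
    | mul x y _ _ hx hy => rw [map_mul]; exact mul_mem hx hy
  have hrange : φ.range ≤ Subgroup.normalizer (U : Set G) := by
    rintro _ ⟨σ, rfl⟩
    exact hall σ
  have e24 : Nat.card (Equiv.Perm (Fin 4)) = 24 := by
    rw [Nat.card_eq_fintype_card, Fintype.card_perm, Fintype.card_fin] <;> decide
  have hcr : Nat.card φ.range = 24 :=
    (Nat.card_congr (MonoidHom.ofInjective hinj).toEquiv).symm.trans e24
  have hNeq : φ.range = Subgroup.normalizer (U : Set G) :=
    Subgroup.eq_of_le_of_card_ge hrange (le_of_eq (by rw [hN24, hcr]))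
  exact ⟨(MulEquiv.subgroupCongr hNeq.symm).trans (MonoidHom.ofInjective hinj).symm⟩

/-- Every Klein four-subgroup of a Sylow 2-subgroup contains its central involution. -/
theorem klein_has_center {G : Type*} [Group G] [Finite G] [IsSimpleGroup G]
    (h : Nat.card G = 168) (T : Sylow 2 G) (z : G) (hzT : z ∈ (T : Subgroup G))
    (hzc : ∀ x ∈ (T : Subgroup G), x * z = z * x) (hz1 : z ≠ 1)
    (U : Subgroup G) (hUT : U ≤ (T : Subgroup G)) (hU : IsKleinFour ↥U) : z ∈ U := by
  by_contra hzU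
  obtain ⟨t, u, htU, huU, ht1, hu1, htu, hel⟩ := klein_struct U hU
  obtain ⟨c2, -, -, -, -⟩ := Cfsg.Agent.S1005.data h
  haveI := hU
  have hcard : Nat.card U = 4 := IsKleinFour.card_four
  have hsq := klein_sq U hU
  have hcomm := klein_comm U hsq
  obtain ⟨W, hW⟩ : ∃ W : Subgroup G,
      W = (T : Subgroup G) ⊓ Subgroup.centralizer ({t} : Set G) := ⟨_, rfl⟩
  have hUW : U ≤ W := by
    rw [hW]; exact le_inf hUT (fun x hx => (mem_cent t x).mpr (hcomm t htU x hx))
  have hWT : W ≤ (T : Subgroup G) := by rw [hW]; exact inf_le_left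
  have hzW : z ∈ W := by
    rw [hW]; exact Subgroup.mem_inf.mpr ⟨hzT, (mem_cent t z).mpr (hzc t (hUT htU))⟩
  have hd1 := Subgroup.card_dvd_of_le hUW
  have hd2 := Subgroup.card_dvd_of_le hWT
  rw [hcard] at hd1
  rw [c2 T] at hd2
  have hne4 : Nat.card W ≠ 4 := by
    intro h4
    have e1 : U = W := Subgroup.eq_of_le_of_card_ge hUW (le_of_eq (by rw [h4, hcard]))
    exact hzU (by rw [e1]; exact hzW)
  have hW8 : Nat.card W = 8 := by
    have hle := Nat.le_of_dvd (by norm_num) hd2
    have hpos : 0 < Nat.card W := Nat.card_pos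
    generalize Nat.card W = n at hd1 hd2 hne4 hle hpos
    interval_cases n <;> omega
  have hWT' : W = (T : Subgroup G) :=
    Subgroup.eq_of_le_of_card_ge hWT (le_of_eq (by rw [c2 T, hW8]))
  have htc : ∀ x ∈ (T : Subgroup G), x * t = t * x := by
    intro x hx
    have hxW : x ∈ W := by rw [hWT']; exact hx
    rw [hW] at hxW
    exact ((mem_cent t x).mp (Subgroup.mem_inf.mp hxW).2).symm
  exact Cfsg.Agent.S1005.central_unique h T z t hzT (hUT htU) hzc htc hz1 ht1
    (fun hzt => hzU (by rw [hzt]; exact htU))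

/-- The centralizer in a Sylow 2-subgroup of a non-central involution is a Klein four-group. -/
theorem klein_vs {G : Type*} [Group G] [Finite G] [IsSimpleGroup G] (h : Nat.card G = 168)
    (T : Sylow 2 G) (z : G) (hzT : z ∈ (T : Subgroup G))
    (hzc : ∀ x ∈ (T : Subgroup G), x * z = z * x) (hz1 : z ≠ 1) (hzz : z * z = 1)
    (s : G) (hsT : s ∈ (T : Subgroup G)) (hss : s * s = 1) (hs1 : s ≠ 1) (hsz : s ≠ z) :
    IsKleinFour ↥((T : Subgroup G) ⊓ Subgroup.centralizer ({s} : Set G)) := by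
  obtain ⟨c2, -, -, -, -⟩ := Cfsg.Agent.S1005.data h
  obtain ⟨V, hV⟩ : ∃ V : Subgroup G,
      V = (T : Subgroup G) ⊓ Subgroup.centralizer ({s} : Set G) := ⟨_, rfl⟩
  rw [← hV]
  have hsz' : s * z = z * s := hzc s hsT
  have hVT : V ≤ (T : Subgroup G) := by rw [hV]; exact inf_le_left
  have hzV : z ∈ V := by
    rw [hV]; exact Subgroup.mem_inf.mpr ⟨hzT, (mem_cent s z).mpr hsz'⟩
  have hsV : s ∈ V := by rw [hV]; exact Subgroup.mem_inf.mpr ⟨hsT, self_cent s⟩
  have hzsV : z * s ∈ V := mul_mem hzV hsV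
  have n1 : (⟨1, one_mem V⟩ : ↥V) ≠ ⟨z, hzV⟩ := fun h1 => hz1 (congrArg Subtype.val h1).symm
  have n2 : (⟨1, one_mem V⟩ : ↥V) ≠ ⟨s, hsV⟩ := fun h1 => hs1 (congrArg Subtype.val h1).symm
  have n3 : (⟨1, one_mem V⟩ : ↥V) ≠ ⟨z * s, hzsV⟩ := fun h1 => by
    have h' : (1 : G) = z * s := congrArg Subtype.val h1
    apply hsz
    have e1 : z = s⁻¹ := eq_inv_of_mul_eq_one_left h'.symm
    rw [e1]; exact (inv_eq_of_mul_eq_one_left hss).symm
  have n4 : (⟨z, hzV⟩ : ↥V) ≠ ⟨s, hsV⟩ := fun h1 => hsz (congrArg Subtype.val h1).symm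
  have n5 : (⟨z, hzV⟩ : ↥V) ≠ ⟨z * s, hzsV⟩ := fun h1 => by
    have h' : z = z * s := congrArg Subtype.val h1
    exact hs1 (by simpa using h')
  have n6 : (⟨s, hsV⟩ : ↥V) ≠ ⟨z * s, hzsV⟩ := fun h1 => by
    have h' : s = z * s := congrArg Subtype.val h1
    exact hz1 (by simpa using h')
  have hge : 4 ≤ Nat.card V := four_le _ _ _ _ n1 n2 n3 n4 n5 n6
  have hd := Subgroup.card_dvd_of_le hVT
  rw [c2 T] at hd
  have hne8 : Nat.card V ≠ 8 := by
    intro h8
    have e1 : V = (T : Subgroup G) :=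
      Subgroup.eq_of_le_of_card_ge hVT (le_of_eq (by rw [c2 T, h8]))
    have hsc : ∀ x ∈ (T : Subgroup G), x * s = s * x := by
      intro x hx
      have hxV : x ∈ V := by rw [e1]; exact hx
      rw [hV] at hxV
      exact ((mem_cent s x).mp (Subgroup.mem_inf.mp hxV).2).symm
    exact Cfsg.Agent.S1005.central_unique h T z s hzT hsT hzc hsc hz1 hs1
      (fun h1 => hsz h1.symm)
  have hc4 : Nat.card V = 4 := by
    have hle := Nat.le_of_dvd (by norm_num) hd
    generalize Nat.card V = n at hge hd hne8 hle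
    interval_cases n <;> omega
  apply klein_of V hc4
  intro x hx
  rcases four_elems hc4 _ _ _ _ n1 n2 n3 n4 n5 n6 ⟨x, hx⟩ with k | k | k | k
  · have k' : x = 1 := congrArg Subtype.val k
    rw [k', mul_one]
  · have k' : x = z := congrArg Subtype.val k
    rw [k']; exact hzz
  · have k' : x = s := congrArg Subtype.val k
    rw [k']; exact hss
  · have k' : x = z * s := congrArg Subtype.val k
    rw [k']
    calc z * s * (z * s) = z * (s * z) * s := by group
      _ = z * (z * s) * s := by rw [hsz']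
      _ = (z * z) * (s * s) := by group
      _ = 1 := by rw [hzz, hss, one_mul]

/-- Let G be a simple group of order 168 and T a Sylow 2-subgroup. Then T contains exactly two subgroups that are Klein four-groups; they are not conjugate in G; and the normalizer of every Klein four-subgroup of G is isomorphic to the symmetric group of degree 4. -/
theorem result {G : Type*} [Group G] [Finite G] [IsSimpleGroup G] (h : Nat.card G = 168) (T : Sylow 2 G) : Nat.card {U : Subgroup G // U ≤ (T : Subgroup G) ∧ IsKleinFour ↥U} = 2 ∧ (∀ U W : Subgroup G, U ≤ (T : Subgroup G) → W ≤ (T : Subgroup G) → IsKleinFour ↥U → IsKleinFour ↥W → U ≠ W → ∀ g : G, U.map (MulAut.conj g).toMonoidHom ≠ W) ∧ ∀ U : Subgroup G, IsKleinFour ↥U → Nonempty (↥(Subgroup.normalizer (U : Set G)) ≃* Equiv.Perm (Fin 4)) := by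
  classical
  haveI : Fact (Nat.Prime 2) := ⟨Nat.prime_two⟩
  obtain ⟨c2, -, -, -, -⟩ := Cfsg.Agent.S1005.data h
  obtain ⟨e⟩ := (Cfsg.Agent.S1004.result h T).1
  have dc : ∀ y : DihedralGroup 4, y * DihedralGroup.r 2 = DihedralGroup.r 2 * y := by decide
  have dz : (DihedralGroup.r 2 * DihedralGroup.r 2 : DihedralGroup 4) = 1 := by decide
  have dz1 : (DihedralGroup.r 2 : DihedralGroup 4) ≠ 1 := by decide
  have dcls : ∀ y : DihedralGroup 4, y * y = 1 → y ≠ 1 → y ≠ DihedralGroup.r 2 →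
      (y = DihedralGroup.sr 0 ∨ y = DihedralGroup.sr 1 ∨
        DihedralGroup.r 2 * y = DihedralGroup.sr 0 ∨
        DihedralGroup.r 2 * y = DihedralGroup.sr 1) := by decide
  have d0 : (DihedralGroup.sr 0 * DihedralGroup.sr 0 : DihedralGroup 4) = 1 := by decide
  have d1 : (DihedralGroup.sr 1 * DihedralGroup.sr 1 : DihedralGroup 4) = 1 := by decide
  have d0z : (DihedralGroup.sr 0 : DihedralGroup 4) ≠ DihedralGroup.r 2 := by decide
  have d1z : (DihedralGroup.sr 1 : DihedralGroup 4) ≠ DihedralGroup.r 2 := by decide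
  have d01 : (DihedralGroup.sr 0 * DihedralGroup.sr 1 : DihedralGroup 4) ≠
      DihedralGroup.sr 1 * DihedralGroup.sr 0 := by decide
  have d0o : (DihedralGroup.sr 0 : DihedralGroup 4) ≠ 1 := by decide
  have d1o : (DihedralGroup.sr 1 : DihedralGroup 4) ≠ 1 := by decide
  obtain ⟨zT, hzTdef⟩ : ∃ zT : ↥(T : Subgroup G), zT = e.symm (DihedralGroup.r 2) := ⟨_, rfl⟩
  obtain ⟨σ0, hσ0⟩ : ∃ σ0 : ↥(T : Subgroup G), σ0 = e.symm (DihedralGroup.sr 0) := ⟨_, rfl⟩
  obtain ⟨σ1, hσ1⟩ : ∃ σ1 : ↥(T : Subgroup G), σ1 = e.symm (DihedralGroup.sr 1) := ⟨_, rfl⟩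
  have ez : e zT = DihedralGroup.r 2 := by rw [hzTdef, MulEquiv.apply_symm_apply]
  have e0 : e σ0 = DihedralGroup.sr 0 := by rw [hσ0, MulEquiv.apply_symm_apply]
  have e1 : e σ1 = DihedralGroup.sr 1 := by rw [hσ1, MulEquiv.apply_symm_apply]
  have hzc' : ∀ x : ↥(T : Subgroup G), x * zT = zT * x := by
    intro x
    apply e.injective
    rw [map_mul, map_mul, ez]
    exact dc (e x)
  have hzz' : zT * zT = 1 := by
    apply e.injective; rw [map_mul, ez, map_one]; exact dz
  have hz1' : zT ≠ 1 := by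
    intro h1; apply dz1; rw [← ez, h1, map_one]
  have h00 : σ0 * σ0 = 1 := by
    apply e.injective; rw [map_mul, e0, map_one]; exact d0
  have h11 : σ1 * σ1 = 1 := by
    apply e.injective; rw [map_mul, e1, map_one]; exact d1
  have h0o : σ0 ≠ 1 := by
    intro h1; apply d0o; rw [← e0, h1, map_one]
  have h1o : σ1 ≠ 1 := by
    intro h1; apply d1o; rw [← e1, h1, map_one]
  have h0z : σ0 ≠ zT := by
    intro h1; apply d0z; rw [← e0, h1, ez]
  have h1z : σ1 ≠ zT := by
    intro h1; apply d1z; rw [← e1, h1, ez]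
  have h01 : σ0 * σ1 ≠ σ1 * σ0 := by
    intro h1; apply d01; rw [← e0, ← e1, ← map_mul, ← map_mul, h1]
  have hcls : ∀ x : ↥(T : Subgroup G), x * x = 1 → x ≠ 1 → x ≠ zT →
      (x = σ0 ∨ x = σ1 ∨ zT * x = σ0 ∨ zT * x = σ1) := by
    intro x hxx hx1 hxz
    have k := dcls (e x) (by rw [← map_mul, hxx, map_one])
      (fun h1 => hx1 (by apply e.injective; rw [h1, map_one]))
      (fun h1 => hxz (by apply e.injective; rw [h1, ez]))
    rcases k with k | k | k | k
    · left; apply e.injective; rw [k, e0]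
    · right; left; apply e.injective; rw [k, e1]
    · right; right; left; apply e.injective; rw [map_mul, ez, k, e0]
    · right; right; right; apply e.injective; rw [map_mul, ez, k, e1]
  have hzT : (zT : G) ∈ (T : Subgroup G) := zT.2
  have hzc : ∀ x ∈ (T : Subgroup G), x * (zT : G) = (zT : G) * x := fun x hx =>
    congrArg Subtype.val (hzc' ⟨x, hx⟩)
  have hz1 : (zT : G) ≠ 1 := fun h1 => hz1' (Subtype.ext h1)
  have hzz : (zT : G) * (zT : G) = 1 := congrArg Subtype.val hzz'
  have hs0 : (σ0 : G) * (σ0 : G) = 1 := congrArg Subtype.val h00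
  have hs1 : (σ1 : G) * (σ1 : G) = 1 := congrArg Subtype.val h11
  have hs0o : (σ0 : G) ≠ 1 := fun h1 => h0o (Subtype.ext h1)
  have hs1o : (σ1 : G) ≠ 1 := fun h1 => h1o (Subtype.ext h1)
  have hs0z : (σ0 : G) ≠ (zT : G) := fun h1 => h0z (Subtype.ext h1)
  have hs1z : (σ1 : G) ≠ (zT : G) := fun h1 => h1z (Subtype.ext h1)
  have hs01 : (σ0 : G) * (σ1 : G) ≠ (σ1 : G) * (σ0 : G) := fun h1 => h01 (Subtype.ext h1)
  have k0 := klein_vs h T (zT : G) hzT hzc hz1 hzz (σ0 : G) σ0.2 hs0 hs0o hs0z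
  have k1 := klein_vs h T (zT : G) hzT hzc hz1 hzz (σ1 : G) σ1.2 hs1 hs1o hs1z
  have key1 : ∀ U : Subgroup G, U ≤ (T : Subgroup G) → IsKleinFour ↥U →
      U = (T : Subgroup G) ⊓ Subgroup.centralizer ({(σ0 : G)} : Set G) ∨
      U = (T : Subgroup G) ⊓ Subgroup.centralizer ({(σ1 : G)} : Set G) := by
    intro U hUT hU
    have hzU := klein_has_center h T (zT : G) hzT hzc hz1 U hUT hU
    obtain ⟨t, u, htU, huU, ht1, hu1, htu, -⟩ := klein_struct U hU
    have hsq := klein_sq U hU
    have hcomm := klein_comm U hsq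
    haveI := hU
    have hcard : Nat.card U = 4 := IsKleinFour.card_four
    obtain ⟨s, hsU, hs1', hsz⟩ : ∃ s : G, s ∈ U ∧ s ≠ 1 ∧ s ≠ (zT : G) := by
      by_cases htz : t = (zT : G)
      · exact ⟨u, huU, hu1, fun huz => htu (htz.trans huz.symm)⟩
      · exact ⟨t, htU, ht1, htz⟩
    have hfin : ∀ (σ : ↥(T : Subgroup G)), (σ : G) ∈ U →
        IsKleinFour ↥((T : Subgroup G) ⊓ Subgroup.centralizer ({(σ : G)} : Set G)) →
        U = (T : Subgroup G) ⊓ Subgroup.centralizer ({(σ : G)} : Set G) := by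
      intro σ hσU hK
      have hK4 : Nat.card ↥((T : Subgroup G) ⊓ Subgroup.centralizer ({(σ : G)} : Set G)) = 4 :=
        hK.card_four
      apply Subgroup.eq_of_le_of_card_ge
      · exact le_inf hUT (fun x hx => (mem_cent _ x).mpr (hcomm _ hσU x hx))
      · exact le_of_eq (by rw [hcard, hK4])
    rcases hcls ⟨s, hUT hsU⟩ (Subtype.ext (hsq s hsU))
      (fun h1 => hs1' (congrArg Subtype.val h1))
      (fun h1 => hsz (congrArg Subtype.val h1)) with k | k | k | k
    · left; refine hfin σ0 ?_ k0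
      rw [← k]; exact hsU
    · right; refine hfin σ1 ?_ k1
      rw [← k]; exact hsU
    · left; refine hfin σ0 ?_ k0
      rw [← k]; exact mul_mem hzU hsU
    · right; refine hfin σ1 ?_ k1
      rw [← k]; exact mul_mem hzU hsU
  refine ⟨?_, ?_, fun U hU => norm_s4 h U hU⟩
  · rw [Nat.card_eq_two_iff]
    refine ⟨⟨(T : Subgroup G) ⊓ Subgroup.centralizer ({(σ0 : G)} : Set G), inf_le_left, k0⟩,
      ⟨(T : Subgroup G) ⊓ Subgroup.centralizer ({(σ1 : G)} : Set G), inf_le_left, k1⟩, ?_, ?_⟩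
    · intro heq
      have heq' : (T : Subgroup G) ⊓ Subgroup.centralizer ({(σ0 : G)} : Set G) =
          (T : Subgroup G) ⊓ Subgroup.centralizer ({(σ1 : G)} : Set G) :=
        congrArg Subtype.val heq
      have hm : (σ1 : G) ∈ (T : Subgroup G) ⊓ Subgroup.centralizer ({(σ1 : G)} : Set G) :=
        Subgroup.mem_inf.mpr ⟨σ1.2, self_cent _⟩
      rw [← heq'] at hm
      exact hs01 ((mem_cent _ _).mp (Subgroup.mem_inf.mp hm).2)
    · apply Set.eq_univ_of_forall
      intro w
      rcases key1 w.1 w.2.1 w.2.2 with k | k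
      · exact Or.inl (Subtype.ext k)
      · exact Or.inr (Subtype.ext k)
  · intro U W hUT hWT hU hW hne g hmap
    have cardU : Nat.card U = 4 := hU.card_four
    have cardW : Nat.card W = 4 := hW.card_four
    have hzU := klein_has_center h T (zT : G) hzT hzc hz1 U hUT hU
    have hzW := klein_has_center h T (zT : G) hzT hzc hz1 W hWT hW
    have hTC : (T : Subgroup G) ≤ Subgroup.centralizer ({(zT : G)} : Set G) := fun x hx =>
      (mem_cent _ x).mpr (hzc x hx).symm
    have hTNU : (T : Subgroup G) ≤ Subgroup.normalizer (U : Set G) :=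
      hTC.trans (cent_le_norm h U hU (zT : G) hzU hz1).2
    have hTNW : (T : Subgroup G) ≤ Subgroup.normalizer (W : Set G) :=
      hTC.trans (cent_le_norm h W hW (zT : G) hzW hz1).2
    have hW_iff : ∀ w : G, w ∈ W ↔ g⁻¹ * w * g ∈ U := by
      intro w
      rw [← hmap, Subgroup.mem_map]
      constructor
      · rintro ⟨y, hy, rfl⟩
        have e2 : g⁻¹ * ((MulAut.conj g).toMonoidHom y) * g = y := by
          show g⁻¹ * (g * y * g⁻¹) * g = y
          group
        rw [e2]; exact hy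
      · intro hw
        refine ⟨g⁻¹ * w * g, hw, ?_⟩
        show g * (g⁻¹ * w * g) * g⁻¹ = w
        group
    have hT'mem : ∀ y : G, y ∈ ((g • T : Sylow 2 G) : Subgroup G) ↔
        g⁻¹ * y * g ∈ (T : Subgroup G) := by
      intro y
      rw [Sylow.coe_subgroup_smul, Subgroup.mem_pointwise_smul_iff_inv_smul_mem]
      simp [MulAut.smul_def]
    have hT'N : ((g • T : Sylow 2 G) : Subgroup G) ≤ Subgroup.normalizer (W : Set G) := by
      intro y hy
      have hx : g⁻¹ * y * g ∈ (T : Subgroup G) := (hT'mem y).mp hy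
      have hxN := hTNU hx
      rw [Subgroup.mem_normalizer_iff]
      intro w
      rw [hW_iff w, hW_iff (y * w * y⁻¹)]
      have e2 : g⁻¹ * (y * w * y⁻¹) * g =
          (g⁻¹ * y * g) * (g⁻¹ * w * g) * (g⁻¹ * y * g)⁻¹ := by group
      rw [e2]
      exact Subgroup.mem_normalizer_iff.mp hxN (g⁻¹ * w * g)
    have hN24 := norm_card h W hW
    obtain ⟨N, hNdef⟩ : ∃ N : Subgroup G, N = Subgroup.normalizer (W : Set G) := ⟨_, rfl⟩
    rw [← hNdef] at hTNW hT'N hN24
    have hcN : ∀ Q : Sylow 2 ↥N, Nat.card (Q : Subgroup ↥N) = 8 := fun Q =>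
      (Cfsg.Agent.S1003.sylow_card Q 3 3 (hN24.trans (by norm_num))
        (by norm_num)).trans (by norm_num)
    have key : ∀ (S : Sylow 2 G), (S : Subgroup G) ≤ N →
        ∃ Q : Sylow 2 ↥N, (Q : Subgroup ↥N) = (S : Subgroup G).subgroupOf N := by
      intro S hS
      have hc : Nat.card ((S : Subgroup G).subgroupOf N) = 8 := by
        rw [Nat.card_congr (Subgroup.subgroupOfEquivOfLe hS).toEquiv]; exact c2 S
      have hpg : IsPGroup 2 ((S : Subgroup G).subgroupOf N) :=
        IsPGroup.of_card (n := 3) (hc.trans (by norm_num))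
      obtain ⟨Q, hQ⟩ := hpg.exists_le_sylow
      exact ⟨Q, (Subgroup.eq_of_le_of_card_ge hQ (le_of_eq (by rw [hcN Q, hc]))).symm⟩
    obtain ⟨Q1, hQ1⟩ := key T hTNW
    obtain ⟨Q2, hQ2⟩ := key (g • T) hT'N
    obtain ⟨n, hn⟩ := MulAction.exists_smul_eq ↥N Q1 Q2
    have hconj : ∀ x ∈ (T : Subgroup G),
        (n : G) * x * (n : G)⁻¹ ∈ ((g • T : Sylow 2 G) : Subgroup G) := by
      intro x hx
      have h1 : (⟨x, hTNW hx⟩ : ↥N) ∈ (Q1 : Subgroup ↥N) := by
        rw [hQ1]; exact Subgroup.mem_subgroupOf.mpr hx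
      have h2 : n * ⟨x, hTNW hx⟩ * n⁻¹ ∈ ((n • Q1 : Sylow 2 ↥N) : Subgroup ↥N) := by
        rw [Sylow.coe_subgroup_smul]
        exact Subgroup.smul_mem_pointwise_smul _ (MulAut.conj n) _ h1
      rw [hn, hQ2] at h2
      exact Subgroup.mem_subgroupOf.mp h2
    obtain ⟨m, hm⟩ : ∃ m : G, m = g⁻¹ * (n : G) := ⟨_, rfl⟩
    have hmconj : ∀ x ∈ (T : Subgroup G), m * x * m⁻¹ ∈ (T : Subgroup G) := by
      intro x hx
      have h1 := (hT'mem _).mp (hconj x hx)
      have e2 : m * x * m⁻¹ = g⁻¹ * ((n : G) * x * (n : G)⁻¹) * g := by rw [hm]; group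
      rw [e2]; exact h1
    have hmT : m • T = T := by
      apply Sylow.ext
      apply Subgroup.eq_of_le_of_card_ge
      · intro y hy
        rw [Sylow.coe_subgroup_smul, Subgroup.mem_pointwise_smul_iff_inv_smul_mem] at hy
        have hy' : m⁻¹ * y * m ∈ (T : Subgroup G) := by simpa [MulAut.smul_def] using hy
        have h3 := hmconj _ hy'
        have e2 : m * (m⁻¹ * y * m) * m⁻¹ = y := by group
        rw [e2] at h3; exact h3
      · exact le_of_eq (by rw [c2 (m • T), c2 T])
    have hmN' := Sylow.smul_eq_iff_mem_normalizer.mp hmT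
    have hmT' : m ∈ (T : Subgroup G) := by
      have h4 : m ∈ Subgroup.normalizer ((T : Subgroup G) : Set G) := hmN'
      rw [(Cfsg.Agent.S1004.result h T).2.1] at h4
      exact h4
    have hmNU : m ∈ Subgroup.normalizer (U : Set G) := hTNU hmT'
    have hnN : (n : G) ∈ Subgroup.normalizer (W : Set G) := by rw [← hNdef]; exact n.2
    have hWU : W ≤ U := by
      intro w0 hw0
      have hw : (n : G) * w0 * (n : G)⁻¹ ∈ W := (Subgroup.mem_normalizer_iff.mp hnN w0).mp hw0
      have h5 := (hW_iff _).mp hw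
      have e2 : g⁻¹ * ((n : G) * w0 * (n : G)⁻¹) * g = m * w0 * m⁻¹ := by rw [hm]; group
      rw [e2] at h5
      exact (Subgroup.mem_normalizer_iff.mp hmNU w0).mpr h5
    have hWUeq : W = U := Subgroup.eq_of_le_of_card_ge hWU (le_of_eq (by rw [cardU, cardW]))
    exact hne hWUeq.symm

end Cfsg.Agent.S1007
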