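import Cfsg.Statements.S1008
import Mathlib
import Cfsg.Agent.S1003
import Cfsg.Agent.S1005
import Cfsg.Agent.S1006
import Cfsg.Agent.S1004
import Cfsg.Agent.S1007

set_option autoImplicit false
open Cfsg

namespace Cfsg.Agent.S1008

open scoped Pointwise

theorem mem_map_conj {G : Type*} [Group G] (H : Subgroup G) (g y : G) :
    y ∈ H.map (MulAut.conj g).toMonoidHom ↔ g⁻¹ * y * g ∈ H := by
  rw [Subgroup.mem_map]
  constructor
  · rintro ⟨x, hx, rfl⟩
    have e2 : g⁻¹ * ((MulAut.conj g).toMonoidHom x) * g = x := by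
      show g⁻¹ * (g * x * g⁻¹) * g = x
      group
    rw [e2]; exact hx
  · intro hy
    refine ⟨g⁻¹ * y * g, hy, ?_⟩
    show g * (g⁻¹ * y * g) * g⁻¹ = y
    group

theorem norm_map_conj {G : Type*} [Group G] (H : Subgroup G) (g : G) :
    (Subgroup.normalizer (H : Set G)).map (MulAut.conj g).toMonoidHom ≤
      Subgroup.normalizer ((H.map (MulAut.conj g).toMonoidHom : Subgroup G) : Set G) := by
  intro y hy
  rw [mem_map_conj] at hy
  rw [Subgroup.mem_normalizer_iff]
  intro w
  rw [mem_map_conj, mem_map_conj]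
  have e2 : g⁻¹ * (y * w * y⁻¹) * g =
      (g⁻¹ * y * g) * (g⁻¹ * w * g) * (g⁻¹ * y * g)⁻¹ := by group
  rw [e2]
  exact Subgroup.mem_normalizer_iff.mp hy (g⁻¹ * w * g)

theorem klein_map {G : Type*} [Group G] (U : Subgroup G) (hU : IsKleinFour ↥U) (g : G) :
    IsKleinFour ↥(U.map (MulAut.conj g).toMonoidHom) := by
  apply Cfsg.Agent.S1007.klein_of
  · rw [← Nat.card_congr (Subgroup.equivMapOfInjective U (MulAut.conj g).toMonoidHom
      (MulAut.conj g).injective).toEquiv]
    exact hU.card_four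
  · intro y hy
    rw [mem_map_conj] at hy
    have h1 := Cfsg.Agent.S1007.klein_sq U hU _ hy
    have e2 : y * y = g * ((g⁻¹ * y * g) * (g⁻¹ * y * g)) * g⁻¹ := by group
    rw [e2, h1]; group

theorem sub_bound {G : Type*} [Group G] [Finite G] [IsSimpleGroup G] (h : Nat.card G = 168)
    (M : Subgroup G) (hM : M ≠ ⊤) : Nat.card M ≤ 24 := by
  have hf := Cfsg.Agent.S1003.fact_dvd M hM
  have hidx := M.card_mul_index
  rw [h] at hf hidx
  have hpos : 0 < M.index := Nat.pos_of_ne_zero (fun h0 => by rw [h0] at hidx; omega)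
  have h7 : 7 ≤ M.index := by
    by_contra hlt
    push_neg at hlt
    generalize M.index = k at hf hpos hlt
    interval_cases k <;> revert hf <;> decide
  by_contra hgt
  push_neg at hgt
  have h175 : 25 * 7 ≤ Nat.card M * M.index := Nat.mul_le_mul hgt h7
  omega

theorem not_coatom {G : Type*} [Group G] [Finite G] (M L : Subgroup G) (hM : IsCoatom M)
    (hle : M ≤ L) (hcard : Nat.card M < Nat.card L) (hL : Nat.card L < Nat.card G) :
    False := by
  have hlt : M < L := lt_of_le_of_ne hle (fun heq => by rw [heq] at hcard; omega)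
  have htop := hM.2 L hlt
  rw [htop, Subgroup.card_top] at hL
  omega

theorem normal_transport {G : Type*} [Group G] (M : Subgroup G) (K' : Subgroup ↥M)
    (hn : K'.Normal) :
    M ≤ Subgroup.normalizer ((K'.map M.subtype : Subgroup G) : Set G) := by
  haveI : ((K'.map M.subtype).subgroupOf M).Normal := by
    refine ⟨fun n hn' g => ?_⟩
    rw [Subgroup.mem_subgroupOf] at hn' ⊢
    obtain ⟨k, hk, hkn⟩ := Subgroup.mem_map.mp hn'
    have hkn' : k = n := Subtype.ext hkn
    rw [hkn'] at hk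
    exact Subgroup.mem_map.mpr ⟨g * n * g⁻¹, hn.conj_mem n hk g, rfl⟩
  exact Subgroup.le_normalizer_of_normal_subgroupOf (fun y hy => by
    obtain ⟨k, -, rfl⟩ := Subgroup.mem_map.mp hy
    exact k.2)

theorem core_index {H : Type*} [Group H] [Finite H] (S : Subgroup H) :
    (S.normalCore).index ∣ (S.index).factorial := by
  rw [Subgroup.normalCore_eq_ker, Subgroup.index_ker]
  have h1 := Subgroup.card_subgroup_dvd_card (MulAction.toPermHom H (H ⧸ S)).range
  rw [Nat.card_perm] at h1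
  exact h1

theorem two_elems {α : Type*} [Finite α] (hc : Nat.card α = 2) (a b : α) (hab : a ≠ b)
    (x : α) : x = a ∨ x = b := by
  classical
  haveI : Fintype α := Fintype.ofFinite α
  have huniv : ({a, b} : Finset α) = Finset.univ := by
    apply Finset.eq_univ_of_card
    rw [Finset.card_pair hab, ← Nat.card_eq_fintype_card, hc]
  have hx : x ∈ ({a, b} : Finset α) := by rw [huniv]; exact Finset.mem_univ x
  simpa using hx

theorem ar_core (k c i : ℕ) (hk : k = 2 ∨ k = 3) (h1 : c ∣ 2 ^ k) (h2 : c * i = 2 ^ k * 3)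
    (h3 : i ∣ 6) : (k = 2 ∧ c = 2) ∨ c = 4 ∨ (k = 3 ∧ c = 8) := by
  have hi6 : i ≤ 6 := Nat.le_of_dvd (by norm_num) h3
  rcases hk with rfl | rfl
  · norm_num at h1 h2
    have hc : c ≤ 4 := Nat.le_of_dvd (by norm_num) h1
    interval_cases c <;> interval_cases i <;> omega
  · norm_num at h1 h2
    have hc : c ≤ 8 := Nat.le_of_dvd (by norm_num) h1
    interval_cases c <;> interval_cases i <;> omega

theorem seven_case {G : Type*} [Group G] [Finite G] [IsSimpleGroup G] (h : Nat.card G = 168)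
    (M : Subgroup G) (j : ℕ) (hj : j = 1 ∨ j = 2 ∨ j = 3) (hm : Nat.card M = 7 * j) :
    ∃ P : Sylow 7 G, M ≤ Subgroup.normalizer ((P : Subgroup G) : Set G) := by
  haveI : Fact (Nat.Prime 7) := ⟨by norm_num⟩
  obtain ⟨-, -, c7, -, -⟩ := Cfsg.Agent.S1005.data h
  obtain ⟨Q'⟩ : Nonempty (Sylow 7 ↥M) := inferInstance
  have hQ' : Nat.card (Q' : Subgroup ↥M) = 7 :=
    (Cfsg.Agent.S1003.sylow_card Q' 1 j (hm.trans (by ring))
      (by rcases hj with rfl | rfl | rfl <;> norm_num)).trans (by norm_num)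
  have hidx : (Q' : Subgroup ↥M).index = j := by
    have h1 := (Q' : Subgroup ↥M).card_mul_index
    rw [hQ', hm] at h1
    omega
  have hn1 : Nat.card (Sylow 7 ↥M) = 1 := by
    have h1 := card_sylow_modEq_one 7 ↥M
    have h2 := Q'.card_dvd_index
    rw [hidx] at h2
    have h3 : Nat.card (Sylow 7 ↥M) ≤ 3 := by
      have h4 := Nat.le_of_dvd (by rcases hj with rfl | rfl | rfl <;> norm_num) h2
      rcases hj with rfl | rfl | rfl <;> omega
    have hpos : 0 < Nat.card (Sylow 7 ↥M) := Nat.card_pos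
    unfold Nat.ModEq at h1
    omega
  have hnorm : (Q' : Subgroup ↥M).Normal := by
    have hi : Nat.card (Sylow 7 ↥M) =
        (Subgroup.normalizer ((Q' : Subgroup ↥M) : Set ↥M)).index := Q'.card_eq_index_normalizer
    rw [hn1] at hi
    exact (Subgroup.normalizer_eq_top_iff (H := (Q' : Subgroup ↥M))).mp
      (Subgroup.index_eq_one.mp hi.symm)
  have hMN := normal_transport M (Q' : Subgroup ↥M) hnorm
  have hcard : Nat.card ((Q' : Subgroup ↥M).map M.subtype) = 7 := by
    rw [← Nat.card_congr (Subgroup.equivMapOfInjective (Q' : Subgroup ↥M) M.subtype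
      M.subtype_injective).toEquiv]
    exact hQ'
  have hpg : IsPGroup 7 ((Q' : Subgroup ↥M).map M.subtype) :=
    IsPGroup.of_card (n := 1) (hcard.trans (by norm_num))
  obtain ⟨P, hP⟩ := hpg.exists_le_sylow
  have hPeq : (Q' : Subgroup ↥M).map M.subtype = (P : Subgroup G) :=
    Subgroup.eq_of_le_of_card_ge hP (le_of_eq (by rw [c7 P, hcard]))
  refine ⟨P, ?_⟩
  rw [← hPeq]; exact hMN

theorem core_case {G : Type*} [Group G] [Finite G] [IsSimpleGroup G] (h : Nat.card G = 168)
    (M : Subgroup G) (k : ℕ) (hk : k = 2 ∨ k = 3) (hm : Nat.card M = 2 ^ k * 3) :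
    ∃ K : Subgroup G, IsKleinFour ↥K ∧ M ≤ Subgroup.normalizer (K : Set G) := by
  haveI : Fact (Nat.Prime 2) := ⟨by norm_num⟩
  haveI : Fact (Nat.Prime 3) := ⟨by norm_num⟩
  obtain ⟨c2, -, -, hN2, -⟩ := Cfsg.Agent.S1005.data h
  have part1 := (Cfsg.Agent.S1005.result h).1
  obtain ⟨S2⟩ : Nonempty (Sylow 2 ↥M) := inferInstance
  have hS : Nat.card (S2 : Subgroup ↥M) = 2 ^ k :=
    Cfsg.Agent.S1003.sylow_card S2 k 3 hm (by norm_num)
  have hidx : (S2 : Subgroup ↥M).index = 3 := by
    have h1 := (S2 : Subgroup ↥M).card_mul_index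
    rw [hS, hm] at h1
    exact Nat.eq_of_mul_eq_mul_left (pow_pos (by norm_num) k) h1
  obtain ⟨K', hK'def⟩ : ∃ K' : Subgroup ↥M, K' = (S2 : Subgroup ↥M).normalCore := ⟨_, rfl⟩
  have hKn : K'.Normal := by rw [hK'def]; exact Subgroup.normalCore_normal _
  have hKle : K' ≤ (S2 : Subgroup ↥M) := by rw [hK'def]; exact Subgroup.normalCore_le _
  have hKidx : K'.index ∣ 6 := by
    have h1 := core_index (S2 : Subgroup ↥M)
    rw [hidx, ← hK'def] at h1
    have e6 : Nat.factorial 3 = 6 := rfl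
    rw [e6] at h1
    exact h1
  have hKcard := K'.card_mul_index
  rw [hm] at hKcard
  have hKd := Subgroup.card_dvd_of_le hKle
  rw [hS] at hKd
  obtain ⟨K, hKdef⟩ : ∃ K : Subgroup G, K = K'.map M.subtype := ⟨_, rfl⟩
  have hKG : Nat.card K = Nat.card K' := by
    rw [hKdef, ← Nat.card_congr (Subgroup.equivMapOfInjective K' M.subtype
      M.subtype_injective).toEquiv]
  have hMN : M ≤ Subgroup.normalizer (K : Set G) := by
    rw [hKdef]; exact normal_transport M K' hKn
  have har := ar_core k (Nat.card K') K'.index hk hKd hKcard hKidx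
  rw [← hKG] at har
  obtain ⟨y', hy'⟩ := exists_prime_orderOf_dvd_card' (G := ↥M) 3
    (by rw [hm]; exact dvd_mul_left 3 _)
  have hyo : orderOf (y' : G) = 3 := by rw [Subgroup.orderOf_coe]; exact hy'
  have hyN : (y' : G) ∈ Subgroup.normalizer (K : Set G) := hMN y'.2
  rcases har with ⟨hk2, hc2⟩ | hc4 | ⟨hk3, hc8⟩
  · exfalso
    have hv : ∃ v ∈ K, v ≠ 1 := by
      by_contra hno
      push_neg at hno
      have hb : K = ⊥ := (Subgroup.eq_bot_iff_forall K).mpr hno
      rw [hb, Subgroup.card_bot] at hc2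
      omega
    obtain ⟨v, hvK, hv1⟩ := hv
    have hvo : orderOf v = 2 := by
      have hd := Subgroup.orderOf_dvd_natCard K hvK
      rw [hc2] at hd
      rcases (Nat.dvd_prime Nat.prime_two).mp hd with h1 | h1
      · exact absurd (orderOf_eq_one_iff.mp h1) hv1
      · exact h1
    have hMC : M ≤ Subgroup.centralizer ({v} : Set G) := by
      intro g hg
      have hgN := hMN hg
      have hmem : g * v * g⁻¹ ∈ K := (Subgroup.mem_normalizer_iff.mp hgN v).mp hvK
      rcases two_elems hc2 (⟨1, one_mem K⟩ : ↥K) ⟨v, hvK⟩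
        (fun hh => hv1 (congrArg Subtype.val hh).symm) ⟨g * v * g⁻¹, hmem⟩ with e | e
      · exact absurd (conj_eq_one_iff.mp (congrArg Subtype.val e)) hv1
      · rw [Cfsg.Agent.S1007.mem_cent]
        have e' : g * v * g⁻¹ = v := congrArg Subtype.val e
        calc v * g = g * v * g⁻¹ * g := by rw [e']
          _ = g * v := by group
    have hd := Subgroup.card_dvd_of_le hMC
    rw [Cfsg.Agent.S1007.inv_cent h v hvo, hm, hk2] at hd
    revert hd; decide
  · by_cases hx4 : ∃ x ∈ K, orderOf x = 4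
    · exfalso
      obtain ⟨x, hxK, hxo⟩ := hx4
      have hzp : Subgroup.zpowers x = K :=
        Subgroup.eq_of_le_of_card_ge (Subgroup.zpowers_le.mpr hxK)
          (le_of_eq (by rw [hc4, Nat.card_zpowers, hxo]))
      have hmem : (y' : G) * x * (y' : G)⁻¹ ∈ K :=
        (Subgroup.mem_normalizer_iff.mp hyN x).mp hxK
      rw [← hzp] at hmem
      obtain ⟨j, hj⟩ := Subgroup.mem_zpowers_iff.mp hmem
      have ho : orderOf ((y' : G) * x * (y' : G)⁻¹) = 4 :=
        (Cfsg.Agent.S1005.ord_conj _ x).trans hxo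
      have hcomm : Commute (y' : G) x → False := by
        intro hcm
        have hmul := hcm.orderOf_mul_eq_mul_orderOf_of_coprime (by rw [hyo, hxo]; decide)
        rw [hyo, hxo] at hmul
        rcases part1 ((y' : G) * x) with ho' | ho' | ho' | ho' | ho' <;> omega
      rcases Cfsg.Agent.S1004.zpow_cases x hxo j with h1 | h1 | h1 | h1
      · rw [← hj, h1, orderOf_one] at ho; omega
      · apply hcomm
        have e : (y' : G) * x * (y' : G)⁻¹ = x := hj.symm.trans h1
        show (y' : G) * x = x * (y' : G)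
        calc (y' : G) * x = (y' : G) * x * (y' : G)⁻¹ * (y' : G) := by group
          _ = x * (y' : G) := by rw [e]
      · rw [← hj, h1, Cfsg.Agent.S1004.sq_order x hxo] at ho; omega
      · have hyx : (y' : G) * x * (y' : G)⁻¹ = x⁻¹ := hj.symm.trans h1
        have h2 : (y' : G) * x⁻¹ * (y' : G)⁻¹ = x := by
          have e : (y' : G) * x⁻¹ * (y' : G)⁻¹ = ((y' : G) * x * (y' : G)⁻¹)⁻¹ := by group
          rw [e, hyx, inv_inv]
        have h3 : (y' : G) ^ 3 * x * ((y' : G) ^ 3)⁻¹ = x⁻¹ := by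
          have e : (y' : G) ^ 3 * x * ((y' : G) ^ 3)⁻¹ =
              (y' : G) * ((y' : G) * ((y' : G) * x * (y' : G)⁻¹) * (y' : G)⁻¹) *
                (y' : G)⁻¹ := by
            simp only [pow_succ, pow_zero, one_mul, mul_inv_rev, mul_assoc]
          rw [e, hyx, h2, hyx]
        have hy3 : (y' : G) ^ 3 = 1 := by
          have h4 := pow_orderOf_eq_one (y' : G)
          rwa [hyo] at h4
        rw [hy3, one_mul, inv_one, mul_one] at h3
        have hxx : x * x = 1 :=
          (show x * x = x * x⁻¹ by rw [← h3]).trans (mul_inv_cancel x)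
        have hd := orderOf_dvd_of_pow_eq_one (show x ^ 2 = 1 by rw [pow_two]; exact hxx)
        rw [hxo] at hd; omega
    · push_neg at hx4
      refine ⟨K, Cfsg.Agent.S1007.klein_of K hc4 ?_, hMN⟩
      intro x hxK
      have hd := Subgroup.orderOf_dvd_natCard K hxK
      rw [hc4] at hd
      have hx4' := hx4 x hxK
      have hle := Nat.le_of_dvd (by norm_num) hd
      have hpos := orderOf_pos x
      have h2 : orderOf x ∣ 2 := by
        generalize orderOf x = n at hd hx4' hle hpos
        interval_cases n <;> omega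
      have h5 := (orderOf_dvd_iff_pow_eq_one).mp h2
      rwa [pow_two] at h5
  · exfalso
    have hpg : IsPGroup 2 K := IsPGroup.of_card (n := 3) (hc8.trans (by norm_num))
    obtain ⟨T, hT⟩ := hpg.exists_le_sylow
    have hKT : K = (T : Subgroup G) :=
      Subgroup.eq_of_le_of_card_ge hT (le_of_eq (by rw [c2 T, hc8]))
    rw [hKT] at hMN
    have hd := Subgroup.card_dvd_of_le hMN
    rw [hN2 T, hm, hk3] at hd
    revert hd; decide

theorem six_case {G : Type*} [Group G] [Finite G] [IsSimpleGroup G] (h : Nat.card G = 168)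
    (M : Subgroup G) (hm : Nat.card M = 6) :
    ∃ L : Subgroup G, M ≤ L ∧ Nat.card L = 24 := by
  classical
  haveI : Fact (Nat.Prime 2) := ⟨by norm_num⟩
  haveI : Fact (Nat.Prime 3) := ⟨by norm_num⟩
  obtain ⟨e2, e3, e7⟩ := Cfsg.Agent.S1003.result h
  obtain ⟨c2, c3, c7, hN2, hord⟩ := Cfsg.Agent.S1005.data h
  have hN3 : ∀ P : Sylow 3 G,
      Nat.card (Subgroup.normalizer ((P : Subgroup G) : Set G)) = 6 := by
    intro P
    have h1 : Nat.card (Sylow 3 G) = (Subgroup.normalizer ((P : Subgroup G) : Set G)).index :=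
      P.card_eq_index_normalizer
    have h2 := (Subgroup.normalizer ((P : Subgroup G) : Set G)).card_mul_index
    rw [← h1, e3, h] at h2
    omega
  obtain ⟨-, hconj3, -, -, -, -⟩ := Cfsg.Agent.S1006.result h
  obtain ⟨Q'⟩ : Nonempty (Sylow 3 ↥M) := inferInstance
  have hQ' : Nat.card (Q' : Subgroup ↥M) = 3 :=
    (Cfsg.Agent.S1003.sylow_card Q' 1 2 (hm.trans (by norm_num)) (by norm_num)).trans
      (by norm_num)
  have hidx : (Q' : Subgroup ↥M).index = 2 := by
    have h1 := (Q' : Subgroup ↥M).card_mul_index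
    rw [hQ', hm] at h1
    omega
  have hnorm : (Q' : Subgroup ↥M).Normal := Subgroup.normal_of_index_eq_two hidx
  have hMN := normal_transport M (Q' : Subgroup ↥M) hnorm
  have hcard : Nat.card ((Q' : Subgroup ↥M).map M.subtype) = 3 := by
    rw [← Nat.card_congr (Subgroup.equivMapOfInjective (Q' : Subgroup ↥M) M.subtype
      M.subtype_injective).toEquiv]
    exact hQ'
  have hpg : IsPGroup 3 ((Q' : Subgroup ↥M).map M.subtype) :=
    IsPGroup.of_card (n := 1) (hcard.trans (by norm_num))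
  obtain ⟨P, hP⟩ := hpg.exists_le_sylow
  have hPeq : (Q' : Subgroup ↥M).map M.subtype = (P : Subgroup G) :=
    Subgroup.eq_of_le_of_card_ge hP (le_of_eq (by rw [c3 P, hcard]))
  rw [hPeq] at hMN
  have hy : ∃ y ∈ (P : Subgroup G), y ≠ 1 := by
    by_contra hno
    push_neg at hno
    have hb : (P : Subgroup G) = ⊥ := (Subgroup.eq_bot_iff_forall _).mpr hno
    have h3 := c3 P
    rw [hb, Subgroup.card_bot] at h3
    omega
  obtain ⟨y, hyP, hy1⟩ := hy
  have hyo : orderOf y = 3 := by
    have hd := Subgroup.orderOf_dvd_natCard _ hyP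
    rw [c3 P] at hd
    rcases (Nat.dvd_prime (by norm_num : Nat.Prime 3)).mp hd with h1 | h1
    · exact absurd (orderOf_eq_one_iff.mp h1) hy1
    · exact h1
  obtain ⟨T0⟩ : Nonempty (Sylow 2 G) := inferInstance
  obtain ⟨hcard2, -, hS4⟩ := Cfsg.Agent.S1007.result h T0
  obtain ⟨u1, -, -, -⟩ := Nat.card_eq_two_iff.mp hcard2
  obtain ⟨U0, -, hU0⟩ := u1
  obtain ⟨ψ⟩ := hS4 U0 hU0
  have dσ3 : ((Equiv.swap (0 : Fin 4) 1 * Equiv.swap 1 2) ^ 3 : Equiv.Perm (Fin 4)) = 1 := by
    decide
  have dσ1 : (Equiv.swap (0 : Fin 4) 1 * Equiv.swap 1 2 : Equiv.Perm (Fin 4)) ≠ 1 := by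
    decide
  have dτ : (Equiv.swap (0 : Fin 4) 1 * Equiv.swap (0 : Fin 4) 1 : Equiv.Perm (Fin 4)) = 1 := by
    decide
  have dτ1 : (Equiv.swap (0 : Fin 4) 1 : Equiv.Perm (Fin 4)) ≠ 1 := by decide
  have drel : (Equiv.swap (0 : Fin 4) 1 * (Equiv.swap (0 : Fin 4) 1 * Equiv.swap 1 2) *
      (Equiv.swap (0 : Fin 4) 1)⁻¹ : Equiv.Perm (Fin 4)) =
      (Equiv.swap (0 : Fin 4) 1 * Equiv.swap 1 2)⁻¹ := by decide
  obtain ⟨s', hs'⟩ : ∃ s' : ↥(Subgroup.normalizer (U0 : Set G)),
      s' = ψ.symm (Equiv.swap (0 : Fin 4) 1 * Equiv.swap 1 2) := ⟨_, rfl⟩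
  obtain ⟨t', ht'⟩ : ∃ t' : ↥(Subgroup.normalizer (U0 : Set G)),
      t' = ψ.symm (Equiv.swap (0 : Fin 4) 1) := ⟨_, rfl⟩
  have es : ψ s' = Equiv.swap (0 : Fin 4) 1 * Equiv.swap 1 2 := by
    rw [hs', MulEquiv.apply_symm_apply]
  have et : ψ t' = Equiv.swap (0 : Fin 4) 1 := by rw [ht', MulEquiv.apply_symm_apply]
  have hs3 : s' ^ 3 = 1 := by
    apply ψ.injective; rw [map_pow, es, map_one]; exact dσ3
  have hs1 : s' ≠ 1 := by
    intro h1; apply dσ1; rw [← es, h1, map_one]
  have htt : t' * t' = 1 := by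
    apply ψ.injective; rw [map_mul, et, map_one]; exact dτ
  have ht1 : t' ≠ 1 := by
    intro h1; apply dτ1; rw [← et, h1, map_one]
  have hrel : t' * s' * t'⁻¹ = s'⁻¹ := by
    apply ψ.injective; rw [map_mul, map_mul, map_inv, map_inv, es, et]; exact drel
  have hso : orderOf (s' : G) = 3 := by
    rw [Subgroup.orderOf_coe]
    exact orderOf_eq_prime hs3 hs1
  obtain ⟨g, hg⟩ := isConj_iff.mp (hconj3 (s' : G) y hso hyo)
  obtain ⟨U, hUdef⟩ : ∃ U : Subgroup G, U = U0.map (MulAut.conj g).toMonoidHom := ⟨_, rfl⟩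
  have hU : IsKleinFour ↥U := by rw [hUdef]; exact klein_map U0 hU0 g
  have hN24 := Cfsg.Agent.S1007.norm_card h U hU
  have hmapN : ∀ x : ↥(Subgroup.normalizer (U0 : Set G)),
      g * (x : G) * g⁻¹ ∈ Subgroup.normalizer (U : Set G) := by
    intro x
    rw [hUdef]
    apply norm_map_conj U0 g
    exact Subgroup.mem_map.mpr ⟨(x : G), x.2, rfl⟩
  have hyN : y ∈ Subgroup.normalizer (U : Set G) := by rw [← hg]; exact hmapN s'
  obtain ⟨a, hadef⟩ : ∃ a : G, a = g * (t' : G) * g⁻¹ := ⟨_, rfl⟩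
  have haN : a ∈ Subgroup.normalizer (U : Set G) := by rw [hadef]; exact hmapN t'
  have ha1 : a ≠ 1 := by
    intro h1
    rw [hadef] at h1
    exact ht1 (Subtype.ext (conj_eq_one_iff.mp h1))
  have haa : a * a = 1 := by
    have e1 : (t' : G) * (t' : G) = 1 := congrArg Subtype.val htt
    have e2 : a * a = g * ((t' : G) * (t' : G)) * g⁻¹ := by rw [hadef]; group
    rw [e2, e1]; group
  have hao : orderOf a = 2 := orderOf_eq_prime (by rw [pow_two]; exact haa) ha1
  have hay : a * y * a⁻¹ = y⁻¹ := by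
    have e1 : (t' : G) * (s' : G) * (t' : G)⁻¹ = (s' : G)⁻¹ := congrArg Subtype.val hrel
    have e2 : a * y * a⁻¹ = g * ((t' : G) * (s' : G) * (t' : G)⁻¹) * g⁻¹ := by
      rw [hadef, ← hg]; group
    rw [e2, e1, ← hg]; group
  have keyP : ∀ Q : Sylow 3 G, y ∈ (Q : Subgroup G) →
      Subgroup.zpowers y = (Q : Subgroup G) := fun Q hQ =>
    Subgroup.eq_of_le_of_card_ge (Subgroup.zpowers_le.mpr hQ)
      (le_of_eq (by rw [c3 Q, Nat.card_zpowers, hyo]))
  have hyaP : y ∈ ((a • P : Sylow 3 G) : Subgroup G) := by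
    have h1 : a * y * a⁻¹ ∈ ((a • P : Sylow 3 G) : Subgroup G) := by
      rw [Sylow.coe_subgroup_smul]
      exact Subgroup.smul_mem_pointwise_smul y (MulAut.conj a) _ hyP
    rw [hay] at h1
    exact inv_mem_iff.mp h1
  have haP : a • P = P := Sylow.ext ((keyP (a • P) hyaP).symm.trans (keyP P hyP))
  have haNP' := Sylow.smul_eq_iff_mem_normalizer.mp haP
  have haNP : a ∈ Subgroup.normalizer ((P : Subgroup G) : Set G) := haNP'
  have hyNP : y ∈ Subgroup.normalizer ((P : Subgroup G) : Set G) :=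
    Subgroup.le_normalizer hyP
  obtain ⟨K, hKdef⟩ : ∃ K : Subgroup G,
      K = Subgroup.normalizer ((P : Subgroup G) : Set G) ⊓ Subgroup.normalizer (U : Set G) :=
    ⟨_, rfl⟩
  have hyK : y ∈ K := by rw [hKdef]; exact Subgroup.mem_inf.mpr ⟨hyNP, hyN⟩
  have haK : a ∈ K := by rw [hKdef]; exact Subgroup.mem_inf.mpr ⟨haNP, haN⟩
  have hKle : K ≤ Subgroup.normalizer ((P : Subgroup G) : Set G) := by
    rw [hKdef]; exact inf_le_left
  have hKle' : K ≤ Subgroup.normalizer (U : Set G) := by rw [hKdef]; exact inf_le_right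
  have hd1 := Subgroup.card_dvd_of_le hKle
  rw [hN3 P] at hd1
  have hd2 := Subgroup.orderOf_dvd_natCard K hyK
  have hd3 := Subgroup.orderOf_dvd_natCard K haK
  rw [hyo] at hd2
  rw [hao] at hd3
  have hK6 : Nat.card K = 6 := by
    have hle := Nat.le_of_dvd (by norm_num) hd1
    have hpos : 0 < Nat.card K := Nat.card_pos
    generalize Nat.card K = n at hd1 hd2 hd3 hle hpos
    interval_cases n <;> omega
  have hKeq : K = Subgroup.normalizer ((P : Subgroup G) : Set G) :=
    Subgroup.eq_of_le_of_card_ge hKle (le_of_eq (by rw [hN3 P, hK6]))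
  refine ⟨Subgroup.normalizer (U : Set G), ?_, hN24⟩
  exact hMN.trans (by rw [← hKeq]; exact hKle')

theorem coatom_class {G : Type*} [Group G] [Finite G] [IsSimpleGroup G] (h : Nat.card G = 168)
    (M : Subgroup G) (hM : IsCoatom M) :
    (∃ K : Subgroup G, IsKleinFour ↥K ∧ M = Subgroup.normalizer (K : Set G)) ∨
    (∃ P : Sylow 7 G, M = Subgroup.normalizer ((P : Subgroup G) : Set G)) := by
  haveI : Fact (Nat.Prime 2) := ⟨by norm_num⟩
  haveI : Fact (Nat.Prime 3) := ⟨by norm_num⟩
  haveI : Fact (Nat.Prime 7) := ⟨by norm_num⟩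
  obtain ⟨e2, e3, e7⟩ := Cfsg.Agent.S1003.result h
  obtain ⟨c2, c3, c7, hN2, hord⟩ := Cfsg.Agent.S1005.data h
  have hN7 : ∀ P : Sylow 7 G,
      Nat.card (Subgroup.normalizer ((P : Subgroup G) : Set G)) = 21 := by
    intro P
    have h1 : Nat.card (Sylow 7 G) = (Subgroup.normalizer ((P : Subgroup G) : Set G)).index :=
      P.card_eq_index_normalizer
    have h2 := (Subgroup.normalizer ((P : Subgroup G) : Set G)).card_mul_index
    rw [← h1, e7, h] at h2
    omega
  have hN3 : ∀ P : Sylow 3 G,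
      Nat.card (Subgroup.normalizer ((P : Subgroup G) : Set G)) = 6 := by
    intro P
    have h1 : Nat.card (Sylow 3 G) = (Subgroup.normalizer ((P : Subgroup G) : Set G)).index :=
      P.card_eq_index_normalizer
    have h2 := (Subgroup.normalizer ((P : Subgroup G) : Set G)).card_mul_index
    rw [← h1, e3, h] at h2
    omega
  have hle24 := sub_bound h M hM.1
  have hdvd : Nat.card M ∣ 168 := by rw [← h]; exact Subgroup.card_subgroup_dvd_card M
  have hpos : 0 < Nat.card M := Nat.card_pos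
  have hcases : Nat.card M = 1 ∨ Nat.card M = 2 ∨ Nat.card M = 4 ∨ Nat.card M = 8 ∨
      Nat.card M = 3 ∨ Nat.card M = 7 ∨ Nat.card M = 14 ∨ Nat.card M = 21 ∨
      Nat.card M = 6 ∨ Nat.card M = 12 ∨ Nat.card M = 24 := by
    generalize Nat.card M = m at hle24 hdvd hpos
    interval_cases m <;> omega
  have h2grp : ∀ k : ℕ, Nat.card M = 2 ^ k → k ≤ 3 → False := by
    intro k hk hk3
    have hpg : IsPGroup 2 M := IsPGroup.of_card hk
    obtain ⟨T, hT⟩ := hpg.exists_le_sylow
    obtain ⟨hcard2, -, -⟩ := Cfsg.Agent.S1007.result h T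
    obtain ⟨u1, -, -, -⟩ := Nat.card_eq_two_iff.mp hcard2
    obtain ⟨U, hUT, hU⟩ := u1
    have hTN : (T : Subgroup G) ≤ Subgroup.normalizer (U : Set G) := by
      have hrel : (U.subgroupOf (T : Subgroup G)).index = 2 := by
        have h1 := Subgroup.relIndex_mul_index hUT
        have h2 := U.card_mul_index
        have h3 := (T : Subgroup G).card_mul_index
        rw [hU.card_four, h] at h2
        rw [c2 T, h] at h3
        have h4 : U.index = 42 := by omega
        have h5 : (T : Subgroup G).index = 21 := by omega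
        rw [h4, h5] at h1
        change U.relIndex (T : Subgroup G) = 2
        omega
      haveI := Subgroup.normal_of_index_eq_two hrel
      exact Subgroup.le_normalizer_of_normal_subgroupOf hUT
    have hN24 := Cfsg.Agent.S1007.norm_card h U hU
    have hMle : Nat.card M ≤ 8 := by
      have hd := Subgroup.card_dvd_of_le hT
      rw [c2 T] at hd
      exact Nat.le_of_dvd (by norm_num) hd
    exact not_coatom M _ hM (hT.trans hTN) (by rw [hN24]; omega) (by rw [hN24, h]; norm_num)
  rcases hcases with hc | hc | hc | hc | hc | hc | hc | hc | hc | hc | hc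
  · exact (h2grp 0 (hc.trans (by norm_num)) (by norm_num)).elim
  · exact (h2grp 1 (hc.trans (by norm_num)) (by norm_num)).elim
  · exact (h2grp 2 (hc.trans (by norm_num)) (by norm_num)).elim
  · exact (h2grp 3 (hc.trans (by norm_num)) (by norm_num)).elim
  · exfalso
    have hpg : IsPGroup 3 M := IsPGroup.of_card (n := 1) (hc.trans (by norm_num))
    obtain ⟨Q, hQ⟩ := hpg.exists_le_sylow
    exact not_coatom M _ hM (hQ.trans Subgroup.le_normalizer) (by rw [hN3 Q, hc]; norm_num)
      (by rw [hN3 Q, h]; norm_num)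
  · exfalso
    obtain ⟨P, hP⟩ := seven_case h M 1 (Or.inl rfl) (hc.trans (by norm_num))
    exact not_coatom M _ hM hP (by rw [hN7 P, hc]; norm_num) (by rw [hN7 P, h]; norm_num)
  · exfalso
    obtain ⟨P, hP⟩ := seven_case h M 2 (Or.inr (Or.inl rfl)) (hc.trans (by norm_num))
    have hd := Subgroup.card_dvd_of_le hP
    rw [hN7 P, hc] at hd
    omega
  · right
    obtain ⟨P, hP⟩ := seven_case h M 3 (Or.inr (Or.inr rfl)) (hc.trans (by norm_num))
    exact ⟨P, Subgroup.eq_of_le_of_card_ge hP (le_of_eq (by rw [hN7 P, hc]))⟩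
  · exfalso
    obtain ⟨L, hML, hL⟩ := six_case h M hc
    exact not_coatom M L hM hML (by rw [hL, hc]; norm_num) (by rw [hL, h]; norm_num)
  · exfalso
    obtain ⟨K, hK, hMK⟩ := core_case h M 2 (Or.inl rfl) (hc.trans (by norm_num))
    have hN24 := Cfsg.Agent.S1007.norm_card h K hK
    exact not_coatom M _ hM hMK (by rw [hN24, hc]; norm_num) (by rw [hN24, h]; norm_num)
  · left
    obtain ⟨K, hK, hMK⟩ := core_case h M 3 (Or.inr rfl) (hc.trans (by norm_num))
    have hN24 := Cfsg.Agent.S1007.norm_card h K hK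
    exact ⟨K, hK, Subgroup.eq_of_le_of_card_ge hMK (le_of_eq (by rw [hN24, hc]))⟩

theorem norm_inj {G : Type*} [Group G] [Finite G] [IsSimpleGroup G] (h : Nat.card G = 168)
    (W U : Subgroup G) (hW : IsKleinFour ↥W) (hU : IsKleinFour ↥U)
    (hN : Subgroup.normalizer (W : Set G) = Subgroup.normalizer (U : Set G)) : W = U := by
  by_contra hne
  haveI : Fact (Nat.Prime 2) := ⟨by norm_num⟩
  have cW : Nat.card W = 4 := hW.card_four
  have cU : Nat.card U = 4 := hU.card_four
  have sqW := Cfsg.Agent.S1007.klein_sq W hW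
  have hWN : W ≤ Subgroup.normalizer (U : Set G) := by
    rw [← hN]; exact Subgroup.le_normalizer
  have hUN : U ≤ Subgroup.normalizer (W : Set G) := by
    rw [hN]; exact Subgroup.le_normalizer
  have hv : ∃ v : G, v ∈ W ∧ v ∈ U ∧ v ≠ 1 := by
    by_contra hno
    push_neg at hno
    obtain ⟨t, u, htW, huW, ht1, hu1, htu, -⟩ := Cfsg.Agent.S1007.klein_struct W hW
    have hcomm : ∀ w ∈ W, ∀ x ∈ U, w * x = x * w := by
      intro w hw x hx
      have h1 : w * x * w⁻¹ ∈ U := (Subgroup.mem_normalizer_iff.mp (hWN hw) x).mp hx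
      have h2 : x * w⁻¹ * x⁻¹ ∈ W :=
        (Subgroup.mem_normalizer_iff.mp (hUN hx) w⁻¹).mp (inv_mem hw)
      have h3 : w * x * w⁻¹ * x⁻¹ ∈ U := mul_mem h1 (inv_mem hx)
      have h4 : w * x * w⁻¹ * x⁻¹ ∈ W := by
        have e : w * x * w⁻¹ * x⁻¹ = w * (x * w⁻¹ * x⁻¹) := by group
        rw [e]; exact mul_mem hw h2
      have h5 := hno _ h4 h3
      calc w * x = w * x * w⁻¹ * x⁻¹ * (x * w) := by group
        _ = x * w := by rw [h5, one_mul]
    have hUW : U ≤ W := by
      intro x hx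
      apply Cfsg.Agent.S1007.cent_inf h W hW t u htW huW ht1 hu1 htu x
      · rw [Cfsg.Agent.S1007.mem_cent]; exact hcomm t htW x hx
      · rw [Cfsg.Agent.S1007.mem_cent]; exact hcomm u huW x hx
    exact hne (Subgroup.eq_of_le_of_card_ge hUW (le_of_eq (by rw [cW, cU]))).symm
  obtain ⟨v, hvW, hvU, hv1⟩ := hv
  have hvo : orderOf v = 2 := orderOf_eq_prime (by rw [pow_two]; exact sqW v hvW) hv1
  obtain ⟨D, hDdef⟩ : ∃ D : Subgroup G, D = W ⊓ U := ⟨_, rfl⟩
  have hvD : v ∈ D := by rw [hDdef]; exact Subgroup.mem_inf.mpr ⟨hvW, hvU⟩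
  have hDW : D ≤ W := by rw [hDdef]; exact inf_le_left
  have hDU : D ≤ U := by rw [hDdef]; exact inf_le_right
  have hd1 := Subgroup.card_dvd_of_le hDW
  rw [cW] at hd1
  have hd2 := Subgroup.orderOf_dvd_natCard D hvD
  rw [hvo] at hd2
  have hne4 : Nat.card D ≠ 4 := by
    intro h4
    have e1 : D = W := Subgroup.eq_of_le_of_card_ge hDW (le_of_eq (by rw [cW, h4]))
    have hWU : W ≤ U := by rw [← e1]; exact hDU
    exact hne (Subgroup.eq_of_le_of_card_ge hWU (le_of_eq (by rw [cU, cW])))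
  have hD2 : Nat.card D = 2 := by
    have hle := Nat.le_of_dvd (by norm_num) hd1
    have hpos : 0 < Nat.card D := Nat.card_pos
    generalize Nat.card D = n at hd1 hd2 hne4 hle hpos
    interval_cases n <;> omega
  have hNC : Subgroup.normalizer (U : Set G) ≤ Subgroup.centralizer ({v} : Set G) := by
    intro g hg
    have hgW : g ∈ Subgroup.normalizer (W : Set G) := by rw [hN]; exact hg
    have hmem : g * v * g⁻¹ ∈ D := by
      rw [hDdef]
      exact Subgroup.mem_inf.mpr ⟨(Subgroup.mem_normalizer_iff.mp hgW v).mp hvW,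
        (Subgroup.mem_normalizer_iff.mp hg v).mp hvU⟩
    rcases two_elems hD2 (⟨1, one_mem D⟩ : ↥D) ⟨v, hvD⟩
      (fun hh => hv1 (congrArg Subtype.val hh).symm) ⟨g * v * g⁻¹, hmem⟩ with e | e
    · exact absurd (conj_eq_one_iff.mp (congrArg Subtype.val e)) hv1
    · rw [Cfsg.Agent.S1007.mem_cent]
      have e' : g * v * g⁻¹ = v := congrArg Subtype.val e
      calc v * g = g * v * g⁻¹ * g := by rw [e']
        _ = g * v := by group
  have hd := Subgroup.card_dvd_of_le hNC
  rw [Cfsg.Agent.S1007.norm_card h U hU, Cfsg.Agent.S1007.inv_cent h v hvo] at hd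
  omega

theorem norm_coatom {G : Type*} [Group G] [Finite G] [IsSimpleGroup G] (h : Nat.card G = 168)
    (U : Subgroup G) (hU : IsKleinFour ↥U) : IsCoatom (Subgroup.normalizer (U : Set G)) := by
  have hN24 := Cfsg.Agent.S1007.norm_card h U hU
  refine ⟨?_, ?_⟩
  · intro htop
    rw [htop, Subgroup.card_top, h] at hN24
    omega
  · intro L hlt
    by_contra hL
    have hb := sub_bound h L hL
    have heq := Subgroup.eq_of_le_of_card_ge hlt.le (by rw [hN24]; exact hb)
    exact hlt.ne heq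

/-- In a simple group of order 168 every maximal subgroup is either isomorphic to the symmetric group of degree 4 or non-abelian of order 21; the maximal subgroups of order 21 form one conjugacy class and those isomorphic to the symmetric group of degree 4 form exactly two conjugacy classes. -/
theorem result {G : Type*} [Group G] [Finite G] [IsSimpleGroup G] (h : Nat.card G = 168) : (∀ M : Subgroup G, IsCoatom M → Nonempty (↥M ≃* Equiv.Perm (Fin 4)) ∨ (Nat.card ↥M = 21 ∧ ¬ IsMulCommutative ↥M)) ∧ (∀ M M' : Subgroup G, IsCoatom M → IsCoatom M' → Nat.card ↥M = 21 → Nat.card ↥M' = 21 → ∃ g : G, M' = M.map (MulAut.conj g).toMonoidHom) ∧ ∃ M₁ M₂ : Subgroup G, IsCoatom M₁ ∧ IsCoatom M₂ ∧ Nonempty (↥M₁ ≃* Equiv.Perm (Fin 4)) ∧ Nonempty (↥M₂ ≃* Equiv.Perm (Fin 4)) ∧ (∀ g : G, M₂ ≠ M₁.map (MulAut.conj g).toMonoidHom) ∧ ∀ M : Subgroup G, IsCoatom M → Nonempty (↥M ≃* Equiv.Perm (Fin 4)) → ∃ g : G, M = M₁.map (MulAut.conj g).toMonoidHom ∨ M = M₂.map (MulAut.conj g).toMonoidHom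 := by
  classical
  haveI : Fact (Nat.Prime 2) := ⟨by norm_num⟩
  haveI : Fact (Nat.Prime 3) := ⟨by norm_num⟩
  haveI : Fact (Nat.Prime 7) := ⟨by norm_num⟩
  obtain ⟨e2, e3, e7⟩ := Cfsg.Agent.S1003.result h
  have part1 := (Cfsg.Agent.S1005.result h).1
  have hN7 : ∀ P : Sylow 7 G,
      Nat.card (Subgroup.normalizer ((P : Subgroup G) : Set G)) = 21 := by
    intro P
    have h1 : Nat.card (Sylow 7 G) = (Subgroup.normalizer ((P : Subgroup G) : Set G)).index :=
      P.card_eq_index_normalizer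
    have h2 := (Subgroup.normalizer ((P : Subgroup G) : Set G)).card_mul_index
    rw [← h1, e7, h] at h2
    omega
  have e24 : Nat.card (Equiv.Perm (Fin 4)) = 24 := by
    rw [Nat.card_eq_fintype_card, Fintype.card_perm, Fintype.card_fin] <;> decide
  refine ⟨?_, ?_, ?_⟩
  · intro M hM
    rcases coatom_class h M hM with ⟨K, hK, hMK⟩ | ⟨P, hMP⟩
    · left
      obtain ⟨ψ⟩ := Cfsg.Agent.S1007.norm_s4 h K hK
      exact ⟨(MulEquiv.subgroupCongr hMK).trans ψ⟩
    · right
      have hc21 : Nat.card M = 21 := by rw [hMP]; exact hN7 P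
      refine ⟨hc21, ?_⟩
      intro hcomm
      obtain ⟨x, hx⟩ := exists_prime_orderOf_dvd_card' (G := ↥M) 7 (by rw [hc21]; norm_num)
      obtain ⟨y, hy⟩ := exists_prime_orderOf_dvd_card' (G := ↥M) 3 (by rw [hc21]; norm_num)
      have hxy : Commute x y := hcomm.is_comm.comm x y
      have hmul := hxy.orderOf_mul_eq_mul_orderOf_of_coprime (by rw [hx, hy]; decide)
      rw [hx, hy] at hmul
      have hmul' : orderOf ((x * y : ↥M) : G) = 7 * 3 := by
        rw [Subgroup.orderOf_coe]; exact hmul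
      rcases part1 ((x * y : ↥M) : G) with ho | ho | ho | ho | ho <;> omega
  · intro M M' hM hM' hc hc'
    have key21 : ∀ M₀ : Subgroup G, IsCoatom M₀ → Nat.card M₀ = 21 →
        ∃ P : Sylow 7 G, M₀ = Subgroup.normalizer ((P : Subgroup G) : Set G) := by
      intro M₀ hM₀ hc₀
      rcases coatom_class h M₀ hM₀ with ⟨K, hK, hMK⟩ | ⟨P, hMP⟩
      · exfalso
        rw [hMK, Cfsg.Agent.S1007.norm_card h K hK] at hc₀
        omega
      · exact ⟨P, hMP⟩
    obtain ⟨P, hMP⟩ := key21 M hM hc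
    obtain ⟨P', hMP'⟩ := key21 M' hM' hc'
    obtain ⟨g, hg⟩ := MulAction.exists_smul_eq G P P'
    refine ⟨g, ?_⟩
    symm
    apply Subgroup.eq_of_le_of_card_ge
    · intro y hy
      rw [mem_map_conj] at hy
      rw [hMP] at hy
      have h1 : (g⁻¹ * y * g) • P = P :=
        (Sylow.smul_eq_iff_mem_normalizer (g := g⁻¹ * y * g) (P := P)).mpr hy
      have h2 : y • (g • P) = g • P := by
        rw [← mul_smul]
        have e : y * g = g * (g⁻¹ * y * g) := by group
        rw [e, mul_smul, h1]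
      rw [hg] at h2
      have h3 := (Sylow.smul_eq_iff_mem_normalizer (g := y) (P := P')).mp h2
      rw [hMP']
      exact h3
    · exact le_of_eq (by
        rw [hc', ← Nat.card_congr (Subgroup.equivMapOfInjective M (MulAut.conj g).toMonoidHom
          (MulAut.conj g).injective).toEquiv, hc])
  · obtain ⟨T⟩ : Nonempty (Sylow 2 G) := inferInstance
    obtain ⟨hcard2, hnc, hS4⟩ := Cfsg.Agent.S1007.result h T
    obtain ⟨u1, u2, hne, huniv⟩ := Nat.card_eq_two_iff.mp hcard2
    obtain ⟨U1, hU1T, hU1⟩ := u1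
    obtain ⟨U2, hU2T, hU2⟩ := u2
    have hU12 : U1 ≠ U2 := fun heq => hne (Subtype.ext heq)
    have hcls : ∀ V : Subgroup G, V ≤ (T : Subgroup G) → IsKleinFour ↥V →
        V = U1 ∨ V = U2 := by
      intro V hVT hV
      have hmem : (⟨V, hVT, hV⟩ : {U : Subgroup G // U ≤ (T : Subgroup G) ∧ IsKleinFour ↥U}) ∈
          ({⟨U1, hU1T, hU1⟩, ⟨U2, hU2T, hU2⟩} : Set _) := by
        rw [huniv]; exact Set.mem_univ _
      rcases hmem with h1 | h1
      · exact Or.inl (congrArg Subtype.val h1)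
      · exact Or.inr (congrArg Subtype.val h1)
    refine ⟨Subgroup.normalizer (U1 : Set G), Subgroup.normalizer (U2 : Set G),
      norm_coatom h U1 hU1, norm_coatom h U2 hU2, hS4 U1 hU1, hS4 U2 hU2, ?_, ?_⟩
    · intro g hconj
      have hW : IsKleinFour ↥(U1.map (MulAut.conj g).toMonoidHom) := klein_map U1 hU1 g
      have hle : Subgroup.normalizer (U2 : Set G) ≤ Subgroup.normalizer
          ((U1.map (MulAut.conj g).toMonoidHom : Subgroup G) : Set G) := by
        rw [hconj]; exact norm_map_conj U1 g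
      have heq : Subgroup.normalizer
          ((U1.map (MulAut.conj g).toMonoidHom : Subgroup G) : Set G) =
          Subgroup.normalizer (U2 : Set G) :=
        (Subgroup.eq_of_le_of_card_ge hle (le_of_eq (by
          rw [Cfsg.Agent.S1007.norm_card h _ hW, Cfsg.Agent.S1007.norm_card h U2 hU2]))).symm
      have hWU := norm_inj h _ U2 hW hU2 heq
      exact hnc U1 U2 hU1T hU2T hU1 hU2 hU12 g hWU
    · intro M hM hiso
      obtain ⟨ψ⟩ := hiso
      have hc24 : Nat.card M = 24 := (Nat.card_congr ψ.toEquiv).trans e24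
      rcases coatom_class h M hM with ⟨K, hK, hMK⟩ | ⟨P, hMP⟩
      · have hpg : IsPGroup 2 K := IsPGroup.of_card (n := 2) (hK.card_four.trans (by norm_num))
        obtain ⟨T', hT'⟩ := hpg.exists_le_sylow
        obtain ⟨g, hg⟩ := MulAction.exists_smul_eq G T T'
        have hT'mem : ∀ y : G, y ∈ ((g • T : Sylow 2 G) : Subgroup G) ↔
            g⁻¹ * y * g ∈ (T : Subgroup G) := by
          intro y
          rw [Sylow.coe_subgroup_smul, Subgroup.mem_pointwise_smul_iff_inv_smul_mem]
          simp [MulAut.smul_def]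
        have hK' : IsKleinFour ↥(K.map (MulAut.conj g⁻¹).toMonoidHom) := klein_map K hK g⁻¹
        have hK'T : K.map (MulAut.conj g⁻¹).toMonoidHom ≤ (T : Subgroup G) := by
          intro y hy
          rw [mem_map_conj, inv_inv] at hy
          have h1 : g * y * g⁻¹ ∈ ((g • T : Sylow 2 G) : Subgroup G) := by
            rw [hg]; exact hT' hy
          have h2 := (hT'mem _).mp h1
          have e : g⁻¹ * (g * y * g⁻¹) * g = y := by group
          rw [e] at h2; exact h2
        have hfin : ∀ Ui : Subgroup G, IsKleinFour ↥Ui →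
            K.map (MulAut.conj g⁻¹).toMonoidHom = Ui →
            M = (Subgroup.normalizer (Ui : Set G)).map (MulAut.conj g).toMonoidHom := by
          intro Ui hUi hKi
          have h1 : M.map (MulAut.conj g⁻¹).toMonoidHom = Subgroup.normalizer (Ui : Set G) := by
            apply Subgroup.eq_of_le_of_card_ge
            · rw [hMK, ← hKi]; exact norm_map_conj K g⁻¹
            · exact le_of_eq (by
                rw [Cfsg.Agent.S1007.norm_card h Ui hUi, ← Nat.card_congr
                  (Subgroup.equivMapOfInjective M (MulAut.conj g⁻¹).toMonoidHom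
                    (MulAut.conj g⁻¹).injective).toEquiv, hc24])
          ext y
          rw [mem_map_conj, ← h1, mem_map_conj]
          have e : (g⁻¹)⁻¹ * (g⁻¹ * y * g) * g⁻¹ = y := by group
          rw [e]
        rcases hcls _ hK'T hK' with hh | hh
        · exact ⟨g, Or.inl (hfin U1 hU1 hh)⟩
        · exact ⟨g, Or.inr (hfin U2 hU2 hh)⟩
      · exfalso
        rw [hMP, hN7 P] at hc24
        omega

end Cfsg.Agent.S1008
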