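import Mathlib
import Cfsg.Agent.Helper2.SylowRel
import Cfsg.Statements.S1009

set_option autoImplicit false
open Cfsg

namespace Cfsg.Agent.S1009

/-- Brodkey's Theorem: if a finite group has abelian Sylow p-subgroups, then there are two Sylow p-subgroups whose intersection equals the intersection of all Sylow p-subgroups. -/
theorem result {G : Type*} [Group G] [Finite G] (p : ℕ) [Fact p.Prime] (hab : ∀ P : Sylow p G, IsMulCommutative ↥(P : Subgroup G)) : ∃ P Q : Sylow p G, (P : Subgroup G) ⊓ (Q : Subgroup G) = ⨅ R : Sylow p G, (R : Subgroup G) := by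
  classical
  obtain ⟨⟨P, Q⟩, hmin⟩ := Finite.exists_min
    (fun PQ : Sylow p G × Sylow p G => Nat.card ↥((PQ.1 : Subgroup G) ⊓ (PQ.2 : Subgroup G)))
  refine ⟨P, Q, le_antisymm ?_ (le_inf (iInf_le _ P) (iInf_le _ Q))⟩
  rw [le_iInf_iff]
  intro R
  obtain ⟨D, hD⟩ : ∃ D : Subgroup G, D = (P : Subgroup G) ⊓ (Q : Subgroup G) := ⟨_, rfl⟩
  rw [← hD]
  have hnorm : ∀ S : Sylow p G, D ≤ (S : Subgroup G) →
      (S : Subgroup G) ≤ Subgroup.normalizer (D : Set G) := by
    intro S hDS g hg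
    rw [Subgroup.mem_normalizer_iff]
    intro d
    constructor
    · intro hd
      have e : g * d * g⁻¹ = d := by
        have := Cfsg.Agent.Helper2.comm_of_isMulCommutative (hab S) hg (hDS hd)
        rw [this]; group
      rw [e]; exact hd
    · intro hd
      have hdS : g * d * g⁻¹ ∈ (S : Subgroup G) := hDS hd
      have hdS' : d ∈ (S : Subgroup G) := by
        have := (S : Subgroup G).mul_mem ((S : Subgroup G).mul_mem ((S : Subgroup G).inv_mem hg) hdS) hg
        have e : g⁻¹ * (g * d * g⁻¹) * g = d := by group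
        rwa [e] at this
      have e : g * d * g⁻¹ = d := by
        have := Cfsg.Agent.Helper2.comm_of_isMulCommutative (hab S) hg hdS'
        rw [this]; group
      rw [e] at hd; exact hd
  have hPN := hnorm P (hD ▸ inf_le_left)
  have hQN := hnorm Q (hD ▸ inf_le_right)
  obtain ⟨n, hnN, hn⟩ := Cfsg.Agent.Helper2.pgroup_exists_conj_le_sylow_in P hPN
    (inf_le_right : (R : Subgroup G) ⊓ Subgroup.normalizer (D : Set G) ≤ _)
    (R.isPGroup'.to_le inf_le_left)
  have hR1 := Cfsg.Agent.Helper2.mem_smul_sylow_iff R n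
  have hle : ((n • R : Sylow p G) : Subgroup G) ⊓ (Q : Subgroup G) ≤ D := by
    intro x hx
    obtain ⟨hx1, hx2⟩ := Subgroup.mem_inf.mp hx
    have hxN : x ∈ Subgroup.normalizer (D : Set G) := hQN hx2
    have h1 : n⁻¹ * x * n ∈ (R : Subgroup G) := (hR1 x).mp hx1
    have h2 : n⁻¹ * x * n ∈ Subgroup.normalizer (D : Set G) :=
      Subgroup.mul_mem _ (Subgroup.mul_mem _ (Subgroup.inv_mem _ hnN) hxN) hnN
    have h3 := hn _ (Subgroup.mem_inf.mpr ⟨h1, h2⟩)
    have h4 : n * (n⁻¹ * x * n) * n⁻¹ = x := by group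
    rw [h4] at h3
    rw [hD]
    exact Subgroup.mem_inf.mpr ⟨h3, hx2⟩
  have hcard := hmin (n • R, Q)
  have hcard' : Nat.card D ≤ Nat.card ↥(((n • R : Sylow p G) : Subgroup G) ⊓ (Q : Subgroup G)) := by
    rw [hD]; exact hcard
  have heq : ((n • R : Sylow p G) : Subgroup G) ⊓ (Q : Subgroup G) = D :=
    Subgroup.eq_of_le_of_card_ge hle hcard'
  intro d hd
  have h1 : n * d * n⁻¹ ∈ D := (Subgroup.mem_normalizer_iff.mp hnN d).mp hd
  rw [← heq] at h1
  have h2 := (hR1 _).mp (Subgroup.mem_inf.mp h1).1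
  have h3 : n⁻¹ * (n * d * n⁻¹) * n = d := by group
  rw [h3] at h2; exact h2


end Cfsg.Agent.S1009
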