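import Cfsg.Statements.S1012
import Mathlib

set_option autoImplicit false
open Cfsg

namespace Cfsg.Agent.S1012

/-- In a subgroup of order 3 containing `x` of order 3, an element of the subgroup of order 3
which is a conjugate of `x` is `x` or `x⁻¹`. -/
private lemma conj_eq_or_inv {G : Type*} [Group G] [Finite G] (Q : Subgroup G)
    (hQ : Nat.card Q = 3) (x : G) (hx : x ∈ Q) (hx3 : orderOf x = 3) (g : G)
    (hg : g * x * g⁻¹ ∈ Q) : g * x * g⁻¹ = x ∨ g * x * g⁻¹ = x⁻¹ := by
  have hz : Subgroup.zpowers x = Q := by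
    apply Subgroup.eq_of_le_of_card_ge
    · rw [Subgroup.zpowers_le]; exact hx
    · rw [Nat.card_zpowers, hx3, hQ]
  rw [← hz] at hg
  obtain ⟨i, hi⟩ := Subgroup.mem_zpowers_iff.mp hg
  rw [← zpow_mod_orderOf, hx3] at hi
  have h0 : 0 ≤ i % 3 := Int.emod_nonneg _ (by norm_num)
  have h3 : i % 3 < 3 := Int.emod_lt_of_pos _ (by norm_num)
  have hx3' : x ^ 3 = 1 := by rw [← hx3]; exact pow_orderOf_eq_one x
  have hne : g * x * g⁻¹ ≠ 1 := by
    intro h1
    have : x = 1 := by
      have e : x = g⁻¹ * (g * x * g⁻¹) * g := by group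
      rw [e, h1]; group
    rw [this, orderOf_one] at hx3
    norm_num at hx3
  generalize i % 3 = j at hi h0 h3
  interval_cases j
  · exfalso; apply hne; rw [← hi]; simp
  · left; rw [← hi]; simp
  · right
    rw [← hi]
    have : x ^ (2 : ℤ) * x = 1 := by
      have : x ^ (2 : ℤ) * x = x ^ 3 := by
        rw [show (2 : ℤ) = ((2 : ℕ) : ℤ) by norm_num, zpow_natCast]; group
      rw [this, hx3']
    exact eq_inv_of_mul_eq_one_left this

/-- A group of order 24 containing no element of order 6 is isomorphic to the symmetric group of degree 4. -/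
theorem result {G : Type*} [Group G] [Finite G] (h : Nat.card G = 24) (h6 : ∀ g : G, orderOf g ≠ 6) : Nonempty (G ≃* Equiv.Perm (Fin 4)) := by
  classical
  haveI : Fact (Nat.Prime 3) := ⟨by norm_num⟩
  haveI : Fact (Nat.Prime 2) := ⟨by norm_num⟩
  -- Sylow 3-subgroups have order 3
  have hQcard : ∀ Q : Sylow 3 G, Nat.card (Q : Subgroup G) = 3 := by
    intro Q
    obtain ⟨k, hk⟩ := IsPGroup.iff_card.mp Q.2
    have h1 : Nat.card (Q : Subgroup G) * (Q : Subgroup G).index = 24 := by
      rw [Subgroup.card_mul_index, h]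
    have h2 := Q.not_dvd_index
    rw [hk] at h1 ⊢
    have hk3 : k < 3 := by
      by_contra hc
      push Not at hc
      have h3 : 3 ^ 3 ≤ 3 ^ k := Nat.pow_le_pow_right (by norm_num) hc
      have h4 : 3 ^ k ≤ 24 := Nat.le_of_dvd (by norm_num) ⟨_, h1.symm⟩
      omega
    interval_cases k
    · exfalso; apply h2
      have : (Q : Subgroup G).index = 24 := by omega
      rw [this]; norm_num
    · rfl
    · exfalso; omega
  have hQidx : ∀ Q : Sylow 3 G, (Q : Subgroup G).index = 8 := by
    intro Q
    have h1 : Nat.card (Q : Subgroup G) * (Q : Subgroup G).index = 24 := by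
      rw [Subgroup.card_mul_index, h]
    rw [hQcard Q] at h1
    omega
  -- elements of order 3 in each Sylow 3-subgroup
  have hQel : ∀ Q : Sylow 3 G, ∃ x : G, x ∈ (Q : Subgroup G) ∧ orderOf x = 3 := by
    intro Q
    obtain ⟨x, hx⟩ := exists_prime_orderOf_dvd_card' (G := (Q : Subgroup G)) 3
      (by rw [hQcard Q])
    exact ⟨x, x.2, (Subgroup.orderOf_coe x).trans hx⟩
  -- a commuting involution contradicts the hypothesis
  have hno6 : ∀ x u : G, orderOf x = 3 → u ≠ 1 → (∃ k : ℕ, u ^ (2 ^ k) = 1) →
      u * x * u⁻¹ = x → False := by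
    intro x u hx3 hu1 ⟨k, hk⟩ hux
    have hcomm : Commute x u := by
      have : u * x = x * u := by
        have e : u * x = (u * x * u⁻¹) * u := by group
        rw [e, hux]
      exact this.symm
    obtain ⟨j, -, hj⟩ := (Nat.dvd_prime_pow Nat.prime_two).mp (orderOf_dvd_of_pow_eq_one hk)
    have hj1 : j ≠ 0 := by
      rintro rfl
      rw [pow_zero, orderOf_eq_one_iff] at hj
      exact hu1 hj
    obtain ⟨i, rfl⟩ := Nat.exists_eq_succ_of_ne_zero hj1
    have hco : (orderOf x).Coprime (orderOf u) := by
      rw [hx3, hj]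
      exact Nat.Coprime.pow_right _ (by norm_num)
    have h1 : orderOf (x * u) = 3 * 2 ^ (i + 1) := by
      rw [hcomm.orderOf_mul_eq_mul_orderOf_of_coprime hco, hx3, hj]
    have h2 : orderOf ((x * u) ^ (2 ^ i)) = 6 := by
      rw [orderOf_pow_of_dvd (by positivity) (by rw [h1, pow_succ]; exact ⟨3 * 2, by ring⟩), h1,
        pow_succ]
      have : 3 * (2 ^ i * 2) = 6 * 2 ^ i := by ring
      rw [this, Nat.mul_div_cancel _ (by positivity)]
    exact h6 _ h2
  -- number of Sylow 3-subgroups
  obtain ⟨P⟩ := (inferInstance : Nonempty (Sylow 3 G))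
  have hdvd : Nat.card (Sylow 3 G) ∣ 8 := by
    rw [← hQidx P]; exact P.card_dvd_index
  have hmod : Nat.card (Sylow 3 G) ≡ 1 [MOD 3] := card_sylow_modEq_one 3 G
  have hle : Nat.card (Sylow 3 G) ≤ 8 := Nat.le_of_dvd (by norm_num) hdvd
  have hpos : 0 < Nat.card (Sylow 3 G) := Nat.card_pos
  have hn : Nat.card (Sylow 3 G) = 1 ∨ Nat.card (Sylow 3 G) = 4 := by
    unfold Nat.ModEq at hmod
    generalize Nat.card (Sylow 3 G) = n at *
    interval_cases n <;> simp_all <;> omega
  have hn4 : Nat.card (Sylow 3 G) = 4 := by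
    rcases hn with hn1 | hn4
    · exfalso
      -- P is normal
      have hNtop : Subgroup.normalizer (P : Set G) = ⊤ := by
        rw [← Subgroup.index_eq_one, ← Sylow.card_eq_index_normalizer P, hn1]
      have hPn : (P : Subgroup G).Normal := Subgroup.normalizer_eq_top_iff.mp
        (show Subgroup.normalizer ((P : Subgroup G) : Set G) = ⊤ from hNtop)
      obtain ⟨x, hxP, hx3⟩ := hQel P
      have hinv : ∀ g : G, g * x * g⁻¹ = x ∨ g * x * g⁻¹ = x⁻¹ := fun g =>
        conj_eq_or_inv (P : Subgroup G) (hQcard P) x hxP hx3 g (hPn.conj_mem x hxP g)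
      -- a Sylow 2-subgroup
      obtain ⟨T⟩ := (inferInstance : Nonempty (Sylow 2 G))
      have hTcard : 3 ≤ Nat.card (T : Subgroup G) := by
        obtain ⟨k, hk⟩ := IsPGroup.iff_card.mp T.2
        have h1 : Nat.card (T : Subgroup G) * (T : Subgroup G).index = 24 := by
          rw [Subgroup.card_mul_index, h]
        have h2 := T.not_dvd_index
        rw [hk] at h1 ⊢
        have hk5 : k < 5 := by
          by_contra hc
          push Not at hc
          have h3 : 2 ^ 5 ≤ 2 ^ k := Nat.pow_le_pow_right (by norm_num) hc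
          have h4 : 2 ^ k ≤ 24 := Nat.le_of_dvd (by norm_num) ⟨_, h1.symm⟩
          omega
        interval_cases k
        · exfalso; apply h2
          have : (T : Subgroup G).index = 24 := by omega
          rw [this]; norm_num
        · exfalso; apply h2
          have : (T : Subgroup G).index = 12 := by omega
          rw [this]; norm_num
        · exfalso; apply h2
          have : (T : Subgroup G).index = 6 := by omega
          rw [this]; norm_num
        · norm_num
        · exfalso; omega
      have h2el : ∀ u ∈ (T : Subgroup G), ∃ k : ℕ, u ^ (2 ^ k) = 1 := by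
        intro u hu
        obtain ⟨k, hk⟩ := T.2 ⟨u, hu⟩
        exact ⟨k, by simpa using congrArg Subtype.val hk⟩
      -- pick a ≠ 1 in T
      haveI : Nontrivial (T : Subgroup G) := Finite.one_lt_card_iff_nontrivial.mp (by omega)
      obtain ⟨a, ha⟩ := exists_ne (1 : (T : Subgroup G))
      -- pick b ∉ {1, a⁻¹}
      have hb : ∃ b : (T : Subgroup G), b ≠ 1 ∧ b ≠ a⁻¹ := by
        by_contra hcon
        push Not at hcon
        have hinj : Function.Injective (fun b : (T : Subgroup G) => decide (b = 1)) := by
          intro b c hbc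
          simp only [decide_eq_decide] at hbc
          by_cases hb1 : b = 1
          · rw [hb1]; exact (hbc.mp hb1).symm
          · have hc1 : c ≠ 1 := fun hc => hb1 (hbc.mpr hc)
            rw [hcon b hb1, hcon c hc1]
        have := Nat.card_le_card_of_injective _ hinj
        rw [Nat.card_eq_fintype_card (α := Bool), Fintype.card_bool] at this
        omega
      obtain ⟨b, hb1, hba⟩ := hb
      have ha1 : (a : G) ≠ 1 := fun hh => ha (Subtype.ext hh)
      have hb1' : (b : G) ≠ 1 := fun hh => hb1 (Subtype.ext hh)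
      rcases hinv a with haa | haa
      · exact hno6 x a hx3 ha1 (h2el a a.2) haa
      rcases hinv b with hbb | hbb
      · exact hno6 x b hx3 hb1' (h2el b b.2) hbb
      · have hab1 : (a : G) * b ≠ 1 := by
          intro hh
          apply hba
          apply Subtype.ext
          have : (b : G) = (a : G)⁻¹ := by
            rw [eq_inv_iff_mul_eq_one, ← hh]
            have hh' : (b : G) * a = 1 := by
              have e : (b : G) * a = (a : G)⁻¹ * ((a : G) * b) * a := by group
              rw [e, hh]; group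
            rw [hh', hh]
          simpa using this
        have habx : ((a : G) * b) * x * ((a : G) * b)⁻¹ = x := by
          have e : ((a : G) * b) * x * ((a : G) * b)⁻¹ = a * ((b : G) * x * (b : G)⁻¹) * (a : G)⁻¹ := by
            group
          rw [e, hbb]
          have e2 : (a : G) * x⁻¹ * (a : G)⁻¹ = ((a : G) * x * (a : G)⁻¹)⁻¹ := by group
          rw [e2, haa, inv_inv]
        exact hno6 x ((a : G) * b) hx3 hab1
          (h2el _ ((T : Subgroup G).mul_mem a.2 b.2)) habx
    · exact hn4
  -- the action on Sylow 3-subgroups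
  set φ : G →* Equiv.Perm (Sylow 3 G) := MulAction.toPermHom G (Sylow 3 G) with hφ
  have hker : ∀ k : G, φ k = 1 → ∀ Q : Sylow 3 G,
      k ∈ Subgroup.normalizer (Q : Set G) := by
    intro k hk Q
    rw [← Sylow.smul_eq_iff_mem_normalizer]
    have : (φ k) Q = Q := by rw [hk]; rfl
    exact this
  have hNcard : ∀ Q : Sylow 3 G,
      Nat.card (Subgroup.normalizer (Q : Set G)) = 6 := by
    intro Q
    have h1 := Subgroup.card_mul_index (Subgroup.normalizer (Q : Set G))
    rw [← Sylow.card_eq_index_normalizer Q, hn4, h] at h1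
    omega
  have hno3 : ∀ k : G, orderOf k = 3 → φ k = 1 → False := by
    intro k hk3 hk
    have hpg : IsPGroup 3 (Subgroup.zpowers k) := by
      apply IsPGroup.of_card (n := 1)
      rw [Nat.card_zpowers, hk3]; norm_num
    have hmem : ∀ Q : Sylow 3 G, k ∈ (Q : Subgroup G) := by
      intro Q
      have h1 : k ∈ Subgroup.zpowers k ⊓ Subgroup.normalizer (Q : Set G) :=
        Subgroup.mem_inf.mpr ⟨Subgroup.mem_zpowers k, hker k hk Q⟩
      rw [hpg.inf_normalizer_sylow Q] at h1
      exact (Subgroup.mem_inf.mp h1).2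
    have heq : ∀ Q : Sylow 3 G, (Q : Subgroup G) = Subgroup.zpowers k := by
      intro Q
      symm
      apply Subgroup.eq_of_le_of_card_ge
      · rw [Subgroup.zpowers_le]; exact hmem Q
      · rw [Nat.card_zpowers, hk3, hQcard Q]
    have hsub : ∀ Q₁ Q₂ : Sylow 3 G, Q₁ = Q₂ := by
      intro Q₁ Q₂
      apply Sylow.ext
      rw [heq Q₁, heq Q₂]
    haveI : Subsingleton (Sylow 3 G) := ⟨hsub⟩
    have := Nat.card_unique (α := Sylow 3 G) 
    omega
  have hinj : Function.Injective φ := by
    rw [injective_iff_map_eq_one]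
    intro k hk
    by_contra hk1
    have hord : orderOf k ∣ 6 := by
      have := orderOf_dvd_natCard (⟨k, hker k hk P⟩ :
        Subgroup.normalizer (P : Set G))
      rwa [Subgroup.orderOf_mk, hNcard P] at this
    have hle6 : orderOf k ≤ 6 := Nat.le_of_dvd (by norm_num) hord
    have hpos' : 0 < orderOf k := orderOf_pos k
    have hne1 : orderOf k ≠ 1 := fun hh => hk1 (orderOf_eq_one_iff.mp hh)
    have hcases : orderOf k = 2 ∨ orderOf k = 3 := by
      have h66 := h6 k
      generalize orderOf k = n at *
      interval_cases n <;> simp_all <;> omega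
    rcases hcases with hk2 | hk3
    · obtain ⟨x, hxP, hx3⟩ := hQel P
      have hkx : k * x * k⁻¹ ∈ (P : Subgroup G) := by
        have hkP : k ∈ Subgroup.normalizer ((P : Subgroup G) : Set G) := hker k hk P
        rw [Subgroup.mem_normalizer_iff] at hkP
        exact (hkP x).mp hxP
      rcases conj_eq_or_inv (P : Subgroup G) (hQcard P) x hxP hx3 k hkx with hc | hc
      · exact hno6 x k hx3 hk1 ⟨1, by rw [pow_one, ← hk2]; exact pow_orderOf_eq_one k⟩ hc
      · -- x⁻¹ lies in the kernel
        have h1 : φ (x * k * x⁻¹ * k⁻¹) = 1 := by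
          rw [map_mul, map_mul, map_mul, map_inv, map_inv, hk]; simp
        have e : x * k * x⁻¹ * k⁻¹ = x * (k * x * k⁻¹)⁻¹ := by group
        rw [e, hc, inv_inv] at h1
        have h2 : orderOf (x * x) = 3 := by
          have hx3' : x ^ 3 = 1 := by rw [← hx3]; exact pow_orderOf_eq_one x
          have : x * x = x⁻¹ := by
            apply eq_inv_of_mul_eq_one_left
            rw [← hx3', pow_succ, pow_two]
          rw [this, orderOf_inv, hx3]
        exact hno3 _ h2 h1
    · exact hno3 k hk3 hk
  have hbij : Function.Bijective φ := by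
    apply hinj.bijective_of_nat_card_le
    rw [Nat.card_perm, hn4, h]
    decide
  have e₂ : Sylow 3 G ≃ Fin 4 := Finite.equivFinOfCardEq hn4
  exact ⟨(MulEquiv.ofBijective φ hbij).trans e₂.permCongrHom⟩

end Cfsg.Agent.S1012
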