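import Cfsg.Statements.S1014
import Mathlib

set_option autoImplicit false
open Cfsg

namespace Cfsg.Agent.S1014

/-- No finite simple group has order 1104 = 2^4 * 3 * 23. -/
theorem result {G : Type*} [Group G] [Finite G] [IsSimpleGroup G] : Nat.card G ≠ 1104 := by
  classical
  intro hc
  haveI : Fact (Nat.Prime 23) := ⟨by norm_num⟩
  haveI : Fact (Nat.Prime 2) := ⟨Nat.prime_two⟩
  have hSc : ∀ Q : Sylow 23 G, Nat.card (Q : Subgroup G) = 23 ∧ (Q : Subgroup G).index = 48 := by
    intro Q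
    obtain ⟨k, hk⟩ := IsPGroup.iff_card.mp Q.2
    have hmul := Subgroup.card_mul_index (Q : Subgroup G)
    rw [hk, hc] at hmul
    have hnd := Q.not_dvd_index
    have hk1 : k ≤ 1 := by
      by_contra hcon
      push Not at hcon
      have h529 : 23 ^ 2 ∣ 1104 := (pow_dvd_pow 23 hcon).trans (Dvd.intro _ hmul)
      norm_num at h529
    interval_cases k
    · exfalso
      norm_num at hmul
      omega
    · norm_num at hmul
      refine ⟨by rw [hk]; norm_num, by omega⟩
  obtain ⟨P⟩ := (inferInstance : Nonempty (Sylow 23 G))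
  have hnc : (∀ a b : G, a * b = b * a) → False := by
    intro hcomm
    have hn : (P : Subgroup G).Normal :=
      ⟨fun x hx y => by rw [hcomm y x, mul_inv_cancel_right]; exact hx⟩
    have h23 := (hSc P).1
    rcases hn.eq_bot_or_eq_top with h | h
    · rw [h, Subgroup.card_bot] at h23; omega
    · rw [h, Subgroup.card_top, hc] at h23; omega
  have hmod : Nat.card (Sylow 23 G) % 23 = 1 := card_sylow_modEq_one 23 G
  have hdiv : Nat.card (Sylow 23 G) ∣ 48 := (hSc P).2 ▸ P.card_dvd_index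
  have hn : Nat.card (Sylow 23 G) = 1 ∨ Nat.card (Sylow 23 G) = 24 := by
    have hle := Nat.le_of_dvd (by norm_num) hdiv
    obtain ⟨c, hc'⟩ := hdiv
    generalize Nat.card (Sylow 23 G) = n at hle hmod hc'
    interval_cases n <;> omega
  set N := Subgroup.normalizer ((P : Subgroup G) : Set G) with hNdef
  have hidxN : Nat.card (Sylow 23 G) = N.index := P.card_eq_index_normalizer
  rcases hn with h1 | h24
  · have h2 : N = ⊤ := Subgroup.index_eq_one.mp (by rw [← hidxN]; exact h1)
    have hnorm : (P : Subgroup G).Normal := Subgroup.normalizer_eq_top_iff.mp h2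
    have h23 := (hSc P).1
    rcases hnorm.eq_bot_or_eq_top with h | h
    · rw [h, Subgroup.card_bot] at h23; omega
    · rw [h, Subgroup.card_top, hc] at h23; omega
  have hNidx : N.index = 24 := by rw [← hidxN]; exact h24
  have hNcard : Nat.card ↥N = 46 := by
    have := Subgroup.card_mul_index N
    rw [hNidx, hc] at this; omega
  have hPN : (P : Subgroup G) ≤ N := Subgroup.le_normalizer
  obtain ⟨t', ht'⟩ := exists_prime_orderOf_dvd_card' (G := ↥N) 2 (by rw [hNcard]; norm_num)
  obtain ⟨t, htN, ht2⟩ : ∃ t : G, t ∈ N ∧ orderOf t = 2 :=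
    ⟨(t' : G), t'.2, by rw [Subgroup.orderOf_coe, ht']⟩
  have htt : t * t = 1 := by rw [← pow_two, ← ht2]; exact pow_orderOf_eq_one t
  have ht1 : t ≠ 1 := by intro h; rw [h, orderOf_one] at ht2; omega
  have htinv : t⁻¹ = t := by rw [inv_eq_iff_mul_eq_one]; exact htt
  have hF : ¬ (N ≤ Subgroup.centralizer ((P : Subgroup G) : Set G)) := by
    intro hNC
    have hNC' : Subgroup.normalizer (P : Set G) ≤ Subgroup.centralizer (P : Set G) := hNC
    have hcompl := MonoidHom.ker_transferSylow_isComplement' P hNC'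
    have hmul := hcompl.card_mul_card
    rw [(hSc P).1, hc] at hmul
    rcases (inferInstance : (MonoidHom.transferSylow P hNC').ker.Normal).eq_bot_or_eq_top with h | h
    · rw [h, Subgroup.card_bot] at hmul; omega
    · rw [h, Subgroup.card_top, hc] at hmul; omega
  have hG' : ∀ u ∈ (P : Subgroup G), u ≠ 1 → t * u ≠ u * t := by
    intro u hu hu1 hcomm
    apply hF
    have hpow : ∀ x ∈ (P : Subgroup G), ∃ k : ℤ, u ^ k = x := by
      intro x hx
      have hu1' : (⟨u, hu⟩ : ↥(P : Subgroup G)) ≠ 1 := fun h => hu1 (congrArg Subtype.val h)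
      have := mem_zpowers_of_prime_card (G := ↥(P : Subgroup G)) (hSc P).1 (g' := ⟨x, hx⟩) hu1'
      obtain ⟨k, hk⟩ := Subgroup.mem_zpowers_iff.mp this
      refine ⟨k, ?_⟩
      have := congrArg Subtype.val hk
      simpa using this
    set K := Subgroup.centralizer ((P : Subgroup G) : Set G) ⊓ N with hKdef
    have hPK : (P : Subgroup G) ≤ K := by
      intro x hx
      refine Subgroup.mem_inf.mpr ⟨?_, hPN hx⟩
      rw [Subgroup.mem_centralizer_iff]
      intro y hy
      obtain ⟨k, rfl⟩ := hpow x hx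
      obtain ⟨l, rfl⟩ := hpow y hy
      exact (Commute.zpow_zpow_self u l k).eq
    have htK : t ∈ K := by
      refine Subgroup.mem_inf.mpr ⟨?_, htN⟩
      rw [Subgroup.mem_centralizer_iff]
      intro y hy
      obtain ⟨l, rfl⟩ := hpow y hy
      have hc1 : Commute t u := hcomm
      exact (hc1.zpow_right l).eq.symm
    have h23 : 23 ∣ Nat.card ↥K :=
      (dvd_of_eq (hSc P).1.symm).trans (Subgroup.card_dvd_of_le hPK)
    have h2 : 2 ∣ Nat.card ↥K := by
      have : orderOf (⟨t, htK⟩ : ↥K) = 2 := by rw [Subgroup.orderOf_mk]; exact ht2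
      rw [← this]; exact orderOf_dvd_natCard _
    have h46 : 23 * 2 ∣ Nat.card ↥K :=
      Nat.Coprime.mul_dvd_of_dvd_of_dvd (by norm_num) h23 h2
    have hle : Nat.card ↥N ≤ Nat.card ↥K := by
      rw [hNcard]; exact Nat.le_of_dvd Nat.card_pos h46
    have hKN : K = N := Subgroup.eq_of_le_of_card_ge inf_le_right hle
    intro g hg
    have : g ∈ K := by rw [hKN]; exact hg
    exact (Subgroup.mem_inf.mp this).1
  have hinf : ∀ Q : Sylow 23 G, Q ≠ P → (P : Subgroup G) ⊓ (Q : Subgroup G) = ⊥ := by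
    intro Q hQ
    by_contra hne
    have hdvd : Nat.card ↥((P : Subgroup G) ⊓ (Q : Subgroup G)) ∣ 23 :=
      (Subgroup.card_dvd_of_le inf_le_left).trans (dvd_of_eq (hSc P).1)
    have h1 : Nat.card ↥((P : Subgroup G) ⊓ (Q : Subgroup G)) ≠ 1 :=
      fun h => hne (Subgroup.card_eq_one.mp h)
    have h23 : Nat.card ↥((P : Subgroup G) ⊓ (Q : Subgroup G)) = 23 := by
      rcases (Nat.dvd_prime (by norm_num : Nat.Prime 23)).mp hdvd with h | h
      · exact absurd h h1
      · exact h
    have heq : (P : Subgroup G) ⊓ (Q : Subgroup G) = (P : Subgroup G) :=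
      Subgroup.eq_of_le_of_card_ge inf_le_left (by rw [h23, (hSc P).1])
    have hPQ : (P : Subgroup G) ≤ (Q : Subgroup G) := by rw [← heq]; exact inf_le_right
    exact hQ (Sylow.ext (P.3 Q.2 hPQ))
  have hstab : ∀ Q : Sylow 23 G, Q ≠ P → ∀ u ∈ (P : Subgroup G), u • Q = Q → u = 1 := by
    intro Q hQ u hu huQ
    have huN := Sylow.smul_eq_iff_mem_normalizer.mp huQ
    have hmem : u ∈ (P : Subgroup G) ⊓ Subgroup.normalizer (Q : Set G) := ⟨hu, huN⟩
    rw [P.2.inf_normalizer_sylow Q, hinf Q hQ] at hmem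
    exact Subgroup.mem_bot.mp hmem
  have htrans : ∀ Q₁ Q₂ : Sylow 23 G, Q₁ ≠ P → Q₂ ≠ P →
      ∃ u ∈ (P : Subgroup G), u • Q₁ = Q₂ := by
    intro Q₁ Q₂ h1 h2
    have hstab' : MulAction.stabilizer ↥(P : Subgroup G) Q₁ = ⊥ := by
      rw [eq_bot_iff]
      intro g hg
      rw [MulAction.mem_stabilizer_iff] at hg
      rw [Subgroup.mem_bot]
      exact Subtype.ext (hstab Q₁ h1 (g : G) g.2 hg)
    have horb := MulAction.index_stabilizer ↥(P : Subgroup G) Q₁
    rw [hstab', Subgroup.index_bot, (hSc P).1] at horb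
    have hsub : MulAction.orbit ↥(P : Subgroup G) Q₁ ⊆ ({P}ᶜ : Set (Sylow 23 G)) := by
      rintro _ ⟨g, rfl⟩
      intro hgP
      apply h1
      have hgP' : (g : G) • Q₁ = P := hgP
      have hgn : (g : G) • P = P :=
        Sylow.smul_eq_iff_mem_normalizer.mpr (Subgroup.le_normalizer g.2)
      have : (g : G) • Q₁ = (g : G) • P := by rw [hgP', hgn]
      exact smul_left_cancel _ this
    have hcompl : ({P}ᶜ : Set (Sylow 23 G)).ncard = 23 := by
      rw [Set.ncard_compl, Set.ncard_singleton, h24]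
    have heq : MulAction.orbit ↥(P : Subgroup G) Q₁ = ({P}ᶜ : Set (Sylow 23 G)) :=
      Set.eq_of_subset_of_ncard_le hsub (by rw [hcompl, ← horb]) (Set.toFinite _)
    have hQ₂ : Q₂ ∈ MulAction.orbit ↥(P : Subgroup G) Q₁ := by rw [heq]; exact h2
    obtain ⟨g, hg⟩ := hQ₂
    exact ⟨(g : G), g.2, hg⟩
  have htP : ∀ u ∈ (P : Subgroup G), t * u * t⁻¹ ∈ (P : Subgroup G) := by
    intro u hu
    exact ((Subgroup.mem_normalizer_iff).mp htN u).mp hu
  have hA : ∀ Q₁ Q₂ : Sylow 23 G, Q₁ ≠ P → Q₂ ≠ P → t • Q₁ = Q₁ → t • Q₂ = Q₂ → Q₁ = Q₂ := by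
    intro Q₁ Q₂ h1 h2 ht1' ht2'
    obtain ⟨u, hu, huQ⟩ := htrans Q₁ Q₂ h1 h2
    by_cases hu1 : u = 1
    · rw [hu1, one_smul] at huQ; exact huQ
    exfalso
    have hw : (u⁻¹ * (t * u * t⁻¹)) • Q₁ = Q₁ := by
      have e1 : t⁻¹ • Q₁ = Q₁ := by rw [htinv]; exact ht1'
      rw [mul_smul, mul_smul, mul_smul, e1, huQ, ht2', ← huQ, inv_smul_smul]
    have hwP : u⁻¹ * (t * u * t⁻¹) ∈ (P : Subgroup G) := mul_mem (inv_mem hu) (htP u hu)
    have hw1 := hstab Q₁ h1 _ hwP hw
    apply hG' u hu hu1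
    have h3 : t * u * t⁻¹ = u := by
      rw [← mul_right_inj u⁻¹, hw1, inv_mul_cancel]
    calc t * u = (t * u * t⁻¹) * t := by group
      _ = u * t := by rw [h3]
  haveI : Fintype (Sylow 23 G) := Fintype.ofFinite _
  let φ : G →* Equiv.Perm (Sylow 23 G) := MulAction.toPermHom G (Sylow 23 G)
  have hφ : ∀ g : G, ∀ Q : Sylow 23 G, φ g Q = g • Q := fun g Q => rfl
  have hσ2 : (φ t) ^ 2 = 1 := by rw [← map_pow, pow_two, htt, map_one]
  have hker : ∀ g : G, φ g = 1 → g = 1 := by
    intro g hg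
    have hgk : g ∈ φ.ker := hg
    rcases (inferInstance : φ.ker.Normal).eq_bot_or_eq_top with h | h
    · rw [h] at hgk; exact Subgroup.mem_bot.mp hgk
    · exfalso
      have hNtop : N = ⊤ := by
        rw [eq_top_iff]
        intro x _
        have hx : x ∈ φ.ker := by rw [h]; exact Subgroup.mem_top x
        have hx' : φ x = 1 := hx
        have hxP : x • P = P := by rw [← hφ, hx']; rfl
        exact Sylow.smul_eq_iff_mem_normalizer.mp hxP
      rw [hNtop, Subgroup.index_top] at hNidx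
      omega
  have hσ1 : φ t ≠ 1 := fun h => ht1 (hker t h)
  have hσord : orderOf (φ t) = 2 := orderOf_eq_prime hσ2 hσ1
  have hsign : Equiv.Perm.sign (φ t) = 1 := by
    let ψ : G →* ℤˣ := Equiv.Perm.sign.comp φ
    rcases (inferInstance : ψ.ker.Normal).eq_bot_or_eq_top with h | h
    · exfalso
      apply hnc
      intro a b
      have hinj : Function.Injective ψ := (MonoidHom.ker_eq_bot_iff ψ).mp h
      apply hinj
      rw [map_mul, map_mul, mul_comm]
    · have : t ∈ ψ.ker := by rw [h]; exact Subgroup.mem_top t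
      exact this
  obtain ⟨k, hk⟩ := Equiv.Perm.cycleType_prime_order (σ := φ t)
    (by rw [hσord]; exact Nat.prime_two)
  rw [hσord] at hk
  have hsign2 : Equiv.Perm.sign (φ t) = (-1) ^ ((k + 1) * 2 + (k + 1)) := by
    rw [Equiv.Perm.sign_of_cycleType, hk, Multiset.sum_replicate, Multiset.card_replicate,
      smul_eq_mul]
  have hkeven : Even (k + 1) := by
    by_contra hodd
    rw [Nat.not_even_iff_odd] at hodd
    obtain ⟨j, hj⟩ := hodd
    have hexp : (k + 1) * 2 + (k + 1) = 2 * (3 * j + 1) + 1 := by omega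
    rw [hsign, hexp, pow_succ, pow_mul, neg_one_sq, one_pow, one_mul] at hsign2
    exact absurd hsign2 (by decide)
  have hsupp : (φ t).support.card = (k + 1) * 2 := by
    rw [← Equiv.Perm.sum_cycleType, hk, Multiset.sum_replicate, smul_eq_mul]
  set F := (Finset.univ : Finset (Sylow 23 G)).filter (fun Q => φ t Q = Q) with hFdef
  have hFc : F.card + (φ t).support.card = 24 := by
    have h1 : F = (φ t).supportᶜ := by
      ext Q
      simp [hFdef, Equiv.Perm.mem_support]
    have h3 : (φ t).support.card ≤ Fintype.card (Sylow 23 G) := Finset.card_le_univ _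
    rw [h1, Finset.card_compl]
    rw [← Nat.card_eq_fintype_card, h24] at h3 ⊢
    omega
  have hPF : P ∈ F := by
    rw [hFdef, Finset.mem_filter]
    refine ⟨Finset.mem_univ _, ?_⟩
    rw [hφ]
    exact Sylow.smul_eq_iff_mem_normalizer.mpr htN
  have hFle : F.card ≤ 2 := by
    by_contra hcon
    push Not at hcon
    have h2 : 1 < (F.erase P).card := by rw [Finset.card_erase_of_mem hPF]; omega
    obtain ⟨Q₁, hQ₁, Q₂, hQ₂, hne⟩ := Finset.one_lt_card.mp h2
    rw [Finset.mem_erase] at hQ₁ hQ₂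
    have hf1 : t • Q₁ = Q₁ := by
      have := (Finset.mem_filter.mp hQ₁.2).2
      rwa [hφ] at this
    have hf2 : t • Q₂ = Q₂ := by
      have := (Finset.mem_filter.mp hQ₂.2).2
      rwa [hφ] at this
    exact hne (hA Q₁ Q₂ hQ₁.1 hQ₂.1 hf1 hf2)
  have hFpos : 1 ≤ F.card := Finset.card_pos.mpr ⟨P, hPF⟩
  obtain ⟨j, hj⟩ := hkeven
  omega

end Cfsg.Agent.S1014
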