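import Cfsg.Statements.S1015
import Cfsg.Agent.S0991

set_option autoImplicit false
open Cfsg

namespace Cfsg.Agent.S1015

/-- No finite simple group has order 1200 = 2^4 * 3 * 5^2. -/
theorem result {G : Type*} [Group G] [Finite G] [IsSimpleGroup G] : Nat.card G ≠ 1200 := by
  classical
  intro hc
  haveI : Fact (Nat.Prime 5) := ⟨by norm_num⟩
  have hSc : ∀ Q : Sylow 5 G, Nat.card (Q : Subgroup G) = 25 ∧ (Q : Subgroup G).index = 48 := by
    intro Q
    obtain ⟨k, hk⟩ := IsPGroup.iff_card.mp Q.2
    have hmul := Subgroup.card_mul_index (Q : Subgroup G)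
    rw [hk, hc] at hmul
    have hnd := Q.not_dvd_index
    have hk2 : k ≤ 2 := by
      by_contra hcon
      push Not at hcon
      have h125 : 5 ^ 3 ∣ 1200 := (pow_dvd_pow 5 hcon).trans (Dvd.intro _ hmul)
      norm_num at h125
    interval_cases k
    · exfalso
      norm_num at hmul
      omega
    · exfalso
      norm_num at hmul
      omega
    · norm_num at hmul
      refine ⟨by rw [hk]; norm_num, by omega⟩
  obtain ⟨P⟩ := (inferInstance : Nonempty (Sylow 5 G))
  have hnc : ¬ IsMulCommutative G := by
    intro hcomm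
    have hn : (P : Subgroup G).Normal :=
      ⟨fun x hx y => by rw [hcomm.is_comm.comm y x, mul_inv_cancel_right]; exact hx⟩
    have h25 := (hSc P).1
    rcases hn.eq_bot_or_eq_top with h | h
    · rw [h, Subgroup.card_bot] at h25; omega
    · rw [h, Subgroup.card_top, hc] at h25; omega
  have hE : ∀ H : Subgroup G, H ≠ ⊤ → 9 < H.index := by
    intro H hH
    by_contra hle
    push Not at hle
    obtain ⟨f, hf⟩ := Cfsg.Agent.S0991.result hnc H hH
    have h1 : Nat.card G ∣ Nat.card ↥(alternatingGroup (Fin H.index)) :=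
      Subgroup.card_dvd_of_injective f hf
    have h2 : Nat.card ↥(alternatingGroup (Fin H.index)) ∣ Nat.card (Equiv.Perm (Fin H.index)) :=
      Subgroup.card_subgroup_dvd_card _
    have h3 : Nat.card (Equiv.Perm (Fin H.index)) = (H.index).factorial := by
      rw [Nat.card_perm, Nat.card_fin]
    have h4 : (H.index).factorial ∣ (9).factorial := Nat.factorial_dvd_factorial hle
    have h5 : 1200 ∣ (9).factorial := by
      rw [← hc]; exact (h1.trans h2).trans (h3 ▸ h4)
    exact absurd h5 (by decide)
  have hmod : Nat.card (Sylow 5 G) % 5 = 1 := card_sylow_modEq_one 5 G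
  have hdiv : Nat.card (Sylow 5 G) ∣ 48 := (hSc P).2 ▸ P.card_dvd_index
  have hn : Nat.card (Sylow 5 G) = 1 ∨ Nat.card (Sylow 5 G) = 6 ∨ Nat.card (Sylow 5 G) = 16 := by
    have hle := Nat.le_of_dvd (by norm_num) hdiv
    obtain ⟨c, hc'⟩ := hdiv
    generalize Nat.card (Sylow 5 G) = n at hle hmod hc'
    interval_cases n <;> omega
  have hidxN : Nat.card (Sylow 5 G) =
      (Subgroup.normalizer ((P : Subgroup G) : Set G)).index := P.card_eq_index_normalizer
  rcases hn with h1 | h6 | h16
  · have h2 : Subgroup.normalizer ((P : Subgroup G) : Set G) = ⊤ :=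
      Subgroup.index_eq_one.mp (by rw [← hidxN]; exact h1)
    have hnorm : (P : Subgroup G).Normal := Subgroup.normalizer_eq_top_iff.mp h2
    have h25 := (hSc P).1
    rcases hnorm.eq_bot_or_eq_top with h | h
    · rw [h, Subgroup.card_bot] at h25; omega
    · rw [h, Subgroup.card_top, hc] at h25; omega
  · have hne : Subgroup.normalizer ((P : Subgroup G) : Set G) ≠ ⊤ := by
      intro htop
      rw [htop, Subgroup.index_top] at hidxN
      omega
    have := hE _ hne
    omega
  · have hex : ∃ P' : Sylow 5 G, P' ≠ P ∧ (P : Subgroup G) ⊓ (P' : Subgroup G) ≠ ⊥ := by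
      by_contra hcon
      push Not at hcon
      haveI : Nontrivial (Sylow 5 G) :=
        Finite.one_lt_card_iff_nontrivial.mp (by rw [h16]; norm_num)
      obtain ⟨P', hP'⟩ := exists_ne P
      have hstab : MulAction.stabilizer ↥(P : Subgroup G) P' = ⊥ := by
        rw [eq_bot_iff]
        intro g hg
        rw [MulAction.mem_stabilizer_iff] at hg
        have hgN := Sylow.smul_eq_iff_mem_normalizer.mp hg
        have hmem : (g : G) ∈ (P : Subgroup G) ⊓
            Subgroup.normalizer (P' : Set G) := ⟨g.2, hgN⟩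
        rw [P.2.inf_normalizer_sylow P', hcon P' hP'] at hmem
        rw [Subgroup.mem_bot]
        exact Subtype.ext (Subgroup.mem_bot.mp hmem)
      have horb := MulAction.index_stabilizer ↥(P : Subgroup G) P'
      rw [hstab, Subgroup.index_bot, (hSc P).1] at horb
      have hle : (MulAction.orbit ↥(P : Subgroup G) P').ncard ≤ Nat.card (Sylow 5 G) :=
        Set.ncard_le_card _
      omega
    obtain ⟨P', hP'ne, hD⟩ := hex
    set D := (P : Subgroup G) ⊓ (P' : Subgroup G) with hDdef
    set H := Subgroup.normalizer (D : Set G) with hHdef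
    have hQH : ∀ Q : Sylow 5 G, D ≤ (Q : Subgroup G) → (Q : Subgroup G) ≤ H := by
      intro Q hDQ
      have hQab : ∀ a ∈ (Q : Subgroup G), ∀ b ∈ (Q : Subgroup G), a * b = b * a := by
        intro a ha b hb
        have := IsPGroup.commutative_of_card_eq_prime_sq (p := 5) (G := ↥(Q : Subgroup G))
          (by rw [(hSc Q).1]; norm_num) ⟨a, ha⟩ ⟨b, hb⟩
        exact congrArg Subtype.val this
      intro g hg
      rw [Subgroup.mem_normalizer_iff]
      intro d
      have key : ∀ g' ∈ (Q : Subgroup G), ∀ d' ∈ D, g' * d' * g'⁻¹ = d' := by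
        intro g' hg' d' hd'
        rw [hQab g' hg' d' (hDQ hd')]; group
      constructor
      · intro hd; rw [key g hg d hd]; exact hd
      · intro hd
        have h1 := key g⁻¹ (inv_mem hg) _ hd
        have e : g⁻¹ * (g * d * g⁻¹) * g⁻¹⁻¹ = d := by group
        rw [e] at h1
        rw [h1]; exact hd
    have hPH := hQH P inf_le_left
    have hP'H := hQH P' inf_le_right
    have hHtop : H ≠ ⊤ := by
      intro htop
      have hDn : D.Normal := Subgroup.normalizer_eq_top_iff.mp htop
      rcases hDn.eq_bot_or_eq_top with h | h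
      · exact hD h
      · have hPtop : (P : Subgroup G) = ⊤ := top_le_iff.mp (h ▸ inf_le_left)
        have h25 := (hSc P).1
        rw [hPtop, Subgroup.card_top, hc] at h25
        omega
    have hHcard : 150 ≤ Nat.card ↥H := by
      have hne : P.subtype hPH ≠ P'.subtype hP'H := fun h => hP'ne (Sylow.subtype_injective h).symm
      haveI : Nontrivial (Sylow 5 ↥H) := ⟨⟨P.subtype hPH, P'.subtype hP'H, hne⟩⟩
      have h1 : 1 < Nat.card (Sylow 5 ↥H) := Finite.one_lt_card_iff_nontrivial.mpr inferInstance
      have h2 : Nat.card (Sylow 5 ↥H) % 5 = 1 := card_sylow_modEq_one 5 ↥H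
      have h3 : Nat.card (Sylow 5 ↥H) ∣ ((P.subtype hPH : Sylow 5 ↥H) : Subgroup ↥H).index :=
        (P.subtype hPH).card_dvd_index
      have h4 : Nat.card ((P.subtype hPH : Sylow 5 ↥H) : Subgroup ↥H) = 25 := by
        rw [Sylow.coe_subtype, Nat.card_congr (Subgroup.subgroupOfEquivOfLe hPH).toEquiv]
        exact (hSc P).1
      have h5 := Subgroup.card_mul_index ((P.subtype hPH : Sylow 5 ↥H) : Subgroup ↥H)
      have hpos : 0 < ((P.subtype hPH : Sylow 5 ↥H) : Subgroup ↥H).index :=
        Nat.pos_of_ne_zero Subgroup.index_ne_zero_of_finite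
      have h6 := Nat.le_of_dvd hpos h3
      rw [h4] at h5
      omega
    have hHidx : H.index ≤ 8 := by
      have hmul := Subgroup.card_mul_index H
      rw [hc] at hmul
      by_contra hcon
      push Not at hcon
      nlinarith
    have := hE H hHtop
    omega

end Cfsg.Agent.S1015
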