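import Mathlib
import Cfsg.Agent.Helper2.Conj
import Cfsg.Statements.S1018

set_option autoImplicit false
open Cfsg

namespace Cfsg.Agent.S1018

/-- Let P be a Sylow p-subgroup of order p of a finite group G, and consider the action of G on the left cosets of the normalizer N of P. Then every element of order p fixes exactly one coset, and an element of N that does not centralize P fixes at most as many cosets as there are orbits of P. -/
theorem result {G : Type*} [Group G] [Finite G] (p : ℕ) [Fact p.Prime] (P : Sylow p G) (hP : Nat.card ↥(P : Subgroup G) = p) : (∀ y : G, orderOf y = p → Nat.card (MulAction.fixedBy (G ⧸ Subgroup.normalizer ((P : Subgroup G) : Set G)) y) = 1) ∧ ∀ x : G, x ∈ Subgroup.normalizer ((P : Subgroup G) : Set G) → x ∉ Subgroup.centralizer ((P : Subgroup G) : Set G) → Nat.card (MulAction.fixedBy (G ⧸ Subgroup.normalizer ((P : Subgroup G) : Set G)) x) ≤ Nat.card (MulAction.orbitRel.Quotient ↥(P : Subgroup G) (G ⧸ Subgroup.normalizer ((P : Subgroup G) : Set G))) := by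
  classical
  have hp : p.Prime := Fact.out
  have hgen : ∀ u : G, u ∈ (P : Subgroup G) → u ≠ 1 → Subgroup.zpowers u = (P : Subgroup G) := by
    intro u hu hu1
    have hle : Subgroup.zpowers u ≤ (P : Subgroup G) := by
      rw [Subgroup.zpowers_le]; exact hu
    apply Subgroup.eq_of_le_of_card_ge hle
    rw [hP, Nat.card_zpowers]
    have hdvd : orderOf u ∣ p := by
      have := Subgroup.card_dvd_of_le hle
      rwa [Nat.card_zpowers, hP] at this
    rcases (Nat.dvd_prime hp).mp hdvd with h | h
    · exact absurd (orderOf_eq_one_iff.mp h) hu1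
    · exact h.ge
  have hpz : ∀ z : G, orderOf z = p → IsPGroup p (Subgroup.zpowers z) := by
    intro z hzo
    apply IsPGroup.of_card (n := 1)
    rw [Nat.card_zpowers, hzo, pow_one]
  have hNP : ∀ z : G, z ∈ Subgroup.normalizer ((P : Subgroup G) : Set G) → orderOf z = p →
      z ∈ (P : Subgroup G) := by
    intro z hz hzo
    have h := (hpz z hzo).inf_normalizer_sylow P
    have hz1 : z ∈ Subgroup.zpowers z ⊓ Subgroup.normalizer ((P : Subgroup G) : Set G) :=
      Subgroup.mem_inf.mpr ⟨Subgroup.mem_zpowers z, hz⟩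
    exact (Subgroup.mem_inf.mp (h.le hz1)).2
  have hfixN : ∀ (y g : G),
      ((g : G ⧸ Subgroup.normalizer ((P : Subgroup G) : Set G)) ∈
        MulAction.fixedBy (G ⧸ Subgroup.normalizer ((P : Subgroup G) : Set G)) y) ↔
      g⁻¹ * y * g ∈ Subgroup.normalizer ((P : Subgroup G) : Set G) := by
    intro y g
    rw [MulAction.mem_fixedBy]
    have h1 : y • (g : G ⧸ Subgroup.normalizer ((P : Subgroup G) : Set G)) =
        ((y * g : G) : G ⧸ Subgroup.normalizer ((P : Subgroup G) : Set G)) := rfl
    rw [h1, QuotientGroup.eq]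
    have h2 : (y * g)⁻¹ * g = (g⁻¹ * y * g)⁻¹ := by group
    rw [h2, inv_mem_iff]
  have hord : ∀ (y g : G), orderOf (g⁻¹ * y * g) = orderOf y := by
    intro y g
    have := orderOf_injective (MulAut.conj g⁻¹).toMonoidHom (MulAut.conj g⁻¹).injective y
    simpa using this
  refine ⟨?_, ?_⟩
  · intro y hy
    rw [Nat.card_eq_one_iff_unique]
    constructor
    · constructor
      rintro ⟨a, ha⟩ ⟨b, hb⟩
      induction a using QuotientGroup.induction_on with
      | H g =>
      induction b using QuotientGroup.induction_on with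
      | H h =>
      rw [Subtype.mk.injEq, QuotientGroup.eq]
      have hg := hNP _ ((hfixN y g).mp ha) ((hord y g).trans hy)
      have hh := hNP _ ((hfixN y h).mp hb) ((hord y h).trans hy)
      have hy1 : y ≠ 1 := by
        rintro rfl
        rw [orderOf_one] at hy
        exact hp.ne_one hy.symm
      have hg1 : g⁻¹ * y * g ≠ 1 := by
        intro h1
        apply hy1
        have : y = g * (g⁻¹ * y * g) * g⁻¹ := by group
        rw [this, h1]; group
      have hh1 : h⁻¹ * y * h ≠ 1 := by
        intro h1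
        apply hy1
        have : y = h * (h⁻¹ * y * h) * h⁻¹ := by group
        rw [this, h1]; group
      have hzg := hgen _ hg hg1
      have hzh := hgen _ hh hh1
      -- g⁻¹ * h normalizes P
      have key : ∀ n : G, n ∈ (P : Subgroup G) → (g⁻¹ * h) * n * (g⁻¹ * h)⁻¹ ∈ (P : Subgroup G) := by
        intro n hn
        rw [← hzh] at hn
        obtain ⟨k, rfl⟩ := Subgroup.mem_zpowers_iff.mp hn
        have : (g⁻¹ * h) * (h⁻¹ * y * h) ^ k * (g⁻¹ * h)⁻¹ = (g⁻¹ * y * g) ^ k := by
          have e : g⁻¹ * y * g = (g⁻¹ * h) * (h⁻¹ * y * h) * (g⁻¹ * h)⁻¹ := by group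
          rw [e, conj_zpow]
        rw [this]
        exact Subgroup.zpow_mem _ hg k
      rw [Subgroup.mem_normalizer_iff]
      intro n
      constructor
      · intro hn
        exact key n hn
      · intro hn
        have hfin := Cfsg.Agent.Helper2.conj_inv_mem_of_conj_mem (P : Subgroup G) (g⁻¹ * h) key
        have := hfin _ hn
        have e : (g⁻¹ * h)⁻¹ * ((g⁻¹ * h) * n * (g⁻¹ * h)⁻¹) * (g⁻¹ * h) = n := by group
        rwa [e] at this
    · obtain ⟨g, hg⟩ := Cfsg.Agent.Helper2.pgroup_exists_conj_le_sylow (hpz y hy) P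
      have h1 := hg y (Subgroup.mem_zpowers y)
      refine ⟨⟨((g⁻¹ : G) : G ⧸ Subgroup.normalizer ((P : Subgroup G) : Set G)), ?_⟩⟩
      rw [hfixN]
      apply Subgroup.le_normalizer
      have h2 : g⁻¹⁻¹ * y * g⁻¹ ∈ (P : Subgroup G) := by rw [inv_inv]; exact h1
      exact h2
  · intro x hxN hxC
    have hfin : Finite (MulAction.orbitRel.Quotient ↥(P : Subgroup G)
        (G ⧸ Subgroup.normalizer ((P : Subgroup G) : Set G))) := by
      unfold MulAction.orbitRel.Quotient
      infer_instance
    apply Nat.card_le_card_of_injective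
      (fun ω : MulAction.fixedBy (G ⧸ Subgroup.normalizer ((P : Subgroup G) : Set G)) x =>
        (Quotient.mk'' ω.1 : MulAction.orbitRel.Quotient ↥(P : Subgroup G)
          (G ⧸ Subgroup.normalizer ((P : Subgroup G) : Set G))))
    rintro ⟨ω, hω⟩ ⟨ω', hω'⟩ hEq
    rw [Subtype.mk.injEq]
    have hrel := Quotient.eq''.mp hEq
    change ω ∈ MulAction.orbit ↥(P : Subgroup G) ω' at hrel
    obtain ⟨⟨u, hu⟩, hu2⟩ := hrel
    change u • ω' = ω at hu2
    rw [MulAction.mem_fixedBy] at hω hω'
    by_cases hu1 : u = 1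
    · rw [← hu2, hu1, one_smul]
    -- c = x⁻¹ u⁻¹ x u
    have hcP : x⁻¹ * u⁻¹ * x * u ∈ (P : Subgroup G) := by
      have h1 : x⁻¹ * u⁻¹ * x ∈ (P : Subgroup G) := by
        have hxi : x⁻¹ ∈ Subgroup.normalizer ((P : Subgroup G) : Set G) := inv_mem hxN
        have := (Subgroup.mem_normalizer_iff.mp hxi u⁻¹).mp (inv_mem hu)
        simpa using this
      exact mul_mem h1 hu
    have hcfix : (x⁻¹ * u⁻¹ * x * u) • ω' = ω' := by
      rw [mul_smul, hu2, mul_smul, hω, mul_smul, ← hu2, inv_smul_smul]
      rw [inv_smul_eq_iff, hω']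
    by_cases hc1 : x⁻¹ * u⁻¹ * x * u = 1
    · exfalso
      apply hxC
      rw [Subgroup.mem_centralizer_iff]
      intro n hn
      have hn' : n ∈ (P : Subgroup G) := hn
      rw [← hgen u hu hu1] at hn'
      obtain ⟨k, rfl⟩ := Subgroup.mem_zpowers_iff.mp hn'
      have hcomm : Commute x u := by
        have : x * u = u * x := by
          have e : x * u = u * x * (x⁻¹ * u⁻¹ * x * u) := by group
          rw [e, hc1, mul_one]
        exact this
      exact ((hcomm.zpow_right k).eq).symm
    · have hz := hgen _ hcP hc1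
      have hust : u ∈ MulAction.stabilizer G ω' := by
        have : Subgroup.zpowers (x⁻¹ * u⁻¹ * x * u) ≤ MulAction.stabilizer G ω' := by
          rw [Subgroup.zpowers_le]
          exact hcfix
        apply this
        rw [hz]; exact hu
      rw [← hu2]
      exact hust


end Cfsg.Agent.S1018
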