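import Mathlib
import Cfsg.Statements.S1019

set_option autoImplicit false
open Cfsg

namespace Cfsg.Agent.S1019

/-- Let H be a subgroup of a finite group G and x an element of H. In the action of G on the left cosets of H, the number of cosets fixed by x, multiplied by the size of the conjugacy class of x, equals the index of H multiplied by the number of conjugates of x that lie in H. -/
theorem result {G : Type*} [Group G] [Finite G] (H : Subgroup G) (x : G) (hx : x ∈ H) : Nat.card (MulAction.fixedBy (G ⧸ H) x) * Nat.card {g : G // IsConj x g} = H.index * Nat.card {g : G // IsConj x g ∧ g ∈ H} := by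
  classical
  have hcent : ∀ c : Subgroup.centralizer ({x} : Set G), (c : G)⁻¹ * x * (c : G) = x := by
    intro c
    have := Subgroup.mem_centralizer_iff.mp c.2 x rfl
    rw [mul_assoc, this]; group
  have h2 : ∀ K : Subgroup G, Nat.card {g : G // g⁻¹ * x * g ∈ K} =
      Nat.card {y : G // IsConj x y ∧ y ∈ K} * Nat.card (Subgroup.centralizer ({x} : Set G)) := by
    intro K
    rw [← Nat.card_prod]
    have hk : ∀ y : {y : G // IsConj x y ∧ y ∈ K}, ∃ k : G, k⁻¹ * x * k = (y : G) := by
      rintro ⟨y, hy, -⟩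
      obtain ⟨c, hc⟩ := isConj_iff.mp hy
      exact ⟨c⁻¹, by simpa using hc⟩
    choose k hk using hk
    have hmem : ∀ (y : {y : G // IsConj x y ∧ y ∈ K}) (c : Subgroup.centralizer ({x} : Set G)),
        ((c : G) * k y)⁻¹ * x * ((c : G) * k y) = (y : G) := by
      intro y c
      calc ((c : G) * k y)⁻¹ * x * ((c : G) * k y)
          = (k y)⁻¹ * ((c : G)⁻¹ * x * (c : G)) * k y := by group
        _ = (y : G) := by rw [hcent c, hk y]
    symm
    apply Nat.card_eq_of_bijective
      (fun p : {y : G // IsConj x y ∧ y ∈ K} × (Subgroup.centralizer ({x} : Set G)) =>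
        (⟨(p.2 : G) * k p.1, by rw [hmem p.1 p.2]; exact p.1.2.2⟩ : {g : G // g⁻¹ * x * g ∈ K}))
    constructor
    · rintro ⟨y, c⟩ ⟨y', c'⟩ h
      have h' : (c : G) * k y = (c' : G) * k y' := congrArg Subtype.val h
      have hy : (y : G) = (y' : G) := by rw [← hmem y c, ← hmem y' c', h']
      have hyy : y = y' := Subtype.ext hy
      subst hyy
      have hc : (c : G) = (c' : G) := mul_right_cancel h'
      rw [Subtype.ext hc]
    · rintro ⟨g, hg⟩
      have hy : IsConj x (g⁻¹ * x * g) := isConj_iff.mpr ⟨g⁻¹, by simp⟩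
      obtain ⟨y, hyv⟩ : ∃ y : {y : G // IsConj x y ∧ y ∈ K}, (y : G) = g⁻¹ * x * g :=
        ⟨⟨g⁻¹ * x * g, hy, hg⟩, rfl⟩
      have hcm : g * (k y)⁻¹ ∈ Subgroup.centralizer ({x} : Set G) := by
        rw [Subgroup.mem_centralizer_iff]
        intro z hz
        rw [Set.mem_singleton_iff] at hz
        rw [hz]
        have e : (k y)⁻¹ * x * k y = g⁻¹ * x * g := (hk y).trans hyv
        have e2 : x = k y * (g⁻¹ * x * g) * (k y)⁻¹ := by rw [← e]; group
        calc x * (g * (k y)⁻¹) = g * (g⁻¹ * x * g) * (k y)⁻¹ := by group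
          _ = g * (k y)⁻¹ * (k y * (g⁻¹ * x * g) * (k y)⁻¹) := by group
          _ = g * (k y)⁻¹ * x := by rw [← e2]
      refine ⟨(y, ⟨g * (k y)⁻¹, hcm⟩), Subtype.ext ?_⟩
      show g * (k y)⁻¹ * k y = g
      group
  have h1 : Nat.card {g : G // g⁻¹ * x * g ∈ H} =
      Nat.card (MulAction.fixedBy (G ⧸ H) x) * Nat.card H := by
    rw [← Nat.card_prod]
    have hfix : ∀ g : G, (g : G ⧸ H) ∈ MulAction.fixedBy (G ⧸ H) x ↔ g⁻¹ * x * g ∈ H := by
      intro g
      rw [MulAction.mem_fixedBy, MulAction.Quotient.smul_mk, QuotientGroup.eq, smul_eq_mul]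
      have : (x * g)⁻¹ * g = (g⁻¹ * x * g)⁻¹ := by group
      rw [this, inv_mem_iff]
    have hout : ∀ (c : G ⧸ H) (h : H), ((c.out * (h : G) : G) : G ⧸ H) = c := by
      intro c h
      rw [QuotientGroup.mk_mul_of_mem _ h.2, QuotientGroup.out_eq']
    symm
    apply Nat.card_eq_of_bijective (fun p : MulAction.fixedBy (G ⧸ H) x × H =>
      (⟨(p.1 : G ⧸ H).out * (p.2 : G), by rw [← hfix, hout]; exact p.1.2⟩ :
        {g : G // g⁻¹ * x * g ∈ H}))
    constructor
    · rintro ⟨c, h⟩ ⟨c', h'⟩ e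
      have e' : (c : G ⧸ H).out * (h : G) = (c' : G ⧸ H).out * (h' : G) := congrArg Subtype.val e
      have hc : (c : G ⧸ H) = (c' : G ⧸ H) := by
        rw [← hout c h, ← hout c' h', e']
      have hcc : c = c' := Subtype.ext hc
      subst hcc
      have hh : (h : G) = (h' : G) := mul_left_cancel e'
      rw [Subtype.ext hh]
    · rintro ⟨g, hg⟩
      have hc : (g : G ⧸ H) ∈ MulAction.fixedBy (G ⧸ H) x := (hfix g).mpr hg
      have hh : ((g : G ⧸ H).out)⁻¹ * g ∈ H := by
        rw [← QuotientGroup.eq, QuotientGroup.out_eq']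
      refine ⟨(⟨(g : G ⧸ H), hc⟩, ⟨_, hh⟩), Subtype.ext ?_⟩
      show (g : G ⧸ H).out * (((g : G ⧸ H).out)⁻¹ * g) = g
      group
  have h3 : Nat.card G = Nat.card {y : G // IsConj x y} *
      Nat.card (Subgroup.centralizer ({x} : Set G)) := by
    have e1 : Nat.card {g : G // g⁻¹ * x * g ∈ (⊤ : Subgroup G)} = Nat.card G :=
      Nat.card_congr (Equiv.subtypeUnivEquiv (fun g => Subgroup.mem_top _))
    have e2 : Nat.card {y : G // IsConj x y ∧ y ∈ (⊤ : Subgroup G)} = Nat.card {y : G // IsConj x y} :=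
      Nat.card_congr (Equiv.subtypeEquivRight (fun y => by simp))
    rw [← e1, ← e2]; exact h2 ⊤
  have h4 : H.index * Nat.card H = Nat.card G := Subgroup.index_mul_card H
  have hpos : 0 < Nat.card H := Nat.card_pos
  have e5 := h1.symm.trans (h2 H)
  apply Nat.eq_of_mul_eq_mul_right hpos
  calc Nat.card (MulAction.fixedBy (G ⧸ H) x) * Nat.card {g : G // IsConj x g} * Nat.card H
      = (Nat.card (MulAction.fixedBy (G ⧸ H) x) * Nat.card H) * Nat.card {g : G // IsConj x g} := by ring
    _ = Nat.card {y : G // IsConj x y ∧ y ∈ H} * (Nat.card {y : G // IsConj x y} *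
          Nat.card (Subgroup.centralizer ({x} : Set G))) := by rw [e5]; ring
    _ = Nat.card {y : G // IsConj x y ∧ y ∈ H} * (H.index * Nat.card H) := by rw [← h3, h4]
    _ = H.index * Nat.card {g : G // IsConj x g ∧ g ∈ H} * Nat.card H := by ring


end Cfsg.Agent.S1019
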