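import Mathlib
import Cfsg.Agent.Helper2.Chev
import Cfsg.Statements.S1024

set_option autoImplicit false
open Cfsg

namespace Cfsg.Agent.S1024

/-- `x_r(0) = 1`, and `x_r(t) = 1` forces `t = 0`: the map `t ↦ x_r(t)` is injective. -/
theorem result {F : Type*} [Field F] (D : Cfsg.Lie.ChevalleyDatum) (hD : D ∈ [Cfsg.Lie.chevG2, Cfsg.Lie.chevB2, Cfsg.Lie.chevD4, Cfsg.Lie.chevF4, Cfsg.Lie.chevE6, Cfsg.Lie.chevE7, Cfsg.Lie.chevE8]) (r : ℕ) (hr : r < D.nroots) (t : F) :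
    D.x F r t = 1 ↔ t = 0 := by
  rw [Cfsg.Agent.Helper2.x_of_lt D F hr]
  constructor
  · intro h
    obtain ⟨hlt, hne⟩ := Cfsg.Agent.Helper2.negIdx_ok D hD r hr
    have h1 := congrFun (congrFun h (Sum.inr ⟨r, hr⟩)) (Sum.inr ⟨D.negIdx.getD r 0, hlt⟩)
    unfold Cfsg.Lie.ChevalleyDatum.xMat at h1
    simp only [Matrix.of_apply, Matrix.one_apply] at h1
    have hne' : D.negIdx[r]?.getD 0 ≠ r := by simpa using hne
    simp [hne', Ne.symm hne'] at h1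
    exact h1
  · rintro rfl
    exact Cfsg.Agent.Helper2.xMat_zero D F ⟨r, hr⟩


end Cfsg.Agent.S1024
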