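import Mathlib
import Cfsg.Agent.Helper2.Chev
import Cfsg.Statements.S1041

set_option autoImplicit false
open Cfsg

namespace Cfsg.Agent.S1041

/-- `U` and `V` generate the whole Chevalley group. -/
theorem result {F : Type*} [Field F] (D : Cfsg.Lie.ChevalleyDatum) (hD : D ∈ [Cfsg.Lie.chevG2, Cfsg.Lie.chevB2, Cfsg.Lie.chevD4, Cfsg.Lie.chevF4, Cfsg.Lie.chevE6, Cfsg.Lie.chevE7, Cfsg.Lie.chevE8]) : D.posUnipotent F ⊔ D.negUnipotent F = D.group F := by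
  unfold Cfsg.Lie.ChevalleyDatum.posUnipotent Cfsg.Lie.ChevalleyDatum.negUnipotent Cfsg.Lie.ChevalleyDatum.group
  rw [← Subgroup.closure_union]
  congr 1
  ext g
  simp only [Set.mem_union, Set.mem_setOf_eq]
  constructor
  · rintro (⟨r, t, hpos, hg⟩ | ⟨r, t, hneg, hg⟩)
    · exact ⟨⟨r, hpos.1⟩, t, by rw [hg, Cfsg.Agent.Helper2.x_of_lt D F hpos.1]⟩
    · exact ⟨⟨r, hneg.1⟩, t, by rw [hg, Cfsg.Agent.Helper2.x_of_lt D F hneg.1]⟩
  · rintro ⟨r, t, hg⟩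
    rcases Cfsg.Agent.Helper2.posneg_ok D hD r.val r.isLt with h | h
    · left; exact ⟨r.val, t, h, by rw [hg, Cfsg.Agent.Helper2.x_of_lt D F r.isLt]⟩
    · right; exact ⟨r.val, t, h, by rw [hg, Cfsg.Agent.Helper2.x_of_lt D F r.isLt]⟩


end Cfsg.Agent.S1041
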