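import Mathlib
import Cfsg.Agent.Helper2.Chev
import Cfsg.Statements.S1080

set_option autoImplicit false
open Cfsg

namespace Cfsg.Agent.S1080

/-- Field automorphisms: for every field automorphism `f` there is a group automorphism sending each `x_r(t)` to `x_r(f t)`. -/
theorem result {F : Type*} [Field F] (D : Cfsg.Lie.ChevalleyDatum) (hD : D ∈ [Cfsg.Lie.chevG2, Cfsg.Lie.chevB2, Cfsg.Lie.chevD4, Cfsg.Lie.chevF4, Cfsg.Lie.chevE6, Cfsg.Lie.chevE7, Cfsg.Lie.chevE8]) (f : F ≃+* F) :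
    ∃ α : ↥(D.group F) ≃* ↥(D.group F), ∀ (g : ↥(D.group F)) (r : ℕ) (t : F), r < D.nroots →
      ((g : GL D.Idx F) : Matrix D.Idx D.Idx F) = D.x F r t → ((α g : GL D.Idx F) : Matrix D.Idx D.Idx F) = D.x F r (f t) := by
  classical
  let Φ : GL D.Idx F ≃* GL D.Idx F := Units.mapEquiv (RingEquiv.mapMatrix f).toMulEquiv
  have hΦ : ∀ g : GL D.Idx F, ((Φ g : GL D.Idx F) : Matrix D.Idx D.Idx F) = (g : Matrix D.Idx D.Idx F).map f := by
    intro g; rfl
  have hΦsymm : ∀ g : GL D.Idx F, ((Φ.symm g : GL D.Idx F) : Matrix D.Idx D.Idx F) = (g : Matrix D.Idx D.Idx F).map f.symm := by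
    intro g; rfl
  have hmap : (D.group F).map (Φ : GL D.Idx F →* GL D.Idx F) = D.group F := by
    unfold Cfsg.Lie.ChevalleyDatum.group
    rw [MonoidHom.map_closure]
    congr 1
    ext g
    simp only [Set.mem_image, Set.mem_setOf_eq]
    constructor
    · rintro ⟨g', ⟨r, t, hg'⟩, rfl⟩
      refine ⟨r, f t, ?_⟩
      show ((Φ g' : GL D.Idx F) : Matrix D.Idx D.Idx F) = _
      rw [hΦ, hg']; exact Cfsg.Agent.Helper2.xMat_map D (f : F →+* F) r t
    · rintro ⟨r, t, hg⟩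
      refine ⟨Φ.symm g, ⟨r, f.symm t, ?_⟩, ?_⟩
      · rw [hΦsymm, hg]; exact Cfsg.Agent.Helper2.xMat_map D (f.symm : F →+* F) r t
      · show Φ (Φ.symm g) = g
        exact Φ.apply_symm_apply g
  let α : ↥(D.group F) ≃* ↥(D.group F) := (Φ.subgroupMap (D.group F)).trans (MulEquiv.subgroupCongr hmap)
  refine ⟨α, ?_⟩
  intro g r t hr hg
  have : ((α g : GL D.Idx F) : Matrix D.Idx D.Idx F) = ((Φ (g : GL D.Idx F) : GL D.Idx F) : Matrix D.Idx D.Idx F) := rfl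
  rw [this, hΦ, hg, Cfsg.Agent.Helper2.x_of_lt D F hr, Cfsg.Agent.Helper2.x_of_lt D F hr]
  exact Cfsg.Agent.Helper2.xMat_map D (f : F →+* F) ⟨r, hr⟩ t


end Cfsg.Agent.S1080
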