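import Mathlib
import Cfsg.Agent.Helper2.RankOne
import Cfsg.Statements.S1118

set_option autoImplicit false
open Cfsg

namespace Cfsg.Agent.S1118

/-- In the rank-one set-up (`G` finite and doubly transitive on `Ω`, `t` an involution moving `a`, `Q` normal in `G_a` with `G_a = Q D`, `Q ⊓ D = 1` for the two-point stabiliser `D = G_a ⊓ G_{t • a}`, `|Q|` even, `|D|` odd), the normaliser of a subset of `Q` containing a non-identity element lies in `G_a`; consequently `N_G(Q) = N_G(G_a) = G_a`. -/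
theorem result {G Ω : Type*} [Group G] [Finite G] [MulAction G Ω] {a : Ω} {t : G} {Q : Subgroup G}
    (hS : Cfsg.IsRankOneSetup G Ω a t Q) :
    (∀ X : Set G, X ⊆ (Q : Set G) → (∃ x ∈ X, x ≠ 1) → Subgroup.normalizer X ≤ MulAction.stabilizer G a) ∧
      Subgroup.normalizer (Q : Set G) = MulAction.stabilizer G a ∧
      Subgroup.normalizer (MulAction.stabilizer G a : Set G) = MulAction.stabilizer G a := by
  have hA : ∀ X : Set G, X ⊆ (Q : Set G) → (∃ x ∈ X, x ≠ 1) →
      Subgroup.normalizer X ≤ MulAction.stabilizer G a := by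
    rintro X hX ⟨x, hx, hx1⟩ g hg
    rw [Subgroup.mem_set_normalizer_iff] at hg
    have h1 : g * x * g⁻¹ ∈ X := (hg x).mp hx
    have h3 : (g * x * g⁻¹) • (g • a) = g • a := by
      rw [mul_smul, mul_smul, inv_smul_smul, Cfsg.Agent.Helper2.RankOne.Q_fix hS (hX hx)]
    exact Cfsg.Agent.Helper2.RankOne.fixed_eq_of_mem_Q hS (hX h1)
      (Cfsg.Agent.Helper2.RankOne.conj_ne_one hx1) h3
  obtain ⟨x, hx, hx1⟩ := Cfsg.Agent.Helper2.RankOne.exists_ne_one hS
  refine ⟨hA, ?_, ?_⟩
  · apply le_antisymm (hA _ subset_rfl ⟨x, hx, hx1⟩)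
    intro h hh
    rw [Subgroup.mem_normalizer_iff]
    intro y
    constructor
    · intro hy; exact hS.conj_mem h hh y hy
    · intro hy
      have := hS.conj_mem h⁻¹ (inv_mem hh) _ hy
      have e : h⁻¹ * (h * y * h⁻¹) * h⁻¹⁻¹ = y := by group
      rwa [e] at this
  · apply le_antisymm _ Subgroup.le_normalizer
    intro g hg
    rw [Subgroup.mem_normalizer_iff] at hg
    have h1 : g * x * g⁻¹ ∈ MulAction.stabilizer G a := (hg x).mp (hS.le hx)
    have h2 : x • (g⁻¹ • a) = g⁻¹ • a := by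
      have h1' : (g * x * g⁻¹) • a = a := h1
      rw [mul_smul, mul_smul] at h1'
      rw [eq_inv_smul_iff]
      exact h1'
    have h3 := Cfsg.Agent.Helper2.RankOne.fixed_eq_of_mem_Q hS hx hx1 h2
    rw [MulAction.mem_stabilizer_iff]
    rw [inv_smul_eq_iff] at h3
    exact h3.symm


end Cfsg.Agent.S1118
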