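import Mathlib
import Cfsg.Agent.Helper2.RankOne
import Cfsg.Agent.Helper3.CoprimeGen
import Cfsg.Agent.Helper3.Cores
import Cfsg.Statements.S1120

set_option autoImplicit false
open Cfsg

namespace Cfsg.Agent.S1120

/-- In the rank-one set-up (`G` finite and doubly transitive on `Ω`, `t` an involution moving `a`, `Q` normal in `G_a` with `G_a = Q D`, `Q ⊓ D = 1` for the two-point stabiliser `D = G_a ⊓ G_{t • a}`, `|Q|` even, `|D|` odd), if `G` has 2-rank at least 2 then `O_{2'}(G)` equals the normal core of `G_a`. -/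
theorem result {G Ω : Type*} [Group G] [Finite G] [MulAction G Ω] {a : Ω} {t : G} {Q : Subgroup G}
    (hS : Cfsg.IsRankOneSetup G Ω a t Q)
    (h2 : ∃ x y : G, x ≠ 1 ∧ y ≠ 1 ∧ x ≠ y ∧ x * x = 1 ∧ y * y = 1 ∧ x * y = y * x) :
    Cfsg.pPrimeCore 2 G = (MulAction.stabilizer G a).normalCore := by
  classical
  haveI : Fact (Nat.Prime 2) := ⟨Nat.prime_two⟩
  obtain ⟨x, y, hx1, hy1, hxy, hx2, hy2, hcomm⟩ := h2
  apply le_antisymm
  · haveI hOn : (Cfsg.pPrimeCore 2 G).Normal := by
      haveI := Cfsg.Agent.Helper3.pPrimeCore_characteristic 2 G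
      infer_instance
    rw [Subgroup.normal_le_normalCore]
    have hOodd : ¬ 2 ∣ Nat.card ↥(Cfsg.pPrimeCore 2 G) := by
      have := Cfsg.Agent.Helper3.pPrimeCore_coprime 2 G
      exact (Nat.Prime.coprime_iff_not_dvd Nat.prime_two).mp this.symm
    obtain ⟨V, hV⟩ : ∃ V : Subgroup G, V = Subgroup.closure {x, y} := ⟨_, rfl⟩
    have hxV : x ∈ V := by rw [hV]; exact Subgroup.subset_closure (by simp)
    have hyV : y ∈ V := by rw [hV]; exact Subgroup.subset_closure (by simp)
    have hVcomm : ∀ u ∈ V, ∀ v ∈ V, u * v = v * u := by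
      have h1 : V ≤ Subgroup.centralizer ({x, y} : Set G) := by
        rw [hV, Subgroup.closure_le]
        intro g hg
        rw [SetLike.mem_coe, Subgroup.mem_centralizer_iff]
        intro h hh
        rcases hg with rfl | rfl <;> rcases hh with rfl | rfl
        · rfl
        · exact hcomm.symm
        · exact hcomm
        · rfl
      have h2 : ({x, y} : Set G) ⊆ Subgroup.centralizer (V : Set G) := by
        intro g hg
        rw [SetLike.mem_coe, Subgroup.mem_centralizer_iff]
        intro h hh
        exact (Subgroup.mem_centralizer_iff.mp (h1 hh) g hg).symm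
      have h3 : V ≤ Subgroup.centralizer (V : Set G) := by
        have := (Subgroup.closure_le (Subgroup.centralizer (V : Set G))).mpr h2
        rwa [← hV] at this
      intro u hu v hv
      exact Subgroup.mem_centralizer_iff.mp (h3 hv) u hu
    have hVsq : ∀ v ∈ V, v * v = 1 := by
      intro v hv
      have hv' : v ∈ Subgroup.closure {x, y} := by rw [← hV]; exact hv
      induction hv' using Subgroup.closure_induction with
      | mem g hg =>
        rcases hg with rfl | rfl
        · exact hx2
        · exact hy2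
      | one => simp
      | mul g h hg hh ihg ihh =>
        have hgV : g ∈ V := by rw [hV]; exact hg
        have hhV : h ∈ V := by rw [hV]; exact hh
        have hc : g * h = h * g := hVcomm g hgV h hhV
        calc g * h * (g * h) = g * (h * g) * h := by group
          _ = g * (g * h) * h := by rw [hc]
          _ = (g * g) * (h * h) := by group
          _ = 1 := by rw [ihg hgV, ihh hhV, one_mul]
      | inv g hg ih =>
        have hgV : g ∈ V := by rw [hV]; exact hg
        calc g⁻¹ * g⁻¹ = (g * g)⁻¹ := by group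
          _ = 1 := by rw [ih hgV, inv_one]
    have hVea : Cfsg.IsElementaryAbelian 2 V := by
      refine ⟨⟨⟨fun u v => Subtype.ext (hVcomm u.1 u.2 v.1 v.2)⟩⟩, fun v hv => ?_⟩
      rw [pow_two]; exact hVsq v hv
    have hVcard : 2 < Nat.card V := by
      haveI := Fintype.ofFinite V
      rw [Nat.card_eq_fintype_card, Fintype.two_lt_card_iff]
      refine ⟨⟨1, one_mem V⟩, ⟨x, hxV⟩, ⟨y, hyV⟩, ?_, ?_, ?_⟩
      · intro h; exact hx1 (congrArg Subtype.val h).symm
      · intro h; exact hy1 (congrArg Subtype.val h).symm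
      · intro h; exact hxy (congrArg Subtype.val h)
    have hVnorm : V ≤ Subgroup.normalizer ((Cfsg.pPrimeCore 2 G : Subgroup G) : Set G) := by
      rw [Subgroup.normalizer_eq_top_iff.mpr hOn]; exact le_top
    have hgen := Cfsg.Agent.Helper3.generated_by_centralizers 2 V (Cfsg.pPrimeCore 2 G) hVea
      hOodd hVnorm
    obtain ⟨p, hp, hpu⟩ := Cfsg.Agent.Helper2.RankOne.invol_fixed hS hx1 hx2
    have hVp : ∀ v ∈ V, v • p = p := by
      intro v hv
      apply hpu
      rw [← mul_smul, hVcomm x hxV v hv, mul_smul, hp]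
    have hOp : Cfsg.pPrimeCore 2 G ≤ MulAction.stabilizer G p := by
      refine hgen.le.trans (iSup_le ?_)
      rintro ⟨B, hBV, hBidx⟩
      intro g hg
      obtain ⟨hgO, hgC⟩ := Subgroup.mem_inf.mp hg
      obtain ⟨v, hvB, hv1⟩ : ∃ v ∈ B, v ≠ 1 := by
        by_contra hcon
        push_neg at hcon
        have hB : B = ⊥ := (Subgroup.eq_bot_iff_forall B).mpr hcon
        rw [hB, Subgroup.relIndex_bot_left] at hBidx
        omega
      have hvv := hVsq v (hBV hvB)
      obtain ⟨pv, hpv, hpvu⟩ := Cfsg.Agent.Helper2.RankOne.invol_fixed hS hv1 hvv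
      have hgv : v * g = g * v := Subgroup.mem_centralizer_iff.mp hgC v hvB
      rw [MulAction.mem_stabilizer_iff]
      have h1 : v • (g • p) = g • p := by
        rw [← mul_smul, hgv, mul_smul, hVp v (hBV hvB)]
      exact (hpvu _ h1).trans (hpvu p (hVp v (hBV hvB))).symm
    obtain ⟨g, hg⟩ := Cfsg.Agent.Helper2.RankOne.trans hS p a
    intro o ho
    have h1 : g⁻¹ * o * g ∈ Cfsg.pPrimeCore 2 G := by
      have := hOn.conj_mem o ho g⁻¹
      rwa [inv_inv] at this
    have h2 : (g⁻¹ * o * g) • p = p := hOp h1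
    rw [MulAction.mem_stabilizer_iff, ← hg]
    rw [mul_smul, mul_smul] at h2
    exact inv_smul_eq_iff.mp h2
  · apply Cfsg.Agent.Helper3.le_pPrimeCore
    have hND : (MulAction.stabilizer G a).normalCore ≤
        MulAction.stabilizer G a ⊓ MulAction.stabilizer G (t • a) := by
      intro n hn
      refine Subgroup.mem_inf.mpr ⟨Subgroup.normalCore_le _ hn, ?_⟩
      have h1 : t⁻¹ * n * t⁻¹⁻¹ ∈ MulAction.stabilizer G a := hn t⁻¹
      rw [MulAction.mem_stabilizer_iff, mul_smul, mul_smul, inv_inv] at h1
      rw [MulAction.mem_stabilizer_iff]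
      exact inv_smul_eq_iff.mp h1
    have hdvd := Subgroup.card_dvd_of_le hND
    have hodd : Odd (Nat.card ↥(MulAction.stabilizer G a).normalCore) :=
      hS.odd_card.of_dvd_nat hdvd
    exact Nat.coprime_two_right.mpr hodd


end Cfsg.Agent.S1120
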