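import Mathlib
import Cfsg.Statements.S1124

set_option autoImplicit false
open scoped Pointwise
open Cfsg

namespace Cfsg.Agent.S1124

/-- Let `t` be an element of order 2 of a finite group normalising a subgroup `X` of odd order, `Y = C_X(t)` and `Z` the set of elements of `X` inverted by `t`. Then `(y, z) ↦ y z` is a bijection `Y × Z → X`, so `|X| = |Y| |Z|`, and the subgroup generated by `Z` is normal in `X`. -/
theorem result {M : Type*} [Group M] [Finite M]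
    (t : M) (ht : orderOf t = 2) (X : Subgroup M) (hodd : Odd (Nat.card X))
    (hnorm : ∀ x ∈ X, t * x * t⁻¹ ∈ X) :
    (∀ x ∈ X, ∃! p : M × M, p.1 ∈ X ⊓ Subgroup.centralizer {t} ∧ p.2 ∈ Cfsg.invertedBy X t ∧ x = p.1 * p.2) ∧
      Nat.card X = Nat.card ↥(X ⊓ Subgroup.centralizer {t}) * Nat.card (Cfsg.invertedBy X t) ∧
      ∀ x ∈ X, MulAut.conj x • Subgroup.closure (Cfsg.invertedBy X t) = Subgroup.closure (Cfsg.invertedBy X t) := by
  classical
  have h2 : t ^ 2 = 1 := ht ▸ pow_orderOf_eq_one t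
  have htt : t * t = 1 := by rw [← sq]; exact h2
  have tinv : t⁻¹ = t := inv_eq_of_mul_eq_one_left htt
  have hZ : ∀ z, z ∈ Cfsg.invertedBy X t ↔ z ∈ X ∧ t * z * t⁻¹ = z⁻¹ := fun z => Iff.rfl
  obtain ⟨k, hk⟩ := hodd
  have hpow : ∀ w ∈ X, w ^ (2 * k + 1) = 1 := by
    intro w hw
    have h := pow_card_eq_one' (G := X) (x := ⟨w, hw⟩)
    rw [hk] at h
    simpa using congrArg Subtype.val h
  have hsqrt : ∀ w ∈ X, (w * w) ^ (k + 1) = w := by
    intro w hw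
    rw [← sq, ← pow_mul, show 2 * (k + 1) = (2 * k + 1) + 1 by ring, pow_succ, hpow w hw, one_mul]
  have hex : ∀ x ∈ X, ∃ y z : M, y ∈ X ⊓ Subgroup.centralizer {t} ∧ z ∈ Cfsg.invertedBy X t ∧ x = y * z := by
    intro x hx
    have hwX : (t * x * t⁻¹)⁻¹ * x ∈ X := X.mul_mem (X.inv_mem (hnorm x hx)) hx
    have hwinv : t * ((t * x * t⁻¹)⁻¹ * x) * t⁻¹ = ((t * x * t⁻¹)⁻¹ * x)⁻¹ := by
      calc t * ((t * x * t⁻¹)⁻¹ * x) * t⁻¹ = (t * t) * x⁻¹ * t⁻¹ * x * t⁻¹ := by group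
        _ = x⁻¹ * t * x * t⁻¹ := by rw [htt, one_mul, tinv]
        _ = ((t * x * t⁻¹)⁻¹ * x)⁻¹ := by group
    obtain ⟨w, hw⟩ : ∃ w, w = (t * x * t⁻¹)⁻¹ * x := ⟨_, rfl⟩
    rw [← hw] at hwX hwinv
    have hzX : w ^ (k + 1) ∈ X := X.pow_mem hwX _
    have hzinv : t * w ^ (k + 1) * t⁻¹ = (w ^ (k + 1))⁻¹ := by
      rw [← conj_pow, hwinv, inv_pow]
    have hz2 : w ^ (k + 1) * w ^ (k + 1) = w := by
      rw [← pow_add, show k + 1 + (k + 1) = (2 * k + 1) + 1 by ring, pow_succ, hpow w hwX, one_mul]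
    obtain ⟨z, hz⟩ : ∃ z, z = w ^ (k + 1) := ⟨_, rfl⟩
    rw [← hz] at hzX hzinv hz2
    refine ⟨x * z⁻¹, z, Subgroup.mem_inf.mpr ⟨X.mul_mem hx (X.inv_mem hzX), ?_⟩, ⟨hzX, hzinv⟩, by group⟩
    rw [Subgroup.mem_centralizer_iff]
    intro s hs
    rw [Set.mem_singleton_iff] at hs
    rw [hs]
    have e1 : t * x * t⁻¹ = x * (z * z)⁻¹ := by rw [hz2, hw]; group
    have e2 : t * z⁻¹ * t⁻¹ = z := by
      rw [show t * z⁻¹ * t⁻¹ = (t * z * t⁻¹)⁻¹ by group, hzinv, inv_inv]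
    calc t * (x * z⁻¹) = (t * x * t⁻¹) * (t * z⁻¹ * t⁻¹) * t := by group
      _ = x * (z * z)⁻¹ * z * t := by rw [e1, e2]
      _ = x * z⁻¹ * t := by group
  have hun : ∀ x y z : M, y ∈ X ⊓ Subgroup.centralizer {t} → z ∈ Cfsg.invertedBy X t → x = y * z →
      z = ((t * x * t⁻¹)⁻¹ * x) ^ (k + 1) := by
    intro x y z hy hz hx
    have hc : t * y * t⁻¹ = y := by
      have := (Subgroup.mem_centralizer_iff.mp (Subgroup.mem_inf.mp hy).2) t rfl
      rw [this]; group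
    have hw : (t * x * t⁻¹)⁻¹ * x = z * z := by
      rw [hx, show t * (y * z) * t⁻¹ = (t * y * t⁻¹) * (t * z * t⁻¹) by group, hc, ((hZ z).mp hz).2]; group
    rw [hw]; exact (hsqrt z ((hZ z).mp hz).1).symm
  have hun2 : ∀ x y z y' z' : M, y ∈ X ⊓ Subgroup.centralizer {t} → z ∈ Cfsg.invertedBy X t → x = y * z →
      y' ∈ X ⊓ Subgroup.centralizer {t} → z' ∈ Cfsg.invertedBy X t → x = y' * z' → y = y' ∧ z = z' := by
    intro x y z y' z' hy hz hx hy' hz' hx'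
    have e : z = z' := (hun x y z hy hz hx).trans (hun x y' z' hy' hz' hx').symm
    subst e
    exact ⟨mul_right_cancel (hx.symm.trans hx'), rfl⟩
  refine ⟨?_, ?_, ?_⟩
  · intro x hx
    obtain ⟨y, z, hy, hz, hxyz⟩ := hex x hx
    refine ⟨(y, z), ⟨hy, hz, hxyz⟩, ?_⟩
    rintro ⟨y', z'⟩ ⟨hy', hz', hx'⟩
    obtain ⟨e1, e2⟩ := hun2 x y z y' z' hy hz hxyz hy' hz' hx'
    rw [e1, e2]
  · have hbij : Function.Bijective (fun p : ↥(X ⊓ Subgroup.centralizer {t}) × ↥(Cfsg.invertedBy X t) =>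
        (⟨(p.1 : M) * (p.2 : M), X.mul_mem (Subgroup.mem_inf.mp p.1.2).1 ((hZ _).mp p.2.2).1⟩ : ↥X)) := by
      constructor
      · rintro ⟨⟨y, hy⟩, ⟨z, hz⟩⟩ ⟨⟨y', hy'⟩, ⟨z', hz'⟩⟩ h
        have h' : y * z = y' * z' := congrArg Subtype.val h
        obtain ⟨e1, e2⟩ := hun2 (y * z) y z y' z' hy hz rfl hy' hz' h'
        subst e1; subst e2; rfl
      · rintro ⟨x, hx⟩
        obtain ⟨y, z, hy, hz, hxyz⟩ := hex x hx
        exact ⟨(⟨y, hy⟩, ⟨z, hz⟩), Subtype.ext hxyz.symm⟩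
    rw [← Nat.card_prod]
    exact (Nat.card_eq_of_bijective _ hbij).symm
  · have hK1 : ∀ y ∈ X ⊓ Subgroup.centralizer {t}, ∀ w ∈ Subgroup.closure (Cfsg.invertedBy X t),
        y * w * y⁻¹ ∈ Subgroup.closure (Cfsg.invertedBy X t) := by
      intro y hy w hw
      have hc : t * y * t⁻¹ = y := by
        have := (Subgroup.mem_centralizer_iff.mp (Subgroup.mem_inf.mp hy).2) t rfl
        rw [this]; group
      induction hw using Subgroup.closure_induction with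
      | mem w hw =>
        apply Subgroup.subset_closure
        refine (hZ _).mpr ⟨X.mul_mem (X.mul_mem (Subgroup.mem_inf.mp hy).1 ((hZ w).mp hw).1) (X.inv_mem (Subgroup.mem_inf.mp hy).1), ?_⟩
        rw [show t * (y * w * y⁻¹) * t⁻¹ = (t * y * t⁻¹) * (t * w * t⁻¹) * (t * y * t⁻¹)⁻¹ by group, hc, ((hZ w).mp hw).2]
        group
      | one => simp
      | mul a b _ _ iha ihb =>
        have := Subgroup.mul_mem _ iha ihb
        rwa [show y * a * y⁻¹ * (y * b * y⁻¹) = y * (a * b) * y⁻¹ by group] at this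
      | inv a _ iha =>
        have := Subgroup.inv_mem _ iha
        rwa [show (y * a * y⁻¹)⁻¹ = y * a⁻¹ * y⁻¹ by group] at this
    have hK : ∀ x ∈ X, ∀ w ∈ Subgroup.closure (Cfsg.invertedBy X t),
        x * w * x⁻¹ ∈ Subgroup.closure (Cfsg.invertedBy X t) := by
      intro x hx w hw
      obtain ⟨y, z, hy, hz, hxyz⟩ := hex x hx
      have hzc : z ∈ Subgroup.closure (Cfsg.invertedBy X t) := Subgroup.subset_closure hz
      have h1 := hK1 y hy (z * w * z⁻¹) (Subgroup.mul_mem _ (Subgroup.mul_mem _ hzc hw) (Subgroup.inv_mem _ hzc))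
      rw [hxyz]
      rwa [show y * (z * w * z⁻¹) * y⁻¹ = y * z * w * (y * z)⁻¹ by group] at h1
    intro x hx
    ext w
    rw [Subgroup.mem_pointwise_smul_iff_inv_smul_mem]
    simp only [MulAut.smul_def, MulAut.conj_inv_apply]
    constructor
    · intro h
      have := hK x hx _ h
      rwa [show x * (x⁻¹ * w * x) * x⁻¹ = w by group] at this
    · intro h
      have := hK x⁻¹ (X.inv_mem hx) _ h
      rwa [inv_inv] at this


end Cfsg.Agent.S1124
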