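import Mathlib
import Cfsg.Agent.Helper2.RankOne5
import Cfsg.Statements.S1125

set_option autoImplicit false
open Cfsg

namespace Cfsg.Agent.S1125

/-- In the rank-one set-up (`G` finite and doubly transitive on `Ω`, `t` an involution moving `a`, `Q` normal in `G_a` with `G_a = Q D`, `Q ⊓ D = 1` for the two-point stabiliser `D = G_a ⊓ G_{t • a}`, `|Q|` even, `|D|` odd), let `X ⊆ D` fix at least three points of `Ω`. Then `C_G(X)` is doubly transitive on the fixed-point set of `X`, `|C_Q(X)|` is even, and `C_{G_a}(X) = C_Q(X) C_D(X)`. -/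
theorem result {G Ω : Type*} [Group G] [Finite G] [MulAction G Ω] {a : Ω} {t : G} {Q : Subgroup G}
    (hS : Cfsg.IsRankOneSetup G Ω a t Q)
    (X : Set G) (hX : X ⊆ ((MulAction.stabilizer G a ⊓ MulAction.stabilizer G (t • a)) : Set G))
    (h3 : ∃ b c d : Ω, b ≠ c ∧ b ≠ d ∧ c ≠ d ∧ ∀ x ∈ X, x • b = b ∧ x • c = c ∧ x • d = d) :
    (∀ b₁ b₂ c₁ c₂ : Ω, (∀ x ∈ X, x • b₁ = b₁ ∧ x • b₂ = b₂ ∧ x • c₁ = c₁ ∧ x • c₂ = c₂) →
        b₁ ≠ b₂ → c₁ ≠ c₂ → ∃ g ∈ Subgroup.centralizer X, g • b₁ = c₁ ∧ g • b₂ = c₂) ∧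
      Even (Nat.card ↥(Subgroup.centralizer X ⊓ Q)) ∧
      (Subgroup.centralizer X ⊓ Q) ⊔ (Subgroup.centralizer X ⊓ (MulAction.stabilizer G a ⊓ MulAction.stabilizer G (t • a))) = Subgroup.centralizer X ⊓ MulAction.stabilizer G a := by
  obtain ⟨b, c, d, hbc, hbd, hcd, hfix⟩ := h3
  have hXa : ∀ x ∈ X, x • a = a := fun x hx => (Subgroup.mem_inf.mp (hX hx)).1
  have hXta : ∀ x ∈ X, x • (t • a) = t • a := fun x hx => (Subgroup.mem_inf.mp (hX hx)).2
  have hpres : ∀ g ∈ Subgroup.centralizer X, ∀ p : Ω, (∀ x ∈ X, x • p = p) →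
      ∀ x ∈ X, x • (g • p) = g • p := by
    intro g hg p hp x hx
    rw [← mul_smul, Subgroup.mem_centralizer_iff.mp hg x hx, mul_smul, hp x hx]
  have hthird : ∀ p₁ p₂ : Ω, ∃ p : Ω, (∀ x ∈ X, x • p = p) ∧ p ≠ p₁ ∧ p ≠ p₂ := by
    intro p₁ p₂
    by_cases h1 : b ≠ p₁ ∧ b ≠ p₂
    · exact ⟨b, fun x hx => (hfix x hx).1, h1.1, h1.2⟩
    by_cases h2 : c ≠ p₁ ∧ c ≠ p₂
    · exact ⟨c, fun x hx => (hfix x hx).2.1, h2.1, h2.2⟩
    have h1' : b = p₁ ∨ b = p₂ := by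
      by_contra h; push_neg at h; exact h1 h
    have h2' : c = p₁ ∨ c = p₂ := by
      by_contra h; push_neg at h; exact h2 h
    refine ⟨d, fun x hx => (hfix x hx).2.2, ?_, ?_⟩
    · intro hd
      rcases h1' with h | h
      · exact hbd (h.trans hd.symm)
      · rcases h2' with h' | h'
        · exact hcd (h'.trans hd.symm)
        · exact hbc (h.trans h'.symm)
    · intro hd
      rcases h1' with h | h
      · rcases h2' with h' | h'
        · exact hbc (h.trans h'.symm)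
        · exact hcd (h'.trans hd.symm)
      · exact hbd (h.trans hd.symm)
  have htr : ∀ b₁ c₁ : Ω, (∀ x ∈ X, x • b₁ = b₁) → (∀ x ∈ X, x • c₁ = c₁) →
      ∃ g ∈ Subgroup.centralizer X, g • b₁ = c₁ := by
    intro b₁ c₁ hb₁ hc₁
    obtain ⟨p, hp, hp1, hp2⟩ := hthird b₁ c₁
    obtain ⟨y, hy, _, hyb, _⟩ :=
      Cfsg.Agent.Helper2.RankOne.fix_trans hS X hp hb₁ hc₁ (Ne.symm hp1) (Ne.symm hp2)
    exact ⟨y, hy, hyb⟩
  have h2tr : ∀ b₁ b₂ c₁ c₂ : Ω,
      (∀ x ∈ X, x • b₁ = b₁ ∧ x • b₂ = b₂ ∧ x • c₁ = c₁ ∧ x • c₂ = c₂) →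
      b₁ ≠ b₂ → c₁ ≠ c₂ → ∃ g ∈ Subgroup.centralizer X, g • b₁ = c₁ ∧ g • b₂ = c₂ := by
    intro b₁ b₂ c₁ c₂ hall hb hc
    obtain ⟨g₁, hg₁, e₁⟩ := htr b₁ c₁ (fun x hx => (hall x hx).1) (fun x hx => (hall x hx).2.2.1)
    have hb₂' : ∀ x ∈ X, x • (g₁ • b₂) = g₁ • b₂ :=
      hpres g₁ hg₁ b₂ (fun x hx => (hall x hx).2.1)
    have hne : g₁ • b₂ ≠ c₁ := by
      intro h
      apply hb
      have h' : g₁ • b₂ = g₁ • b₁ := h.trans e₁.symm
      exact (smul_left_cancel g₁ h').symm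
    obtain ⟨y, hy, hyp, hyb, _⟩ :=
      Cfsg.Agent.Helper2.RankOne.fix_trans hS X (fun x hx => (hall x hx).2.2.1) hb₂'
        (fun x hx => (hall x hx).2.2.2) hne (Ne.symm hc)
    refine ⟨y * g₁, mul_mem hy hg₁, ?_, ?_⟩
    · rw [mul_smul, e₁, hyp]
    · rw [mul_smul, hyb]
  refine ⟨h2tr, ?_, ?_⟩
  · obtain ⟨g, hg, hga, hgta⟩ := h2tr a (t • a) (t • a) a
      (fun x hx => ⟨hXa x hx, hXta x hx, hXta x hx, hXa x hx⟩)
      (Ne.symm (Cfsg.Agent.Helper2.RankOne.ta_ne hS)) (Cfsg.Agent.Helper2.RankOne.ta_ne hS)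
    have hggD : g * g ∈ MulAction.stabilizer G a ⊓ MulAction.stabilizer G (t • a) := by
      refine Subgroup.mem_inf.mpr ⟨?_, ?_⟩
      · rw [MulAction.mem_stabilizer_iff, mul_smul, hga, hgta]
      · rw [MulAction.mem_stabilizer_iff, mul_smul, hgta, hga]
    obtain ⟨M, hM⟩ := hS.odd_card
    have hpow : (g * g) ^ (2 * M + 1) = 1 := by
      rw [← hM]
      exact orderOf_dvd_iff_pow_eq_one.mp (Subgroup.orderOf_dvd_natCard _ hggD)
    obtain ⟨w, hw⟩ : ∃ w : G, w = (g * g) ^ M * g := ⟨_, rfl⟩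
    have hwC : w ∈ Subgroup.centralizer X := by
      rw [hw]; exact mul_mem (pow_mem (mul_mem hg hg) M) hg
    have hw2 : w * w = 1 := by
      have hc : Commute g ((g * g) ^ M) :=
        (Commute.mul_right (Commute.refl g) (Commute.refl g)).pow_right M
      rw [hw]
      calc (g * g) ^ M * g * ((g * g) ^ M * g) = (g * g) ^ M * (g * (g * g) ^ M) * g := by group
        _ = (g * g) ^ M * ((g * g) ^ M * g) * g := by rw [hc.eq]
        _ = (g * g) ^ M * (g * g) ^ M * (g * g) := by group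
        _ = (g * g) ^ (2 * M + 1) := by
          rw [← pow_add, ← pow_succ]
          have h2 : M + M + 1 = 2 * M + 1 := by ring
          rw [h2]
        _ = 1 := hpow
    have hDM : (g * g) ^ M ∈ MulAction.stabilizer G a ⊓ MulAction.stabilizer G (t • a) :=
      pow_mem hggD M
    have hwa : w • a = t • a := by
      rw [hw, mul_smul, hga]; exact (Subgroup.mem_inf.mp hDM).2
    have hw1 : w ≠ 1 := by
      intro h
      rw [h, one_smul] at hwa
      exact Cfsg.Agent.Helper2.RankOne.ta_ne hS hwa.symm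
    have hwta : w • (t • a) = a := by rw [← hwa, ← mul_smul, hw2, one_smul]
    obtain ⟨p, hp, hpu⟩ := Cfsg.Agent.Helper2.RankOne.invol_fixed hS hw1 hw2
    have hpX : ∀ x ∈ X, x • p = p := by
      intro x hx
      apply hpu
      rw [← mul_smul, ← Subgroup.mem_centralizer_iff.mp hwC x hx, mul_smul, hp]
    have hpa : p ≠ a := by
      rintro rfl
      rw [hwa] at hp
      exact Cfsg.Agent.Helper2.RankOne.ta_ne hS hp
    have hpta : p ≠ t • a := by
      intro h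
      rw [h, hwta] at hp
      exact Cfsg.Agent.Helper2.RankOne.ta_ne hS hp.symm
    obtain ⟨y, hy, _, hyp, _⟩ := Cfsg.Agent.Helper2.RankOne.fix_trans hS X hXta hpX hXa hpta
      (Ne.symm (Cfsg.Agent.Helper2.RankOne.ta_ne hS))
    have hsC : y * w * y⁻¹ ∈ Subgroup.centralizer X := mul_mem (mul_mem hy hwC) (inv_mem hy)
    have hsa : (y * w * y⁻¹) • a = a := by
      rw [mul_smul, mul_smul, ← hyp, inv_smul_smul, hp]
    have hsQ : y * w * y⁻¹ ∈ Q :=
      Cfsg.Agent.Helper2.RankOne.invol_mem_Q hS hsa (Cfsg.Agent.Helper2.RankOne.conj_mul_self hw2)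
    have hs1 : y * w * y⁻¹ ≠ 1 := Cfsg.Agent.Helper2.RankOne.conj_ne_one hw1
    have hord : orderOf (y * w * y⁻¹) = 2 :=
      orderOf_eq_prime (by rw [pow_two]; exact Cfsg.Agent.Helper2.RankOne.conj_mul_self hw2) hs1
    have hdvd := Subgroup.orderOf_dvd_natCard (Subgroup.centralizer X ⊓ Q)
      (Subgroup.mem_inf.mpr ⟨hsC, hsQ⟩)
    rw [hord] at hdvd
    exact even_iff_two_dvd.mpr hdvd
  · apply le_antisymm
    · exact sup_le (inf_le_inf_left _ hS.le) (inf_le_inf_left _ inf_le_left)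
    · intro h hh
      obtain ⟨hhC, hha⟩ := Subgroup.mem_inf.mp hh
      have hha' : h • a = a := hha
      have hb : ∀ x ∈ X, x • (h • (t • a)) = h • (t • a) := hpres h hhC _ hXta
      have hne : h • (t • a) ≠ a := by
        intro e
        apply Cfsg.Agent.Helper2.RankOne.ta_ne hS
        have e' : h • (t • a) = h • a := e.trans hha'.symm
        exact smul_left_cancel h e'
      obtain ⟨y, hy, hya, hyb, hyQ⟩ := Cfsg.Agent.Helper2.RankOne.fix_trans hS X hXa hXta hb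
        (Cfsg.Agent.Helper2.RankOne.ta_ne hS) hne
      have hyQ' := hyQ rfl
      have hx : y⁻¹ * h ∈ Subgroup.centralizer X ⊓
          (MulAction.stabilizer G a ⊓ MulAction.stabilizer G (t • a)) := by
        refine Subgroup.mem_inf.mpr ⟨mul_mem (inv_mem hy) hhC, Subgroup.mem_inf.mpr ⟨?_, ?_⟩⟩
        · rw [MulAction.mem_stabilizer_iff, mul_smul, hha', inv_smul_eq_iff, hya]
        · rw [MulAction.mem_stabilizer_iff, mul_smul, ← hyb, inv_smul_smul]
      have e : h = y * (y⁻¹ * h) := by group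
      rw [e]
      exact Subgroup.mul_mem_sup (Subgroup.mem_inf.mpr ⟨hy, hyQ'⟩) hx


end Cfsg.Agent.S1125
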