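import Mathlib
import Cfsg.Agent.Helper2.RankOne6
import Cfsg.Agent.S1125
import Cfsg.Statements.S1126

set_option autoImplicit false
open Cfsg

namespace Cfsg.Agent.S1126

/-- In the rank-one set-up (`G` finite and doubly transitive on `Ω`, `t` an involution moving `a`, `Q` normal in `G_a` with `G_a = Q D`, `Q ⊓ D = 1` for the two-point stabiliser `D = G_a ⊓ G_{t • a}`, `|Q|` even, `|D|` odd), a subset `X ⊆ D` fixing at least three points of `Ω` is conjugate by an element of `D` into `V = C_D(t)`. -/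
theorem result {G Ω : Type*} [Group G] [Finite G] [MulAction G Ω] {a : Ω} {t : G} {Q : Subgroup G}
    (hS : Cfsg.IsRankOneSetup G Ω a t Q)
    (X : Set G) (hX : X ⊆ ((MulAction.stabilizer G a ⊓ MulAction.stabilizer G (t • a)) : Set G))
    (h3 : ∃ b c d : Ω, b ≠ c ∧ b ≠ d ∧ c ≠ d ∧ ∀ x ∈ X, x • b = b ∧ x • c = c ∧ x • d = d) :
    ∃ k ∈ (MulAction.stabilizer G a ⊓ MulAction.stabilizer G (t • a)), ∀ x ∈ X, (k * x * k⁻¹) * t = t * (k * x * k⁻¹) := by
  obtain ⟨h2tr, _, _⟩ := Cfsg.Agent.S1125.result hS X hX h3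
  have hXa : ∀ x ∈ X, x • a = a := fun x hx => (Subgroup.mem_inf.mp (hX hx)).1
  have hXta : ∀ x ∈ X, x • (t • a) = t • a := fun x hx => (Subgroup.mem_inf.mp (hX hx)).2
  obtain ⟨g, hg, hga, hgta⟩ := h2tr a (t • a) (t • a) a
      (fun x hx => ⟨hXa x hx, hXta x hx, hXta x hx, hXa x hx⟩)
      (Ne.symm (Cfsg.Agent.Helper2.RankOne.ta_ne hS)) (Cfsg.Agent.Helper2.RankOne.ta_ne hS)
  obtain ⟨w, hwC, hw2, hwa, hwta⟩ :=
    Cfsg.Agent.Helper2.RankOne.exists_swap_invol hS (Subgroup.centralizer X) hg hga hgta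
  obtain ⟨e, he, hwe⟩ := Cfsg.Agent.Helper2.RankOne.swap_invol_conj hS hw2 hwa hwta
  refine ⟨e, he.1, fun x hx => ?_⟩
  have hxw : x * w = w * x := Subgroup.mem_centralizer_iff.mp hwC x hx
  rw [hwe] at hxw
  calc e * x * e⁻¹ * t = e * (x * (e⁻¹ * t * e)) * e⁻¹ := by group
    _ = e * ((e⁻¹ * t * e) * x) * e⁻¹ := by rw [hxw]
    _ = t * (e * x * e⁻¹) := by group


end Cfsg.Agent.S1126
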