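import Mathlib
import Cfsg.Agent.Helper2.RankOne4
import Cfsg.Statements.S1127

set_option autoImplicit false
open Cfsg

namespace Cfsg.Agent.S1127

/-- In the rank-one set-up (`G` finite and doubly transitive on `Ω`, `t` an involution moving `a`, `Q` normal in `G_a` with `G_a = Q D`, `Q ⊓ D = 1` for the two-point stabiliser `D = G_a ⊓ G_{t • a}`, `|Q|` even, `|D|` odd): if `s` is an involution of `G_a` and `r ∈ Q` satisfy `t s t = r⁻¹ t r`, then `C_D(t) = C_D(s)`; moreover `C_D(t) ⊓ C_D(K) = C_D(I ∩ G_a)`, where `K` is the set of elements of `D` inverted by `t` and `I ∩ G_a` the set of involutions of `G_a`. -/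
theorem result {G Ω : Type*} [Group G] [Finite G] [MulAction G Ω] {a : Ω} {t : G} {Q : Subgroup G}
    (hS : Cfsg.IsRankOneSetup G Ω a t Q) :
    (∀ s r : G, s ∈ Cfsg.involutionsIn (MulAction.stabilizer G a : Set G) → r ∈ Q → t * s * t = r⁻¹ * t * r →
        (MulAction.stabilizer G a ⊓ MulAction.stabilizer G (t • a)) ⊓ Subgroup.centralizer {t} = (MulAction.stabilizer G a ⊓ MulAction.stabilizer G (t • a)) ⊓ Subgroup.centralizer {s}) ∧
      (MulAction.stabilizer G a ⊓ MulAction.stabilizer G (t • a)) ⊓ Subgroup.centralizer {t} ⊓ Subgroup.centralizer (Cfsg.invertedBy (MulAction.stabilizer G a ⊓ MulAction.stabilizer G (t • a)) t) =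
        (MulAction.stabilizer G a ⊓ MulAction.stabilizer G (t • a)) ⊓ Subgroup.centralizer (Cfsg.involutionsIn (MulAction.stabilizer G a : Set G)) := by
  refine ⟨fun s r hs hr e => Cfsg.Agent.Helper2.RankOne.centralizer_t_eq_s hS hs hr e, ?_⟩
  obtain ⟨s, r, hsm, hs1, hs2, hr, e, _⟩ := Cfsg.Agent.Helper2.RankOne.canon_exists hS
  have hs : s ∈ Cfsg.involutionsIn (MulAction.stabilizer G a : Set G) := ⟨hsm, hs1, hs2⟩
  have hCeq := Cfsg.Agent.Helper2.RankOne.centralizer_t_eq_s hS hs hr e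
  obtain ⟨M, hM⟩ := Cfsg.Agent.Helper2.RankOne.D_sq_pow hS
  apply le_antisymm
  · intro d hd
    obtain ⟨hd1, hdK⟩ := Subgroup.mem_inf.mp hd
    have hdD := (Subgroup.mem_inf.mp hd1).1
    have hds : d ∈ (MulAction.stabilizer G a ⊓ MulAction.stabilizer G (t • a)) ⊓
        Subgroup.centralizer {s} := by
      rw [← hCeq]; exact hd1
    have hds' : s * d = d * s :=
      Subgroup.mem_centralizer_iff.mp (Subgroup.mem_inf.mp hds).2 s rfl
    refine Subgroup.mem_inf.mpr ⟨hdD, ?_⟩
    rw [Subgroup.mem_centralizer_iff]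
    intro s' hs'
    obtain ⟨k, hk, ek⟩ := Cfsg.Agent.Helper2.RankOne.K_trans hS hs hs'
    have hkd : k * d = d * k := Subgroup.mem_centralizer_iff.mp hdK k hk
    rw [← ek]
    have hkid : k⁻¹ * d = d * k⁻¹ := by
      calc k⁻¹ * d = k⁻¹ * (d * k) * k⁻¹ := by group
        _ = k⁻¹ * (k * d) * k⁻¹ := by rw [hkd]
        _ = d * k⁻¹ := by group
    calc k⁻¹ * s * k * d = k⁻¹ * s * (k * d) := by group
      _ = k⁻¹ * s * (d * k) := by rw [hkd]
      _ = k⁻¹ * (s * d) * k := by group
      _ = k⁻¹ * (d * s) * k := by rw [hds']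
      _ = (k⁻¹ * d) * s * k := by group
      _ = d * k⁻¹ * s * k := by rw [hkid]
      _ = d * (k⁻¹ * s * k) := by group
  · intro d hd
    obtain ⟨hdD, hdI⟩ := Subgroup.mem_inf.mp hd
    have hdI' := Subgroup.mem_centralizer_iff.mp hdI
    have hds : d ∈ (MulAction.stabilizer G a ⊓ MulAction.stabilizer G (t • a)) ⊓
        Subgroup.centralizer {s} := by
      refine Subgroup.mem_inf.mpr ⟨hdD, ?_⟩
      rw [Subgroup.mem_centralizer_iff]
      intro h hh
      rw [Set.mem_singleton_iff] at hh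
      rw [hh]; exact hdI' s hs
    have hdt : d ∈ (MulAction.stabilizer G a ⊓ MulAction.stabilizer G (t • a)) ⊓
        Subgroup.centralizer {t} := by
      rw [hCeq]; exact hds
    refine Subgroup.mem_inf.mpr ⟨hdt, ?_⟩
    rw [Subgroup.mem_centralizer_iff]
    intro k hk
    have h1 : k * d * k⁻¹ ∈ (MulAction.stabilizer G a ⊓ MulAction.stabilizer G (t • a)) ⊓
        Subgroup.centralizer {s} := by
      refine Subgroup.mem_inf.mpr ⟨mul_mem (mul_mem hk.1 hdD) (inv_mem hk.1), ?_⟩
      rw [Subgroup.mem_centralizer_iff]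
      intro h hh
      rw [Set.mem_singleton_iff] at hh
      rw [hh]
      have h2 := hdI' (k⁻¹ * s * k)
        (Cfsg.Agent.Helper2.RankOne.conj_mem_involutionsIn hs (Subgroup.mem_inf.mp hk.1).1)
      calc s * (k * d * k⁻¹) = k * ((k⁻¹ * s * k) * d) * k⁻¹ := by group
        _ = k * (d * (k⁻¹ * s * k)) * k⁻¹ := by rw [h2]
        _ = k * d * k⁻¹ * s := by group
    rw [← hCeq] at h1
    have h3 : t * (k * d * k⁻¹) = (k * d * k⁻¹) * t :=
      Subgroup.mem_centralizer_iff.mp (Subgroup.mem_inf.mp h1).2 t rfl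
    have h4 : t * d = d * t :=
      Subgroup.mem_centralizer_iff.mp (Subgroup.mem_inf.mp hdt).2 t rfl
    have hk2 := hk.2
    have h5 : t * k = k⁻¹ * t := by
      calc t * k = (t * k * t⁻¹) * t := by group
        _ = k⁻¹ * t := by rw [hk2]
    have h6 : t * k⁻¹ = k * t := by
      calc t * k⁻¹ = (t * k * t⁻¹)⁻¹ * t := by group
        _ = k * t := by rw [hk2, inv_inv]
    have h7 : k⁻¹ * d * k = k * d * k⁻¹ := by
      have : k⁻¹ * d * k * t = k * d * k⁻¹ * t := by
        calc k⁻¹ * d * k * t = k⁻¹ * d * (k * t) := by group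
          _ = k⁻¹ * d * (t * k⁻¹) := by rw [h6]
          _ = k⁻¹ * (d * t) * k⁻¹ := by group
          _ = k⁻¹ * (t * d) * k⁻¹ := by rw [h4]
          _ = (k⁻¹ * t) * d * k⁻¹ := by group
          _ = (t * k) * d * k⁻¹ := by rw [h5]
          _ = t * (k * d * k⁻¹) := by group
          _ = k * d * k⁻¹ * t := h3
      exact mul_right_cancel this
    have h8 : (k * k) * d = d * (k * k) := by
      calc k * k * d = k * (k * d * k⁻¹) * k := by group
        _ = k * (k⁻¹ * d * k) * k := by rw [h7]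
        _ = d * (k * k) := by group
    have h9 : Commute (k * k) d := h8
    have h10 := h9.pow_left M
    rw [hM k hk.1] at h10
    exact h10.eq


end Cfsg.Agent.S1127
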