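import Mathlib
import Cfsg.Agent.Helper2.RankOne6
import Cfsg.Agent.S1125
import Cfsg.Statements.S1128

set_option autoImplicit false
open Cfsg

namespace Cfsg.Agent.S1128

/-- In the rank-one set-up (`G` finite and doubly transitive on `Ω`, `t` an involution moving `a`, `Q` normal in `G_a` with `G_a = Q D`, `Q ⊓ D = 1` for the two-point stabiliser `D = G_a ⊓ G_{t • a}`, `|Q|` even, `|D|` odd), with the action faithful and `G` containing two distinct commuting involutions: every non-identity element of `D` inverted by `t` acts fixed-point-freely on `Q`. -/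
theorem result {G Ω : Type*} [Group G] [Finite G] [MulAction G Ω] [FaithfulSMul G Ω] {a : Ω} {t : G} {Q : Subgroup G}
    (hS : Cfsg.IsRankOneSetup G Ω a t Q)
    (h2 : ∃ x y : G, x ≠ 1 ∧ y ≠ 1 ∧ x ≠ y ∧ x * x = 1 ∧ y * y = 1 ∧ x * y = y * x)
    (x : G) (hx : x ∈ Cfsg.invertedBy (MulAction.stabilizer G a ⊓ MulAction.stabilizer G (t • a)) t) (hx1 : x ≠ 1) :
    Q ⊓ Subgroup.centralizer {x} = ⊥ := by
  rw [Subgroup.eq_bot_iff_forall]
  intro q hq
  obtain ⟨hqQ, hqC⟩ := Subgroup.mem_inf.mp hq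
  by_contra hq1
  have hqx : x * q = q * x := Subgroup.mem_centralizer_iff.mp hqC x rfl
  have hxD := hx.1
  have hxa : x • a = a := (Subgroup.mem_inf.mp hxD).1
  have hxta : x • (t • a) = t • a := (Subgroup.mem_inf.mp hxD).2
  have hX : ({x} : Set G) ⊆
      ((MulAction.stabilizer G a ⊓ MulAction.stabilizer G (t • a) : Subgroup G) : Set G) := by
    intro y hy
    rw [Set.mem_singleton_iff] at hy
    rw [hy]; exact hxD
  have h3 : ∃ b c d : Ω, b ≠ c ∧ b ≠ d ∧ c ≠ d ∧
      ∀ y ∈ ({x} : Set G), y • b = b ∧ y • c = c ∧ y • d = d := by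
    refine ⟨a, t • a, q • (t • a), (Cfsg.Agent.Helper2.RankOne.ta_ne hS).symm, ?_, ?_, ?_⟩
    · intro h
      apply Cfsg.Agent.Helper2.RankOne.ta_ne hS
      have h' : q • (t • a) = q • a :=
        h.symm.trans (Cfsg.Agent.Helper2.RankOne.Q_fix hS hqQ).symm
      exact smul_left_cancel q h'
    · intro h
      exact hq1 (Cfsg.Agent.Helper2.RankOne.Q_free hS hqQ
        (Cfsg.Agent.Helper2.RankOne.ta_ne hS) h.symm)
    · intro y hy
      rw [Set.mem_singleton_iff] at hy
      rw [hy]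
      refine ⟨hxa, hxta, ?_⟩
      rw [← mul_smul, hqx, mul_smul, hxta]
  obtain ⟨h2tr, _, _⟩ := Cfsg.Agent.S1125.result hS {x} hX h3
  obtain ⟨g, hg, hga, hgta⟩ := h2tr a (t • a) (t • a) a
    (by
      intro y hy
      rw [Set.mem_singleton_iff] at hy
      rw [hy]; exact ⟨hxa, hxta, hxta, hxa⟩)
    (Ne.symm (Cfsg.Agent.Helper2.RankOne.ta_ne hS)) (Cfsg.Agent.Helper2.RankOne.ta_ne hS)
  obtain ⟨w, hwC, hw2, hwa, hwta⟩ :=
    Cfsg.Agent.Helper2.RankOne.exists_swap_invol hS (Subgroup.centralizer {x}) hg hga hgta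
  have hxw : x * w = w * x := Subgroup.mem_centralizer_iff.mp hwC x rfl
  have ht := Cfsg.Agent.Helper2.RankOne.t_inv hS
  have hwinv : w⁻¹ = w := inv_eq_of_mul_eq_one_left hw2
  have hkD : t * w ∈ MulAction.stabilizer G a ⊓ MulAction.stabilizer G (t • a) := by
    refine Subgroup.mem_inf.mpr ⟨?_, ?_⟩
    · rw [MulAction.mem_stabilizer_iff, mul_smul, hwa, Cfsg.Agent.Helper2.RankOne.t_smul_t hS]
    · rw [MulAction.mem_stabilizer_iff, mul_smul, hwta]
  have htx : t * x * t = x⁻¹ := by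
    have := hx.2
    rwa [ht] at this
  have hwxi : w * x⁻¹ = x⁻¹ * w := by
    calc w * x⁻¹ = x⁻¹ * (x * w) * x⁻¹ := by group
      _ = x⁻¹ * (w * x) * x⁻¹ := by rw [hxw]
      _ = x⁻¹ * w := by group
  have hinv : (t * w)⁻¹ * x * (t * w) = x⁻¹ := by
    rw [mul_inv_rev, hwinv, ht]
    calc w * t * x * (t * w) = w * (t * x * t) * w := by group
      _ = w * x⁻¹ * w := by rw [htx]
      _ = x⁻¹ * (w * w) := by rw [hwxi]; group
      _ = x⁻¹ := by rw [hw2, mul_one]
  have hsq : ((t * w) * (t * w)) * x = x * ((t * w) * (t * w)) := by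
    have e1 : x * (t * w) = (t * w) * x⁻¹ := by
      calc x * (t * w) = (t * w) * ((t * w)⁻¹ * x * (t * w)) := by group
        _ = (t * w) * x⁻¹ := by rw [hinv]
    have e2 : x⁻¹ * (t * w) = (t * w) * x := by
      calc x⁻¹ * (t * w) = (t * w) * ((t * w)⁻¹ * x * (t * w))⁻¹ := by group
        _ = (t * w) * x := by rw [hinv, inv_inv]
    calc (t * w) * (t * w) * x = (t * w) * ((t * w) * x) := by group
      _ = (t * w) * (x⁻¹ * (t * w)) := by rw [e2]
      _ = ((t * w) * x⁻¹) * (t * w) := by group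
      _ = x * (t * w) * (t * w) := by rw [e1]
      _ = x * ((t * w) * (t * w)) := by group
  have hcomm := Cfsg.Agent.Helper2.RankOne.D_commute_of_sq hS hkD hsq
  have hxx : x⁻¹ = x := by
    rw [← hinv]
    calc (t * w)⁻¹ * x * (t * w) = (t * w)⁻¹ * (x * (t * w)) := by group
      _ = (t * w)⁻¹ * ((t * w) * x) := by rw [hcomm]
      _ = x := by group
  have hx2 : x * x = 1 := by
    nth_rewrite 1 [← hxx]; group
  exact hx1 (Cfsg.Agent.Helper2.RankOne.D_sq_eq_one hS hxD hx2)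


end Cfsg.Agent.S1128
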