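import Cfsg.Statements.S1140
import Mathlib

set_option autoImplicit false
open Cfsg

namespace Cfsg.Agent.S1140

/-- For a finite field `F` of characteristic 2, the automorphisms of `F`, viewed as additive maps `F → F`, are linearly independent over `F` (acting on values) every additive endomorphism of `F` is an `F`-linear combination of them, and every biadditive map `F → F → F` is an `F`-combination of the maps `(x, y) ↦ σ(x) τ(y)`. -/
theorem result {F : Type*} [Field F] [Fintype F] [CharP F 2] :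
    LinearIndependent F (fun σ : F ≃+* F => ((σ : F →+* F) : F → F)) ∧
      (∀ f : F →+ F, ∃ (s : Finset (F ≃+* F)) (c : (F ≃+* F) → F), ∀ x : F, f x = ∑ σ ∈ s, c σ * σ x) ∧
      ∀ B : F →+ F →+ F, ∃ (s : Finset ((F ≃+* F) × (F ≃+* F))) (c : (F ≃+* F) × (F ≃+* F) → F),
        ∀ x y : F, B x y = ∑ p ∈ s, c p * (p.1 x * p.2 y) := by
  classical
  letI : Algebra (ZMod 2) F := ZMod.algebra F 2
  haveI : Finite (F ≃+* F) :=
    Finite.of_injective (fun σ : F ≃+* F => (σ : F → F)) (fun σ τ h => RingEquiv.ext (congrFun h))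
  haveI : Fintype (F ≃+* F) := Fintype.ofFinite _
  haveI : Nonempty (F ≃+* F) := ⟨RingEquiv.refl F⟩
  have hinj : Function.Injective (fun σ : F ≃+* F => ((σ : F →+* F) : F →* F)) := by
    intro σ τ h
    exact RingEquiv.ext (fun x => DFunLike.congr_fun h x)
  have h1 : LinearIndependent F (fun σ : F ≃+* F => ((σ : F →+* F) : F → F)) :=
    (linearIndependent_monoidHom F F).comp _ hinj
  refine ⟨h1, ?_⟩
  obtain ⟨b, hbx⟩ : ∃ b : (F ≃+* F) → (F →ₗ[ZMod 2] F), ∀ σ x, b σ x = σ x :=
    ⟨fun σ => AddMonoidHom.toZModLinearMap 2 ((σ : F →+* F) : F →+ F), fun _ _ => rfl⟩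
  have hb : LinearIndependent F b := by
    have coeLin : ∃ L : (F →ₗ[ZMod 2] F) →ₗ[F] (F → F), ∀ g, L g = (g : F → F) :=
      ⟨{ toFun := fun g => (g : F → F), map_add' := fun _ _ => rfl, map_smul' := fun _ _ => rfl },
        fun _ => rfl⟩
    obtain ⟨L, hL⟩ := coeLin
    apply LinearIndependent.of_comp L
    have e : (L ∘ b) = (fun σ : F ≃+* F => ((σ : F →+* F) : F → F)) := by
      funext σ
      funext x
      show L (b σ) x = σ x
      rw [hL, hbx]
    rw [e]
    exact h1
  have hcomm : ∀ (σ : F ≃+* F) (x : ZMod 2),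
      σ (algebraMap (ZMod 2) F x) = algebraMap (ZMod 2) F x := by
    intro σ x
    exact RingHom.congr_fun (Subsingleton.elim ((σ : F →+* F).comp (algebraMap (ZMod 2) F))
      (algebraMap (ZMod 2) F)) x
  have hcard : Fintype.card (F ≃+* F) = Module.finrank F (F →ₗ[ZMod 2] F) := by
    rw [Module.finrank_linearMap_self (ZMod 2) F F, ← IsGalois.card_aut_eq_finrank (ZMod 2) F,
      ← Nat.card_eq_fintype_card]
    exact Nat.card_congr
      { toFun := fun σ => AlgEquiv.ofRingEquiv (f := σ) (hcomm σ)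
        invFun := fun a => a.toRingEquiv
        left_inv := fun σ => by ext x; rfl
        right_inv := fun a => by ext x; rfl }
  obtain ⟨bas, hbas⟩ : ∃ bas : Module.Basis (F ≃+* F) F (F →ₗ[ZMod 2] F), ∀ σ, bas σ = b σ :=
    ⟨basisOfLinearIndependentOfCardEqFinrank hb hcard,
      fun σ => congrFun (coe_basisOfLinearIndependentOfCardEqFinrank hb hcard) σ⟩
  have key : ∀ (f : F →+ F) (x : F),
      f x = ∑ σ : F ≃+* F, bas.repr (f.toZModLinearMap 2) σ * σ x := by
    intro f x
    have h := congrArg (fun g : F →ₗ[ZMod 2] F => g x) (bas.sum_repr (f.toZModLinearMap 2))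
    simp only [LinearMap.sum_apply, LinearMap.smul_apply, hbas, hbx, smul_eq_mul] at h
    exact h.symm
  refine ⟨fun f => ⟨Finset.univ, fun σ => bas.repr (f.toZModLinearMap 2) σ, key f⟩, ?_⟩
  intro B
  obtain ⟨C, hC⟩ : ∃ C : (F ≃+* F) → (F →+ F),
      ∀ τ x, C τ x = bas.repr ((B x).toZModLinearMap 2) τ :=
    ⟨fun τ => (Finsupp.applyAddHom τ).comp
      ((bas.repr : (F →ₗ[ZMod 2] F) →ₗ[F] ((F ≃+* F) →₀ F)).toAddMonoidHom.comp
        ((AddMonoidHom.toZModLinearMapEquiv 2 : (F →+ F) ≃+ (F →ₗ[ZMod 2] F)).toAddMonoidHom.comp B)),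
      fun τ x => rfl⟩
  refine ⟨Finset.univ, fun p => bas.repr ((C p.2).toZModLinearMap 2) p.1, ?_⟩
  intro x y
  rw [key (B x) y, Fintype.sum_prod_type, Finset.sum_comm]
  apply Finset.sum_congr rfl
  intro τ _
  dsimp only
  rw [← hC τ x, key (C τ) x, Finset.sum_mul]
  apply Finset.sum_congr rfl
  intro σ _
  ring


end Cfsg.Agent.S1140
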