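import Cfsg.Statements.S1160
import Mathlib
import Cfsg.Agent.S0126

set_option autoImplicit false
open Cfsg

namespace Cfsg.Agent.S1160

theorem normal_inf_center {P : Type*} [Group P] [Finite P] {p : ℕ} [Fact p.Prime]
    (hP : IsPGroup p P) (N : Subgroup P) [N.Normal] (hN : N ≠ ⊥) :
    ∃ n ∈ N, n ∈ Subgroup.center P ∧ n ≠ 1 := by
  have hPc : IsPGroup p (ConjAct P) := hP.of_equiv ConjAct.toConjAct
  have hdvd : p ∣ Nat.card N := by
    obtain ⟨k, hk⟩ := IsPGroup.iff_card.mp (hP.to_subgroup N)
    have hk0 : k ≠ 0 := by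
      rintro rfl
      rw [pow_zero] at hk
      exact hN (Subgroup.eq_bot_of_card_eq (h := hk))
    rw [hk]; exact dvd_pow_self p hk0
  have h1 : (1 : N) ∈ MulAction.fixedPoints (ConjAct P) N := fun g => smul_one g
  obtain ⟨b, hb, hb1⟩ := hPc.exists_fixed_point_of_prime_dvd_card_of_fixed_point N hdvd h1
  refine ⟨(b : P), b.2, ?_, ?_⟩
  · rw [Subgroup.mem_center_iff]
    intro g
    have h2 := congrArg Subtype.val (hb (ConjAct.toConjAct g))
    rw [ConjAct.Subgroup.val_conj_smul, ConjAct.smul_def, ConjAct.ofConjAct_toConjAct] at h2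
    calc g * (b : P) = (g * b * g⁻¹) * g := by group
      _ = b * g := by rw [h2]
  · intro h
    exact hb1 (Subtype.ext h.symm)

noncomputable def T {P E : Type*} [Group P] [AddCommGroup E] [DistribMulAction P E]
    (p : ℕ) (b : P) (w : E) : E :=
  ∑ j ∈ Finset.range p, b ^ j • w

theorem T_fix {P E : Type*} [Group P] [AddCommGroup E] [DistribMulAction P E]
    (p : ℕ) (b : P) (hb : b ^ p = 1) (w : E) : b • T p b w = T p b w := by
  unfold T
  rw [Finset.smul_sum]
  have h1 := Finset.sum_range_succ' (fun j => b ^ j • w) p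
  have h2 := Finset.sum_range_succ (fun j => b ^ j • w) p
  simp only [pow_zero, one_smul, hb] at h1 h2
  have h3 : ∑ j ∈ Finset.range p, b • b ^ j • w = ∑ j ∈ Finset.range p, b ^ (j + 1) • w := by
    apply Finset.sum_congr rfl
    intro j _
    rw [← mul_smul, ← pow_succ']
  rw [h3]
  exact add_right_cancel (h1.symm.trans h2)

theorem T_comm {P E : Type*} [Group P] [AddCommGroup E] [DistribMulAction P E]
    (p : ℕ) (b c : P) (hbc : b * c = c * b) (w : E) (hc : c • w = w) :
    c • T p b w = T p b w := by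
  unfold T
  rw [Finset.smul_sum]
  apply Finset.sum_congr rfl
  intro j _
  have : c * b ^ j = b ^ j * c := (Commute.pow_right (show Commute c b from hbc.symm) j).eq
  rw [← mul_smul, this, mul_smul, hc]

theorem T_of_fix {P E : Type*} [Group P] [AddCommGroup E] [DistribMulAction P E]
    (p : ℕ) (b : P) (w : E) (hb : b • w = w) : T p b w = p • w := by
  unfold T
  have : ∀ j : ℕ, b ^ j • w = w := by
    intro j
    induction j with
    | zero => rw [pow_zero, one_smul]
    | succ j ih => rw [pow_succ, mul_smul, hb, ih]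
  rw [Finset.sum_congr rfl (fun j _ => this j), Finset.sum_const, Finset.card_range]

theorem T_add {P E : Type*} [Group P] [AddCommGroup E] [DistribMulAction P E]
    (p : ℕ) (b : P) (w w' : E) : T p b (w + w') = T p b w + T p b w' := by
  unfold T
  rw [← Finset.sum_add_distrib]
  apply Finset.sum_congr rfl
  intro j _
  rw [smul_add]

/-- Let `p ≠ 2` be prime and `P` a finite `p`-group acting faithfully by additive automorphisms on a finite elementary abelian `q`-group `E` (`q` prime), such that `|P_a|` is the same for all `a ≠ 0`. Then `P` is cyclic and every non-identity element of `P` fixes only `0`. -/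
theorem result {P E : Type*} [Group P] [Finite P]
    [AddCommGroup E] [Finite E] [DistribMulAction P E] [FaithfulSMul P E]
    {p q : ℕ} [Fact p.Prime] (hp2 : p ≠ 2) (hP : IsPGroup p P) (hq : q.Prime) (hE : ∀ e : E, q • e = 0)
    (hconst : ∀ a b : E, a ≠ 0 → b ≠ 0 →
      Nat.card (MulAction.stabilizer P a) = Nat.card (MulAction.stabilizer P b)) :
    IsCyclic P ∧ ∀ g : P, g ≠ 1 → ∀ a : E, g • a = a → a = 0 := by
  classical
  have hpp : p.Prime := Fact.out
  have triv : (∀ g : P, g = 1) → IsCyclic P ∧ ∀ g : P, g ≠ 1 → ∀ a : E, g • a = a → a = 0 := by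
    intro h
    haveI : Subsingleton P := ⟨fun a b => (h a).trans (h b).symm⟩
    exact ⟨inferInstance, fun g hg => absurd (h g) hg⟩
  have allfix : ∀ b : E, b ≠ 0 → (∀ g : P, g • b = b) → ∀ g : P, g = 1 := by
    intro b hb hfix g
    apply FaithfulSMul.eq_of_smul_eq_smul (α := E)
    intro a
    rw [one_smul]
    by_cases ha : a = 0
    · rw [ha, smul_zero]
    · have htop : MulAction.stabilizer P b = ⊤ := by
        rw [eq_top_iff]; intro x _; exact MulAction.mem_stabilizer_iff.mpr (hfix x)
      have hc := hconst a b ha hb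
      rw [htop, Subgroup.card_top] at hc
      have htop2 := Subgroup.eq_top_of_card_eq (h := hc)
      have hg : g ∈ MulAction.stabilizer P a := by rw [htop2]; exact Subgroup.mem_top g
      exact MulAction.mem_stabilizer_iff.mp hg
  by_cases hEtriv : ∀ e : E, e = 0
  · apply triv
    intro g
    apply FaithfulSMul.eq_of_smul_eq_smul (α := E)
    intro a
    rw [hEtriv a, smul_zero, smul_zero]
  push_neg at hEtriv
  obtain ⟨v, hv⟩ := hEtriv
  by_cases hqp : q = p
  · rw [hqp] at hE
    apply triv
    have hord : addOrderOf v = p := by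
      have h1 : addOrderOf v ∣ p := addOrderOf_dvd_of_nsmul_eq_zero (hE v)
      rcases (Nat.dvd_prime hpp).mp h1 with h | h
      · exact absurd (AddMonoid.addOrderOf_eq_one_iff.mp h) hv
      · exact h
    have hdvd : p ∣ Nat.card E := by rw [← hord]; exact addOrderOf_dvd_natCard v
    have h0 : (0 : E) ∈ MulAction.fixedPoints P E := fun g => smul_zero g
    obtain ⟨b, hb, hb0⟩ := hP.exists_fixed_point_of_prime_dvd_card_of_fixed_point E hdvd h0
    exact allfix b (Ne.symm hb0) hb
  have hcop : ∀ (k : ℕ) (e : E), (p ^ k) • e = 0 → e = 0 := by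
    intro k e he
    have h1 : addOrderOf e ∣ p ^ k := addOrderOf_dvd_of_nsmul_eq_zero he
    have h2 : addOrderOf e ∣ q := addOrderOf_dvd_of_nsmul_eq_zero (hE e)
    have h3 : Nat.Coprime (p ^ k) q :=
      Nat.Coprime.pow_left k ((Nat.coprime_primes hpp hq).mpr (Ne.symm hqp))
    have h4 : addOrderOf e = 1 :=
      Nat.Coprime.eq_one_of_dvd (Nat.Coprime.coprime_dvd_left h1 h3) h2
    exact AddMonoid.addOrderOf_eq_one_iff.mp h4
  have step0 : ∀ (g : P) (e : E), g • (g • e - e) = g • e - e → g • e = e := by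
    intro g e h
    obtain ⟨k, hk⟩ := hP g
    have hpow : ∀ n : ℕ, g ^ n • e = e + n • (g • e - e) := by
      intro n
      induction n with
      | zero => simp
      | succ n ih =>
        rw [pow_succ', mul_smul, ih, smul_add, smul_comm g n, h, succ_nsmul]
        abel
    have h1 := hpow (p ^ k)
    rw [hk, one_smul] at h1
    have h0 : (p ^ k) • (g • e - e) = 0 := by
      have h' : e + (p ^ k) • (g • e - e) = e + 0 := by rw [add_zero]; exact h1.symm
      exact add_left_cancel h'
    exact sub_eq_zero.mp (hcop k _ h0)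
  have hC : ∀ z : P, z ∈ Subgroup.center P → z ≠ 1 → ∀ a : E, z • a = a → a = 0 := by
    intro z hz hz1 a hza
    by_contra ha
    have hex : ∃ e : E, z • e ≠ e := by
      by_contra hcon
      push_neg at hcon
      exact hz1 (FaithfulSMul.eq_of_smul_eq_smul (α := E) (fun e => by rw [hcon e, one_smul]))
    obtain ⟨e, he⟩ := hex
    obtain ⟨d, hd⟩ : ∃ d : E, d = z • e - e := ⟨_, rfl⟩
    have hzd : z • d ≠ d := by
      intro h
      rw [hd] at h
      exact he (step0 z e h)
    have hcomm : ∀ g : P, g * z = z * g := Subgroup.mem_center_iff.mp hz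
    have hc0 : a + d ≠ 0 := by
      intro h
      have hda : d = -a := eq_neg_of_add_eq_zero_right h
      exact hzd (by rw [hda, smul_neg, hza])
    have hle : MulAction.stabilizer P (a + d) ≤ MulAction.stabilizer P a := by
      intro g hg
      rw [MulAction.mem_stabilizer_iff] at hg ⊢
      rw [smul_add] at hg
      have hu : g • a - a = d - g • d := by
        rw [sub_eq_sub_iff_add_eq_add, add_comm d a]; exact hg
      obtain ⟨w, hw⟩ : ∃ w : E, w = e - g • e := ⟨_, rfl⟩
      have hzw : z • w - w = d - g • d := by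
        rw [hw, hd]
        simp only [smul_sub, ← mul_smul, hcomm g]
        abel
      have hzu : z • (g • a - a) = g • a - a := by
        rw [smul_sub, ← mul_smul, ← hcomm g, mul_smul, hza]
      have h1 : z • (z • w - w) = z • w - w := by rw [hzw, ← hu]; exact hzu
      have h2 := step0 z w h1
      have h3 : g • a - a = 0 := by rw [hu, ← hzw, h2, sub_self]
      exact sub_eq_zero.mp h3
    have hcard := hconst (a + d) a hc0 ha
    have heq : MulAction.stabilizer P (a + d) = MulAction.stabilizer P a :=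
      Subgroup.eq_of_le_of_card_ge hle (le_of_eq hcard.symm)
    have hzs : z ∈ MulAction.stabilizer P (a + d) := by
      rw [heq]; exact MulAction.mem_stabilizer_iff.mpr hza
    rw [MulAction.mem_stabilizer_iff, smul_add, hza] at hzs
    exact hzd (add_left_cancel hzs)
  have hcyc : IsCyclic P := by
    by_contra hnc
    obtain ⟨A, hAn, ⟨hAc, hAp⟩, hAcard⟩ := S0126.result hp2 hP hnc
    haveI := hAn
    haveI := hAc
    have hAcomm : ∀ a ∈ A, ∀ b ∈ A, a * b = b * a := by
      intro a ha b hb
      have := mul_comm' (⟨a, ha⟩ : A) ⟨b, hb⟩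
      exact congrArg Subtype.val this
    have hp2le : 2 ≤ p := hpp.two_le
    have hsq : p ^ 2 = p * p := sq p
    have hAbot : A ≠ ⊥ := by
      intro h
      rw [h, Subgroup.card_bot] at hAcard
      nlinarith
    obtain ⟨z, hzA, hzc, hz1⟩ := normal_inf_center hP A hAbot
    have hzp : z ^ p = 1 := hAp z hzA
    have hzord : orderOf z = p := orderOf_eq_prime hzp hz1
    have hex : ∃ g ∈ A, g ∉ Subgroup.zpowers z := by
      by_contra hcon
      push_neg at hcon
      have hle : A ≤ Subgroup.zpowers z := fun g hg => hcon g hg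
      have := Subgroup.card_le_of_le hle
      rw [hAcard, Nat.card_zpowers, hzord] at this
      nlinarith
    obtain ⟨g₀, hg₀A, hg₀⟩ := hex
    have F1 : ∀ b ∈ A, b ≠ 1 → ∀ b' ∈ A, b' ∉ Subgroup.zpowers b →
        ∀ w : E, b • w = w → b' • w = w → w = 0 := by
      intro b hbA hb1 b' hb'A hb' w hw hw'
      have hbord : orderOf b = p := orderOf_eq_prime (hAp b hbA) hb1
      obtain ⟨K, hK⟩ : ∃ K : Subgroup P, K = MulAction.stabilizer P w ⊓ A := ⟨_, rfl⟩
      have hbK : b ∈ K := by
        rw [hK]; exact Subgroup.mem_inf.mpr ⟨MulAction.mem_stabilizer_iff.mpr hw, hbA⟩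
      have hb'K : b' ∈ K := by
        rw [hK]; exact Subgroup.mem_inf.mpr ⟨MulAction.mem_stabilizer_iff.mpr hw', hb'A⟩
      have hKA : K ≤ A := by rw [hK]; exact inf_le_right
      have hzK : Subgroup.zpowers b ≤ K := Subgroup.zpowers_le.mpr hbK
      have hdvd : Nat.card K ∣ p ^ 2 := by rw [← hAcard]; exact Subgroup.card_dvd_of_le hKA
      obtain ⟨j, hj2, hj⟩ := (Nat.dvd_prime_pow hpp).mp hdvd
      have hlt : p < Nat.card K := by
        by_contra hcon
        push_neg at hcon
        have h1 : Subgroup.zpowers b = K :=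
          Subgroup.eq_of_le_of_card_ge hzK (by rw [Nat.card_zpowers, hbord]; exact hcon)
        exact hb' (by rw [h1]; exact hb'K)
      have hj2' : j = 2 := by
        by_contra hne
        have hj1 : j ≤ 1 := by omega
        have h1 : p ^ j ≤ p ^ 1 := Nat.pow_le_pow_right hpp.pos hj1
        rw [pow_one] at h1
        omega
      have hKeq : K = A :=
        Subgroup.eq_of_le_of_card_ge hKA (le_of_eq (by rw [hAcard, hj, hj2']))
      have hzK' : z ∈ K := by rw [hKeq]; exact hzA
      rw [hK] at hzK'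
      exact hC z hzc hz1 w (MulAction.mem_stabilizer_iff.mp (Subgroup.mem_inf.mp hzK').1)
    have F2 : ∀ b ∈ A, b ≠ 1 → ∀ b' ∈ A, b' ∉ Subgroup.zpowers b →
        ∀ w : E, b' • w = w → T p b w = 0 := by
      intro b hbA hb1 b' hb'A hb' w hw'
      exact F1 b hbA hb1 b' hb'A hb' _ (T_fix p b (hAp b hbA) w)
        (T_comm p b b' (hAcomm b hbA b' hb'A) w hw')
    have F3 : ∀ b ∈ A, b ≠ 1 → ∀ b' ∈ Subgroup.zpowers b, b' ≠ 1 →
        ∀ w : E, b' • w = w → b • w = w := by
      intro b hbA hb1 b' hb' hb'1 w hw'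
      have hbord : orderOf b = p := orderOf_eq_prime (hAp b hbA) hb1
      have hb'A : b' ∈ A := (Subgroup.zpowers_le.mpr hbA) hb'
      have hb'ord : orderOf b' = p := orderOf_eq_prime (hAp b' hb'A) hb'1
      have heq : Subgroup.zpowers b' = Subgroup.zpowers b :=
        Subgroup.eq_of_le_of_card_ge (Subgroup.zpowers_le.mpr hb')
          (le_of_eq (by rw [Nat.card_zpowers, Nat.card_zpowers, hbord, hb'ord]))
      have hbm : b ∈ Subgroup.zpowers b' := by rw [heq]; exact Subgroup.mem_zpowers b
      have hle : Subgroup.zpowers b' ≤ MulAction.stabilizer P w :=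
        Subgroup.zpowers_le.mpr (MulAction.mem_stabilizer_iff.mpr hw')
      exact MulAction.mem_stabilizer_iff.mp (hle hbm)
    have hsum : ∑ i ∈ Finset.range p, T p (g₀ * z ^ i) v = p • v := by
      have h1 : ∀ i ∈ Finset.range p, T p (g₀ * z ^ i) v
          = ∑ j ∈ Finset.range p, g₀ ^ j • ((z ^ j) ^ i • v) := by
        intro i _
        unfold T
        apply Finset.sum_congr rfl
        intro j _
        have hc : Commute g₀ (z ^ i) :=
          (Subgroup.mem_center_iff.mp (Subgroup.pow_mem _ hzc i)) g₀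
        rw [hc.mul_pow, mul_smul, ← pow_mul, ← pow_mul, mul_comm i j]
      rw [Finset.sum_congr rfl h1, Finset.sum_comm]
      have h2 : ∀ j ∈ Finset.range p, ∑ i ∈ Finset.range p, g₀ ^ j • ((z ^ j) ^ i • v)
          = g₀ ^ j • T p (z ^ j) v := by
        intro j _
        unfold T
        rw [Finset.smul_sum]
      rw [Finset.sum_congr rfl h2, Finset.sum_eq_single 0]
      · simp only [pow_zero, one_smul, T, one_pow, Finset.sum_const, Finset.card_range]
      · intro j hj hj0
        have hjlt : j < p := Finset.mem_range.mp hj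
        have hzj1 : z ^ j ≠ 1 := pow_ne_one_of_lt_orderOf hj0 (by rw [hzord]; exact hjlt)
        have hzjc : z ^ j ∈ Subgroup.center P := Subgroup.pow_mem _ hzc j
        have hzjp : (z ^ j) ^ p = 1 := by rw [← pow_mul, mul_comm, pow_mul, hzp, one_pow]
        rw [hC (z ^ j) hzjc hzj1 _ (T_fix p (z ^ j) hzjp v), smul_zero]
      · intro h0
        exact absurd (Finset.mem_range.mpr hpp.pos) h0
    have hpv : p • v ≠ 0 := fun h => hv (hcop 1 v (by rw [pow_one]; exact h))
    have hex2 : ∃ i ∈ Finset.range p, T p (g₀ * z ^ i) v ≠ 0 := by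
      by_contra hcon
      push_neg at hcon
      exact hpv (by rw [← hsum]; exact Finset.sum_eq_zero hcon)
    obtain ⟨i, -, hi⟩ := hex2
    obtain ⟨g, hgdef⟩ : ∃ g : P, g = g₀ * z ^ i := ⟨_, rfl⟩
    obtain ⟨v₀, hv₀def⟩ : ∃ v₀ : E, v₀ = T p g v := ⟨_, rfl⟩
    have hgA : g ∈ A := by rw [hgdef]; exact A.mul_mem hg₀A (A.pow_mem hzA i)
    have hg1 : g ≠ 1 := by
      intro h
      rw [hgdef] at h
      apply hg₀
      have h' : g₀ = (z ^ i)⁻¹ := eq_inv_of_mul_eq_one_left h
      rw [h']
      exact Subgroup.inv_mem _ (Subgroup.pow_mem _ (Subgroup.mem_zpowers z) i)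
    have hgp : g ^ p = 1 := hAp g hgA
    have hv₀ : v₀ ≠ 0 := by rw [hv₀def, hgdef]; exact hi
    have hgv₀ : g • v₀ = v₀ := by rw [hv₀def]; exact T_fix p g hgp v
    have hexx : ∃ x : P, x * g * x⁻¹ ∉ Subgroup.zpowers g := by
      by_contra hcon
      push_neg at hcon
      haveI : (Subgroup.zpowers g).Normal := by
        constructor
        intro n hn x
        obtain ⟨k, rfl⟩ := Subgroup.mem_zpowers_iff.mp hn
        rw [← conj_zpow]
        exact Subgroup.zpow_mem _ (hcon x) k
      have hne : Subgroup.zpowers g ≠ ⊥ := fun h => hg1 (Subgroup.zpowers_eq_bot.mp h)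
      obtain ⟨n, hn, hnc, hn1⟩ := normal_inf_center hP (Subgroup.zpowers g) hne
      have hle : Subgroup.zpowers g ≤ MulAction.stabilizer P v₀ :=
        Subgroup.zpowers_le.mpr (MulAction.mem_stabilizer_iff.mpr hgv₀)
      exact hv₀ (hC n hnc hn1 v₀ (MulAction.mem_stabilizer_iff.mp (hle hn)))
    obtain ⟨x, hx⟩ := hexx
    obtain ⟨g', hg'def⟩ : ∃ g' : P, g' = x * g * x⁻¹ := ⟨_, rfl⟩
    obtain ⟨v₁, hv₁def⟩ : ∃ v₁ : E, v₁ = x • v₀ := ⟨_, rfl⟩
    have hg'z : g' ∉ Subgroup.zpowers g := by rw [hg'def]; exact hx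
    have hg'A : g' ∈ A := by rw [hg'def]; exact hAn.conj_mem g hgA x
    have hg'1 : g' ≠ 1 := by
      intro h; exact hg'z (by rw [h]; exact Subgroup.one_mem _)
    have hg'v₁ : g' • v₁ = v₁ := by
      rw [hg'def, hv₁def, mul_smul, mul_smul, inv_smul_smul, hgv₀]
    have hv₁ : v₁ ≠ 0 := by
      rw [hv₁def]
      intro h
      exact hv₀ ((smul_eq_zero_iff_eq x).mp h)
    have hTg0 : T p g v₀ = p • v₀ := T_of_fix p g v₀ hgv₀
    have hTg1 : T p g v₁ = 0 := F2 g hgA hg1 g' hg'A hg'z v₁ hg'v₁
    have hpcancel : ∀ e e' : E, p • e = p • e' → e = e' := by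
      intro e e' h
      have h' : (p ^ 1) • (e - e') = 0 := by rw [pow_one, smul_sub, h, sub_self]
      exact sub_eq_zero.mp (hcop 1 _ h')
    have hordg : orderOf g = p := orderOf_eq_prime hgp hg1
    have hkey : ∀ y : P, y • (v₀ + v₁) = v₀ + v₁ → y • v₀ = v₀ := by
      intro y hy
      rw [smul_add] at hy
      have hconjA : ∀ b ∈ A, y * b * y⁻¹ ∈ A := fun b hb => hAn.conj_mem b hb y
      have hconj1 : ∀ b : P, b ≠ 1 → y * b * y⁻¹ ≠ 1 := by
        intro b hb h
        exact hb (conj_eq_one_iff.mp h)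
      have hfix : ∀ (b : P) (w : E), b • w = w → (y * b * y⁻¹) • (y • w) = y • w := by
        intro b w h
        rw [mul_smul, mul_smul, inv_smul_smul, h]
      have hT : T p g (y • v₀) + T p g (y • v₁) = p • v₀ := by
        rw [← T_add, hy, T_add, hTg0, hTg1, add_zero]
      by_cases h1 : y * g * y⁻¹ ∈ Subgroup.zpowers g
      · have hgy0 : g • (y • v₀) = y • v₀ :=
          F3 g hgA hg1 _ h1 (hconj1 g hg1) _ (hfix g v₀ hgv₀)
        have h2 : y * g' * y⁻¹ ∉ Subgroup.zpowers g := by
          intro h2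
          have hord1 : orderOf (y * g * y⁻¹) = p :=
            orderOf_eq_prime (hAp _ (hconjA g hgA)) (hconj1 g hg1)
          have heq : Subgroup.zpowers (y * g * y⁻¹) = Subgroup.zpowers g :=
            Subgroup.eq_of_le_of_card_ge (Subgroup.zpowers_le.mpr h1)
              (le_of_eq (by rw [Nat.card_zpowers, Nat.card_zpowers, hord1, hordg]))
          rw [← heq] at h2
          obtain ⟨k, hk⟩ := Subgroup.mem_zpowers_iff.mp h2
          rw [conj_zpow] at hk
          have hk' : g ^ k = g' := by
            have h3 := congrArg (fun t => y⁻¹ * t * y) hk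
            simpa [mul_assoc] using h3
          exact hg'z (by rw [← hk']; exact Subgroup.zpow_mem _ (Subgroup.mem_zpowers g) k)
        have hT1 : T p g (y • v₁) = 0 :=
          F2 g hgA hg1 _ (hconjA g' hg'A) h2 _ (hfix g' v₁ hg'v₁)
        have hT0 : T p g (y • v₀) = p • (y • v₀) := T_of_fix p g _ hgy0
        rw [hT0, hT1, add_zero] at hT
        exact hpcancel _ _ hT
      · have hT0 : T p g (y • v₀) = 0 :=
          F2 g hgA hg1 _ (hconjA g hgA) h1 _ (hfix g v₀ hgv₀)
        by_cases h2 : y * g' * y⁻¹ ∈ Subgroup.zpowers g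
        · have hgy1 : g • (y • v₁) = y • v₁ :=
            F3 g hgA hg1 _ h2 (hconj1 g' hg'1) _ (hfix g' v₁ hg'v₁)
          have hT1 : T p g (y • v₁) = p • (y • v₁) := T_of_fix p g _ hgy1
          rw [hT0, hT1, zero_add] at hT
          have hyv1 : y • v₁ = v₀ := hpcancel _ _ hT
          have hyv0 : y • v₀ = v₁ := by
            rw [hyv1, add_comm] at hy
            exact add_left_cancel hy
          have hy2 : y ^ 2 ∈ MulAction.stabilizer P v₀ := by
            rw [MulAction.mem_stabilizer_iff, pow_two, mul_smul, hyv0, hyv1]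
          obtain ⟨k, hk⟩ := hP y
          have hodd : Odd (orderOf y) := by
            have hdvd : orderOf y ∣ p ^ k := orderOf_dvd_of_pow_eq_one hk
            have hpodd : Odd p := hpp.odd_of_ne_two hp2
            exact Odd.of_dvd_nat hpodd.pow hdvd
          obtain ⟨m, hm⟩ := hodd
          have hyy : (y ^ 2) ^ (m + 1) = y := by
            rw [← pow_mul, show 2 * (m + 1) = orderOf y + 1 by omega, pow_succ,
              pow_orderOf_eq_one, one_mul]
          have hys : (y ^ 2) ^ (m + 1) ∈ MulAction.stabilizer P v₀ := Subgroup.pow_mem _ hy2 _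
          rw [hyy] at hys
          exact MulAction.mem_stabilizer_iff.mp hys
        · have hT1 : T p g (y • v₁) = 0 :=
            F2 g hgA hg1 _ (hconjA g' hg'A) h2 _ (hfix g' v₁ hg'v₁)
          rw [hT0, hT1, add_zero] at hT
          exact absurd (hcop 1 v₀ (by rw [pow_one]; exact hT.symm)) hv₀
    have hvne : v₀ + v₁ ≠ 0 := by
      intro h
      have h1 : v₁ = -v₀ := eq_neg_of_add_eq_zero_right h
      have h2 : g • v₁ = v₁ := by rw [h1, smul_neg, hgv₀]
      exact hv₁ (F1 g hgA hg1 g' hg'A hg'z v₁ h2 hg'v₁)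
    have hle : MulAction.stabilizer P (v₀ + v₁) ≤ MulAction.stabilizer P v₀ := by
      intro y hy
      exact MulAction.mem_stabilizer_iff.mpr (hkey y (MulAction.mem_stabilizer_iff.mp hy))
    have heq : MulAction.stabilizer P (v₀ + v₁) = MulAction.stabilizer P v₀ :=
      Subgroup.eq_of_le_of_card_ge hle (le_of_eq (hconst _ _ hvne hv₀).symm)
    have hgs : g ∈ MulAction.stabilizer P (v₀ + v₁) := by
      rw [heq]; exact MulAction.mem_stabilizer_iff.mpr hgv₀
    rw [MulAction.mem_stabilizer_iff, smul_add, hgv₀] at hgs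
    have h2 : g • v₁ = v₁ := add_left_cancel hgs
    exact hv₁ (F1 g hgA hg1 g' hg'A hg'z v₁ h2 hg'v₁)
  refine ⟨hcyc, ?_⟩
  intro g hg1 a hga
  haveI := hcyc
  obtain ⟨x, hx⟩ := IsCyclic.exists_generator (α := P)
  have hgc : g ∈ Subgroup.center P := by
    rw [Subgroup.mem_center_iff]
    intro h
    obtain ⟨i, hi⟩ := Subgroup.mem_zpowers_iff.mp (hx g)
    obtain ⟨j, hj⟩ := Subgroup.mem_zpowers_iff.mp (hx h)
    rw [← hi, ← hj, ← zpow_add, ← zpow_add, add_comm]
  exact hC g hgc hg1 a hga


end Cfsg.Agent.S1160
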