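import Cfsg.Statements.S1168
import Mathlib
import Cfsg.Agent.S1140

set_option autoImplicit false
open Cfsg

namespace Cfsg.Agent.S1168

/-- For a finite field `F` of characteristic 2: if `q : F → F` is quadratic over the prime field, i.e. `(x, y) ↦ q (x + y) + q x + q y` is additive in each variable, then `q x = Σ c_{σ,τ} σ(x) τ(x)` for some coefficients indexed by pairs of field automorphisms. -/
theorem result {F : Type*} [Field F] [Fintype F] [CharP F 2]
    (q : F → F)
    (hq : ∀ x y z : F, q (x + y + z) + q (x + y) + q (x + z) + q (y + z) + q x + q y + q z = 0) :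
    ∃ (s : Finset ((F ≃+* F) × (F ≃+* F))) (c : (F ≃+* F) × (F ≃+* F) → F),
      ∀ x : F, q x = ∑ p ∈ s, c p * (p.1 x * p.2 x) := by
  classical
  letI : Algebra (ZMod 2) F := ZMod.algebra F 2
  haveI : Finite (F ≃+* F) :=
    Finite.of_injective (fun σ : F ≃+* F => (σ : F → F)) (fun σ τ h => RingEquiv.ext (congrFun h))
  haveI : Fintype (F ≃+* F) := Fintype.ofFinite _
  have hpart2 := (Cfsg.Agent.S1140.result (F := F)).2.1
  have h2 : (2 : F) = 0 := CharTwo.two_eq_zero
  have hq0 : q 0 = 0 := by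
    have h := hq 0 0 0
    simp only [add_zero] at h
    linear_combination h - 3 * q 0 * h2
  obtain ⟨gen, hgen⟩ : ∃ gen : ((F ≃+* F) × (F ≃+* F)) → (F → F),
      ∀ p x, gen p x = p.1 x * p.2 x := ⟨fun p x => p.1 x * p.2 x, fun _ _ => rfl⟩
  have hN1 : ∀ ℓ₁ ℓ₂ : F →+ F,
      (fun x => ℓ₁ x * ℓ₂ x) ∈ Submodule.span F (Set.range gen) := by
    intro ℓ₁ ℓ₂
    obtain ⟨s₁, c₁, h₁⟩ := hpart2 ℓ₁
    obtain ⟨s₂, c₂, h₂⟩ := hpart2 ℓ₂
    have e : (fun x => ℓ₁ x * ℓ₂ x) = ∑ σ ∈ s₁, ∑ τ ∈ s₂, (c₁ σ * c₂ τ) • gen (σ, τ) := by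
      funext x
      rw [h₁ x, h₂ x, Finset.sum_mul_sum]
      simp only [Finset.sum_apply, Pi.smul_apply, smul_eq_mul, hgen]
      apply Finset.sum_congr rfl; intro σ _
      apply Finset.sum_congr rfl; intro τ _
      ring
    rw [e]
    apply Submodule.sum_mem; intro σ _
    apply Submodule.sum_mem; intro τ _
    exact Submodule.smul_mem _ _ (Submodule.subset_span ⟨(σ, τ), rfl⟩)
  obtain ⟨bs, -⟩ : ∃ bs : Module.Basis (Fin (Module.finrank (ZMod 2) F)) (ZMod 2) F, True :=
    ⟨Module.finBasis (ZMod 2) F, trivial⟩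
  obtain ⟨π, hπ⟩ : ∃ π : Fin (Module.finrank (ZMod 2) F) → (F →+ F),
      ∀ i x, π i x = algebraMap (ZMod 2) F (bs.repr x i) :=
    ⟨fun i => (algebraMap (ZMod 2) F).toAddMonoidHom.comp
      ((Finsupp.applyAddHom i).comp
        (bs.repr : F →ₗ[ZMod 2] (Fin (Module.finrank (ZMod 2) F) →₀ ZMod 2)).toAddMonoidHom),
      fun _ _ => rfl⟩
  have hk : ∀ k : ZMod 2, k = 0 ∨ k = 1 := by decide
  have hπ01 : ∀ i x, π i x = 0 ∨ π i x = 1 := by
    intro i x
    rw [hπ]
    rcases hk (bs.repr x i) with h | h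
    · left; rw [h, map_zero]
    · right; rw [h, map_one]
  have hdecomp : ∀ x : F, ∑ i, π i x * bs i = x := by
    intro x
    have h := bs.sum_repr x
    simp only [Algebra.smul_def] at h
    simp only [hπ]
    exact h
  obtain ⟨V, hV⟩ : ∃ V : Finset (Fin (Module.finrank (ZMod 2) F)) → (F →+ F),
      ∀ S x, V S x = ∑ i ∈ S, π i x * bs i :=
    ⟨fun S => ∑ i ∈ S, (AddMonoidHom.mulRight (bs i)).comp (π i),
      fun S x => by rw [AddMonoidHom.finset_sum_apply]; rfl⟩
  obtain ⟨ℓ, hℓ⟩ : ∃ ℓ : F → (F →+ F), ∀ a z, ℓ a z = q (a + z) + q a + q z :=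
    ⟨fun a => AddMonoidHom.mk' (fun z => q (a + z) + q a + q z) (fun y z => by
      show q (a + (y + z)) + q a + q (y + z)
        = (q (a + y) + q a + q y) + (q (a + z) + q a + q z)
      have e : a + (y + z) = a + y + z := (add_assoc a y z).symm
      rw [e]
      linear_combination hq a y z - (q (a + y) + q (a + z) + q a + q y + q z) * h2),
      fun _ _ => rfl⟩
  have hind : ∀ S : Finset (Fin (Module.finrank (ZMod 2) F)),
      (fun x => q (∑ i ∈ S, π i x * bs i)) ∈ Submodule.span F (Set.range gen) := by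
    intro S
    induction S using Finset.induction_on with
    | empty =>
      have e : (fun x => q (∑ i ∈ (∅ : Finset (Fin (Module.finrank (ZMod 2) F))), π i x * bs i))
          = 0 := by
        funext x; simp only [Finset.sum_empty, hq0]; rfl
      rw [e]; exact Submodule.zero_mem _
    | insert a S ha ih =>
      have e : (fun x => q (∑ i ∈ insert a S, π i x * bs i))
          = (fun x => π a x * ((ℓ (bs a)).comp (V S)) x) + q (bs a) • (fun x => π a x * π a x)
            + (fun x => q (∑ i ∈ S, π i x * bs i)) := by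
        funext x
        rw [Finset.sum_insert ha]
        simp only [Pi.add_apply, Pi.smul_apply, smul_eq_mul, AddMonoidHom.comp_apply, hℓ, hV]
        obtain ⟨v, hv⟩ : ∃ v, v = ∑ i ∈ S, π i x * bs i := ⟨_, rfl⟩
        rw [← hv]
        rcases hπ01 a x with h | h
        · rw [h]; simp only [zero_mul, zero_add, mul_zero, add_zero]
        · rw [h]; simp only [one_mul, mul_one]
          linear_combination (-(q (bs a) + q v)) * h2
      rw [e]
      exact Submodule.add_mem _ (Submodule.add_mem _ (hN1 (π a) ((ℓ (bs a)).comp (V S)))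
        (Submodule.smul_mem _ _ (hN1 (π a) (π a)))) ih
  have hqN : q ∈ Submodule.span F (Set.range gen) := by
    have e : (fun x => q (∑ i ∈ Finset.univ, π i x * bs i)) = q := by
      funext x; rw [hdecomp x]
    have h := hind Finset.univ
    rw [e] at h
    exact h
  obtain ⟨c, hc⟩ := (Submodule.mem_span_range_iff_exists_fun F).mp hqN
  refine ⟨Finset.univ, c, fun x => ?_⟩
  have h := congrFun hc x
  simp only [Finset.sum_apply, Pi.smul_apply, smul_eq_mul, hgen] at h
  exact h.symm


end Cfsg.Agent.S1168
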