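import Mathlib
import Cfsg.Statements.S1176

set_option autoImplicit false
open Cfsg

namespace Cfsg.Agent.S1176

open scoped commutatorElement

/-- Let x₀ be an involution of the finite group G and D its conjugacy class. Assume (a) for each x ∈ D the subgroup W(x) generated by the members of D commuting with x is a 2-group of nilpotency class at most 2, and (b) the product of two distinct commuting members of D again lies in D. Then for all x, y ∈ D, if xy has even order greater than 2, its order is 4. -/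
theorem result {G : Type*} [Group G] [Finite G] (x₀ : G) (hx₀ : orderOf x₀ = 2) (ha : ∀ x : G, IsConj x₀ x → IsPGroup 2 ↥(Subgroup.closure {y : G | IsConj x₀ y ∧ Commute y x}) ∧ ⁅⁅Subgroup.closure {y : G | IsConj x₀ y ∧ Commute y x}, Subgroup.closure {y : G | IsConj x₀ y ∧ Commute y x}⁆, Subgroup.closure {y : G | IsConj x₀ y ∧ Commute y x}⁆ = ⊥) (hb : ∀ x y : G, IsConj x₀ x → IsConj x₀ y → x ≠ y → Commute x y → IsConj x₀ (x * y)) (x y : G) (hx : IsConj x₀ x) (hy : IsConj x₀ y) (heven : Even (orderOf (x * y))) (hgt : 2 < orderOf (x * y)) : orderOf (x * y) = 4 := by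
  classical
  have hinv : ∀ w : G, IsConj x₀ w → w * w = 1 := by
    intro w hw
    obtain ⟨c, hc⟩ := isConj_iff.mp hw
    have h0 : x₀ * x₀ = 1 := by rw [← sq, ← hx₀]; exact pow_orderOf_eq_one x₀
    rw [← hc]
    calc c * x₀ * c⁻¹ * (c * x₀ * c⁻¹) = c * (x₀ * x₀) * c⁻¹ := by group
      _ = 1 := by rw [h0]; group
  have hxx := hinv x hx
  have hyy := hinv y hy
  have hxinv : x⁻¹ = x := inv_eq_of_mul_eq_one_left hxx
  have hyinv : y⁻¹ = y := inv_eq_of_mul_eq_one_left hyy
  obtain ⟨m, hm⟩ := heven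
  have hm2 : 2 ≤ m := by omega
  have hpow : (x * y) ^ m * (x * y) ^ m = 1 := by
    rw [← pow_add, ← hm]; exact pow_orderOf_eq_one _
  have hzne : (x * y) ^ m ≠ 1 := by
    intro h
    have h1 := orderOf_dvd_of_pow_eq_one h
    have h2 := Nat.le_of_dvd (by omega) h1
    omega
  have hyx : y * x = (x * y)⁻¹ := by rw [mul_inv_rev, hxinv, hyinv]
  have hcx : ∀ k : ℕ, x * (x * y) ^ k * x⁻¹ = ((x * y) ^ k)⁻¹ := by
    intro k
    rw [← conj_pow, ← inv_pow, ← hyx]
    congr 1
    rw [hxinv, mul_assoc, mul_assoc, ← mul_assoc x x, hxx, one_mul]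
  have hcy : ∀ k : ℕ, y * (x * y) ^ k * y⁻¹ = ((x * y) ^ k)⁻¹ := by
    intro k
    rw [← conj_pow, ← inv_pow, ← hyx]
    congr 1
    rw [mul_assoc, mul_assoc, mul_inv_cancel, mul_one]
  obtain ⟨z, hz⟩ : ∃ z, z = (x * y) ^ m := ⟨_, rfl⟩
  have hzz : z * z = 1 := by rw [hz]; exact hpow
  have hzinv : z⁻¹ = z := inv_eq_of_mul_eq_one_left hzz
  have hzx : x * z = z * x := by
    have := hcx m
    rw [← hz, hzinv] at this
    calc x * z = (x * z * x⁻¹) * x := by group
      _ = z * x := by rw [this]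
  have hzy : y * z = z * y := by
    have := hcy m
    rw [← hz, hzinv] at this
    calc y * z = (y * z * y⁻¹) * y := by group
      _ = z * y := by rw [this]
  have hx' : IsConj x₀ (x * z) := by
    rcases Nat.even_or_odd' m with ⟨j, hj | hj⟩
    · obtain ⟨c, hc⟩ : ∃ c, c = (x * y) ^ j := ⟨_, rfl⟩
      have h1 : x * c * x⁻¹ = c⁻¹ := by rw [hc]; exact hcx j
      have hzc : z = c * c := by rw [hz, hj, two_mul, pow_add, hc]
      have e : x * z = c⁻¹ * x * c⁻¹⁻¹ := by
        rw [hzc, inv_inv]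
        calc x * (c * c) = (x * c * x⁻¹) * x * c := by group
          _ = c⁻¹ * x * c := by rw [h1]
      rw [e]
      exact hx.trans (isConj_iff.mpr ⟨_, rfl⟩)
    · obtain ⟨c, hc⟩ : ∃ c, c = (x * y) ^ j := ⟨_, rfl⟩
      have h1 : x * c * x⁻¹ = c⁻¹ := by rw [hc]; exact hcx j
      have hcp : c * (x * y) = (x * y) * c := by rw [hc]; exact pow_mul_comm' (x * y) j
      have hzc : z = c * c * (x * y) := by rw [hz, hj, pow_succ, two_mul, pow_add, hc]
      have e : x * z = c⁻¹ * y * c⁻¹⁻¹ := by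
        rw [hzc, inv_inv]
        calc x * (c * c * (x * y)) = (x * c * x⁻¹) * x * (c * (x * y)) := by group
          _ = c⁻¹ * x * ((x * y) * c) := by rw [h1, hcp]
          _ = c⁻¹ * (x * x) * y * c := by group
          _ = c⁻¹ * y * c := by rw [hxx, mul_one]
      rw [e]
      exact hy.trans (isConj_iff.mpr ⟨_, rfl⟩)
  have hne : x ≠ x * z := by
    intro h
    apply hzne
    rw [← hz]
    have : x * 1 = x * z := by rw [mul_one]; exact h
    exact (mul_left_cancel this).symm
  have hcomm : Commute x (x * z) := by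
    show x * (x * z) = x * z * x
    rw [mul_assoc, hzx]
  have hzc : IsConj x₀ z := by
    have := hb x (x * z) hx hx' hne hcomm
    rwa [← mul_assoc, hxx, one_mul] at this
  obtain ⟨-, hcl⟩ := ha z hzc
  have hxA : x ∈ Subgroup.closure {w : G | IsConj x₀ w ∧ Commute w z} :=
    Subgroup.subset_closure ⟨hx, hzx⟩
  have hyA : y ∈ Subgroup.closure {w : G | IsConj x₀ w ∧ Commute w z} :=
    Subgroup.subset_closure ⟨hy, hzy⟩
  have h3 : ⁅⁅x, y⁆, x⁆ = 1 := by
    have := Subgroup.commutator_mem_commutator (Subgroup.commutator_mem_commutator hxA hyA) hxA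
    rw [hcl] at this
    exact Subgroup.mem_bot.mp this
  have e1 : ⁅x, y⁆ = x * y * x * y := by rw [commutatorElement_def, hxinv, hyinv]
  have e2 : (x * y * x * y)⁻¹ = y * x * y * x := by
    simp only [mul_inv_rev, hxinv, hyinv, mul_assoc]
  have h4 : (x * y) ^ 4 = 1 := by
    rw [← h3, e1, commutatorElement_def, e2, hxinv]
    simp only [pow_succ, pow_zero, one_mul, mul_assoc]
    rw [hxx, mul_one]
  have h5 := orderOf_dvd_of_pow_eq_one h4
  have h6 := Nat.le_of_dvd (by norm_num) h5
  omega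


end Cfsg.Agent.S1176
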