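import Mathlib
import Cfsg.Agent.Helper2.Conj
import Cfsg.Statements.S1177

set_option autoImplicit false
open Cfsg

namespace Cfsg.Agent.S1177

/-- Let A be a nontrivial elementary abelian 2-subgroup of a finite group G which is a T.I. set (each conjugate of A meets A trivially or equals A) and which does not commute elementwise with any conjugate of A other than A itself. Then for every a ∈ A, a ≠ 1, every conjugate of A contained in C_G(a) is equal to A (A is weakly closed in C_G(a)). -/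
theorem result {G : Type*} [Group G] [Finite G] (A : Subgroup G) (hA : Cfsg.IsElementaryAbelian 2 A) (hA1 : A ≠ ⊥) (hTI : ∀ g : G, A.map (MulAut.conj g).toMonoidHom ⊓ A = ⊥ ∨ A.map (MulAut.conj g).toMonoidHom = A) (hb : ∀ g : G, (∀ a ∈ A, ∀ b ∈ A.map (MulAut.conj g).toMonoidHom, a * b = b * a) → A.map (MulAut.conj g).toMonoidHom = A) (a : G) (ha : a ∈ A) (ha1 : a ≠ 1) (g : G) (hg : A.map (MulAut.conj g).toMonoidHom ≤ Subgroup.centralizer ({a} : Set G)) : A.map (MulAut.conj g).toMonoidHom = A := by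
  obtain ⟨hAcomm, hAexp⟩ := hA
  have hcomm : ∀ x ∈ A, ∀ y ∈ A, x * y = y * x := fun x hx y hy =>
    Cfsg.Agent.Helper2.comm_of_isMulCommutative hAcomm hx hy
  have hsq : ∀ x ∈ A, x * x = 1 := fun x hx => by rw [← pow_two]; exact hAexp x hx
  have hinvA : ∀ x ∈ A, x⁻¹ = x := fun x hx => inv_eq_of_mul_eq_one_left (hsq x hx)
  rcases hTI g with hdisj | heq
  swap
  · exact heq
  set B := A.map (MulAut.conj g).toMonoidHom with hBdef
  have hB : ∀ y, y ∈ B ↔ g⁻¹ * y * g ∈ A := Cfsg.Agent.Helper2.mem_map_conj_iff A g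
  have hBsq : ∀ b ∈ B, b * b = 1 := by
    intro b hb
    have h1 := hsq _ ((hB b).mp hb)
    have h2 : g⁻¹ * b * g * (g⁻¹ * b * g) = g⁻¹ * (b * b) * g := by group
    rw [h2] at h1
    have h3 := congrArg (fun t => g * t * g⁻¹) h1
    simpa [mul_assoc] using h3
  have hinvB : ∀ b ∈ B, b⁻¹ = b := fun b hb => inv_eq_of_mul_eq_one_left (hBsq b hb)
  have hBcomm : ∀ x ∈ B, ∀ y ∈ B, x * y = y * x := by
    intro x hx y hy
    have h1 := hcomm _ ((hB x).mp hx) _ ((hB y).mp hy)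
    have h2 : g⁻¹ * x * g * (g⁻¹ * y * g) = g⁻¹ * (x * y) * g := by group
    have h3 : g⁻¹ * y * g * (g⁻¹ * x * g) = g⁻¹ * (y * x) * g := by group
    rw [h2, h3] at h1
    have h4 := congrArg (fun t => g * t * g⁻¹) h1
    simpa [mul_assoc] using h4
  -- N1
  have N1 : ∀ c a' : G, a' ∈ A → a' ≠ 1 → c * a' = a' * c →
      ∀ y ∈ A, c * y * c⁻¹ ∈ A ∧ c⁻¹ * y * c ∈ A := by
    intro c a' ha' ha'1 hca y hy
    have hmem : a' ∈ A.map (MulAut.conj c).toMonoidHom := by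
      rw [Cfsg.Agent.Helper2.mem_map_conj_iff]
      have : c⁻¹ * a' * c = a' := by rw [mul_assoc, ← hca, inv_mul_cancel_left]
      rw [this]; exact ha'
    rcases hTI c with h | h
    · exact absurd (Cfsg.Agent.Helper2.eq_one_of_mem_inf_eq_bot h hmem ha') ha'1
    · constructor
      · rw [← h]; exact Cfsg.Agent.Helper2.conj_mem_map_conj A c hy
      · rw [← h] at hy
        exact (Cfsg.Agent.Helper2.mem_map_conj_iff A c y).mp hy
  -- Step 2: B normalizes A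
  have S2 : ∀ b ∈ B, ∀ y ∈ A, b * y * b⁻¹ ∈ A ∧ b⁻¹ * y * b ∈ A := by
    intro b hb y hy
    have hba : a * b = b * a := Subgroup.mem_centralizer_iff.mp (hg hb) a rfl
    exact N1 b a ha ha1 hba.symm y hy
  -- N2
  have N2 : ∀ c b : G, b ∈ B → b ≠ 1 → c * b = b * c → ∀ y ∈ B, c * y * c⁻¹ ∈ B := by
    intro c b hb hb1 hcb y hy
    have ha'' : g⁻¹ * b * g ∈ A := (hB b).mp hb
    have ha''1 : g⁻¹ * b * g ≠ 1 := by
      intro h
      apply hb1
      have := congrArg (fun t => g * t * g⁻¹) h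
      simpa [mul_assoc] using this
    have hc' : (g⁻¹ * c * g) * (g⁻¹ * b * g) = (g⁻¹ * b * g) * (g⁻¹ * c * g) := by
      calc (g⁻¹ * c * g) * (g⁻¹ * b * g) = g⁻¹ * (c * b) * g := by group
        _ = g⁻¹ * (b * c) * g := by rw [hcb]
        _ = (g⁻¹ * b * g) * (g⁻¹ * c * g) := by group
    have := (N1 _ _ ha'' ha''1 hc' _ ((hB y).mp hy)).1
    rw [hB]
    have e : g⁻¹ * (c * y * c⁻¹) * g = g⁻¹ * c * g * (g⁻¹ * y * g) * (g⁻¹ * c * g)⁻¹ := by group
    rw [e]; exact this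
  -- Step 5: for a' ∈ A, b ∈ B: a' b a'⁻¹ commutes with all of B
  have S5 : ∀ a' ∈ A, ∀ b ∈ B, ∀ b' ∈ B, (a' * b * a'⁻¹) * b' = b' * (a' * b * a'⁻¹) := by
    intro a' ha' b hb b' hb'
    by_cases hb1 : b = 1
    · subst hb1; simp
    set c := a' * (b * a' * b⁻¹) with hc
    have hcA : c ∈ A := A.mul_mem ha' (S2 b hb a' ha').1
    have hcb : c * b = b * c := by
      have h1 : b * a' * b⁻¹ * a' = a' * (b * a' * b⁻¹) := hcomm _ (S2 b hb a' ha').1 _ ha'
      have h2 : b * c = (b * a' * b⁻¹) * (b * (b * a' * b⁻¹)) := by rw [hc]; group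
      have h3 : b * (b * a' * b⁻¹) = a' * b := by
        calc b * (b * a' * b⁻¹) = (b * b) * a' * b⁻¹ := by group
          _ = a' * b := by rw [hBsq b hb, one_mul, hinvB b hb]
      rw [h2, h3, ← mul_assoc, h1, hc, mul_assoc]
    have hcB : ∀ b'' ∈ B, c * b'' = b'' * c := by
      intro b'' hb''
      by_cases hc1 : c = 1
      · rw [hc1]; simp
      have hn := N2 c b hb hb1 hcb
      have t1 : c * b'' * c⁻¹ * b''⁻¹ ∈ B := B.mul_mem (hn b'' hb'') (B.inv_mem hb'')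
      have t2 : c * b'' * c⁻¹ * b''⁻¹ ∈ A := by
        have : c * b'' * c⁻¹ * b''⁻¹ = c * (b'' * c⁻¹ * b''⁻¹) := by group
        rw [this]
        exact A.mul_mem hcA (S2 b'' hb'' _ (A.inv_mem hcA)).1
      have t3 := Cfsg.Agent.Helper2.eq_one_of_mem_inf_eq_bot hdisj t1 t2
      calc c * b'' = (c * b'' * c⁻¹ * b''⁻¹) * b'' * c := by group
        _ = b'' * c := by rw [t3, one_mul]
    have e : a' * b * a'⁻¹ = c * b := by
      rw [hc, hinvA a' ha']
      group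
    rw [e, mul_assoc, hBcomm b hb b' hb', ← mul_assoc, hcB b' hb', mul_assoc]
  -- Step 6: A normalizes B
  have S6 : ∀ a' ∈ A, ∀ b ∈ B, a' * b * a'⁻¹ ∈ B := by
    intro a' ha' b hbB
    have hx : A.map (MulAut.conj (g⁻¹ * a' * g)).toMonoidHom = A := by
      apply hb
      intro a₁ ha₁ y hy
      rw [Cfsg.Agent.Helper2.mem_map_conj_iff] at hy
      set a₂ := (g⁻¹ * a' * g)⁻¹ * y * (g⁻¹ * a' * g) with ha₂
      have hb₂ : g * a₂ * g⁻¹ ∈ B := Cfsg.Agent.Helper2.conj_mem_map_conj A g hy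
      have hb₁ : g * a₁ * g⁻¹ ∈ B := Cfsg.Agent.Helper2.conj_mem_map_conj A g ha₁
      have h1 := S5 a' ha' _ hb₂ _ hb₁
      have e1 : a' * (g * a₂ * g⁻¹) * a'⁻¹ = g * y * g⁻¹ := by rw [ha₂]; group
      rw [e1] at h1
      have h2 : g * y * g⁻¹ * (g * a₁ * g⁻¹) = g * (y * a₁) * g⁻¹ := by group
      have h3 : g * a₁ * g⁻¹ * (g * y * g⁻¹) = g * (a₁ * y) * g⁻¹ := by group
      rw [h2, h3] at h1
      have h4 := congrArg (fun t => g⁻¹ * t * g) h1
      simp only [mul_assoc, inv_mul_cancel_left, inv_mul_cancel, mul_one] at h4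
      exact h4.symm
    have h5 : (g⁻¹ * a' * g) * (g⁻¹ * b * g) * (g⁻¹ * a' * g)⁻¹ ∈ A := by
      have := Cfsg.Agent.Helper2.conj_mem_map_conj A (g⁻¹ * a' * g) ((hB b).mp hbB)
      rw [hx] at this; exact this
    rw [hB]
    have e : g⁻¹ * (a' * b * a'⁻¹) * g = (g⁻¹ * a' * g) * (g⁻¹ * b * g) * (g⁻¹ * a' * g)⁻¹ := by group
    rw [e]; exact h5
  apply hb
  intro a' ha' b hb
  have t1 : a' * b * a'⁻¹ * b⁻¹ ∈ B := B.mul_mem (S6 a' ha' b hb) (B.inv_mem hb)
  have t2 : a' * b * a'⁻¹ * b⁻¹ ∈ A := by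
    have : a' * b * a'⁻¹ * b⁻¹ = a' * (b * a'⁻¹ * b⁻¹) := by group
    rw [this]
    exact A.mul_mem ha' (S2 b hb _ (A.inv_mem ha')).1
  have t3 := Cfsg.Agent.Helper2.eq_one_of_mem_inf_eq_bot hdisj t1 t2
  calc a' * b = (a' * b * a'⁻¹ * b⁻¹) * b * a' := by group
    _ = b * a' := by rw [t3, one_mul]


end Cfsg.Agent.S1177
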