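import Mathlib
import Cfsg.Agent.Helper2.Conj
import Cfsg.Statements.S1178

set_option autoImplicit false
open Cfsg

namespace Cfsg.Agent.S1178

/-- Let A be a subgroup of a Sylow 2-subgroup S of the finite group G which is weakly closed in S. If a conjugate g A g⁻¹ commutes elementwise with A, then g A g⁻¹ = A. -/
theorem result {G : Type*} [Group G] [Finite G] (S : Sylow 2 G) (A : Subgroup G) (hW : Cfsg.IsWeaklyClosed A (S : Subgroup G)) (g : G) (hc : ∀ a ∈ A, ∀ b ∈ A.map (MulAut.conj g).toMonoidHom, a * b = b * a) : A.map (MulAut.conj g).toMonoidHom = A := by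
  obtain ⟨hAS, hwc⟩ := hW
  set B := A.map (MulAut.conj g).toMonoidHom with hB
  have hSp : IsPGroup 2 (S : Subgroup G) := S.isPGroup'
  have hAp : IsPGroup 2 A := hSp.to_le hAS
  have hBp : IsPGroup 2 B := hAp.map _
  have hBN : B ≤ Subgroup.normalizer (A : Set G) := by
    intro b hb
    rw [Subgroup.mem_normalizer_iff]
    intro a
    have hcomm : ∀ a ∈ A, b * a * b⁻¹ = a := by
      intro a ha
      have := hc a ha b hb
      rw [← this]; group
    constructor
    · intro ha; rw [hcomm a ha]; exact ha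
    · intro ha
      have h1 := hcomm _ ha
      have h2 : a = b⁻¹ * (b * a * b⁻¹) * b := by group
      have h3 : b * a * b⁻¹ = a := by
        have : b * (b * a * b⁻¹) * b⁻¹ = b * a * b⁻¹ := h1
        have := congrArg (fun t => b⁻¹ * t * b) this
        simpa [mul_assoc] using this
      rw [← h3]; exact ha
  have hABp : IsPGroup 2 (B ⊔ A : Subgroup G) := hBp.to_sup_of_normal_right' hAp hBN
  obtain ⟨h, hh⟩ := Cfsg.Agent.Helper2.pgroup_exists_conj_le_sylow hABp S
  have e1 : A.map (MulAut.conj h).toMonoidHom = A := by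
    apply hwc
    intro y hy
    rw [Cfsg.Agent.Helper2.mem_map_conj_iff] at hy
    have := hh _ (Subgroup.mem_sup_right hy)
    have e : h * (h⁻¹ * y * h) * h⁻¹ = y := by group
    rw [e] at this; exact this
  have e2 : A.map (MulAut.conj (h * g)).toMonoidHom = A := by
    apply hwc
    intro y hy
    rw [Cfsg.Agent.Helper2.mem_map_conj_iff] at hy
    have hb : g * ((h * g)⁻¹ * y * (h * g)) * g⁻¹ ∈ B := Cfsg.Agent.Helper2.conj_mem_map_conj A g hy
    have := hh _ (Subgroup.mem_sup_left hb)
    have e : h * (g * ((h * g)⁻¹ * y * (h * g)) * g⁻¹) * h⁻¹ = y := by group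
    rw [e] at this; exact this
  ext x
  rw [Cfsg.Agent.Helper2.mem_map_conj_iff]
  have f1 : h * x * h⁻¹ ∈ A ↔ g⁻¹ * x * g ∈ A := by
    conv_lhs => rw [← e2, Cfsg.Agent.Helper2.mem_map_conj_iff]
    have e : (h * g)⁻¹ * (h * x * h⁻¹) * (h * g) = g⁻¹ * x * g := by group
    rw [e]
  have f2 : h * x * h⁻¹ ∈ A ↔ x ∈ A := by
    conv_lhs => rw [← e1, Cfsg.Agent.Helper2.mem_map_conj_iff]
    have e : h⁻¹ * (h * x * h⁻¹) * h = x := by group
    rw [e]
  rw [← f1, f2]


end Cfsg.Agent.S1178
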