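import Mathlib
import Cfsg.Agent.Helper2.Isolated
import Cfsg.Statements.S1181

set_option autoImplicit false
open Cfsg

namespace Cfsg.Agent.S1181

/-- Let z be an isolated involution of the finite group G and N a normal subgroup with z ∉ N. Then the centralizer of zN in G/N is the image of C_G(z), and zN is an isolated involution of G/N. -/
theorem result {G : Type*} [Group G] [Finite G] (z : G) (hz : Cfsg.IsIsolatedInvolution z) (N : Subgroup G) [N.Normal] (hzN : z ∉ N) : Subgroup.centralizer ({(QuotientGroup.mk z : G ⧸ N)} : Set (G ⧸ N)) = (Subgroup.centralizer ({z} : Set G)).map (QuotientGroup.mk' N) ∧ Cfsg.IsIsolatedInvolution (QuotientGroup.mk z : G ⧸ N) := by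
  have hzz := Cfsg.Agent.Helper2.isolated_mul_self hz
  have hzinv : z⁻¹ = z := Cfsg.Agent.Helper2.inv_eq_self_of_mul_self hzz
  have hqzz : (QuotientGroup.mk z : G ⧸ N) * (QuotientGroup.mk z : G ⧸ N) = 1 := by
    rw [← QuotientGroup.mk_mul, hzz]; rfl
  have hqz1 : (QuotientGroup.mk z : G ⧸ N) ≠ 1 := by
    intro h
    exact hzN ((QuotientGroup.eq_one_iff z).mp h)
  -- main claim: if the images of z and g z g⁻¹ commute then z * (g z g⁻¹) ∈ N
  have main : ∀ g : G, Commute (QuotientGroup.mk z : G ⧸ N) (QuotientGroup.mk (g * z * g⁻¹) : G ⧸ N) →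
      z * (g * z * g⁻¹) ∈ N := by
    intro g hc
    have hz'z' : (g * z * g⁻¹) * (g * z * g⁻¹) = 1 := Cfsg.Agent.Helper2.conj_mul_self hzz g
    have hodd := Cfsg.Agent.Helper2.isolated_mul_conj_odd hz g
    set u := z * (g * z * g⁻¹) with hu
    have huu : u * u ∈ N := by
      rw [← QuotientGroup.eq_one_iff, hu]
      simp only [QuotientGroup.mk_mul]
      have h1 : (QuotientGroup.mk (g * z * g⁻¹) : G ⧸ N) * (QuotientGroup.mk (g * z * g⁻¹) : G ⧸ N) = 1 := by
        rw [← QuotientGroup.mk_mul, hz'z']; rfl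
      have h2 := hc.eq
      simp only [QuotientGroup.mk_mul] at h1 h2
      calc (QuotientGroup.mk z : G ⧸ N) * (↑g * ↑z * ↑g⁻¹) * (↑z * (↑g * ↑z * ↑g⁻¹))
          = ↑z * ((↑g * ↑z * ↑g⁻¹) * ↑z) * (↑g * ↑z * ↑g⁻¹) := by group
        _ = ↑z * (↑z * (↑g * ↑z * ↑g⁻¹)) * (↑g * ↑z * ↑g⁻¹) := by rw [h2]
        _ = (↑z * ↑z) * ((↑g * ↑z * ↑g⁻¹) * (↑g * ↑z * ↑g⁻¹)) := by group
        _ = 1 := by rw [h1, hqzz, one_mul]
    obtain ⟨m, hm⟩ := hodd
    have h3 : u = (u * u) ^ (m + 1) := by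
      rw [← pow_two, ← pow_mul, mul_add, mul_one]
      have : u ^ (2 * m + 1) = 1 := by rw [← hm]; exact pow_orderOf_eq_one u
      rw [show 2 * m + 2 = (2 * m + 1) + 1 from rfl, pow_succ, this, one_mul]
    rw [h3]; exact N.pow_mem huu _
  constructor
  · ext x
    constructor
    · intro hx
      obtain ⟨g, rfl⟩ := QuotientGroup.mk_surjective x
      have hx' : (QuotientGroup.mk z : G ⧸ N) * QuotientGroup.mk g = QuotientGroup.mk g * QuotientGroup.mk z :=
        Subgroup.mem_centralizer_iff.mp hx _ rfl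
      have hc : Commute (QuotientGroup.mk z : G ⧸ N) (QuotientGroup.mk (g * z * g⁻¹) : G ⧸ N) := by
        have : (QuotientGroup.mk (g * z * g⁻¹) : G ⧸ N) = QuotientGroup.mk z := by
          simp only [QuotientGroup.mk_mul, QuotientGroup.mk_inv]
          rw [← hx']; group
        rw [this]
      have hu := main g hc
      have hz'z' : (g * z * g⁻¹) * (g * z * g⁻¹) = 1 := Cfsg.Agent.Helper2.conj_mul_self hzz g
      obtain ⟨k, hk⟩ := Cfsg.Agent.Helper2.invol_conj_of_odd hzz hz'z'
        (Cfsg.Agent.Helper2.isolated_mul_conj_odd hz g)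
      set u := z * (g * z * g⁻¹) with hudef
      rw [Subgroup.mem_map]
      refine ⟨(u ^ k)⁻¹ * g, ?_, ?_⟩
      · rw [Subgroup.mem_centralizer_iff]
        intro y hy
        rw [Set.mem_singleton_iff] at hy
        subst hy
        have h1 : u ^ k * y = (g * y * g⁻¹) * u ^ k := by rw [← hk]; group
        calc y * ((u ^ k)⁻¹ * g) = (u ^ k)⁻¹ * (u ^ k * y) * (u ^ k)⁻¹ * g := by group
          _ = (u ^ k)⁻¹ * ((g * y * g⁻¹) * u ^ k) * (u ^ k)⁻¹ * g := by rw [h1]
          _ = (u ^ k)⁻¹ * g * y := by group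
      · have : ((u ^ k)⁻¹ : G) ∈ N := N.inv_mem (N.pow_mem hu k)
        rw [QuotientGroup.mk'_apply, QuotientGroup.mk_mul, (QuotientGroup.eq_one_iff _).mpr this, one_mul]
    · intro hx
      rw [Subgroup.mem_map] at hx
      obtain ⟨c, hc, rfl⟩ := hx
      rw [Subgroup.mem_centralizer_iff]
      intro y hy
      rw [Set.mem_singleton_iff] at hy
      subst hy
      have := Subgroup.mem_centralizer_iff.mp hc z rfl
      rw [QuotientGroup.mk'_apply, ← QuotientGroup.mk_mul, ← QuotientGroup.mk_mul, this]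
  · refine ⟨?_, ?_⟩
    · haveI : Fact (Nat.Prime 2) := ⟨Nat.prime_two⟩
      exact orderOf_eq_prime (by rw [pow_two]; exact hqzz) hqz1
    · intro x hc
      obtain ⟨g, rfl⟩ := QuotientGroup.mk_surjective x
      have hc' : Commute (QuotientGroup.mk z : G ⧸ N) (QuotientGroup.mk (g * z * g⁻¹) : G ⧸ N) := by
        simpa only [QuotientGroup.mk_mul, QuotientGroup.mk_inv] using hc
      have hu := main g hc'
      have h1 : (QuotientGroup.mk z : G ⧸ N) * QuotientGroup.mk (g * z * g⁻¹) = 1 := by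
        rw [← QuotientGroup.mk_mul]; exact (QuotientGroup.eq_one_iff _).mpr hu
      have h2 : (QuotientGroup.mk (g * z * g⁻¹) : G ⧸ N) = QuotientGroup.mk z := by
        calc (QuotientGroup.mk (g * z * g⁻¹) : G ⧸ N)
            = (↑z * ↑z) * QuotientGroup.mk (g * z * g⁻¹) := by rw [hqzz, one_mul]
          _ = ↑z * (↑z * QuotientGroup.mk (g * z * g⁻¹)) := by rw [mul_assoc]
          _ = ↑z := by rw [h1, mul_one]
      simpa only [QuotientGroup.mk_mul, QuotientGroup.mk_inv] using h2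


end Cfsg.Agent.S1181
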