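import Mathlib
import Cfsg.Agent.Helper2.StrEmbFix
import Cfsg.Statements.S1225

set_option autoImplicit false
open Cfsg

namespace Cfsg.Agent.S1225

/-- Let H be a strongly embedded subgroup of the finite group G, u an involution outside H and D = H ∩ uHu⁻¹. Then any two involutions of H are conjugate by an element of D, and any two involutions of G are conjugate in G. -/
theorem result {G : Type*} [Group G] [Finite G] (H : Subgroup G) (hH : Cfsg.IsStronglyEmbedded H) (u : G) (hu : orderOf u = 2) (huH : u ∉ H) (s t : G) (hs : orderOf s = 2) (hsH : s ∈ H) (ht : orderOf t = 2) (htH : t ∈ H) : (∃ d ∈ (H ⊓ H.map (MulAut.conj u).toMonoidHom), d * s * d⁻¹ = t) ∧ ∀ a b : G, orderOf a = 2 → orderOf b = 2 → IsConj a b := by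
  have hF := Cfsg.Agent.Helper2.SE.uniqfix hH
  have hu1 := Cfsg.Agent.Helper2.UF.ne_one_of_orderOf_two hu
  have hu2 := Cfsg.Agent.Helper2.UF.mul_self_of_orderOf_two hu
  have huinv : u⁻¹ = u := inv_eq_of_mul_eq_one_left hu2
  have key : ∀ s t : G, orderOf s = 2 → s ∈ H → orderOf t = 2 → t ∈ H →
      ∃ d ∈ (H ⊓ H.map (MulAut.conj u).toMonoidHom), d * s * d⁻¹ = t := by
    intro s t hs hsH ht htH
    have hs1 := Cfsg.Agent.Helper2.UF.ne_one_of_orderOf_two hs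
    have hs2 := Cfsg.Agent.Helper2.UF.mul_self_of_orderOf_two hs
    have ht1 := Cfsg.Agent.Helper2.UF.ne_one_of_orderOf_two ht
    have ht2 := Cfsg.Agent.Helper2.UF.mul_self_of_orderOf_two ht
    obtain ⟨x₀, hx₀def⟩ : ∃ x₀ : G ⧸ H, x₀ = ((1 : G) : G ⧸ H) := ⟨_, rfl⟩
    have hx₀ : ∀ h : G, h ∈ H ↔ h • x₀ = x₀ := by
      intro h
      rw [hx₀def]; exact Cfsg.Agent.Helper2.SE.mem_iff_fix_one h
    have hy : u • x₀ ≠ x₀ := fun h => huH ((hx₀ u).mpr h)
    have hu₀y : (u * s * u) • (u • x₀) = u • x₀ := by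
      rw [mul_smul, mul_smul, ← mul_smul u u, hu2, one_smul, (hx₀ s).mp hsH]
    have hu₀1 : u * s * u ≠ 1 := by
      have := Cfsg.Agent.Helper2.RankOne.conj_ne_one (g := u) hs1
      rwa [huinv] at this
    have hu₀2 : (u * s * u) * (u * s * u) = 1 := by
      have := Cfsg.Agent.Helper2.RankOne.conj_mul_self (g := u) hs2
      rwa [huinv] at this
    obtain ⟨v, hv2, hv, _⟩ := Cfsg.Agent.Helper2.UF.exists_conj hF ht1 ht2 hu₀1 hu₀2
      ((hx₀ t).mp htH) hu₀y (Ne.symm hy)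
    obtain ⟨hvx, hvy⟩ := Cfsg.Agent.Helper2.UF.conj_swap hF hu₀1 hu₀2
      ((hx₀ t).mp htH) hu₀y hv2 hv
    have hvinv : v⁻¹ = v := inv_eq_of_mul_eq_one_left hv2
    refine ⟨v * u, Subgroup.mem_inf.mpr ⟨?_, ?_⟩, ?_⟩
    · rw [hx₀, mul_smul, hvy]
    · rw [Cfsg.Agent.Lead.mem_map_conj_iff, hx₀, huinv]
      have e : u * (v * u) * u = u * v * (u * u) := by group
      rw [e, hu2, mul_one, mul_smul, hvx, ← mul_smul, hu2, one_smul]
    · rw [mul_inv_rev, huinv, hvinv, ← hv]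
      group
  refine ⟨key s t hs hsH ht htH, ?_⟩
  intro a b ha hb
  obtain ⟨g, hg⟩ := Cfsg.Agent.Helper2.SE.exists_conj_mem hH ha
  obtain ⟨g', hg'⟩ := Cfsg.Agent.Helper2.SE.exists_conj_mem hH hb
  obtain ⟨d, _, hd⟩ := key _ _ (Cfsg.Agent.Helper2.SE.orderOf_conj_two ha) hg
    (Cfsg.Agent.Helper2.SE.orderOf_conj_two hb) hg'
  rw [isConj_iff]
  refine ⟨g'⁻¹ * d * g, ?_⟩
  calc g'⁻¹ * d * g * a * (g'⁻¹ * d * g)⁻¹ = g'⁻¹ * (d * (g * a * g⁻¹) * d⁻¹) * g' := by group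
    _ = g'⁻¹ * (g' * b * g'⁻¹) * g' := by rw [hd]
    _ = b := by group


end Cfsg.Agent.S1225
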