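import Mathlib
import Cfsg.Agent.Helper2.CIT
import Cfsg.Statements.S1227

set_option autoImplicit false
open Cfsg

namespace Cfsg.Agent.S1227

/-- Let G be a finite group with a Sylow 2-subgroup T that is neither cyclic nor normal, such that the centralizer of every involution is an elementary abelian 2-group; put H = N_G(T), let u be an involution outside H and D = H ∩ uHu⁻¹. Then u inverts every element of D, |H| = |T|·(|T| − 1), and D is a complement to T in H. -/
theorem result {G : Type*} [Group G] [Finite G] (T : Sylow 2 G) (hnc : ¬ IsCyclic (T : Subgroup G)) (hnn : ¬ (T : Subgroup G).Normal) (hC : ∀ t : G, orderOf t = 2 → IsMulCommutative (Subgroup.centralizer ({t} : Set G)) ∧ ∀ c ∈ Subgroup.centralizer ({t} : Set G), c ^ 2 = 1) (u : G) (hu : orderOf u = 2) (huH : u ∉ Subgroup.normalizer ((T : Subgroup G) : Set G)) : (∀ d ∈ Subgroup.normalizer ((T : Subgroup G) : Set G) ⊓ (Subgroup.normalizer ((T : Subgroup G) : Set G)).map (MulAut.conj u).toMonoidHom,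 u * d * u⁻¹ = d⁻¹) ∧ Nat.card (Subgroup.normalizer ((T : Subgroup G) : Set G)) = Nat.card T * (Nat.card T - 1) ∧ Subgroup.IsComplement' ((Subgroup.normalizer ((T : Subgroup G) : Set G) ⊓ (Subgroup.normalizer ((T : Subgroup G) : Set G)).map (MulAut.conj u).toMonoidHom).subgroupOf (Subgroup.normalizer ((T : Subgroup G) : Set G))) ((T : Subgroup G).subgroupOf (Subgroup.normalizer ((T : Subgroup G) : Set G))) := by
  classical
  have hH := Cfsg.Agent.S1226.result T hnc hnn hC
  obtain ⟨hTcomm, hTsq, hTz, hA, t0, ht0T, ht0⟩ := Cfsg.Agent.Helper2.CIT.basic T hnc hC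
  have hTH0 : (T : Subgroup G) ≤ Subgroup.normalizer ((T : Subgroup G) : Set G) :=
    Subgroup.le_normalizer
  have hTn0 : ∀ h ∈ Subgroup.normalizer ((T : Subgroup G) : Set G), ∀ x ∈ (T : Subgroup G),
      h * x * h⁻¹ ∈ (T : Subgroup G) := by
    intro h hh x hx
    exact (Subgroup.mem_normalizer_iff.mp hh x).mp hx
  generalize hHdef : Subgroup.normalizer ((T : Subgroup G) : Set G) = H at hH huH hTH0 hTn0 ⊢
  have hD0 : Odd (Nat.card ↥(H ⊓ H.map (MulAut.conj u).toMonoidHom)) := hH.2.2 u huH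
  have hex := fun (s t : G) (hs : orderOf s = 2) (hsH : s ∈ H) (ht : orderOf t = 2) (htH : t ∈ H) =>
    Cfsg.Agent.Helper2.SE.exists_D_conj hH hu huH hs hsH ht htH
  generalize hDdef : H ⊓ H.map (MulAut.conj u).toMonoidHom = D at hD0 hex ⊢
  have hDH : D ≤ H := by rw [← hDdef]; exact inf_le_left
  have ht0H : t0 ∈ H := hTH0 ht0T
  have ht01 : t0 ≠ 1 := Cfsg.Agent.Helper2.UF.ne_one_of_orderOf_two ht0
  have hDT : ∀ x ∈ D, x ∈ (T : Subgroup G) → x = 1 := by
    intro x hxD hxT
    by_contra hx1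
    have hx2 : orderOf x = 2 := Cfsg.Agent.Helper2.UF.orderOf_two_of hx1 (hTsq x hxT)
    have := Cfsg.Agent.Lead.even_card_of_invol_mem hxD hx2
    exact (Nat.not_even_iff_odd.mpr hD0) this
  have htrans : ∀ t ∈ (T : Subgroup G), t ≠ 1 →
      ∃ v : G, v * v = 1 ∧ v * u ∈ D ∧ (v * u) * t0 * (v * u)⁻¹ = t := by
    intro t htT ht1
    exact hex t0 t ht0 ht0H (Cfsg.Agent.Helper2.UF.orderOf_two_of ht1 (hTsq t htT)) (hTH0 htT)
  have hcent : ∀ d e : G, d * t0 * d⁻¹ = e * t0 * e⁻¹ → d⁻¹ * e ∈ (T : Subgroup G) := by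
    intro d e h
    rw [← hTz t0 ht0T ht01, Subgroup.mem_centralizer_iff]
    intro x hx
    rw [Set.mem_singleton_iff] at hx
    rw [hx]
    calc t0 * (d⁻¹ * e) = d⁻¹ * (d * t0 * d⁻¹) * e := by group
      _ = d⁻¹ * (e * t0 * e⁻¹) * e := by rw [h]
      _ = d⁻¹ * e * t0 := by group
  have hDform : ∀ d ∈ D, ∃ v : G, v * v = 1 ∧ d = v * u := by
    intro d hd
    have hdt : d * t0 * d⁻¹ ∈ (T : Subgroup G) := hTn0 d (hDH hd) t0 ht0T
    have hdt1 : d * t0 * d⁻¹ ≠ 1 := Cfsg.Agent.Helper2.RankOne.conj_ne_one ht01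
    obtain ⟨v, hv2, hvD, hv⟩ := htrans _ hdt hdt1
    refine ⟨v, hv2, ?_⟩
    have h1 := hcent d (v * u) hv.symm
    have h2 := hDT _ (mul_mem (inv_mem hd) hvD) h1
    exact inv_mul_eq_one.mp h2
  have hcardT : Nat.card (T : Subgroup G) = Nat.card D + 1 := by
    have hbij : Function.Bijective (fun o : Option D => match o with
        | none => (1 : (T : Subgroup G))
        | some d => (⟨(d : G) * t0 * (d : G)⁻¹, hTn0 d (hDH d.2) t0 ht0T⟩ : (T : Subgroup G))) := by
      constructor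
      · rintro (_ | d) (_ | e) h
        · rfl
        · exfalso
          have h' : (1 : G) = (e : G) * t0 * (e : G)⁻¹ := congrArg Subtype.val h
          exact Cfsg.Agent.Helper2.RankOne.conj_ne_one ht01 h'.symm
        · exfalso
          have h' : (d : G) * t0 * (d : G)⁻¹ = (1 : G) := congrArg Subtype.val h
          exact Cfsg.Agent.Helper2.RankOne.conj_ne_one ht01 h'
        · have h' : (d : G) * t0 * (d : G)⁻¹ = (e : G) * t0 * (e : G)⁻¹ := congrArg Subtype.val h
          have h1 := hcent _ _ h'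
          have h2 := hDT _ (mul_mem (inv_mem d.2) e.2) h1
          congr 1
          exact Subtype.ext (inv_mul_eq_one.mp h2)
      · rintro ⟨t, htT⟩
        by_cases ht1 : t = 1
        · exact ⟨none, Subtype.ext ht1.symm⟩
        · obtain ⟨v, _, hvD, hv⟩ := htrans t htT ht1
          exact ⟨some ⟨v * u, hvD⟩, Subtype.ext hv⟩
    rw [← Nat.card_congr (Equiv.ofBijective _ hbij), Finite.card_option]
  have hcardH : Nat.card H = Nat.card D * Nat.card (T : Subgroup G) := by
    have hbij : Function.Bijective (fun p : D × (T : Subgroup G) =>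
        (⟨(p.1 : G) * (p.2 : G), mul_mem (hDH p.1.2) (hTH0 p.2.2)⟩ : H)) := by
      constructor
      · rintro ⟨⟨d, hd⟩, ⟨t, ht⟩⟩ ⟨⟨e, he⟩, ⟨t', ht'⟩⟩ h
        have h' : d * t = e * t' := congrArg Subtype.val h
        have h1 : e⁻¹ * d = t' * t⁻¹ := by
          calc e⁻¹ * d = e⁻¹ * (d * t) * t⁻¹ := by group
            _ = e⁻¹ * (e * t') * t⁻¹ := by rw [h']
            _ = t' * t⁻¹ := by group
        have h2 : e⁻¹ * d = 1 :=
          hDT _ (mul_mem (inv_mem he) hd) (by rw [h1]; exact mul_mem ht' (inv_mem ht))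
        have hde : e = d := inv_mul_eq_one.mp h2
        subst hde
        have htt : t = t' := mul_left_cancel h'
        subst htt
        rfl
      · rintro ⟨h, hh⟩
        have hht : h * t0 * h⁻¹ ∈ (T : Subgroup G) := hTn0 h hh t0 ht0T
        have hht1 : h * t0 * h⁻¹ ≠ 1 := Cfsg.Agent.Helper2.RankOne.conj_ne_one ht01
        obtain ⟨v, _, hvD, hv⟩ := htrans _ hht hht1
        have h1 := hcent (v * u) h hv
        refine ⟨⟨⟨v * u, hvD⟩, ⟨(v * u)⁻¹ * h, h1⟩⟩, ?_⟩
        apply Subtype.ext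
        show v * u * ((v * u)⁻¹ * h) = h
        group
    rw [← Nat.card_congr (Equiv.ofBijective _ hbij), Nat.card_prod]
  refine ⟨?_, ?_, ?_⟩
  · intro d hd
    obtain ⟨v, hv2, rfl⟩ := hDform d hd
    have hu2 := Cfsg.Agent.Helper2.UF.mul_self_of_orderOf_two hu
    have huinv : u⁻¹ = u := inv_eq_of_mul_eq_one_left hu2
    have hvinv : v⁻¹ = v := inv_eq_of_mul_eq_one_left hv2
    rw [mul_inv_rev, huinv, hvinv, mul_assoc, mul_assoc, hu2, mul_one]
  · rw [hcardH, hcardT, Nat.add_sub_cancel, mul_comm]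
  · apply Subgroup.isComplement'_of_coprime
    · rw [Nat.card_congr (Subgroup.subgroupOfEquivOfLe hDH).toEquiv,
        Nat.card_congr (Subgroup.subgroupOfEquivOfLe hTH0).toEquiv, hcardH]
    · rw [Nat.card_congr (Subgroup.subgroupOfEquivOfLe hDH).toEquiv,
        Nat.card_congr (Subgroup.subgroupOfEquivOfLe hTH0).toEquiv]
      obtain ⟨n, hn⟩ := (T.isPGroup').exists_card_eq
      rw [hn]
      exact Nat.Coprime.pow_right n (Nat.coprime_two_right.mpr hD0)


end Cfsg.Agent.S1227
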