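import Mathlib
import Cfsg.Agent.Helper2.CIT3
import Cfsg.Statements.S1228

set_option autoImplicit false
open Cfsg

namespace Cfsg.Agent.S1228

/-- Let G be a finite group with a Sylow 2-subgroup T that is neither cyclic nor normal, such that the centralizer of every involution is an elementary abelian 2-group; put H = N_G(T), let u be an involution outside H and D = H ∩ uHu⁻¹. Then N_G(D) = D ⊔ ⟨u⟩, and a coset gH is fixed by every element of D exactly when gH = H or gH = uH. -/
theorem result {G : Type*} [Group G] [Finite G] (T : Sylow 2 G) (hnc : ¬ IsCyclic (T : Subgroup G)) (hnn : ¬ (T : Subgroup G).Normal) (hC : ∀ t : G, orderOf t = 2 → IsMulCommutative (Subgroup.centralizer ({t} : Set G)) ∧ ∀ c ∈ Subgroup.centralizer ({t} : Set G), c ^ 2 = 1) (u : G) (hu : orderOf u = 2) (huH : u ∉ Subgroup.normalizer ((T : Subgroup G) : Set G)) : Subgroup.normalizer ((Subgroup.normalizer ((T : Subgroup G) : Set G) ⊓ (Subgroup.normalizer ((T : Subgroup G) : Set G)).map (MulAut.conj u).toMonoidHom : Subgroup G) : Set G) = (Subgroup.normalizer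 ((T : Subgroup G) : Set G) ⊓ (Subgroup.normalizer ((T : Subgroup G) : Set G)).map (MulAut.conj u).toMonoidHom) ⊔ Subgroup.zpowers u ∧ ∀ g : G, ((∀ d ∈ Subgroup.normalizer ((T : Subgroup G) : Set G) ⊓ (Subgroup.normalizer ((T : Subgroup G) : Set G)).map (MulAut.conj u).toMonoidHom, d • (QuotientGroup.mk g : G ⧸ Subgroup.normalizer ((T : Subgroup G) : Set G)) = QuotientGroup.mk g) ↔ (QuotientGroup.mk g : G ⧸ Subgroup.normalizer ((T : Subgroup G) : Set G)) = QuotientGroup.mk 1 ∨ (QuotientGroup.mk g : G ⧸ Subgroup.normalizer ((T : Subgroup G) : Set G)) = QuotientGroup.mk u) := by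
  classical
  have hu2 := Cfsg.Agent.Helper2.UF.mul_self_of_orderOf_two hu
  have huinv : u⁻¹ = u := inv_eq_of_mul_eq_one_left hu2
  obtain ⟨hDT, htr, hinv, hcard, hdec⟩ := Cfsg.Agent.Helper2.CIT.D_facts T hnc hnn hC u hu huH
  have hfix := Cfsg.Agent.Helper2.CIT.fix_D T hnc hnn hC u hu huH
  have hnorm := Cfsg.Agent.Helper2.CIT.norm_D_in_H T hnc hnn hC u hu huH
  have hmem := Cfsg.Agent.Helper2.CIT.mem_D_iff (Subgroup.normalizer ((T : Subgroup G) : Set G)) u
  have hmu : (QuotientGroup.mk u : G ⧸ Subgroup.normalizer ((T : Subgroup G) : Set G)) =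
      u • (QuotientGroup.mk 1 : G ⧸ Subgroup.normalizer ((T : Subgroup G) : Set G)) := by
    rw [MulAction.Quotient.smul_mk, smul_eq_mul, mul_one]
  generalize hDdef : Subgroup.normalizer ((T : Subgroup G) : Set G) ⊓
        (Subgroup.normalizer ((T : Subgroup G) : Set G)).map (MulAut.conj u).toMonoidHom = D
    at hDT htr hinv hcard hdec hfix hnorm hmem ⊢
  refine ⟨?_, ?_⟩
  · apply le_antisymm
    · intro g hg
      have hg1 : ∀ f ∈ D, g * f * g⁻¹ ∈ D := fun f hf =>
        (Subgroup.mem_normalizer_iff.mp hg f).mp hf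
      have hg2 : ∀ f ∈ D, g⁻¹ * f * g ∈ D := by
        intro f hf
        have h := (Subgroup.mem_normalizer_iff.mp hg (g⁻¹ * f * g)).mpr
        apply h
        have : g * (g⁻¹ * f * g) * g⁻¹ = f := by group
        rw [this]; exact hf
      have hgx : ∀ d ∈ D, d • (g • (QuotientGroup.mk 1 :
          G ⧸ Subgroup.normalizer ((T : Subgroup G) : Set G))) =
          g • (QuotientGroup.mk 1 : G ⧸ Subgroup.normalizer ((T : Subgroup G) : Set G)) := by
        intro d hd
        have h1 := ((hmem (g⁻¹ * d * g)).mp (hg2 d hd)).1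
        have h2 : d • (g • (QuotientGroup.mk 1 :
          G ⧸ Subgroup.normalizer ((T : Subgroup G) : Set G))) =
          g • ((g⁻¹ * d * g) • (QuotientGroup.mk 1 :
          G ⧸ Subgroup.normalizer ((T : Subgroup G) : Set G))) := by
          rw [← mul_smul, ← mul_smul]
          congr 1
          group
        rw [h2, h1]
      rcases hfix _ hgx with h | h
      · have hgN : g ∈ Subgroup.normalizer ((T : Subgroup G) : Set G) :=
          (Cfsg.Agent.Helper2.SE.mem_iff_fix_one g).mpr h
        exact Subgroup.mem_sup_left (hnorm g hgN hg1)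
      · have h' : (u⁻¹ * g) • (QuotientGroup.mk 1 :
          G ⧸ Subgroup.normalizer ((T : Subgroup G) : Set G)) = QuotientGroup.mk 1 := by
          rw [mul_smul, h, inv_smul_smul]
        have hgN : u⁻¹ * g ∈ Subgroup.normalizer ((T : Subgroup G) : Set G) :=
          (Cfsg.Agent.Helper2.SE.mem_iff_fix_one _).mpr h'
        have hn : ∀ f ∈ D, (u⁻¹ * g) * f * (u⁻¹ * g)⁻¹ ∈ D := by
          intro f hf
          have h3 : (u⁻¹ * g) * f * (u⁻¹ * g)⁻¹ = u * (g * f * g⁻¹) * u⁻¹ := by
            rw [huinv]; 
            have : (u * g)⁻¹ = g⁻¹ * u := by rw [mul_inv_rev, huinv]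
            rw [this]; group
          rw [h3, hinv _ (hg1 f hf)]
          exact inv_mem (hg1 f hf)
        have hD := hnorm _ hgN hn
        have hgeq : g = u * (u⁻¹ * g) := by group
        rw [hgeq, sup_comm]
        exact Subgroup.mul_mem_sup (Subgroup.mem_zpowers u) hD
    · apply sup_le
      · exact Subgroup.le_normalizer
      · rw [Subgroup.zpowers_le]
        rw [Subgroup.mem_normalizer_iff]
        intro h
        constructor
        · intro hh
          rw [hinv h hh]; exact inv_mem hh
        · intro hh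
          have h1 := hinv _ hh
          have h2 : u * (u * h * u⁻¹) * u⁻¹ = h := by
            rw [huinv]
            calc u * (u * h * u) * u = (u * u) * h * (u * u) := by group
              _ = h := by rw [hu2, one_mul, mul_one]
          rw [h2] at h1
          rw [h1]; exact inv_mem hh
  · intro g
    constructor
    · intro h
      rcases hfix _ h with h1 | h1
      · left; exact h1
      · right; rw [hmu]; exact h1
    · rintro (h | h) d hd
      · rw [h]; exact ((hmem d).mp hd).1
      · rw [h, hmu]; exact ((hmem d).mp hd).2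


end Cfsg.Agent.S1228
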