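import Mathlib
import Cfsg.Agent.Helper2.PRank
import Cfsg.Statements.S1231

set_option autoImplicit false
open Cfsg

namespace Cfsg.Agent.S1231

/-- Let H be a subgroup of the finite group G, p a prime, k ≥ 1, and P a Sylow p-subgroup of H whose p-rank is at least k. Then N_G(X) ≤ H for every subgroup X of P of p-rank at least k if and only if H ∩ gHg⁻¹ has p-rank less than k for every g ∉ H. -/
theorem result {G : Type*} [Group G] [Finite G] {p : ℕ} [Fact p.Prime] (k : ℕ) (hk : 1 ≤ k) (H : Subgroup G) (P : Sylow p ↥H) (hP : ¬ Cfsg.PRankLE p (k - 1) ↥(P : Subgroup ↥H)) : (∀ X : Subgroup G, X ≤ (P : Subgroup ↥H).map H.subtype → ¬ Cfsg.PRankLE p (k - 1) ↥X → Subgroup.normalizer (X : Set G) ≤ H) ↔ (∀ g : G, g ∉ H → Cfsg.PRankLE p (k - 1) ↥(H ⊓ H.map (MulAut.conj g).toMonoidHom)) := by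
  have hPH : (P : Subgroup ↥H).map H.subtype ≤ H := Subgroup.map_subtype_le _
  have hPp : IsPGroup p ((P : Subgroup ↥H).map H.subtype) := P.isPGroup'.map _
  have hSyl : ∀ R : Subgroup G, R ≤ H → IsPGroup p R →
      ∃ h ∈ H, ∀ x ∈ R, h * x * h⁻¹ ∈ (P : Subgroup ↥H).map H.subtype := by
    intro R hRH hRp
    have hR' : IsPGroup p (R.subgroupOf H) := hRp.comap_subtype
    obtain ⟨h, hh⟩ := Cfsg.Agent.Helper2.pgroup_exists_conj_le_sylow hR' P
    refine ⟨h, h.2, fun x hx => ?_⟩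
    have h1 : (⟨x, hRH hx⟩ : H) ∈ R.subgroupOf H := by
      rw [Subgroup.mem_subgroupOf]; exact hx
    exact ⟨h * ⟨x, hRH hx⟩ * h⁻¹, hh _ h1, rfl⟩
  have hPrank : Cfsg.Agent.Helper2.PRank.HasEA p (k - 1) ((P : Subgroup ↥H).map H.subtype) :=
    ((Cfsg.Agent.Helper2.PRank.not_pRankLE_iff p (k - 1) (P : Subgroup ↥H)).mp hP).map _
      H.subtype_injective
  constructor
  · intro hN g hg
    by_contra hr
    rw [Cfsg.Agent.Helper2.PRank.not_pRankLE_iff] at hr
    exact Cfsg.Agent.Helper2.PRank.core (k - 1) H _ hPH hPp hSyl hPrank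
      (fun X hX hXr => hN X hX ((Cfsg.Agent.Helper2.PRank.not_pRankLE_iff p (k - 1) X).mpr hXr))
      g hg hr
  · intro h X hX hXr n hn
    by_contra hnH
    have h1 := h n hnH
    refine (Cfsg.Agent.Helper2.PRank.not_pRankLE_iff p (k - 1) _).mpr ?_ h1
    apply ((Cfsg.Agent.Helper2.PRank.not_pRankLE_iff p (k - 1) X).mp hXr).mono
    intro x hx
    refine Subgroup.mem_inf.mpr ⟨hPH (hX hx), ?_⟩
    rw [Cfsg.Agent.Helper2.mem_map_conj_iff]
    have hn' : n⁻¹ ∈ Subgroup.normalizer (X : Set G) := inv_mem hn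
    have := (Subgroup.mem_normalizer_iff.mp hn' x).mp hx
    rw [inv_inv] at this
    exact hPH (hX this)


end Cfsg.Agent.S1231
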