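import Mathlib
import Cfsg.Agent.Helper2.Conj
import Cfsg.Statements.S1243

set_option autoImplicit false
open Cfsg

namespace Cfsg.Agent.S1243

/-- Let T be a Sylow p-subgroup of the finite group G and W ≤ T a subgroup weakly closed in T. If d and g d g⁻¹ both centralize W, then g d g⁻¹ = h d h⁻¹ for some h ∈ N_G(W). -/
theorem result {G : Type*} [Group G] [Finite G] {p : ℕ} [Fact p.Prime] (T : Sylow p G) (W : Subgroup G) (hW : Cfsg.IsWeaklyClosed W (T : Subgroup G)) (d g : G) (hd : d ∈ Subgroup.centralizer (W : Set G)) (hgd : g * d * g⁻¹ ∈ Subgroup.centralizer (W : Set G)) : ∃ h ∈ Subgroup.normalizer (W : Set G), h * d * h⁻¹ = g * d * g⁻¹ := by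
  obtain ⟨hWT, hwc⟩ := hW
  set d' := g * d * g⁻¹ with hd'
  set C := Subgroup.centralizer ({d'} : Set G) with hC
  have hTp : IsPGroup p (T : Subgroup G) := T.isPGroup'
  have hWp : IsPGroup p W := hTp.to_le hWT
  have hWC : W ≤ C := by
    intro w hw
    rw [hC, Subgroup.mem_centralizer_iff]
    intro y hy
    rw [Set.mem_singleton_iff] at hy
    subst hy
    exact (Subgroup.mem_centralizer_iff.mp hgd w hw).symm
  have hW'C : ∀ w ∈ W, g * w * g⁻¹ ∈ C := by
    intro w hw
    rw [hC, Subgroup.mem_centralizer_iff]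
    intro y hy
    rw [Set.mem_singleton_iff] at hy
    subst hy
    have h1 : w * d = d * w := Subgroup.mem_centralizer_iff.mp hd w hw
    rw [hd']
    calc g * d * g⁻¹ * (g * w * g⁻¹) = g * (d * w) * g⁻¹ := by group
      _ = g * (w * d) * g⁻¹ := by rw [h1]
      _ = g * w * g⁻¹ * (g * d * g⁻¹) := by group
  have hW1p : IsPGroup p (W.subgroupOf C) := hWp.comap_of_injective C.subtype C.subtype_injective
  obtain ⟨R, hR⟩ := hW1p.exists_le_sylow
  have hW2p : IsPGroup p ((W.map (MulAut.conj g).toMonoidHom).subgroupOf C) :=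
    (hWp.map _).comap_of_injective C.subtype C.subtype_injective
  obtain ⟨c, hc⟩ := Cfsg.Agent.Helper2.pgroup_exists_conj_le_sylow hW2p R
  have hRp : IsPGroup p ((R : Subgroup C).map C.subtype) := R.isPGroup'.map _
  obtain ⟨x, hx⟩ := Cfsg.Agent.Helper2.pgroup_exists_conj_le_sylow hRp T
  have e1 : W.map (MulAut.conj x).toMonoidHom = W := by
    apply hwc
    intro y hy
    rw [Cfsg.Agent.Helper2.mem_map_conj_iff] at hy
    have hy' : (⟨x⁻¹ * y * x, hWC hy⟩ : C) ∈ (R : Subgroup C) := hR (by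
      rw [Subgroup.mem_subgroupOf]; exact hy)
    have := hx _ (Subgroup.mem_map_of_mem C.subtype hy')
    have e : x * (C.subtype ⟨x⁻¹ * y * x, hWC hy⟩) * x⁻¹ = y := by
      simp only [Subgroup.coe_subtype]; group
    rw [e] at this; exact this
  have e2 : W.map (MulAut.conj (x * c * g)).toMonoidHom = W := by
    apply hwc
    intro y hy
    rw [Cfsg.Agent.Helper2.mem_map_conj_iff] at hy
    set w := (x * c * g)⁻¹ * y * (x * c * g) with hw
    have hgw : (⟨g * w * g⁻¹, hW'C w hy⟩ : C) ∈ (W.map (MulAut.conj g).toMonoidHom).subgroupOf C := by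
      rw [Subgroup.mem_subgroupOf]
      exact Cfsg.Agent.Helper2.conj_mem_map_conj W g hy
    have h1 := hc _ hgw
    have := hx _ (Subgroup.mem_map_of_mem C.subtype h1)
    have e : x * (C.subtype (c * ⟨g * w * g⁻¹, hW'C w hy⟩ * c⁻¹)) * x⁻¹ = y := by
      simp only [Subgroup.coe_subtype, Subgroup.coe_mul, Subgroup.coe_inv]
      rw [hw]; group
    rw [e] at this; exact this
  refine ⟨c * g, ?_, ?_⟩
  · rw [Subgroup.mem_normalizer_iff]
    intro y
    have f1 : x * (c * g * y * (c * g)⁻¹) * x⁻¹ ∈ W ↔ y ∈ W := by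
      conv_lhs => rw [← e2, Cfsg.Agent.Helper2.mem_map_conj_iff]
      have e : (x * ↑c * g)⁻¹ * (x * (↑c * g * y * (↑c * g)⁻¹) * x⁻¹) * (x * ↑c * g) = y := by group
      rw [e]
    have f2 : x * (c * g * y * (c * g)⁻¹) * x⁻¹ ∈ W ↔ c * g * y * (c * g)⁻¹ ∈ W := by
      conv_lhs => rw [← e1, Cfsg.Agent.Helper2.mem_map_conj_iff]
      have e : x⁻¹ * (x * (↑c * g * y * (↑c * g)⁻¹) * x⁻¹) * x = ↑c * g * y * (↑c * g)⁻¹ := by group
      rw [e]
    rw [← f2, f1]
  · have hcC : (c : G) * d' = d' * c := by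
      have := Subgroup.mem_centralizer_iff.mp c.2 d' rfl
      exact this.symm
    calc ↑c * g * d * (↑c * g)⁻¹ = ↑c * d' * (↑c)⁻¹ := by rw [hd']; group
      _ = d' * ↑c * (↑c)⁻¹ := by rw [hcC]
      _ = d' := by group


end Cfsg.Agent.S1243
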