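import Cfsg.Statements.S1254
import Mathlib
import Cfsg.Agent.Helper6.DihSylow
-- import your own Cfsg.Agent.* helpers here

set_option autoImplicit false
open Cfsg

namespace Cfsg.Agent.S1254

/-- Let X be a finite group whose Sylow 2-subgroup S is dihedral (of order at least 4). Then X has a normal 2-complement if and only if, for every Klein four-subgroup U ≤ S, the normalizer N_X(U) is generated by C_X(U) and N_S(U). -/
theorem result {X : Type*} [Group X] [Finite X] (S : Sylow 2 X) (m : ℕ) (hm : 2 ≤ m) (eS : (S : Subgroup X) ≃* DihedralGroup m) : Cfsg.HasNormalPComplement 2 X ↔ ∀ U : Subgroup X, U ≤ S → IsKleinFour U → Subgroup.normalizer (U : Set X) = Subgroup.centralizer (U : Set X) ⊔ ((S : Subgroup X) ⊓ Subgroup.normalizer (U : Set X)) := by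
  haveI : Fact (Nat.Prime 2) := ⟨Nat.prime_two⟩
  haveI : NeZero m := ⟨by omega⟩
  constructor
  · intro hNPC U hUS hUK
    obtain ⟨K, hKn, hKc, hKcop⟩ :=
      Cfsg.Agent.Helper6.exists_complement_sylow_of_hasNormalPComplement hNPC S
    apply le_antisymm
    · intro x hx
      obtain ⟨⟨⟨k, hk⟩, ⟨s, hs⟩⟩, hks, -⟩ := hKc.existsUnique x
      simp only at hks
      subst hks
      have hxU : ∀ u ∈ U, k * s * u * (k * s)⁻¹ ∈ U := fun u hu =>
        (Subgroup.mem_normalizer_iff.mp hx u).mp hu
      have key : ∀ u ∈ U, k * (s * u * s⁻¹) * k⁻¹ = s * u * s⁻¹ := by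
        intro u hu
        have ha : s * u * s⁻¹ ∈ (S : Subgroup X) :=
          Subgroup.mul_mem _ (Subgroup.mul_mem _ hs (hUS hu)) (Subgroup.inv_mem _ hs)
        have hb : k * (s * u * s⁻¹) * k⁻¹ ∈ (S : Subgroup X) := by
          have h0 := hUS (hxU u hu)
          have e : k * (s * u * s⁻¹) * k⁻¹ = k * s * u * (k * s)⁻¹ := by group
          rw [e]; exact h0
        have hc1 : k * (s * u * s⁻¹) * k⁻¹ * (s * u * s⁻¹)⁻¹ ∈ K := by
          have h0 := hKn.conj_mem k⁻¹ (K.inv_mem hk) (s * u * s⁻¹)
          have e : k * (s * u * s⁻¹) * k⁻¹ * (s * u * s⁻¹)⁻¹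
              = k * ((s * u * s⁻¹) * k⁻¹ * (s * u * s⁻¹)⁻¹) := by group
          rw [e]; exact K.mul_mem hk h0
        have hc2 : k * (s * u * s⁻¹) * k⁻¹ * (s * u * s⁻¹)⁻¹ ∈ (S : Subgroup X) :=
          Subgroup.mul_mem _ hb (Subgroup.inv_mem _ ha)
        have h1 := Subgroup.disjoint_def.mp hKc.disjoint hc1 hc2
        exact mul_inv_eq_one.mp h1
      have hsN : s ∈ Subgroup.normalizer (U : Set X) := by
        apply Cfsg.Agent.Helper5.mem_normalizer_of_conj_le
        rintro _ ⟨u, hu, rfl⟩
        have h1 := hxU u hu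
        have e : k * s * u * (k * s)⁻¹ = k * (s * u * s⁻¹) * k⁻¹ := by group
        rw [e, key u hu] at h1
        exact h1
      have hkC : k ∈ Subgroup.centralizer (U : Set X) := by
        rw [Subgroup.mem_centralizer_iff]
        intro u hu
        have hu' : s⁻¹ * u * s ∈ U := by
          have h0 := (Subgroup.mem_normalizer_iff.mp (Subgroup.inv_mem _ hsN) u).mp hu
          simpa using h0
        have h1 := key _ hu'
        have e : s * (s⁻¹ * u * s) * s⁻¹ = u := by group
        rw [e] at h1
        calc u * k = (k * u * k⁻¹) * k := by rw [h1]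
          _ = k * u := by group
      exact Subgroup.mul_mem _ (Subgroup.mem_sup_left hkC) (Subgroup.mem_sup_right ⟨hs, hsN⟩)
    · exact sup_le (Subgroup.centralizer_le_normalizer _) inf_le_right
  · intro hyp
    apply Cfsg.Agent.Helper6.hasNormalPComplement_of_frobCond
    apply Cfsg.Agent.Helper6.frobCond_of_sylow S
    intro U hUS g hg hodd
    have hU2 : IsPGroup 2 U := S.isPGroup'.to_le hUS
    rcases Cfsg.Agent.Helper6.dihedral_odd_normalizer U hU2 m
      (eS.toMonoidHom.comp (Subgroup.inclusion hUS))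
      (eS.injective.comp (Subgroup.inclusion_injective hUS)) g hg hodd with h | hK
    · exact h
    · have hNeq := hyp U hUS hK
      have hg' : g ∈ Subgroup.centralizer (U : Set X) ⊔
          ((S : Subgroup X) ⊓ Subgroup.normalizer (U : Set X)) := by
        rw [← hNeq]; exact hg
      have key : ∀ x ∈ Subgroup.centralizer (U : Set X) ⊔
          ((S : Subgroup X) ⊓ Subgroup.normalizer (U : Set X)),
          ∃ s ∈ (S : Subgroup X) ⊓ Subgroup.normalizer (U : Set X),
            ∀ u ∈ U, x * u * x⁻¹ = s * u * s⁻¹ := by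
        intro x hx
        rw [Subgroup.sup_eq_closure] at hx
        induction hx using Subgroup.closure_induction with
        | mem x hx =>
          rcases hx with hx | hx
          · refine ⟨1, Subgroup.one_mem _, fun u hu => ?_⟩
            have h0 := Subgroup.mem_centralizer_iff.mp hx u hu
            rw [← h0]; group
          · exact ⟨x, hx, fun u hu => rfl⟩
        | one => exact ⟨1, Subgroup.one_mem _, fun u hu => rfl⟩
        | mul x y hx hy ihx ihy =>
          obtain ⟨s, hs, hsx⟩ := ihx
          obtain ⟨t, ht, hty⟩ := ihy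
          refine ⟨s * t, Subgroup.mul_mem _ hs ht, fun u hu => ?_⟩
          have h1 : t * u * t⁻¹ ∈ U := (Subgroup.mem_normalizer_iff.mp ht.2 u).mp hu
          calc x * y * u * (x * y)⁻¹ = x * (y * u * y⁻¹) * x⁻¹ := by group
            _ = x * (t * u * t⁻¹) * x⁻¹ := by rw [hty u hu]
            _ = s * (t * u * t⁻¹) * s⁻¹ := hsx _ h1
            _ = s * t * u * (s * t)⁻¹ := by group
        | inv x hx ihx =>
          obtain ⟨s, hs, hsx⟩ := ihx
          refine ⟨s⁻¹, Subgroup.inv_mem _ hs, fun u hu => ?_⟩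
          have h1 : s⁻¹ * u * s ∈ U := by
            have h0 := (Subgroup.mem_normalizer_iff.mp (Subgroup.inv_mem _ hs.2) u).mp hu
            simpa using h0
          have h2 := hsx _ h1
          have h3 : x * (s⁻¹ * u * s) * x⁻¹ = u := by rw [h2]; group
          calc x⁻¹ * u * x⁻¹⁻¹ = x⁻¹ * (x * (s⁻¹ * u * s) * x⁻¹) * x := by rw [h3, inv_inv]
            _ = s⁻¹ * u * s⁻¹⁻¹ := by group
      obtain ⟨s, hs, hsx⟩ := key g hg'
      obtain ⟨j, hj⟩ := S.isPGroup' ⟨s, hs.1⟩
      have hj' : s ^ 2 ^ j = 1 := by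
        have h0 := congrArg Subtype.val hj
        simpa using h0
      have hpow : ∀ (i : ℕ) (u : X), u ∈ U → g ^ i * u * (g ^ i)⁻¹ = s ^ i * u * (s ^ i)⁻¹ := by
        intro i
        induction i with
        | zero => intro u hu; simp
        | succ i ih =>
          intro u hu
          have h1 : s ^ i * u * (s ^ i)⁻¹ ∈ U :=
            (Subgroup.mem_normalizer_iff.mp (Subgroup.pow_mem _ hs.2 i) u).mp hu
          calc g ^ (i + 1) * u * (g ^ (i + 1))⁻¹ = g * (g ^ i * u * (g ^ i)⁻¹) * g⁻¹ := by
                rw [pow_succ']; group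
            _ = g * (s ^ i * u * (s ^ i)⁻¹) * g⁻¹ := by rw [ih u hu]
            _ = s * (s ^ i * u * (s ^ i)⁻¹) * s⁻¹ := hsx _ h1
            _ = s ^ (i + 1) * u * (s ^ (i + 1))⁻¹ := by rw [pow_succ']; group
      have hsk : s ^ orderOf g ∈ Subgroup.centralizer (U : Set X) := by
        rw [Subgroup.mem_centralizer_iff]
        intro u hu
        have h1 := hpow (orderOf g) u hu
        rw [pow_orderOf_eq_one, one_mul, inv_one, mul_one] at h1
        calc u * s ^ orderOf g = (s ^ orderOf g * u * (s ^ orderOf g)⁻¹) * s ^ orderOf g := by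
              rw [← h1]
          _ = s ^ orderOf g * u := by group
      have hcop : (orderOf g).Coprime (orderOf s) := by
        have h1 : orderOf s ∣ 2 ^ j := orderOf_dvd_of_pow_eq_one hj'
        exact Nat.Coprime.coprime_dvd_right h1 (Nat.Coprime.pow_right j hodd)
      obtain ⟨m', hm'⟩ := exists_pow_eq_self_of_coprime hcop
      have hsC : s ∈ Subgroup.centralizer (U : Set X) := by
        rw [← hm']; exact Subgroup.pow_mem _ hsk m'
      rw [Subgroup.mem_centralizer_iff] at hsC ⊢
      intro u hu
      have h1 := hsx u hu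
      have h2 : s * u * s⁻¹ = u := by rw [← hsC u hu]; group
      rw [h2] at h1
      calc u * g = (g * u * g⁻¹) * g := by rw [h1]
        _ = g * u := by group

end Cfsg.Agent.S1254
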