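import Cfsg.Statements.S1255
import Mathlib
import Cfsg.Agent.Helper6.DihSylow3
-- import your own Cfsg.Agent.* helpers here

set_option autoImplicit false
open Cfsg

namespace Cfsg.Agent.S1255


theorem zmod2_zero_ne_one' : (0 : ZMod 2) ≠ 1 := by decide

open DihedralGroup Cfsg.Agent.Helper6 in
theorem dih_iff {X : Type*} [Group X] [Finite X] (S : Sylow 2 X) {m : ℕ} [NeZero m]
    (h2 : 2 ∣ m) (τ : DihedralGroup m →* X) (hτ : Function.Injective τ)
    (hP : τ.range = (S : Subgroup X)) (k : ℕ) (hk : 3 ∣ k) :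
    ((∀ H : Subgroup X, H.index ≠ 2) ∧ (∀ z : X, ¬ Cfsg.IsIsolatedInvolution z)) ↔
    ((∀ a b : X, orderOf a = 2 → orderOf b = 2 → IsConj a b) ∨
     (∀ U : Subgroup X, U ≤ S → IsKleinFour U →
       (Subgroup.centralizer (U : Set X)).relIndex (Subgroup.normalizer (U : Set X)) = k)) := by
  haveI : Fact (Nat.Prime 2) := ⟨Nat.prime_two⟩
  have hclass : ∀ t : X, orderOf t = 2 → IsConj t (τ (r ((m / 2 : ℕ) : ZMod m))) ∨
      IsConj t (τ (sr 0)) ∨ IsConj t (τ (sr 1)) := fun t ht =>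
    dih_sylow_invol_conj S h2 τ hτ hP t ht
  have hz2 := dih_orderOf_half h2 τ hτ
  have hs02 := dih_orderOf_sr τ hτ 0
  have hs12 := dih_orderOf_sr τ hτ 1
  have hsr0 : (sr 0 : DihedralGroup m) * sr 0 = 1 := sr_mul_self 0
  have hsr1 : (sr 1 : DihedralGroup m) * sr 1 = 1 := sr_mul_self 1
  have hzz : τ (r ((m / 2 : ℕ) : ZMod m)) * τ (r ((m / 2 : ℕ) : ZMod m)) = 1 := by
    rw [← map_mul, r_mul_r, (zmod_half m h2).1, r_zero, map_one]
  have hz1 : τ (r ((m / 2 : ℕ) : ZMod m)) ≠ 1 := by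
    intro h
    have h0 := hτ (h.trans (map_one τ).symm)
    exact (zmod_half m h2).2 (r.inj (h0.trans one_def))
  have hcomm : ∀ i : ZMod m, τ (r ((m / 2 : ℕ) : ZMod m)) * τ (sr i)
      = τ (sr i) * τ (r ((m / 2 : ℕ) : ZMod m)) := by
    intro i
    rw [← map_mul, ← map_mul, r_mul_sr, sr_mul_r]
    congr 2
    have h0 := (zmod_half m h2).1
    have h1 : -((m / 2 : ℕ) : ZMod m) = ((m / 2 : ℕ) : ZMod m) := by
      rw [neg_eq_iff_add_eq_zero]; exact h0
    rw [sub_eq_add_neg, h1]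
  have hmain : IsConj (τ (r ((m / 2 : ℕ) : ZMod m))) (τ (sr 0)) →
      IsConj (τ (r ((m / 2 : ℕ) : ZMod m))) (τ (sr 1)) →
      ((∀ H : Subgroup X, H.index ≠ 2) ∧ (∀ z : X, ¬ Cfsg.IsIsolatedInvolution z)) := by
    intro hA hB
    refine ⟨fun H => dih_sylow_no_index_two S τ hP hA hB H, ?_⟩
    rintro t ⟨ht2, hiso⟩
    have htz : IsConj t (τ (r ((m / 2 : ℕ) : ZMod m))) := by
      rcases hclass t ht2 with h | h | h
      · exact h
      · exact h.trans hA.symm
      · exact h.trans hB.symm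
    obtain ⟨h, hh⟩ := isConj_iff.mp htz
    obtain ⟨k', hk'⟩ := isConj_iff.mp hA
    have e1 : (h⁻¹ * k' * h) * t * (h⁻¹ * k' * h)⁻¹ = h⁻¹ * τ (sr 0) * h := by
      calc (h⁻¹ * k' * h) * t * (h⁻¹ * k' * h)⁻¹ = h⁻¹ * (k' * (h * t * h⁻¹) * k'⁻¹) * h := by
            group
        _ = h⁻¹ * τ (sr 0) * h := by rw [hh, hk']
    have ht : t = h⁻¹ * τ (r ((m / 2 : ℕ) : ZMod m)) * h := by rw [← hh]; group
    have hc : Commute t ((h⁻¹ * k' * h) * t * (h⁻¹ * k' * h)⁻¹) := by
      rw [e1]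
      show t * (h⁻¹ * τ (sr 0) * h) = (h⁻¹ * τ (sr 0) * h) * t
      rw [ht]
      calc h⁻¹ * τ (r ((m / 2 : ℕ) : ZMod m)) * h * (h⁻¹ * τ (sr 0) * h)
          = h⁻¹ * (τ (r ((m / 2 : ℕ) : ZMod m)) * τ (sr 0)) * h := by group
        _ = h⁻¹ * (τ (sr 0) * τ (r ((m / 2 : ℕ) : ZMod m))) * h := by rw [hcomm]
        _ = h⁻¹ * τ (sr 0) * h * (h⁻¹ * τ (r ((m / 2 : ℕ) : ZMod m)) * h) := by group
    have h3 := hiso _ hc
    rw [e1] at h3
    have h4 : τ (sr 0) = τ (r ((m / 2 : ℕ) : ZMod m)) := by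
      have h5 : τ (sr 0) = h * (h⁻¹ * τ (sr 0) * h) * h⁻¹ := by group
      rw [h5, h3, ht]
      group
    exact sr_ne_r' _ _ (hτ h4)
  constructor
  · rintro ⟨hno2, -⟩
    left
    have hA : IsConj (τ (r ((m / 2 : ℕ) : ZMod m))) (τ (sr 0)) := by
      by_contra hA
      by_cases hB : IsConj (τ (r ((m / 2 : ℕ) : ZMod m))) (τ (sr 1))
      · have hC : ¬ IsConj (τ (sr 0)) (τ (sr 1)) := fun h => hA (hB.trans h.symm)
        obtain ⟨N, -, hNi, -⟩ := dih_sylow_transfer S h2 τ hτ hP (sr 1) (sr_ne_one' 1) (sr 0)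
          hsr0 (by
            intro y hy
            rcases dih_conj_invol h2 τ hτ (sr 0) y hsr0 (sr_ne_one' 0) hy with
              ⟨-, h⟩ | ⟨i, rfl, ⟨hi, -⟩ | ⟨-, h⟩⟩
            · exact absurd h.symm hA
            · rw [dihRed_sr, hi]
              exact ⟨sr_ne_one' 0, fun h => zmod2_zero_ne_one' (sr.inj h)⟩
            · exact absurd h hC)
        exact hno2 N hNi
      · obtain ⟨N, -, hNi, -⟩ := dih_sylow_transfer S h2 τ hτ hP (r 1) dih2_r_one_ne (sr 0)
          hsr0 (by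
            intro y hy
            rcases dih_conj_invol h2 τ hτ (sr 0) y hsr0 (sr_ne_one' 0) hy with
              ⟨-, h⟩ | ⟨i, rfl, -⟩
            · exact absurd h.symm hA
            · rw [dihRed_sr]
              exact ⟨sr_ne_one' _, sr_ne_r' _ _⟩)
        exact hno2 N hNi
    have hB : IsConj (τ (r ((m / 2 : ℕ) : ZMod m))) (τ (sr 1)) := by
      by_contra hB
      have hC : ¬ IsConj (τ (sr 0)) (τ (sr 1)) := fun h => hB (hA.trans h)
      obtain ⟨N, -, hNi, -⟩ := dih_sylow_transfer S h2 τ hτ hP (sr 0) (sr_ne_one' 0) (sr 1)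
        hsr1 (by
          intro y hy
          rcases dih_conj_invol h2 τ hτ (sr 1) y hsr1 (sr_ne_one' 1) hy with
            ⟨-, h⟩ | ⟨i, rfl, ⟨-, h⟩ | ⟨hi, -⟩⟩
          · exact absurd h.symm hB
          · exact absurd h.symm hC
          · rw [dihRed_sr, hi]
            exact ⟨sr_ne_one' 1, fun h => zmod2_zero_ne_one' (sr.inj h).symm⟩)
      exact hno2 N hNi
    intro a b ha hb
    have key : ∀ t : X, orderOf t = 2 → IsConj t (τ (r ((m / 2 : ℕ) : ZMod m))) := by
      intro t ht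
      rcases hclass t ht with h | h | h
      · exact h
      · exact h.trans hA.symm
      · exact h.trans hB.symm
    exact (key a ha).trans (key b hb).symm
  · rintro (hall | hidx)
    · exact hmain (hall _ _ hz2 hs02) (hall _ _ hz2 hs12)
    · have hfour : ∀ i : ZMod m, IsConj (τ (r ((m / 2 : ℕ) : ZMod m))) (τ (sr i)) := by
        intro i
        have hss : τ (sr i) * τ (sr i) = 1 := by rw [← map_mul, sr_mul_self, map_one]
        have hs1 : τ (sr i) ≠ 1 := fun h => sr_ne_one' i (hτ (h.trans (map_one τ).symm))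
        have hne : τ (r ((m / 2 : ℕ) : ZMod m)) ≠ τ (sr i) := fun h => sr_ne_r' _ _ (hτ h.symm)
        have hK := isKleinFour_kleinOfInvol _ _ hzz hss (hcomm i) hz1 hs1 hne
        have hle : kleinOfInvol _ _ hzz hss (hcomm i) ≤ S := by
          rw [← hP]
          rintro x (rfl | rfl | rfl | rfl)
          · exact Subgroup.one_mem _
          · exact ⟨_, rfl⟩
          · exact ⟨_, rfl⟩
          · exact ⟨_, map_mul τ _ _⟩
        have h3 : 3 ∣ (Subgroup.centralizer
            ((kleinOfInvol _ _ hzz hss (hcomm i) : Subgroup X) : Set X)).relIndex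
            (Subgroup.normalizer ((kleinOfInvol _ _ hzz hss (hcomm i) : Subgroup X) : Set X)) := by
          rw [hidx _ hle hK]; exact hk
        exact kleinFour_conj_of_three_dvd _ hK h3 _ _ (Or.inr (Or.inl rfl))
          (Or.inr (Or.inr (Or.inl rfl))) hz1 hs1
      exact hmain (hfour 0) (hfour 1)

/-- Let X be a finite group whose Sylow 2-subgroup S is dihedral of order 2m ≥ 4. Then X has no subgroup of index 2 and no isolated involution if and only if either all involutions of X are conjugate, or for every Klein four-subgroup U ≤ S the index |N_X(U) : C_X(U)| equals 3 when |S| = 4 and equals 6 when |S| > 4. -/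
theorem result {X : Type*} [Group X] [Finite X] (S : Sylow 2 X) (m : ℕ) (hm : 2 ≤ m) (eS : (S : Subgroup X) ≃* DihedralGroup m) : ((∀ H : Subgroup X, H.index ≠ 2) ∧ (∀ z : X, ¬ Cfsg.IsIsolatedInvolution z)) ↔ ((∀ a b : X, orderOf a = 2 → orderOf b = 2 → IsConj a b) ∨ (∀ U : Subgroup X, U ≤ S → IsKleinFour U → (Subgroup.centralizer (U : Set X)).relIndex (Subgroup.normalizer (U : Set X)) = (if Nat.card S = 4 then 3 else 6))) := by
  haveI : Fact (Nat.Prime 2) := ⟨Nat.prime_two⟩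
  haveI : NeZero m := ⟨by omega⟩
  have hcard : Nat.card (S : Subgroup X) = 2 * m := by
    rw [Nat.card_congr eS.toEquiv, DihedralGroup.nat_card]
  obtain ⟨k, hk⟩ := IsPGroup.iff_card.mp S.isPGroup'
  have h2 : 2 ∣ m := by
    rw [hcard] at hk
    rcases k with _ | _ | k
    · rw [pow_zero] at hk; omega
    · rw [pow_one] at hk; omega
    · rw [pow_succ] at hk
      have h0 : m = 2 ^ (k + 1) := by omega
      rw [h0]
      exact dvd_pow_self 2 (by omega)
  obtain ⟨τ, hτ, hP⟩ := Cfsg.Agent.Helper6.exists_dih_hom S eS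
  exact dih_iff S h2 τ hτ hP _ (by split_ifs <;> norm_num)

end Cfsg.Agent.S1255
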