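import Cfsg.Statements.S1263
import Cfsg.Agent.Helper3.Layer2

set_option autoImplicit false
open Cfsg

namespace Cfsg.Agent.S1263

open Cfsg.Agent.Helper3 in
theorem key_aux {G : Type*} [Group G] [Finite G] (s : Finset (Subgroup G)) :
    (∀ K ∈ s, Cfsg.IsComponent K) → ∀ z : G, z ∈ ⨆ K ∈ s, K →
      (∀ K ∈ s, z ∈ Subgroup.centralizer (K : Set G)) →
      z ∈ ⨆ K ∈ s, (K ⊓ Subgroup.centralizer (K : Set G)) := by
  classical
  induction s using Finset.induction_on with
  | empty =>
    intro _ z hz _
    simp only [Finset.notMem_empty, iSup_false, iSup_bot, Subgroup.mem_bot] at hz ⊢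
    exact hz
  | insert L s hLs ih =>
    intro hcomp z hz hcent
    rw [Finset.iSup_insert] at hz ⊢
    have hL : Cfsg.IsComponent L := hcomp L (Finset.mem_insert_self L s)
    have hM : (⨆ K ∈ s, K) ≤ Subgroup.centralizer (L : Set G) := by
      apply iSup₂_le
      intro K hK
      rw [← Subgroup.commutator_eq_bot_iff_le_centralizer]
      exact components_commute K L (hcomp K (Finset.mem_insert_of_mem hK)) hL
        (fun h => hLs (h ▸ hK))
    obtain ⟨x, hx, c, hc, rfl⟩ := mem_sup_of_le_normalizer_right L _
      (hM.trans (Subgroup.centralizer_le_normalizer _)) hz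
    have hxL : x ∈ Subgroup.centralizer (L : Set G) := by
      have h1 := hcent L (Finset.mem_insert_self L s)
      have h2 : x = (x * c) * c⁻¹ := by group
      rw [h2]
      exact Subgroup.mul_mem _ h1 (Subgroup.inv_mem _ (hM hc))
    have hcK : ∀ K ∈ s, c ∈ Subgroup.centralizer (K : Set G) := by
      intro K hK
      have h1 := hcent K (Finset.mem_insert_of_mem hK)
      have h2 : c = x⁻¹ * (x * c) := by group
      have h3 : L ≤ Subgroup.centralizer (K : Set G) := by
        rw [← Subgroup.commutator_eq_bot_iff_le_centralizer]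
        exact components_commute L K hL (hcomp K (Finset.mem_insert_of_mem hK))
          (fun h => hLs (h ▸ hK))
      rw [h2]
      exact Subgroup.mul_mem _ (Subgroup.inv_mem _ (h3 hx)) h1
    have hc' := ih (fun K hK => hcomp K (Finset.mem_insert_of_mem hK)) c hc hcK
    exact Subgroup.mul_mem _ (Subgroup.mem_sup_left (Subgroup.mem_inf.mpr ⟨hx, hxL⟩))
      (Subgroup.mem_sup_right hc')

/-- For a finite group G, Z(E(G)) is the subgroup generated by the centres Z(L) of the components L of G (all viewed as subgroups of G). -/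
theorem result {G : Type*} [Group G] [Finite G] : (Subgroup.center ↥(Cfsg.layer G)).map (Cfsg.layer G).subtype = ⨆ L : {K : Subgroup G // Cfsg.IsComponent K}, (Subgroup.center ↥(L : Subgroup G)).map (L : Subgroup G).subtype := by
  classical
  have hfin : {K : Subgroup G | Cfsg.IsComponent K}.Finite := Set.toFinite _
  rw [Cfsg.Agent.Helper3.map_center_subtype]
  apply le_antisymm
  · intro z hz
    obtain ⟨hzE, hzC⟩ := Subgroup.mem_inf.mp hz
    have hE : Cfsg.layer G = ⨆ K ∈ hfin.toFinset, K := by
      unfold Cfsg.layer
      rw [sSup_eq_iSup]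
      simp only [Set.Finite.mem_toFinset]
    have h1 : z ∈ ⨆ K ∈ hfin.toFinset, K := hE ▸ hzE
    have h2 := key_aux hfin.toFinset (fun K hK => (Set.Finite.mem_toFinset hfin).mp hK) z h1
      (fun K hK => Subgroup.centralizer_le
        (Cfsg.Agent.Helper3.component_le_layer K ((Set.Finite.mem_toFinset hfin).mp hK)) hzC)
    have h3 : (⨆ K ∈ hfin.toFinset, (K ⊓ Subgroup.centralizer (K : Set G))) ≤
        ⨆ L : {K : Subgroup G // Cfsg.IsComponent K},
          (Subgroup.center ↥(L : Subgroup G)).map (L : Subgroup G).subtype := by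
      apply iSup₂_le
      intro K hK
      have hK' : Cfsg.IsComponent K := (Set.Finite.mem_toFinset hfin).mp hK
      rw [← Cfsg.Agent.Helper3.map_center_subtype]
      exact le_iSup (fun L : {K : Subgroup G // Cfsg.IsComponent K} =>
        (Subgroup.center ↥(L : Subgroup G)).map (L : Subgroup G).subtype) ⟨K, hK'⟩
    exact h3 h2
  · apply iSup_le
    rintro ⟨L, hL⟩
    rw [Cfsg.Agent.Helper3.map_center_subtype]
    intro x hx
    obtain ⟨hxL, hxC⟩ := Subgroup.mem_inf.mp hx
    refine Subgroup.mem_inf.mpr ⟨Cfsg.Agent.Helper3.component_le_layer L hL hxL, ?_⟩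
    have h0 : Cfsg.layer G ≤ Subgroup.centralizer ({x} : Set G) := by
      apply sSup_le
      intro K hK
      by_cases hKL : K = L
      · subst hKL
        intro a ha
        rw [Subgroup.mem_centralizer_iff]
        intro h hh
        rw [Set.mem_singleton_iff] at hh
        rw [hh]
        exact (Subgroup.mem_centralizer_iff.mp hxC a ha).symm
      · have h1 : K ≤ Subgroup.centralizer (L : Set G) := by
          rw [← Subgroup.commutator_eq_bot_iff_le_centralizer]
          exact Cfsg.Agent.Helper3.components_commute K L hK hL hKL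
        intro a ha
        rw [Subgroup.mem_centralizer_iff]
        intro h hh
        rw [Set.mem_singleton_iff] at hh
        rw [hh]
        exact Subgroup.mem_centralizer_iff.mp (h1 ha) x hxL
    rw [Subgroup.mem_centralizer_iff]
    intro h hh
    exact (Subgroup.mem_centralizer_iff.mp (h0 hh) x rfl).symm

end Cfsg.Agent.S1263
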