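import Cfsg.Statements.S1264
import Cfsg.Agent.Helper3.Layer2

set_option autoImplicit false
open Cfsg

namespace Cfsg.Agent.S1264

/-- Let G be finite, C = C_G(F(G)) the centralizer of the Fitting subgroup, and N a solvable subgroup of C normalized by C. Then N ≤ Z(F(G)). -/
theorem result {G : Type*} [Group G] [Finite G] (N : Subgroup G) (hN : N ≤ Subgroup.centralizer (Cfsg.fittingSubgroup G : Set G)) (hnorm : Subgroup.centralizer (Cfsg.fittingSubgroup G : Set G) ≤ Subgroup.normalizer (N : Set G)) (hsolv : Group.IsSolvable ↥N) : N ≤ (Subgroup.center ↥(Cfsg.fittingSubgroup G)).map (Cfsg.fittingSubgroup G).subtype := by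
  have step : ∀ A : Subgroup G, A ≤ N →
      Subgroup.centralizer (Cfsg.fittingSubgroup G : Set G) ≤ Subgroup.normalizer (A : Set G) →
      ⁅A, A⁆ ≤ Cfsg.fittingSubgroup G → A ≤ Cfsg.fittingSubgroup G := by
    intro A hAN hCA hAA
    have hAC : A ≤ Subgroup.centralizer (Cfsg.fittingSubgroup G : Set G) := hAN.trans hN
    have hsn : A.IsSubnormal :=
      Subgroup.IsSubnormal.step A _ hAC (Subgroup.Normal.isSubnormal inferInstance)
        ((Subgroup.normal_subgroupOf_iff_le_normalizer hAC).mpr hCA)
    have hnil : Group.IsNilpotent A := by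
      apply Subgroup.isNilpotent_of_lowerCentralSeries_eq_bot (n := 2)
      show ⁅⁅A, A⁆, A⁆ = ⊥
      rw [Subgroup.commutator_eq_bot_iff_le_centralizer]
      intro x hx
      rw [Subgroup.mem_centralizer_iff]
      intro a ha
      exact (Subgroup.mem_centralizer_iff.mp (hAC ha) x (hAA hx)).symm
    exact Cfsg.Agent.Helper3.subnormal_nilpotent_le_fitting A hsn hnil
  obtain ⟨k, hk⟩ := hsolv.solvable
  have hD : ∀ i, Subgroup.centralizer (Cfsg.fittingSubgroup G : Set G) ≤
      Subgroup.normalizer (((derivedSeries ↥N i).map N.subtype : Subgroup G) : Set G) := by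
    intro i
    induction i with
    | zero =>
      rw [derivedSeries_zero, ← MonoidHom.range_eq_map, Subgroup.range_subtype]; exact hnorm
    | succ i ih =>
      rw [derivedSeries_succ, Subgroup.map_commutator]
      exact Cfsg.Agent.Helper3.le_normalizer_commutator _ _ _ ih ih
  have key : ∀ j, j ≤ k → (derivedSeries ↥N (k - j)).map N.subtype ≤ Cfsg.fittingSubgroup G := by
    intro j
    induction j with
    | zero => intro _; rw [Nat.sub_zero, hk, Subgroup.map_bot]; exact bot_le
    | succ j ih =>
      intro hj
      apply step _ (Subgroup.map_subtype_le _) (hD _)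
      have h1 : k - j = (k - (j + 1)) + 1 := by omega
      have h2 := ih (by omega)
      rw [h1, derivedSeries_succ, Subgroup.map_commutator] at h2
      exact h2
  have hNF : N ≤ Cfsg.fittingSubgroup G := by
    have h0 := key k le_rfl
    rwa [Nat.sub_self, derivedSeries_zero, ← MonoidHom.range_eq_map, Subgroup.range_subtype] at h0
  intro x hx
  refine ⟨⟨x, hNF hx⟩, ?_, rfl⟩
  rw [SetLike.mem_coe, Subgroup.mem_center_iff]
  intro y
  exact Subtype.ext (Subgroup.mem_centralizer_iff.mp (hN hx) y y.2)

end Cfsg.Agent.S1264
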