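import Cfsg.Statements.S1276
import Cfsg.Agent.Helper3.PComp

set_option autoImplicit false
open Cfsg

namespace Cfsg.Agent.S1276

/-- Let K be a 2-component of the finite group X. Then K is quasisimple if and only if ⁅K, O(K)⁆ = 1. -/
theorem result {X : Type*} [Group X] [Finite X] (K : Subgroup X) (hK : Cfsg.IsPComponent 2 K) : Cfsg.IsQuasisimple ↥K ↔ ⁅K, ((Cfsg.oddCore ↥K).map K.subtype)⁆ = ⊥ := by
  haveI : Fact (Nat.Prime 2) := ⟨Nat.prime_two⟩
  have hQ := Cfsg.Agent.Helper3.pcomp_quotient_quasisimple 2 K hK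
  constructor
  · intro hq
    rcases Cfsg.Agent.Helper3.quasisimple_normal hq (Cfsg.oddCore ↥K) with h | h
    · exfalso
      haveI := Cfsg.Agent.Helper3.quasisimple_nontrivial hQ
      exact (QuotientGroup.nontrivial_iff.mp inferInstance) h
    · rw [Subgroup.commutator_eq_bot_iff_le_centralizer]
      intro k hk
      rw [Subgroup.mem_centralizer_iff]
      rintro _ ⟨y, hy, rfl⟩
      have h1 := Subgroup.mem_center_iff.mp (h hy) ⟨k, hk⟩
      exact (congrArg Subtype.val h1).symm
  · intro h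
    haveI : Group.IsPerfect ↥K :=
      Subgroup.isPerfect_iff.mpr (Cfsg.Agent.Helper3.pcomp_perfect 2 K hK)
    apply Cfsg.Agent.Helper3.quasisimple_of_central_quotient (Cfsg.oddCore ↥K) ?_ hQ
    intro y hy
    rw [Subgroup.mem_center_iff]
    intro k
    have hk : (k : X) ∈ Subgroup.centralizer (((Cfsg.oddCore ↥K).map K.subtype : Subgroup X) : Set X) :=
      (Subgroup.commutator_eq_bot_iff_le_centralizer.mp h) k.2
    exact Subtype.ext (Subgroup.mem_centralizer_iff.mp hk y.1 ⟨y, hy, rfl⟩).symm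

end Cfsg.Agent.S1276
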