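import Cfsg.Statements.S1277
import Cfsg.Agent.Helper3.PComp3

set_option autoImplicit false
open Cfsg

namespace Cfsg.Agent.S1277

/-- For a finite group X with core O(X): the image of E(X) in X / O(X) is all of E(X / O(X)) if and only if every 2-component of X is a component, i.e. L_{2'}(X) ≤ E(X). -/
theorem result {X : Type*} [Group X] [Finite X] : (Cfsg.layer X).map (QuotientGroup.mk' (Cfsg.oddCore X)) = Cfsg.layer (X ⧸ Cfsg.oddCore X) ↔ Cfsg.pLayer 2 X ≤ Cfsg.layer X := by
  haveI : Fact (Nat.Prime 2) := ⟨Nat.prime_two⟩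
  have hsurj := QuotientGroup.mk'_surjective (Cfsg.pPrimeCore 2 X)
  have hle : (Cfsg.layer X).map (QuotientGroup.mk' (Cfsg.pPrimeCore 2 X)) ≤
      Cfsg.layer (X ⧸ Cfsg.pPrimeCore 2 X) := by
    rw [Subgroup.map_le_iff_le_comap]
    apply sSup_le
    intro L hL
    rw [← Subgroup.map_le_iff_le_comap]
    rcases Cfsg.Agent.Helper3.component_map_surjective _ hsurj L hL with h | h
    · rw [h]; exact bot_le
    · exact Cfsg.Agent.Helper3.component_le_layer _ h
  constructor
  · intro h
    apply sSup_le
    intro K hK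
    have hex : ∃ L : Subgroup X, Cfsg.IsComponent L ∧
        L.map (QuotientGroup.mk' (Cfsg.pPrimeCore 2 X)) =
          K.map (QuotientGroup.mk' (Cfsg.pPrimeCore 2 X)) := by
      by_contra hcon
      push Not at hcon
      apply Cfsg.Agent.Helper3.component_not_commutative _ hK.2.1
      have h1 : (Cfsg.layer X).map (QuotientGroup.mk' (Cfsg.pPrimeCore 2 X)) ≤
          Subgroup.centralizer
            ((K.map (QuotientGroup.mk' (Cfsg.pPrimeCore 2 X)) : Subgroup _) : Set _) := by
        rw [Subgroup.map_le_iff_le_comap]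
        apply sSup_le
        intro L hL
        rw [← Subgroup.map_le_iff_le_comap]
        rcases Cfsg.Agent.Helper3.component_map_surjective _ hsurj L hL with h2 | h2
        · rw [h2]; exact bot_le
        · rw [← Subgroup.commutator_eq_bot_iff_le_centralizer]
          exact Cfsg.Agent.Helper3.components_commute _ _ h2 hK.2.1 (hcon L hL)
      have h3 : K.map (QuotientGroup.mk' (Cfsg.pPrimeCore 2 X)) ≤
          Subgroup.centralizer
            ((K.map (QuotientGroup.mk' (Cfsg.pPrimeCore 2 X)) : Subgroup _) : Set _) := by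
        refine le_trans ?_ h1
        have h4 : (Cfsg.layer X).map (QuotientGroup.mk' (Cfsg.pPrimeCore 2 X)) =
            Cfsg.layer (X ⧸ Cfsg.pPrimeCore 2 X) := h
        rw [h4]
        exact Cfsg.Agent.Helper3.component_le_layer _ hK.2.1
      intro a ha b hb
      exact Subgroup.mem_centralizer_iff.mp (h3 hb) a ha
    obtain ⟨L, hL, hLmap⟩ := hex
    have hLp : Cfsg.IsPComponent 2 L := by
      refine ⟨hL.1, by rw [hLmap]; exact hK.2.1, ?_⟩
      intro H hHsn hHL hHmap
      rcases Cfsg.Agent.Helper3.quasisimple_subnormal hL.2 (H.subgroupOf L) hHsn.subgroupOf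
        with h1 | h1
      · exact le_antisymm hHL (Subgroup.subgroupOf_eq_top.mp h1)
      · exfalso
        apply Cfsg.Agent.Helper3.component_not_commutative _ hK.2.1
        rw [← hLmap, ← hHmap]
        rintro _ ⟨a, ha, rfl⟩ _ ⟨b, hb, rfl⟩
        have ha' : (⟨a, hHL ha⟩ : L) ∈ Subgroup.center L := h1 (Subgroup.mem_subgroupOf.mpr ha)
        have h2 := Subgroup.mem_center_iff.mp ha' ⟨b, hHL hb⟩
        have h3 : b * a = a * b := congrArg Subtype.val h2
        rw [← map_mul, ← map_mul, h3]
    have h5 := Cfsg.Agent.Helper3.pcomp_unique 2 K L hK hLp hLmap.symm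
    rw [h5]; exact Cfsg.Agent.Helper3.component_le_layer L hL
  · intro h
    apply le_antisymm hle
    have h6 := Cfsg.Agent.Helper3.pLayer_map_eq (X := X) 2
    rw [← h6]
    exact Subgroup.map_mono h

end Cfsg.Agent.S1277
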