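import Cfsg.Statements.S1278
import Cfsg.Agent.Helper3.PComp3

set_option autoImplicit false
open Cfsg

namespace Cfsg.Agent.S1278

/-- Let K ≠ L be 2-components of the finite group X. Then ⁅K, L⁆ ≤ O(K) ⊓ O(L), and if K is quasisimple then ⁅K, L⁆ = 1. -/
theorem result {X : Type*} [Group X] [Finite X] (K L : Subgroup X) (hK : Cfsg.IsPComponent 2 K) (hL : Cfsg.IsPComponent 2 L) (hne : K ≠ L) : ⁅K, L⁆ ≤ ((Cfsg.oddCore ↥K).map K.subtype) ⊓ ((Cfsg.oddCore ↥L).map L.subtype) ∧ (Cfsg.IsQuasisimple ↥K → ⁅K, L⁆ = ⊥) := by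
  haveI : Fact (Nat.Prime 2) := ⟨Nat.prime_two⟩
  have himg : K.map (QuotientGroup.mk' (Cfsg.pPrimeCore 2 X)) ≠
      L.map (QuotientGroup.mk' (Cfsg.pPrimeCore 2 X)) :=
    fun h => hne (Cfsg.Agent.Helper3.pcomp_unique 2 K L hK hL h)
  have h1 : ⁅K, L⁆ ≤ Cfsg.pPrimeCore 2 X := by
    have h0 := Cfsg.Agent.Helper3.components_commute _ _ hK.2.1 hL.2.1 himg
    rw [← Subgroup.map_commutator, Subgroup.map_eq_bot_iff, QuotientGroup.ker_mk'] at h0
    exact h0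
  have h2 : ⁅K, L⁆ ≤ K :=
    Subgroup.le_normalizer_iff_commutator_le_left.mp
      (Cfsg.Agent.Helper3.pcomp_le_normalizer 2 K L hK hL)
  have h3 : ⁅K, L⁆ ≤ L :=
    Subgroup.le_normalizer_iff_commutator_le_right.mp
      (Cfsg.Agent.Helper3.pcomp_le_normalizer 2 L K hL hK)
  have h4 : ⁅K, L⁆ ≤ (Cfsg.oddCore ↥K).map K.subtype := by
    rw [Cfsg.Agent.Helper3.pPrimeCore_map_subtype_eq 2 K hK.1]
    exact le_inf h1 h2
  have h5 : ⁅K, L⁆ ≤ (Cfsg.oddCore ↥L).map L.subtype := by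
    rw [Cfsg.Agent.Helper3.pPrimeCore_map_subtype_eq 2 L hL.1]
    exact le_inf h1 h3
  refine ⟨le_inf h4 h5, ?_⟩
  intro hq
  have hZ : ⁅K, (Cfsg.oddCore ↥K).map K.subtype⁆ = ⊥ := by
    rcases Cfsg.Agent.Helper3.quasisimple_normal hq (Cfsg.oddCore ↥K) with h | h
    · exfalso
      haveI := Cfsg.Agent.Helper3.quasisimple_nontrivial
        (Cfsg.Agent.Helper3.pcomp_quotient_quasisimple 2 K hK)
      exact (QuotientGroup.nontrivial_iff.mp inferInstance) h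
    · rw [Subgroup.commutator_eq_bot_iff_le_centralizer]
      intro k hk
      rw [Subgroup.mem_centralizer_iff]
      rintro _ ⟨y, hy, rfl⟩
      have h1 := Subgroup.mem_center_iff.mp (h hy) ⟨k, hk⟩
      exact (congrArg Subtype.val h1).symm
  have h6 : ⁅⁅K, L⁆, K⁆ = ⊥ := by
    rw [eq_bot_iff, ← hZ, Subgroup.commutator_comm K ((Cfsg.oddCore ↥K).map K.subtype)]
    exact Subgroup.commutator_mono h4 le_rfl
  have h7 : ⁅⁅L, K⁆, K⁆ = ⊥ := by rw [Subgroup.commutator_comm L K]; exact h6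
  have h8 := Subgroup.commutator_commutator_eq_bot_of_rotate h6 h7
  rw [Cfsg.Agent.Helper3.pcomp_perfect 2 K hK] at h8
  exact h8

end Cfsg.Agent.S1278
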