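import Cfsg.Statements.S1281
import Cfsg.Agent.Helper3.Signalizer2

set_option autoImplicit false
open Cfsg

namespace Cfsg.Agent.S1281

/-- Let θ be a solvable A-signalizer functor on the finite group G (A a noncyclic elementary abelian p-subgroup) and N a normal subgroup of order prime to p. Then for all non-identity a, b ∈ A, the image of θ a in G / N meets the centralizer of the image of b inside the image of θ b. -/
theorem result {G : Type*} [Group G] [Finite G] (p : ℕ) [Fact p.Prime] (A : Subgroup G) (hA : Cfsg.IsElementaryAbelian p A) (hA2 : p ^ 2 ≤ Nat.card ↥A) (θ : G → Subgroup G) (hθ : Cfsg.IsSolvableSignalizerFunctor p A θ) (N : Subgroup G) [N.Normal] (hN : ¬ p ∣ Nat.card ↥N) (a b : G) (ha : a ∈ A) (ha1 : a ≠ 1) (hb : b ∈ A) (hb1 : b ≠ 1) : (θ a).map (QuotientGroup.mk' N) ⊓ Subgroup.centralizer {QuotientGroup.mk' N b} ≤ (θ b).map (QuotientGroup.mk' N) := by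
  obtain ⟨⟨hC, hp', hinv, hbal⟩, _⟩ := hθ
  have hp := (Fact.out : p.Prime)
  rintro _ ⟨⟨g, hg, rfl⟩, hcent⟩
  have hg' : g ∈ θ a := hg
  have hDc : (Nat.card ↥(N ⊓ θ a)).Coprime p :=
    Nat.Coprime.coprime_dvd_left (Subgroup.card_dvd_of_le inf_le_left)
      ((Nat.Prime.coprime_iff_not_dvd hp).mpr hN).symm
  have hbD : b ∈ Subgroup.normalizer ((N ⊓ θ a : Subgroup G) : Set G) := by
    apply Cfsg.Agent.Helper5.mem_normalizer_of_conj_le
    rintro _ ⟨d, hd, rfl⟩
    rw [SetLike.mem_coe, Subgroup.mem_inf] at hd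
    exact Subgroup.mem_inf.mpr ⟨‹N.Normal›.conj_mem d hd.1 b, hinv a ha ha1 b hb d hd.2⟩
  have hgD : g ∈ Subgroup.normalizer ((N ⊓ θ a : Subgroup G) : Set G) := by
    have : θ a ≤ Subgroup.normalizer ((N ⊓ θ a : Subgroup G) : Set G) := by
      apply Cfsg.Agent.Helper3.le_normalizer_of_conj_mem
      intro s hs d hd
      rw [Subgroup.mem_inf] at hd
      exact Subgroup.mem_inf.mpr ⟨‹N.Normal›.conj_mem d hd.1 s,
        mul_mem (mul_mem hs hd.2) (inv_mem hs)⟩
    exact this hg'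
  have hc : g * b * g⁻¹ * b⁻¹ ∈ N ⊓ θ a := by
    rw [Subgroup.mem_inf]
    constructor
    · have h1 := Subgroup.mem_centralizer_iff.mp hcent (QuotientGroup.mk' N b) rfl
      rw [← QuotientGroup.eq_one_iff]
      have h2 : ((g * b * g⁻¹ * b⁻¹ : G) : G ⧸ N) =
          (QuotientGroup.mk' N g) * (QuotientGroup.mk' N b) * (QuotientGroup.mk' N g)⁻¹ *
            (QuotientGroup.mk' N b)⁻¹ := by
        simp
      rw [h2, ← h1]
      group
    · have := mul_mem hg' (hinv a ha ha1 b hb g⁻¹ (inv_mem hg'))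
      simpa [mul_assoc] using this
  obtain ⟨d, hd, hdc⟩ := Cfsg.Agent.Helper3.exists_mul_commute_of_commutator_mem p (N ⊓ θ a) hDc
    b g (hA.2 b hb) hbD hgD hc
  rw [Subgroup.mem_inf] at hd
  refine ⟨d * g, hbal a ha ha1 b hb hb1 ⟨mul_mem hd.2 hg',
    (Cfsg.Agent.Helper5.mem_centralizer_singleton_iff b (d * g)).mpr hdc⟩, ?_⟩
  have h3 : (QuotientGroup.mk' N) d = 1 := (QuotientGroup.eq_one_iff d).mpr hd.1
  rw [map_mul, h3, one_mul]

end Cfsg.Agent.S1281
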