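import Cfsg.Statements.S1286
import Mathlib

set_option autoImplicit false
open Cfsg

namespace Cfsg.Agent.S1286

abbrev X5 := Equiv.Perm (Fin 5)
def a5 : X5 := Equiv.swap 0 1
def b5 : X5 := Equiv.swap 2 3
def x5 : X5 := Equiv.swap 2 3 * Equiv.swap 3 4
def y5 : X5 := Equiv.swap 0 1 * Equiv.swap 1 4

def A5 : Subgroup X5 where
  carrier := {g | g = 1 ∨ g = a5 ∨ g = b5 ∨ g = a5 * b5}
  one_mem' := Or.inl rfl
  mul_mem' := by
    rintro _ _ (rfl | rfl | rfl | rfl) (rfl | rfl | rfl | rfl) <;>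
      show _ = _ ∨ _ = _ ∨ _ = _ ∨ _ = _ <;> decide
  inv_mem' := by
    rintro _ (rfl | rfl | rfl | rfl) <;>
      show _ = _ ∨ _ = _ ∨ _ = _ ∨ _ = _ <;> decide

theorem mem_A5 {g : X5} : g ∈ A5 ↔ g = 1 ∨ g = a5 ∨ g = b5 ∨ g = a5 * b5 := Iff.rfl

open Classical in
noncomputable def θ5 (g : X5) : Subgroup X5 :=
  if g = a5 then Subgroup.zpowers x5 else if g = b5 then Subgroup.zpowers y5 else ⊥

theorem θ5_a : θ5 a5 = Subgroup.zpowers x5 := by
  unfold θ5; rw [if_pos rfl]

theorem θ5_b : θ5 b5 = Subgroup.zpowers y5 := by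
  unfold θ5; rw [if_neg (by decide), if_pos rfl]

theorem θ5_ab : θ5 (a5 * b5) = ⊥ := by
  unfold θ5; rw [if_neg (by decide), if_neg (by decide)]

theorem mem_zpowers_three {G : Type*} [Group G] {g z : G} (h3 : g ^ 3 = 1)
    (hz : z ∈ Subgroup.zpowers g) : z = 1 ∨ z = g ∨ z = g⁻¹ := by
  obtain ⟨k, rfl⟩ := Subgroup.mem_zpowers_iff.1 hz
  have h3' : g ^ (3 : ℤ) = 1 := by exact_mod_cast h3
  rw [zpow_eq_zpow_emod k h3']
  have h1 : 0 ≤ k % 3 := Int.emod_nonneg _ (by norm_num)
  have h2 : k % 3 < 3 := Int.emod_lt_of_pos _ (by norm_num)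
  obtain h | h | h : k % 3 = 0 ∨ k % 3 = 1 ∨ k % 3 = 2 := by omega
  · left; rw [h, zpow_zero]
  · right; left; rw [h, zpow_one]
  · right; right
    rw [h, eq_inv_iff_mul_eq_one, ← zpow_add_one]
    norm_num
    exact h3

theorem x5_pow : x5 ^ 3 = 1 := by decide
theorem y5_pow : y5 ^ 3 = 1 := by decide

theorem mem_zx {w : X5} (h : w = 1 ∨ w = x5 ∨ w = x5⁻¹) : w ∈ Subgroup.zpowers x5 := by
  rcases h with rfl | rfl | rfl
  · exact Subgroup.one_mem _
  · exact Subgroup.mem_zpowers _
  · exact Subgroup.inv_mem _ (Subgroup.mem_zpowers _)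

theorem mem_zy {w : X5} (h : w = 1 ∨ w = y5 ∨ w = y5⁻¹) : w ∈ Subgroup.zpowers y5 := by
  rcases h with rfl | rfl | rfl
  · exact Subgroup.one_mem _
  · exact Subgroup.mem_zpowers _
  · exact Subgroup.inv_mem _ (Subgroup.mem_zpowers _)

theorem card_zx : Nat.card (Subgroup.zpowers x5) = 3 := by
  haveI : Fact (Nat.Prime 3) := ⟨by norm_num⟩
  rw [Nat.card_zpowers]
  exact orderOf_eq_prime x5_pow (by decide)

theorem card_zy : Nat.card (Subgroup.zpowers y5) = 3 := by
  haveI : Fact (Nat.Prime 3) := ⟨by norm_num⟩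
  rw [Nat.card_zpowers]
  exact orderOf_eq_prime y5_pow (by decide)

theorem mem_cent {g z : X5} : z ∈ Subgroup.centralizer ({g} : Set X5) ↔ g * z = z * g := by
  rw [Subgroup.mem_centralizer_iff]
  simp only [Set.mem_singleton_iff, forall_eq]

theorem sig5 : Cfsg.IsSignalizerFunctor 2 A5 θ5 := by
  refine ⟨?_, ?_, ?_, ?_⟩
  · intro a ha ha1
    rcases mem_A5.1 ha with rfl | rfl | rfl | rfl
    · exact absurd rfl ha1
    · rw [θ5_a, Subgroup.zpowers_le, mem_cent]; decide
    · rw [θ5_b, Subgroup.zpowers_le, mem_cent]; decide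
    · rw [θ5_ab]; exact bot_le
  · intro a ha ha1
    rcases mem_A5.1 ha with rfl | rfl | rfl | rfl
    · exact absurd rfl ha1
    · rw [θ5_a, card_zx]; norm_num
    · rw [θ5_b, card_zy]; norm_num
    · rw [θ5_ab, Subgroup.card_bot]; norm_num
  · intro a ha ha1 b hb z hz
    rcases mem_A5.1 ha with rfl | rfl | rfl | rfl
    · exact absurd rfl ha1
    · rw [θ5_a] at hz ⊢
      apply mem_zx
      rcases mem_zpowers_three x5_pow hz with rfl | rfl | rfl <;>
        rcases mem_A5.1 hb with rfl | rfl | rfl | rfl <;> decide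
    · rw [θ5_b] at hz ⊢
      apply mem_zy
      rcases mem_zpowers_three y5_pow hz with rfl | rfl | rfl <;>
        rcases mem_A5.1 hb with rfl | rfl | rfl | rfl <;> decide
    · rw [θ5_ab] at hz ⊢
      rw [Subgroup.mem_bot] at hz ⊢
      rw [hz]; group
  · intro a ha ha1 b hb hb1 z hz
    obtain ⟨hz1, hz2⟩ := Subgroup.mem_inf.1 hz
    rw [mem_cent] at hz2
    rcases mem_A5.1 ha with rfl | rfl | rfl | rfl
    · exact absurd rfl ha1
    · rw [θ5_a] at hz1
      rcases mem_A5.1 hb with rfl | rfl | rfl | rfl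
      · exact absurd rfl hb1
      · rw [θ5_a]; exact hz1
      · rcases mem_zpowers_three x5_pow hz1 with rfl | rfl | rfl
        · exact Subgroup.one_mem _
        · exact absurd hz2 (by decide)
        · exact absurd hz2 (by decide)
      · rcases mem_zpowers_three x5_pow hz1 with rfl | rfl | rfl
        · exact Subgroup.one_mem _
        · exact absurd hz2 (by decide)
        · exact absurd hz2 (by decide)
    · rw [θ5_b] at hz1
      rcases mem_A5.1 hb with rfl | rfl | rfl | rfl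
      · exact absurd rfl hb1
      · rcases mem_zpowers_three y5_pow hz1 with rfl | rfl | rfl
        · exact Subgroup.one_mem _
        · exact absurd hz2 (by decide)
        · exact absurd hz2 (by decide)
      · rw [θ5_b]; exact hz1
      · rcases mem_zpowers_three y5_pow hz1 with rfl | rfl | rfl
        · exact Subgroup.one_mem _
        · exact absurd hz2 (by decide)
        · exact absurd hz2 (by decide)
    · rw [θ5_ab, Subgroup.mem_bot] at hz1
      rw [hz1]; exact Subgroup.one_mem _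

theorem card_A5 : Nat.card ↥A5 = 4 := by
  have h1 : (A5 : Set X5) = (({1, a5, b5, a5 * b5} : Finset X5) : Set X5) := by
    ext g
    simp only [SetLike.mem_coe, mem_A5, Finset.coe_insert, Finset.coe_singleton,
      Set.mem_insert_iff, Set.mem_singleton_iff]
  have h2 : Nat.card ↥A5 = Set.ncard (A5 : Set X5) := (Nat.card_coe_set_eq _)
  rw [h2, h1, Set.ncard_coe_finset]
  decide

/-- There exist a finite group X, an elementary abelian subgroup A of order 4 and a solvable A-signalizer functor θ on X for the prime 2 which is not complete. -/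
theorem result : ∃ (X : Type) (_ : Group X) (_ : Finite X) (A : Subgroup X) (θ : X → Subgroup X), Cfsg.IsElementaryAbelian 2 A ∧ Nat.card ↥A = 4 ∧ Cfsg.IsSolvableSignalizerFunctor 2 A θ ∧ ¬ Cfsg.IsCompleteSignalizerFunctor 2 A θ := by
  refine ⟨X5, inferInstance, inferInstance, A5, θ5, ?_, card_A5, ⟨sig5, ?_⟩, ?_⟩
  · refine ⟨⟨⟨?_⟩⟩, ?_⟩
    · rintro ⟨g, hg⟩ ⟨h, hh⟩
      apply Subtype.ext
      show g * h = h * g
      rcases mem_A5.1 hg with rfl | rfl | rfl | rfl <;>
        rcases mem_A5.1 hh with rfl | rfl | rfl | rfl <;> decide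
    · intro g hg
      rcases mem_A5.1 hg with rfl | rfl | rfl | rfl <;> decide
  · intro a ha ha1
    rcases mem_A5.1 ha with rfl | rfl | rfl | rfl
    · exact absurd rfl ha1
    · rw [θ5_a]
      exact Group.isSolvable_of_comm (fun u v => (Subgroup.zpowers_isMulCommutative x5).is_comm.comm u v)
    · rw [θ5_b]
      exact Group.isSolvable_of_comm (fun u v => (Subgroup.zpowers_isMulCommutative y5).is_comm.comm u v)
    · rw [θ5_ab]
      exact Group.isSolvable_of_comm (fun u v => Subsingleton.elim _ _)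
  · rintro ⟨-, W, -, hodd, hW⟩
    apply hodd
    have hx : x5 ∈ W := by
      have h := hW a5 (mem_A5.2 (Or.inr (Or.inl rfl))) (by decide)
      rw [θ5_a] at h
      have : x5 ∈ W ⊓ Subgroup.centralizer ({a5} : Set X5) := by
        rw [h]; exact Subgroup.mem_zpowers _
      exact (Subgroup.mem_inf.1 this).1
    have hy : y5 ∈ W := by
      have h := hW b5 (mem_A5.2 (Or.inr (Or.inr (Or.inl rfl)))) (by decide)
      rw [θ5_b] at h
      have : y5 ∈ W ⊓ Subgroup.centralizer ({b5} : Set X5) := by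
        rw [h]; exact Subgroup.mem_zpowers _
      exact (Subgroup.mem_inf.1 this).1
    have hw : x5 * y5 * x5 * y5⁻¹ ∈ W :=
      W.mul_mem (W.mul_mem (W.mul_mem hx hy) hx) (W.inv_mem hy)
    haveI : Fact (Nat.Prime 2) := ⟨Nat.prime_two⟩
    have ho : orderOf (x5 * y5 * x5 * y5⁻¹) = 2 := orderOf_eq_prime (by decide) (by decide)
    have h1 : orderOf (⟨x5 * y5 * x5 * y5⁻¹, hw⟩ : W) ∣ Nat.card W := orderOf_dvd_natCard _
    rw [Subgroup.orderOf_mk, ho] at h1
    exact h1

end Cfsg.Agent.S1286
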