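import Cfsg.Statements.S1288
import Cfsg.Prelude.Def_CaseTheorems
import Cfsg.Agent.Helper3.CoprimeGen
import Cfsg.Agent.Helper3.PComp3
import Cfsg.Agent.Helper3.FStar
import Cfsg.Agent.Helper4.Cores
import Cfsg.Agent.Helper5.Basic
import Cfsg.Agent.S0044

set_option autoImplicit false
open Cfsg

namespace Cfsg.Agent.S1288

open scoped commutatorElement

universe u

/-- A finite solvable group with trivial `q'`-core: `O_q` contains its centralizer. -/
theorem sc_of_solvable {Y : Type u} [Group Y] [Finite Y] [Group.IsSolvable Y] (q : ℕ)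
    [Fact q.Prime] (hO : Cfsg.pPrimeCore q Y = ⊥) :
    Subgroup.centralizer (Cfsg.pCore q Y : Set Y) ≤ Cfsg.pCore q Y := by
  have hq := (Fact.out : q.Prime)
  haveI hFn : (Cfsg.fittingSubgroup Y).Normal := Helper4.fittingSubgroup_normal Y
  have hF : IsPGroup q ↥(Cfsg.fittingSubgroup Y) := by
    haveI hnil := Helper3.fitting_nilpotent Y
    have hcard : ∀ r : ℕ, r.Prime → r ∣ Nat.card (Cfsg.fittingSubgroup Y) → r = q := by
      intro r hr hdvd
      haveI : Fact r.Prime := ⟨hr⟩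
      obtain ⟨R⟩ : Nonempty (Sylow r ↥(Cfsg.fittingSubgroup Y)) := inferInstance
      haveI hRn : (R : Subgroup ↥(Cfsg.fittingSubgroup Y)).Normal :=
        Sylow.normal_of_normalizerCondition Group.normalizerCondition_of_isNilpotent R
      have hsn : ((R : Subgroup ↥(Cfsg.fittingSubgroup Y)).map
          (Cfsg.fittingSubgroup Y).subtype).IsSubnormal :=
        Subgroup.IsSubnormal.trans' hRn.isSubnormal hFn.isSubnormal
      have hne : (R : Subgroup ↥(Cfsg.fittingSubgroup Y)).map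
          (Cfsg.fittingSubgroup Y).subtype ≠ ⊥ := by
        intro h
        rw [Subgroup.map_eq_bot_iff_of_injective _ (Subgroup.subtype_injective _)] at h
        exact Sylow.ne_bot_of_dvd_card R hdvd h
      have hqd := Helper3.dvd_card_of_subnormal_of_pPrimeCore_eq_bot q hO _ hsn hne
      rw [Subgroup.card_map_of_injective (Subgroup.subtype_injective _)] at hqd
      obtain ⟨k, hk⟩ := IsPGroup.iff_card.1 R.2
      rw [hk] at hqd
      exact ((Nat.prime_dvd_prime_iff_eq hq hr).1 (hq.dvd_of_dvd_pow hqd)).symm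
    exact IsPGroup.of_card (Nat.eq_prime_pow_of_unique_prime_dvd Nat.card_pos.ne'
      (fun hd hdvd => hcard _ hd hdvd))
  have hFle : Cfsg.fittingSubgroup Y ≤ Cfsg.pCore q Y := Helper3.le_pCore _ hF
  exact (Subgroup.centralizer_le (SetLike.coe_subset_coe.2 hFle)).trans
    (S0044.result.trans hFle)

theorem exists_hyperplane {H : Type u} [Group H] [Finite H] (p : ℕ) [Fact p.Prime]
    (A : Subgroup H) (hA : IsPGroup p A) (hA2 : p ^ 2 ≤ Nat.card ↥A) :
    ∃ B' : Subgroup H, B' ≤ A ∧ B'.relIndex A = p := by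
  have hp := (Fact.out : p.Prime)
  obtain ⟨k, hk⟩ := IsPGroup.iff_card.1 hA
  have hk1 : 1 ≤ k := by
    rcases Nat.eq_zero_or_pos k with h | h
    · exfalso
      rw [h, pow_zero] at hk
      rw [hk] at hA2
      have := hp.one_lt
      nlinarith
    · exact h
  obtain ⟨B₀, hB₀⟩ := Sylow.exists_subgroup_card_pow_prime (G := ↥A) p (n := k - 1)
    (by rw [hk]; exact pow_dvd_pow p (Nat.sub_le k 1))
  refine ⟨B₀.map A.subtype, Subgroup.map_subtype_le _, ?_⟩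
  show ((B₀.map A.subtype).comap A.subtype).index = p
  rw [Subgroup.comap_map_eq_self_of_injective A.subtype_injective]
  have h1 := Subgroup.card_mul_index B₀
  rw [hB₀, hk] at h1
  have h2 : p ^ k = p ^ (k - 1) * p := by
    rw [← pow_succ]
    congr 1
    omega
  rw [h2] at h1
  exact Nat.eq_of_mul_eq_mul_left (pow_pos hp.pos _) h1

/-- Let A be a noncyclic elementary abelian p-subgroup of a finite group H normalizing a solvable subgroup K of order prime to p, q a prime dividing |K|, and U ≤ K a subgroup of order prime to q such that ⁅U, C_K(B)⁆ has order prime to q for every subgroup B of index p in A. Then U ≤ O_{q'}(K). -/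
theorem result {H : Type*} [Group H] [Finite H] (p : ℕ) [Fact p.Prime] (A K : Subgroup H) (hA : Cfsg.IsElementaryAbelian p A) (hA2 : p ^ 2 ≤ Nat.card ↥A) (hK : ¬ p ∣ Nat.card ↥K) (hKs : Group.IsSolvable ↥K) (hAK : A ≤ Subgroup.normalizer (K : Set H)) (q : ℕ) [Fact q.Prime] (hqK : q ∣ Nat.card ↥K) (U : Subgroup H) (hU : U ≤ K) (hUq : ¬ q ∣ Nat.card ↥U) (hcomm : ∀ B : Subgroup H, B ≤ A → B.relIndex A = p → ¬ q ∣ Nat.card ↥⁅U, K ⊓ Subgroup.centralizer (B : Set H)⁆) : U ≤ (Cfsg.pPrimeCore q ↥K).map K.subtype := by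
  classical
  have hp := (Fact.out : p.Prime)
  have hq := (Fact.out : q.Prime)
  haveI := hKs
  obtain ⟨π, hπ⟩ : ∃ π : ↥K →* ↥K ⧸ Cfsg.pPrimeCore q ↥K,
      π = QuotientGroup.mk' (Cfsg.pPrimeCore q ↥K) := ⟨_, rfl⟩
  have hπs : Function.Surjective π := by rw [hπ]; exact QuotientGroup.mk'_surjective _
  have hker : π.ker = Cfsg.pPrimeCore q ↥K := by rw [hπ]; exact QuotientGroup.ker_mk' _
  have hO : Cfsg.pPrimeCore q (↥K ⧸ Cfsg.pPrimeCore q ↥K) = ⊥ :=
    Helper3.pPrimeCore_quotient_eq_bot q ↥K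
  have hSC := sc_of_solvable q hO
  obtain ⟨Qb, hQb⟩ : ∃ Qb : Subgroup (↥K ⧸ Cfsg.pPrimeCore q ↥K),
      Qb = Cfsg.pCore q (↥K ⧸ Cfsg.pPrimeCore q ↥K) := ⟨_, rfl⟩
  rw [← hQb] at hSC
  have hQbq : IsPGroup q Qb := by rw [hQb]; exact Helper3.pCore_isPGroup q _
  haveI hQbn : Qb.Normal := by rw [hQb]; infer_instance
  obtain ⟨Q₁, hQ₁⟩ : ∃ Q₁ : Subgroup H, Q₁ = (Qb.comap π).map K.subtype := ⟨_, rfl⟩
  have hQ₁K : Q₁ ≤ K := by rw [hQ₁]; exact Subgroup.map_subtype_le _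
  have hmemQ₁ : ∀ x : ↥K, (x : H) ∈ Q₁ ↔ π x ∈ Qb := by
    intro x
    rw [hQ₁]
    constructor
    · rintro ⟨y, hy, hyx⟩
      have hyx' : y = x := Subtype.ext hyx
      rw [← hyx']
      exact hy
    · intro h
      exact ⟨x, h, rfl⟩
  have hAQ₁ : A ≤ Subgroup.normalizer (Q₁ : Set H) := by
    apply Helper3.le_normalizer_of_conj_mem
    intro a ha d hd
    have haK : a ∈ Subgroup.normalizer (K : Set H) := hAK ha
    let e : ↥K ≃* ↥K := K.normalizerMonoidHom ⟨a, haK⟩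
    have hdK : d ∈ K := hQ₁K hd
    have he : ((e ⟨d, hdK⟩ : ↥K) : H) = a * d * a⁻¹ := rfl
    rw [← he, hmemQ₁]
    have hmap : (Cfsg.pPrimeCore q ↥K).map (e : ↥K →* ↥K) = Cfsg.pPrimeCore q ↥K :=
      Helper3.pPrimeCore_map_equiv q e
    let eb : (↥K ⧸ Cfsg.pPrimeCore q ↥K) ≃* (↥K ⧸ Cfsg.pPrimeCore q ↥K) :=
      QuotientGroup.congr _ _ e hmap
    have heb : π (e ⟨d, hdK⟩) = eb (π ⟨d, hdK⟩) := by
      rw [hπ]
      rfl
    rw [heb]
    have hchar := Helper3.pCore_characteristic q (↥K ⧸ Cfsg.pPrimeCore q ↥K)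
    have h1 := (Subgroup.characteristic_iff_map_eq.1 hchar) eb
    rw [← hQb] at h1
    rw [← h1]
    exact Subgroup.mem_map_of_mem _ ((hmemQ₁ ⟨d, hdK⟩).1 hd)
  have hpQ₁ : ¬ p ∣ Nat.card Q₁ := fun h => hK (h.trans (Subgroup.card_dvd_of_le hQ₁K))
  have hgen := Helper3.generated_by_centralizers p A Q₁ hA hpQ₁ hAQ₁
  have hA' : IsPGroup p A := Helper3.isPGroup_of_isElementaryAbelian p A hA
  obtain ⟨B', hB'A, hB'idx⟩ := exists_hyperplane p A hA' hA2
  have hT : ∀ B : Subgroup H, B ≤ A → B.relIndex A ≤ p →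
      ¬ q ∣ Nat.card ↥⁅U, K ⊓ Subgroup.centralizer (B : Set H)⁆ := by
    intro B hBA hle
    by_cases hB : B.relIndex A = p
    · exact hcomm B hBA hB
    · obtain ⟨k, hk⟩ := IsPGroup.iff_card.1 hA'
      have hdvd : B.relIndex A ∣ p ^ k := by
        rw [← hk]
        exact Subgroup.relIndex_dvd_card B A
      obtain ⟨j, hj, hj'⟩ := (Nat.dvd_prime_pow hp).1 hdvd
      have hj0 : j = 0 := by
        by_contra hne
        have h1 : p ^ 1 ≤ p ^ j := Nat.pow_le_pow_right hp.pos (Nat.one_le_iff_ne_zero.2 hne)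
        rw [pow_one, ← hj'] at h1
        exact hB (le_antisymm hle h1)
      rw [hj0, pow_zero] at hj'
      have hAB : A ≤ B := Subgroup.relIndex_eq_one.1 hj'
      intro hdiv
      apply hcomm B' hB'A hB'idx
      refine hdiv.trans (Subgroup.card_dvd_of_le (Subgroup.commutator_mono le_rfl
        (inf_le_inf_left K (Subgroup.centralizer_le ?_))))
      exact SetLike.coe_subset_coe.2 (hB'A.trans hAB)
  have hcomm2 : ∀ u ∈ U, ∀ (hu : u ∈ K), ∀ x ∈ Q₁, ∀ (hx : x ∈ K),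
      π ⟨u, hu⟩ * π ⟨x, hx⟩ = π ⟨x, hx⟩ * π ⟨u, hu⟩ := by
    intro u hu huK
    obtain ⟨Z, hZ⟩ : ∃ Z : Subgroup H, Z = ((Subgroup.centralizer
        ({π ⟨u, huK⟩} : Set (↥K ⧸ Cfsg.pPrimeCore q ↥K))).comap π).map K.subtype := ⟨_, rfl⟩
    have hQZ : Q₁ ≤ Z := by
      refine hgen.le.trans (iSup_le ?_)
      rintro ⟨B, hBA, hBle⟩
      intro x hx
      have hxK : x ∈ K := hQ₁K hx.1
      rw [hZ]
      refine ⟨⟨x, hxK⟩, ?_, rfl⟩
      show π ⟨x, hxK⟩ ∈ Subgroup.centralizer ({π ⟨u, huK⟩} : Set (↥K ⧸ Cfsg.pPrimeCore q ↥K))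
      rw [Helper5.mem_centralizer_singleton_iff]
      have hc : ⁅u, x⁆ ∈ ⁅U, K ⊓ Subgroup.centralizer (B : Set H)⁆ :=
        Subgroup.commutator_mem_commutator hu ⟨hxK, hx.2⟩
      have hcK : ⁅u, x⁆ ∈ K := by
        rw [commutatorElement_def]
        exact K.mul_mem (K.mul_mem (K.mul_mem huK hxK) (K.inv_mem huK)) (K.inv_mem hxK)
      have hπc : π ⟨⁅u, x⁆, hcK⟩ = ⁅π ⟨u, huK⟩, π ⟨x, hxK⟩⁆ := by
        rw [← map_commutatorElement]
        rfl
      have hmemQb : π ⟨⁅u, x⁆, hcK⟩ ∈ Qb := by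
        rw [hπc, commutatorElement_def]
        have hb : π ⟨x, hxK⟩ ∈ Qb := (hmemQ₁ ⟨x, hxK⟩).1 hx.1
        exact Qb.mul_mem (hQbn.conj_mem _ hb _) (Qb.inv_mem hb)
      have ho1 : orderOf (π ⟨⁅u, x⁆, hcK⟩) ∣
          Nat.card ↥⁅U, K ⊓ Subgroup.centralizer (B : Set H)⁆ := by
        have h1 : orderOf (π ⟨⁅u, x⁆, hcK⟩) ∣ orderOf (⟨⁅u, x⁆, hcK⟩ : ↥K) :=
          orderOf_map_dvd π _
        rw [Subgroup.orderOf_mk] at h1
        exact h1.trans (Subgroup.orderOf_dvd_natCard _ hc)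
      obtain ⟨j, hj⟩ := (IsPGroup.iff_orderOf.1 hQbq) ⟨_, hmemQb⟩
      rw [Subgroup.orderOf_mk] at hj
      have ho : orderOf (π ⟨⁅u, x⁆, hcK⟩) = 1 := by
        rcases Nat.eq_zero_or_pos j with h0 | h0
        · rw [hj, h0, pow_zero]
        · exfalso
          rw [hj] at ho1
          exact hT B hBA hBle ((dvd_pow_self q h0.ne').trans ho1)
      rw [orderOf_eq_one_iff, hπc, commutatorElement_eq_one_iff_mul_comm] at ho
      exact ho.symm
    intro x hx hxK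
    have hxZ := hQZ hx
    rw [hZ] at hxZ
    obtain ⟨y, hy, hyx⟩ := hxZ
    have hyx' : y = ⟨x, hxK⟩ := Subtype.ext hyx
    subst hyx'
    have hy' : π ⟨x, hxK⟩ ∈ Subgroup.centralizer
        ({π ⟨u, huK⟩} : Set (↥K ⧸ Cfsg.pPrimeCore q ↥K)) := hy
    rw [Helper5.mem_centralizer_singleton_iff] at hy'
    exact hy'.symm
  intro u hu
  have huK := hU hu
  refine ⟨⟨u, huK⟩, ?_, rfl⟩
  show (⟨u, huK⟩ : ↥K) ∈ Cfsg.pPrimeCore q ↥K
  rw [← hker, MonoidHom.mem_ker]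
  have hcen : π ⟨u, huK⟩ ∈ Subgroup.centralizer (Qb : Set (↥K ⧸ Cfsg.pPrimeCore q ↥K)) := by
    rw [Subgroup.mem_centralizer_iff]
    intro y hy
    obtain ⟨x, rfl⟩ := hπs y
    have hxQ₁ : (x : H) ∈ Q₁ := (hmemQ₁ x).2 hy
    exact (hcomm2 u hu huK (x : H) hxQ₁ x.2).symm
  have hmem : π ⟨u, huK⟩ ∈ Qb := hSC hcen
  obtain ⟨j, hj⟩ := (IsPGroup.iff_orderOf.1 hQbq) ⟨_, hmem⟩
  rw [Subgroup.orderOf_mk] at hj
  have h1 : orderOf (π ⟨u, huK⟩) ∣ Nat.card U := by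
    have h2 : orderOf (π ⟨u, huK⟩) ∣ orderOf (⟨u, huK⟩ : ↥K) := orderOf_map_dvd π _
    rw [Subgroup.orderOf_mk] at h2
    exact h2.trans (Subgroup.orderOf_dvd_natCard _ hu)
  rcases Nat.eq_zero_or_pos j with h0 | h0
  · rw [h0, pow_zero, orderOf_eq_one_iff] at hj
    exact hj
  · exfalso
    rw [hj] at h1
    exact hUq ((dvd_pow_self q h0.ne').trans h1)

end Cfsg.Agent.S1288
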