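import Cfsg.Statements.S1289
import Cfsg.Agent.Helper3.PComp

set_option autoImplicit false
open Cfsg

namespace Cfsg.Agent.S1289

/-- A p-component K of the finite group X is subnormal, perfect, of order divisible by p, and minimal among the subnormal perfect subgroups of X of order divisible by p. -/
theorem result {X : Type*} [Group X] [Finite X] (p : ℕ) [Fact p.Prime] (K : Subgroup X) (hK : Cfsg.IsPComponent p K) : K.IsSubnormal ∧ ⁅K, K⁆ = K ∧ p ∣ Nat.card ↥K ∧ ∀ H : Subgroup X, H ≤ K → H.IsSubnormal → ⁅H, H⁆ = H → p ∣ Nat.card ↥H → H = K := by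
  refine ⟨hK.1, Cfsg.Agent.Helper3.pcomp_perfect p K hK,
    Cfsg.Agent.Helper3.pcomp_dvd_card p K hK, ?_⟩
  intro H hHK hHsn hHperf hHp
  obtain ⟨hsn, hcomp, hmin⟩ := hK
  apply hmin H hHsn hHK
  have hle : H.map (QuotientGroup.mk' (Cfsg.pPrimeCore p X)) ≤
      K.map (QuotientGroup.mk' (Cfsg.pPrimeCore p X)) := Subgroup.map_mono hHK
  have hHbar : (H.map (QuotientGroup.mk' (Cfsg.pPrimeCore p X))).IsSubnormal :=
    hHsn.map (QuotientGroup.mk'_surjective _)
  rcases Cfsg.Agent.Helper3.quasisimple_subnormal hcomp.2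
    ((H.map (QuotientGroup.mk' (Cfsg.pPrimeCore p X))).subgroupOf
      (K.map (QuotientGroup.mk' (Cfsg.pPrimeCore p X)))) hHbar.subgroupOf with h | h
  · exact le_antisymm hle (Subgroup.subgroupOf_eq_top.mp h)
  · exfalso
    have hcomm : ⁅H.map (QuotientGroup.mk' (Cfsg.pPrimeCore p X)),
        H.map (QuotientGroup.mk' (Cfsg.pPrimeCore p X))⁆ = ⊥ := by
      rw [Subgroup.commutator_eq_bot_iff_le_centralizer]
      intro a ha
      rw [Subgroup.mem_centralizer_iff]
      intro b hb
      have hb' : (⟨b, hle hb⟩ : ↥(K.map (QuotientGroup.mk' (Cfsg.pPrimeCore p X)))) ∈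
          Subgroup.center ↥(K.map (QuotientGroup.mk' (Cfsg.pPrimeCore p X))) :=
        h (Subgroup.mem_subgroupOf.mpr hb)
      have h1 := Subgroup.mem_center_iff.mp hb' ⟨a, hle ha⟩
      exact (congrArg Subtype.val h1).symm
    rw [← Subgroup.map_commutator, hHperf, Subgroup.map_eq_bot_iff, QuotientGroup.ker_mk'] at hcomm
    have hc : (Nat.card H).Coprime p :=
      Nat.Coprime.coprime_dvd_left (Subgroup.card_dvd_of_le hcomm)
        (Cfsg.Agent.Helper3.pPrimeCore_coprime p X)
    exact (Nat.Prime.coprime_iff_not_dvd (Fact.out : p.Prime)).mp hc.symm hHp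

end Cfsg.Agent.S1289
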