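import Cfsg.Statements.S1300
import Mathlib

set_option autoImplicit false
open Cfsg

namespace Cfsg.Agent.S1300

/-- For a finite group G, balance in the sense of commuting involutions is the same as 1-balance for the prime 2. -/
theorem result {G : Type*} [Group G] [Finite G] : Cfsg.IsBalanced G ↔ Cfsg.IsKBalanced 2 1 G := by
  constructor
  · intro hbal A hA hcard b hb hcomm
    have hAne : A ≠ ⊥ := by
      rintro rfl
      rw [Subgroup.card_bot] at hcard
      norm_num at hcard
    obtain ⟨a, ha1⟩ := (Subgroup.ne_bot_iff_exists_ne_one).mp hAne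
    have ha1' : (a : G) ≠ 1 := fun h => ha1 (Subtype.ext h)
    haveI : Fact (Nat.Prime 2) := ⟨Nat.prime_two⟩
    have hord : orderOf (a : G) = 2 := orderOf_eq_prime (hA.2 a a.2) ha1'
    have h1 : Cfsg.signalizerDelta 2 A ≤ Cfsg.centralizerPPrimeCore 2 (a : G) :=
      iInf_le (fun a : {a : G // a ∈ A ∧ a ≠ 1} => Cfsg.centralizerPPrimeCore 2 (a : G))
        ⟨(a : G), a.2, ha1'⟩
    have h2 := hbal (a : G) b hord hb (hcomm a a.2)
    calc Cfsg.signalizerDelta 2 A ⊓ Subgroup.centralizer {b}
        ≤ Cfsg.centralizerPPrimeCore 2 (a : G) ⊓ Subgroup.centralizer {b} :=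
          inf_le_inf_right _ h1
      _ = Cfsg.centralizerPPrimeCore 2 b ⊓ Subgroup.centralizer {(a : G)} := h2
      _ ≤ Cfsg.centralizerPPrimeCore 2 b := inf_le_left
  · intro hk
    have key : ∀ x y : G, orderOf x = 2 → orderOf y = 2 → x * y = y * x →
        Cfsg.centralizerPPrimeCore 2 x ⊓ Subgroup.centralizer {y} ≤
          Cfsg.centralizerPPrimeCore 2 y ⊓ Subgroup.centralizer {x} := by
      intro x y hx hy hxy
      have hx2 : x ^ 2 = 1 := by rw [← hx]; exact pow_orderOf_eq_one x
      refine le_inf ?_ (inf_le_left.trans (Subgroup.map_subtype_le _))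
      have hmem : ∀ a ∈ Subgroup.zpowers x, a = 1 ∨ a = x := by
        intro a ha
        obtain ⟨k, rfl⟩ := Subgroup.mem_zpowers_iff.mp ha
        rw [← zpow_mod_orderOf, hx]
        push_cast
        rcases Int.emod_two_eq_zero_or_one k with h | h
        · left; rw [h]; simp
        · right; rw [h]; simp
      have hA : Cfsg.IsElementaryAbelian 2 (Subgroup.zpowers x) := by
        refine ⟨inferInstance, ?_⟩
        intro a ha
        rcases hmem a ha with h | h
        · rw [h]; simp
        · rw [h]; exact hx2
      have hcard : Nat.card (Subgroup.zpowers x) = 2 ^ 1 := by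
        rw [Nat.card_zpowers, hx]; rfl
      have hcomm : ∀ a ∈ Subgroup.zpowers x, a * y = y * a := by
        intro a ha
        rcases hmem a ha with h | h
        · rw [h]; simp
        · rw [h]; exact hxy
      have h1 := hk (Subgroup.zpowers x) hA hcard y hy hcomm
      refine le_trans (inf_le_inf_right _ ?_) h1
      apply le_iInf
      rintro ⟨a, ha, ha1⟩
      rcases hmem a ha with h | h
      · exact absurd h ha1
      · subst h
        exact le_rfl
    intro x y hx hy hxy
    exact le_antisymm (key x y hx hy hxy) (key y x hy hx hxy.symm)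

end Cfsg.Agent.S1300
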