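import Cfsg.Statements.S1303
import Mathlib

set_option autoImplicit false
open Cfsg

namespace Cfsg.Agent.S1303

set_option maxRecDepth 100000 in
theorem d1 : ∀ g h : Matrix.SpecialLinearGroup (Fin 2) (ZMod 3),
    g ^ 4 = 1 → h ^ 4 = 1 → (g * h) ^ 4 = 1 := by decide

set_option maxRecDepth 100000 in
theorem d3 : ∀ g : Matrix.SpecialLinearGroup (Fin 2) (ZMod 3),
    (∀ h : Matrix.SpecialLinearGroup (Fin 2) (ZMod 3), h ^ 4 = 1 → h * g = g * h) → g ^ 4 = 1 := by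
  decide

set_option maxRecDepth 100000 in
theorem d4 : ∀ g : Matrix.SpecialLinearGroup (Fin 2) (ZMod 3), g ≠ 1 →
    ∃ h : Matrix.SpecialLinearGroup (Fin 2) (ZMod 3), ∃ n : Fin 4,
      ((g * h * g⁻¹ * h⁻¹) ^ (n : ℕ) ≠ 1 ∧ ((g * h * g⁻¹ * h⁻¹) ^ (n : ℕ)) ^ 2 = 1) ∨
      (g ^ (n : ℕ) ≠ 1 ∧ (g ^ (n : ℕ)) ^ 2 = 1) := by decide

set_option maxRecDepth 100000 in
theorem d5 : ∀ t : Matrix.SpecialLinearGroup (Fin 2) (ZMod 3), t ^ 2 = 1 →
    ∀ h : Matrix.SpecialLinearGroup (Fin 2) (ZMod 3), h * t = t * h := by decide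

set_option maxRecDepth 100000 in
theorem d6 : ∃ u : Matrix.SpecialLinearGroup (Fin 2) (ZMod 3), u ≠ 1 ∧ u ^ 3 = 1 := by decide

theorem core_bot : Cfsg.pPrimeCore 2 (Matrix.SpecialLinearGroup (Fin 2) (ZMod 3)) = ⊥ := by
  unfold Cfsg.pPrimeCore
  rw [sSup_eq_bot]
  rintro N ⟨hN, hcop⟩
  rw [Subgroup.eq_bot_iff_forall]
  intro g hg
  by_contra hne
  obtain ⟨h, n, hcase⟩ := d4 g hne
  have key : ∃ x ∈ N, x ≠ 1 ∧ x ^ 2 = 1 := by
    rcases hcase with ⟨h1, h2⟩ | ⟨h1, h2⟩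
    · refine ⟨_, ?_, h1, h2⟩
      apply N.pow_mem
      have e1 : h * g⁻¹ * h⁻¹ ∈ N := hN.conj_mem _ (N.inv_mem hg) h
      have e2 := N.mul_mem hg e1
      have e3 : g * (h * g⁻¹ * h⁻¹) = g * h * g⁻¹ * h⁻¹ := by group
      rw [e3] at e2
      exact e2
    · exact ⟨_, N.pow_mem hg _, h1, h2⟩
  obtain ⟨x, hxN, hx1, hx2⟩ := key
  haveI : Fact (Nat.Prime 2) := ⟨Nat.prime_two⟩
  have ho : orderOf x = 2 := orderOf_eq_prime hx2 hx1
  have hdvd : 2 ∣ Nat.card N := by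
    have h := orderOf_dvd_natCard (⟨x, hxN⟩ : N)
    rw [Subgroup.orderOf_mk, ho] at h
    exact h
  have h21 := Nat.Coprime.eq_one_of_dvd hcop.symm hdvd
  omega

theorem pcons : Cfsg.IsPConstrained 2 (Matrix.SpecialLinearGroup (Fin 2) (ZMod 3)) := by
  intro P
  haveI : Fact (Nat.Prime 2) := ⟨Nat.prime_two⟩
  let Q : Subgroup (Matrix.SpecialLinearGroup (Fin 2) (ZMod 3)) :=
    { carrier := {g | g ^ 4 = 1}
      mul_mem' := fun {a b} ha hb => d1 a b ha hb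
      one_mem' := one_pow 4
      inv_mem' := fun {a} ha => by
        show (a⁻¹) ^ 4 = 1
        rw [inv_pow, ha, inv_one] }
  have hQmem : ∀ g : Matrix.SpecialLinearGroup (Fin 2) (ZMod 3), g ∈ Q ↔ g ^ 4 = 1 :=
    fun g => Iff.rfl
  have hQn : Q.Normal := ⟨fun g hg h => by
    rw [hQmem] at hg ⊢
    rw [conj_pow, hg]; group⟩
  have hQp : IsPGroup 2 Q := by
    rintro ⟨g, hg⟩
    refine ⟨2, ?_⟩
    apply Subtype.ext
    show g ^ (2 ^ 2) = 1
    exact (hQmem g).1 hg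
  have hQle : Q ≤ Cfsg.pPrimePCore 2 (Matrix.SpecialLinearGroup (Fin 2) (ZMod 3)) := by
    intro g hg
    unfold Cfsg.pPrimePCore
    rw [Subgroup.mem_comap]
    have hle : Q.map (QuotientGroup.mk' (Cfsg.pPrimeCore 2 (Matrix.SpecialLinearGroup (Fin 2) (ZMod 3))))
        ≤ Cfsg.pCore 2 (Matrix.SpecialLinearGroup (Fin 2) (ZMod 3) ⧸
          Cfsg.pPrimeCore 2 (Matrix.SpecialLinearGroup (Fin 2) (ZMod 3))) := by
      unfold Cfsg.pCore
      apply le_sSup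
      exact ⟨hQn.map _ (QuotientGroup.mk'_surjective _), hQp.map _⟩
    exact hle (Subgroup.mem_map_of_mem _ hg)
  haveI hQ'n : (Q.subgroupOf (Cfsg.pPrimePCore 2 (Matrix.SpecialLinearGroup (Fin 2) (ZMod 3)))).Normal :=
    hQn.subgroupOf _
  have hQ'p : IsPGroup 2 (Q.subgroupOf (Cfsg.pPrimePCore 2 (Matrix.SpecialLinearGroup (Fin 2) (ZMod 3)))) :=
    hQp.comap_subtype
  have hQ'P := hQ'p.le_sylow_of_normal P
  intro g hg
  rw [Subgroup.mem_centralizer_iff] at hg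
  apply hQle
  rw [hQmem]
  apply d3
  intro h hh
  apply hg
  have hhQ : h ∈ Q := (hQmem h).2 hh
  refine ⟨⟨h, hQle hhQ⟩, ?_, rfl⟩
  apply hQ'P
  rw [Subgroup.mem_subgroupOf]
  exact hhQ

/-- The group X = SL(2, 3): it is 2-constrained, O_{2'}(X) = 1, its centre A = Z(X) contains every involution of X = C_X(A), and X has a subgroup of order 3 (normalized by A) not contained in O_{2'}(X). -/
theorem result : Cfsg.IsPConstrained 2 (Matrix.SpecialLinearGroup (Fin 2) (ZMod 3)) ∧ Cfsg.pPrimeCore 2 (Matrix.SpecialLinearGroup (Fin 2) (ZMod 3)) = ⊥ ∧ (∀ t : Matrix.SpecialLinearGroup (Fin 2) (ZMod 3), orderOf t = 2 → t ∈ Subgroup.center (Matrix.SpecialLinearGroup (Fin 2) (ZMod 3))) ∧ ∃ Q : Subgroup (Matrix.SpecialLinearGroup (Fin 2) (ZMod 3)), Nat.card ↥Q = 3 ∧ ¬ (Q ≤ Cfsg.pPrimeCore 2 (Matrix.SpecialLinearGroup (Fin 2) (ZMod 3))) := by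
  refine ⟨pcons, core_bot, ?_, ?_⟩
  · intro t ht
    rw [Subgroup.mem_center_iff]
    intro h
    have ht2 := pow_orderOf_eq_one t
    rw [ht] at ht2
    exact d5 t ht2 h
  · obtain ⟨u, hu1, hu3⟩ := d6
    haveI : Fact (Nat.Prime 3) := ⟨Nat.prime_three⟩
    refine ⟨Subgroup.zpowers u, ?_, ?_⟩
    · rw [Nat.card_zpowers]
      exact orderOf_eq_prime hu3 hu1
    · rw [core_bot]
      intro hle
      have := hle (Subgroup.mem_zpowers u)
      rw [Subgroup.mem_bot] at this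
      exact hu1 this

end Cfsg.Agent.S1303
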