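import Cfsg.Statements.S1304
import Mathlib

set_option autoImplicit false
open Cfsg

namespace Cfsg.Agent.S1304

open scoped commutatorElement

/-- Let X be a perfect group and α an automorphism of X with α(x) x⁻¹ central for every x. Then α is the identity. -/
theorem result {X : Type*} [Group X] (hperf : commutator X = ⊤) (α : X ≃* X) (h : ∀ x : X, α x * x⁻¹ ∈ Subgroup.center X) : ∀ x : X, α x = x := by
  have key1 : ∀ z a c : X, z ∈ Subgroup.center X → ⁅z * a, c⁆ = ⁅a, c⁆ := by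
    intro z a c hz
    rw [Subgroup.mem_center_iff] at hz
    rw [commutatorElement_def, commutatorElement_def]
    calc z * a * c * (z * a)⁻¹ * c⁻¹ = (z * (a * c * a⁻¹)) * z⁻¹ * c⁻¹ := by group
      _ = ((a * c * a⁻¹) * z) * z⁻¹ * c⁻¹ := by rw [hz (a * c * a⁻¹)]
      _ = a * c * a⁻¹ * c⁻¹ := by group
  have key2 : ∀ z a c : X, z ∈ Subgroup.center X → ⁅a, z * c⁆ = ⁅a, c⁆ := by
    intro z a c hz
    rw [Subgroup.mem_center_iff] at hz
    rw [commutatorElement_def, commutatorElement_def]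
    calc a * (z * c) * a⁻¹ * (z * c)⁻¹ = (a * z) * c * a⁻¹ * c⁻¹ * z⁻¹ := by group
      _ = (z * a) * c * a⁻¹ * c⁻¹ * z⁻¹ := by rw [hz a]
      _ = z * (a * c * a⁻¹ * c⁻¹) * z⁻¹ := by group
      _ = (a * c * a⁻¹ * c⁻¹) * z * z⁻¹ := by rw [hz (a * c * a⁻¹ * c⁻¹)]
      _ = a * c * a⁻¹ * c⁻¹ := by group
  have hle : commutator X ≤ MonoidHom.eqLocus α.toMonoidHom (MonoidHom.id X) := by
    rw [commutator_def, Subgroup.commutator_le]
    intro a _ b _
    show α ⁅a, b⁆ = ⁅a, b⁆
    rw [map_commutatorElement]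
    have ha : α a = (α a * a⁻¹) * a := by group
    have hb : α b = (α b * b⁻¹) * b := by group
    rw [ha, hb, key1 _ _ _ (h a), key2 _ _ _ (h b)]
  intro x
  have hx : x ∈ commutator X := by rw [hperf]; trivial
  exact hle hx

end Cfsg.Agent.S1304
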