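import Cfsg.Statements.S1314
import Cfsg.Agent.Helper3.Layer2

set_option autoImplicit false
open Cfsg

namespace Cfsg.Agent.S1314

open scoped commutatorElement

theorem conj_central {G : Type*} [Group G] {z p q : G} (h1 : Commute z p) (h2 : Commute z q) :
    (z * p) * q * (z * p)⁻¹ = p * q * p⁻¹ := by
  have h3 : Commute z (p * q * p⁻¹) := (h1.mul_right h2).mul_right h1.inv_right
  calc (z * p) * q * (z * p)⁻¹ = z * (p * q * p⁻¹) * z⁻¹ := by group
    _ = (p * q * p⁻¹) * z * z⁻¹ := by rw [h3.eq]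
    _ = p * q * p⁻¹ := by group

theorem comm_left {G : Type*} [Group G] {z p q : G} (h1 : Commute z p) (h2 : Commute z q) :
    ⁅z * p, q⁆ = ⁅p, q⁆ := by
  rw [commutatorElement_def, conj_central h1 h2, commutatorElement_def]

/-- Let x be an involution of a group G and L a perfect subgroup with ⁅L, x L x⁻¹⁆ = 1. Then l ↦ l (x l x⁻¹) is a group homomorphism π from L to G whose kernel is central in L and whose image lies in C_G(x); and the commutator subgroup of C_{L ⊔ xLx⁻¹}(x) equals the image of π. -/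
theorem result {G : Type*} [Group G] [Finite G] (x : G) (hx : orderOf x = 2) (L : Subgroup G) (hperf : ⁅L, L⁆ = L) (hcomm : ⁅L, L.map (MulAut.conj x).toMonoidHom⁆ = ⊥) : ∃ π : ↥L →* G, (∀ l : ↥L, π l = (l : G) * (x * (l : G) * x⁻¹)) ∧ π.ker ≤ Subgroup.center ↥L ∧ π.range ≤ Subgroup.centralizer ({x} : Set G) ∧ ⁅(L ⊔ L.map (MulAut.conj x).toMonoidHom) ⊓ Subgroup.centralizer ({x} : Set G), (L ⊔ L.map (MulAut.conj x).toMonoidHom) ⊓ Subgroup.centralizer ({x} : Set G)⁆ = π.range := by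
  classical
  have hxx : x * x = 1 := by
    have := pow_orderOf_eq_one x
    rw [hx, pow_two] at this
    exact this
  have hxi : x⁻¹ = x := inv_eq_of_mul_eq_one_left hxx
  -- the two subgroups commute elementwise
  have key : ∀ a ∈ L, ∀ b ∈ L, a * (x * b * x⁻¹) = (x * b * x⁻¹) * a := by
    intro a ha b hb
    have h1 := (Subgroup.commutator_eq_bot_iff_le_centralizer).1 hcomm ha
    rw [Subgroup.mem_centralizer_iff] at h1
    exact (h1 (x * b * x⁻¹) ⟨b, hb, rfl⟩).symm
  obtain ⟨π, hπ⟩ : ∃ π : ↥L →* G, ∀ l : ↥L, π l = (l : G) * (x * (l : G) * x⁻¹) := by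
    refine ⟨{ toFun := fun l => (l : G) * (x * (l : G) * x⁻¹), map_one' := by simp,
              map_mul' := ?_ }, fun l => rfl⟩
    intro l m
    show ((l * m : ↥L) : G) * (x * ((l * m : ↥L) : G) * x⁻¹)
      = (l : G) * (x * (l : G) * x⁻¹) * ((m : G) * (x * (m : G) * x⁻¹))
    have h1 := key (m : G) m.2 (l : G) l.2
    calc ((l * m : ↥L) : G) * (x * ((l * m : ↥L) : G) * x⁻¹)
        = (l : G) * ((m : G) * (x * (l : G) * x⁻¹)) * (x * (m : G) * x⁻¹) := by
          rw [Subgroup.coe_mul]; group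
      _ = (l : G) * ((x * (l : G) * x⁻¹) * (m : G)) * (x * (m : G) * x⁻¹) := by rw [h1]
      _ = (l : G) * (x * (l : G) * x⁻¹) * ((m : G) * (x * (m : G) * x⁻¹)) := by group
  -- notation
  obtain ⟨Lx, hLx⟩ : ∃ Lx : Subgroup G, Lx = L.map (MulAut.conj x).toMonoidHom := ⟨_, rfl⟩
  obtain ⟨D, hD⟩ : ∃ D : Subgroup G, D = (L ⊔ Lx) ⊓ Subgroup.centralizer ({x} : Set G) :=
    ⟨_, rfl⟩
  rw [← hLx, ← hD]
  have hmemLx : ∀ b ∈ L, x * b * x⁻¹ ∈ Lx := by
    intro b hb; rw [hLx]; exact ⟨b, hb, rfl⟩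
  have hcentx : ∀ g : G, g ∈ Subgroup.centralizer ({x} : Set G) ↔ x * g = g * x := by
    intro g
    rw [Subgroup.mem_centralizer_iff]
    simp only [Set.mem_singleton_iff, forall_eq]
  have hπx : ∀ l : ↥L, x * π l = π l * x := by
    intro l
    rw [hπ]
    have h1 := key (l : G) l.2 (l : G) l.2
    calc x * ((l : G) * (x * (l : G) * x⁻¹)) = x * ((x * (l : G) * x⁻¹) * (l : G)) := by rw [h1]
      _ = (x * x) * (l : G) * x⁻¹ * (l : G) := by group
      _ = (l : G) * x * (l : G) := by rw [hxx, one_mul, hxi]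
      _ = (l : G) * (x * (l : G) * x⁻¹) * x := by group
  have hπD : ∀ l : ↥L, π l ∈ D := by
    intro l
    rw [hD]
    refine Subgroup.mem_inf.2 ⟨?_, (hcentx _).2 (hπx l)⟩
    rw [hπ]
    exact Subgroup.mul_mem _ (Subgroup.mem_sup_left l.2) (Subgroup.mem_sup_right (hmemLx _ l.2))
  refine ⟨π, hπ, ?_, ?_, ?_⟩
  · -- kernel central
    intro l hl
    rw [MonoidHom.mem_ker, hπ] at hl
    rw [Subgroup.mem_center_iff]
    intro m
    apply Subtype.ext
    rw [Subgroup.coe_mul, Subgroup.coe_mul]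
    have h1 : (l : G) = x * (l : G)⁻¹ * x⁻¹ := by
      have h2 : (l : G) = (x * (l : G) * x⁻¹)⁻¹ := eq_inv_of_mul_eq_one_left hl
      have e : (x * (l : G) * x⁻¹)⁻¹ = x * (l : G)⁻¹ * x⁻¹ := by group
      rw [← e]; exact h2
    have h3 := key (m : G) m.2 ((l : G)⁻¹) (L.inv_mem l.2)
    rw [← h1] at h3
    exact h3
  · -- range centralizes x
    rintro _ ⟨l, rfl⟩
    exact (hcentx _).2 (hπx l)
  · apply le_antisymm
    · -- commutators of D are images
      rw [Subgroup.commutator_le]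
      -- decomposition of the elements of D
      have hdec : ∀ d ∈ D, ∃ z : G, ∃ b : ↥L, d = z * π b ∧ z ∈ L ∧
          ∃ w ∈ L, z = x * w * x⁻¹ := by
        intro d hd
        rw [hD] at hd
        obtain ⟨hd1, hd2⟩ := Subgroup.mem_inf.1 hd
        rw [hcentx] at hd2
        have hnorm : Lx ≤ Subgroup.normalizer (L : Set G) := by
          intro y hy
          rw [hLx] at hy
          obtain ⟨b, hb, rfl⟩ := hy
          have hyb : (MulAut.conj x).toMonoidHom b = x * b * x⁻¹ := rfl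
          rw [hyb, Subgroup.mem_normalizer_iff]
          intro h
          have hc : ∀ a ∈ L, x * b * x⁻¹ * a * (x * b * x⁻¹)⁻¹ = a := by
            intro a ha
            have := key a ha b hb
            rw [← this]; group
          constructor
          · intro hh; rw [hc h hh]; exact hh
          · intro hh
            have h6 := hc _ hh
            have h7 : x * b * x⁻¹ * (x * b * x⁻¹ * h * (x * b * x⁻¹)⁻¹) * (x * b * x⁻¹)⁻¹
                = x * b * x⁻¹ * h * (x * b * x⁻¹)⁻¹ := h6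
            have h8 : h = x * b * x⁻¹ * h * (x * b * x⁻¹)⁻¹ := by
              have := congrArg (fun t => (x * b * x⁻¹)⁻¹ * t * (x * b * x⁻¹)) h7
              simp only [mul_assoc, inv_mul_cancel_left, inv_mul_cancel, mul_one] at this
              simpa [mul_assoc] using this.symm
            rw [h8]; exact hh
        obtain ⟨a, ha, y, hy, rfl⟩ := Helper3.mem_sup_of_le_normalizer_right L Lx hnorm hd1
        rw [hLx] at hy
        obtain ⟨b, hb, rfl⟩ := hy
        have hyb : (MulAut.conj x).toMonoidHom b = x * b * x⁻¹ := rfl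
        rw [hyb] at hd2 ⊢
        have hcc : ∀ g : G, x * (x * g * x⁻¹) * x⁻¹ = g := by
          intro g
          calc x * (x * g * x⁻¹) * x⁻¹ = (x * x) * g * (x * x)⁻¹ := by group
            _ = g := by rw [hxx]; group
        have E : (x * a * x⁻¹) * b = a * (x * b * x⁻¹) := by
          have e1 : x * (a * (x * b * x⁻¹)) * x⁻¹ = a * (x * b * x⁻¹) := by rw [hd2]; group
          have e2 : x * (a * (x * b * x⁻¹)) * x⁻¹ = (x * a * x⁻¹) * (x * (x * b * x⁻¹) * x⁻¹) := by
            group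
          rw [e2, hcc] at e1; exact e1
        have k2 := key b hb a ha
        have F₀ : b * (x * a * x⁻¹) = a * (x * b * x⁻¹) := k2.trans E
        have F1 : b * x * a = a * x * b := by
          calc b * x * a = (b * (x * a * x⁻¹)) * x := by group
            _ = (a * (x * b * x⁻¹)) * x := by rw [F₀]
            _ = a * x * b := by group
        have F' : x * (a * b⁻¹) = b⁻¹ * a * x := by
          calc x * (a * b⁻¹) = b⁻¹ * (b * x * a) * b⁻¹ := by group
            _ = b⁻¹ * (a * x * b) * b⁻¹ := by rw [F1]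
            _ = b⁻¹ * a * x := by group
        have hz1 : a * b⁻¹ = x * (b⁻¹ * a) * x⁻¹ := by
          calc a * b⁻¹ = x⁻¹ * (x * (a * b⁻¹)) := by group
            _ = x⁻¹ * (b⁻¹ * a * x) := by rw [F']
            _ = x * (b⁻¹ * a) * x⁻¹ := by rw [hxi]; group
        refine ⟨a * b⁻¹, ⟨b, hb⟩, ?_, L.mul_mem ha (L.inv_mem hb), b⁻¹ * a,
          L.mul_mem (L.inv_mem hb) ha, hz1⟩
        rw [hπ]
        show a * (x * b * x⁻¹) = a * b⁻¹ * (b * (x * b * x⁻¹))
        group
      intro d₁ hd₁ d₂ hd₂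
      obtain ⟨z₁, b₁, rfl, hz₁L, w₁, hw₁, hz₁w⟩ := hdec d₁ hd₁
      obtain ⟨z₂, b₂, rfl, hz₂L, w₂, hw₂, hz₂w⟩ := hdec d₂ hd₂
      have hzπ : ∀ z ∈ L, ∀ w ∈ L, z = x * w * x⁻¹ → ∀ l : ↥L, Commute z (π l) := by
        intro z hz w hw hzw l
        have c1 : z * (x * (l : G) * x⁻¹) = (x * (l : G) * x⁻¹) * z := key z hz l l.2
        have c2 : (l : G) * z = z * (l : G) := by
          rw [hzw]; exact key l l.2 w hw
        show z * π l = π l * z
        rw [hπ]
        calc z * ((l : G) * (x * (l : G) * x⁻¹)) = (z * (l : G)) * (x * (l : G) * x⁻¹) := by group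
          _ = ((l : G) * z) * (x * (l : G) * x⁻¹) := by rw [c2]
          _ = (l : G) * (z * (x * (l : G) * x⁻¹)) := by group
          _ = (l : G) * ((x * (l : G) * x⁻¹) * z) := by rw [c1]
          _ = (l : G) * (x * (l : G) * x⁻¹) * z := by group
      have hzz : Commute z₁ z₂ := by
        show z₁ * z₂ = z₂ * z₁
        rw [hz₂w]; exact key z₁ hz₁L w₂ hw₂
      have h11 := hzπ z₁ hz₁L w₁ hw₁ hz₁w b₁
      have h12 := hzπ z₁ hz₁L w₁ hw₁ hz₁w b₂
      have h21 := hzπ z₂ hz₂L w₂ hw₂ hz₂w b₁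
      have h22 := hzπ z₂ hz₂L w₂ hw₂ hz₂w b₂
      have e : ⁅z₁ * π b₁, z₂ * π b₂⁆ = ⁅π b₁, π b₂⁆ := by
        rw [comm_left h11 (hzz.mul_right h12), ← commutatorElement_inv, comm_left h22 h21,
          commutatorElement_inv]
      rw [e, ← map_commutatorElement]
      exact ⟨_, rfl⟩
    · -- images are commutators
      rintro _ ⟨l, rfl⟩
      have hle : ⁅L, L⁆ ≤ ((⁅D, D⁆ : Subgroup G).comap π).map L.subtype := by
        rw [Subgroup.commutator_le]
        intro a ha b hb
        refine ⟨⁅(⟨a, ha⟩ : ↥L), ⟨b, hb⟩⁆, ?_, rfl⟩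
        show π ⁅(⟨a, ha⟩ : ↥L), ⟨b, hb⟩⁆ ∈ ⁅D, D⁆
        rw [map_commutatorElement]
        exact Subgroup.commutator_mem_commutator (hπD _) (hπD _)
      have hl : (l : G) ∈ ⁅L, L⁆ := by rw [hperf]; exact l.2
      obtain ⟨k, hk, hkl⟩ := hle hl
      have : k = l := Subtype.ext hkl
      rw [this] at hk
      exact hk

end Cfsg.Agent.S1314
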