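import Cfsg.Statements.S1316
import Cfsg.Agent.Helper3.Layer

set_option autoImplicit false
open Cfsg

namespace Cfsg.Agent.S1316

open Cfsg.Agent.Helper3 in
theorem layer_perfect {G : Type*} [Group G] :
    ⁅Cfsg.layer G, Cfsg.layer G⁆ = Cfsg.layer G := by
  apply le_antisymm (Subgroup.commutator_le_left _ _)
  apply sSup_le
  intro L hL
  have h1 : ⁅L, L⁆ = L := Subgroup.isPerfect_iff.mp hL.2.1
  calc L = ⁅L, L⁆ := h1.symm
    _ ≤ _ := Subgroup.commutator_mono (component_le_layer L hL) (component_le_layer L hL)

/-- For a finite group X, E(X) equals the intersection of the derived series of F*(X) (its last term). -/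
theorem result {X : Type*} [Group X] [Finite X] : (⨅ n : ℕ, (derivedSeries ↥(Cfsg.generalizedFittingSubgroup X) n).map (Cfsg.generalizedFittingSubgroup X).subtype) = Cfsg.layer X := by
  have hD0 : (derivedSeries ↥(Cfsg.generalizedFittingSubgroup X) 0).map
      (Cfsg.generalizedFittingSubgroup X).subtype = Cfsg.generalizedFittingSubgroup X := by
    rw [derivedSeries_zero, ← MonoidHom.range_eq_map, Subgroup.range_subtype]
  have hDs : ∀ n, (derivedSeries ↥(Cfsg.generalizedFittingSubgroup X) (n + 1)).map
      (Cfsg.generalizedFittingSubgroup X).subtype =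
      ⁅(derivedSeries ↥(Cfsg.generalizedFittingSubgroup X) n).map
        (Cfsg.generalizedFittingSubgroup X).subtype,
       (derivedSeries ↥(Cfsg.generalizedFittingSubgroup X) n).map
        (Cfsg.generalizedFittingSubgroup X).subtype⁆ := by
    intro n; rw [derivedSeries_succ, Subgroup.map_commutator]
  apply le_antisymm
  · obtain ⟨k, hk⟩ := (Cfsg.Agent.Helper3.fitting_solvable X).solvable
    have key : ∀ n, (derivedSeries ↥(Cfsg.generalizedFittingSubgroup X) n).map
        (Cfsg.generalizedFittingSubgroup X).subtype ≤
        Cfsg.layer X ⊔ (derivedSeries ↥(Cfsg.fittingSubgroup X) n).map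
          (Cfsg.fittingSubgroup X).subtype := by
      intro n
      induction n with
      | zero =>
        rw [hD0, derivedSeries_zero, ← MonoidHom.range_eq_map, Subgroup.range_subtype]
        exact le_of_eq rfl
      | succ n ih =>
        rw [hDs]
        refine le_trans (Subgroup.commutator_mono ih ih) ?_
        haveI hN : (Cfsg.layer X ⊔ (derivedSeries ↥(Cfsg.fittingSubgroup X) (n + 1)).map
          (Cfsg.fittingSubgroup X).subtype).Normal := inferInstance
        apply Cfsg.Agent.S4204.comm_sup_le
        · exact le_trans (Subgroup.commutator_le_left _ _) le_sup_left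
        · rw [Subgroup.commutator_comm]
          apply Cfsg.Agent.S4204.comm_sup_le
          · exact le_trans (Subgroup.commutator_le_left _ _) le_sup_left
          · rw [derivedSeries_succ, Subgroup.map_commutator]; exact le_sup_right
    refine le_trans (iInf_le _ k) ?_
    refine le_trans (key k) ?_
    rw [hk, Subgroup.map_bot, sup_bot_eq]
  · apply le_iInf
    intro n
    induction n with
    | zero => rw [hD0]; exact le_sup_left
    | succ n ih =>
      rw [hDs]
      calc Cfsg.layer X = ⁅Cfsg.layer X, Cfsg.layer X⁆ := layer_perfect.symm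
        _ ≤ _ := Subgroup.commutator_mono ih ih

end Cfsg.Agent.S1316
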