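import Cfsg.Statements.S1320
import Cfsg.Agent.Helper3.Layer2

set_option autoImplicit false
open Cfsg

namespace Cfsg.Agent.S1320

/-- Let B be a normal subgroup of the finite group A. Then F*(A) ∩ B = F*(B). -/
theorem result {A : Type*} [Group A] [Finite A] (B : Subgroup A) [B.Normal] : Cfsg.generalizedFittingSubgroup A ⊓ B = (Cfsg.generalizedFittingSubgroup ↥B).map B.subtype := by
  have hBsn : B.IsSubnormal := Subgroup.Normal.isSubnormal inferInstance
  apply le_antisymm
  · have hYn : (Cfsg.generalizedFittingSubgroup A ⊓ B).Normal := inferInstance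
    have hY := Cfsg.Agent.Helper3.subnormal_fstar_decomp (Cfsg.generalizedFittingSubgroup A ⊓ B)
      inf_le_left hYn.isSubnormal
    refine hY.trans ?_
    rw [Cfsg.Agent.Helper3.fstar_map_subtype B]
    refine sup_le_sup ?_ ?_
    · exact Cfsg.Agent.Helper3.layer_map_subtype_mono _ B hYn.isSubnormal inf_le_right
    · rw [Cfsg.Agent.Helper3.fitting_map_subtype_eq _ hYn.isSubnormal,
        Cfsg.Agent.Helper3.fitting_map_subtype_eq B hBsn]
      exact le_inf inf_le_left (inf_le_right.trans inf_le_right)
  · refine le_inf ?_ (Subgroup.map_subtype_le _)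
    rw [Cfsg.Agent.Helper3.fstar_map_subtype B]
    refine sup_le_sup (Cfsg.Agent.Helper3.layer_map_subtype_le B hBsn) ?_
    rw [Cfsg.Agent.Helper3.fitting_map_subtype_eq B hBsn]; exact inf_le_left

end Cfsg.Agent.S1320
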