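import Cfsg.Statements.S1321
import Cfsg.Agent.Helper3.Layer2

set_option autoImplicit false
open Cfsg

namespace Cfsg.Agent.S1321

/-- Let X be finite and U ≤ X. Then E(X) is generated by C_{E(X)}(U) together with ⁅E(X), U⁆ (indeed it is their product, ⁅E(X), U⁆ being normal in E(X)). -/
theorem result {X : Type*} [Group X] [Finite X] (U : Subgroup X) : Cfsg.layer X = (Cfsg.layer X ⊓ Subgroup.centralizer (U : Set X)) ⊔ ⁅Cfsg.layer X, U⁆ ∧ ⁅Cfsg.layer X, U⁆ ≤ Cfsg.layer X := by
  have hle : ⁅Cfsg.layer X, U⁆ ≤ Cfsg.layer X := Subgroup.commutator_le_left _ _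
  refine ⟨?_, hle⟩
  have hNsn : (⁅Cfsg.layer X, U⁆ : Subgroup X).IsSubnormal :=
    Subgroup.IsSubnormal.step _ (Cfsg.layer X) hle (Subgroup.Normal.isSubnormal inferInstance)
      ((Subgroup.normal_subgroupOf_iff_le_normalizer hle).mpr
        (Subgroup.normalizer_commutator_ge_left _ _))
  apply le_antisymm
  · apply sSup_le
    intro L hL
    have hLE := Cfsg.Agent.Helper3.component_le_layer L hL
    rcases Cfsg.Agent.Helper3.component_le_or_commute L _ hL hNsn with h | h
    · exact h.trans le_sup_right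
    · refine le_trans ?_ le_sup_left
      refine le_inf hLE ?_
      rw [← Subgroup.commutator_eq_bot_iff_le_centralizer]
      have h1 : ⁅L, ⁅L, U⁆⁆ = ⊥ := by
        rw [eq_bot_iff, ← h]
        exact Subgroup.commutator_mono le_rfl (Subgroup.commutator_mono hLE le_rfl)
      have h2 : ⁅⁅L, U⁆, L⁆ = ⊥ := by rw [Subgroup.commutator_comm]; exact h1
      have h3 : ⁅⁅U, L⁆, L⁆ = ⊥ := by rw [Subgroup.commutator_comm U L]; exact h2
      have h4 := Subgroup.commutator_commutator_eq_bot_of_rotate h2 h3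
      rw [Subgroup.isPerfect_iff.mp hL.2.1] at h4
      exact h4
  · exact sup_le inf_le_left hle

end Cfsg.Agent.S1321
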