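import Cfsg.Statements.S1335
import Mathlib
import Cfsg.Agent.Helper5.Basic

set_option autoImplicit false
open Cfsg

namespace Cfsg.Agent.S1335

/-- Let H be a subgroup of the finite group G, p a prime, k ≥ 1, P a Sylow p-subgroup of H of p-rank at least k, and suppose N_G(X) ≤ H for every subgroup X ≤ P of p-rank at least k. Then P is a Sylow p-subgroup of G. -/
theorem result {G : Type*} [Group G] [Finite G] {p : ℕ} [Fact p.Prime] (k : ℕ) (hk : 1 ≤ k) (H : Subgroup G) (P : Sylow p ↥H) (hP : ¬ Cfsg.PRankLE p (k - 1) ↥(P : Subgroup ↥H)) (hΓ : (∀ X : Subgroup G, X ≤ (P : Subgroup ↥H).map H.subtype → ¬ Cfsg.PRankLE p (k - 1) ↥X → Subgroup.normalizer (X : Set G) ≤ H)) : ∃ Q : Sylow p G, (Q : Subgroup G) = (P : Subgroup ↥H).map H.subtype := by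
  have hP'p : IsPGroup p ((P : Subgroup ↥H).map H.subtype) := P.isPGroup'.map H.subtype
  have hrank : ¬ Cfsg.PRankLE p (k - 1) ↥((P : Subgroup ↥H).map H.subtype) := by
    intro h
    apply hP
    intro A hAc hAp
    have e := (P : Subgroup ↥H).equivMapOfInjective H.subtype H.subtype_injective
    haveI := hAc
    have h1 := h (A.map e.toMonoidHom) inferInstance (by
      rintro _ ⟨a, ha, rfl⟩
      rw [← map_pow, hAp a ha, map_one])
    rw [← Nat.card_congr (A.equivMapOfInjective e.toMonoidHom e.injective).toEquiv] at h1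
    exact h1
  have hN := hΓ _ le_rfl hrank
  obtain ⟨Q, hQ⟩ := hP'p.exists_le_sylow
  refine ⟨Q, ?_⟩
  by_contra hne
  obtain ⟨y, hyQ, hyN, hyP⟩ := Cfsg.Agent.Helper5.exists_mem_normalizer_not_mem (Q : Subgroup G)
    ((P : Subgroup ↥H).map H.subtype) Q.isPGroup' hQ (Ne.symm hne)
  have hyH : y ∈ H := hN hyN
  have hRp : IsPGroup p (((Q : Subgroup G) ⊓
      Subgroup.normalizer (((P : Subgroup ↥H).map H.subtype : Subgroup G) : Set G)).subgroupOf H) :=
    (Q.isPGroup'.to_le inf_le_left).comap_subtype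
  have hPR : (P : Subgroup ↥H) ≤ ((Q : Subgroup G) ⊓
      Subgroup.normalizer (((P : Subgroup ↥H).map H.subtype : Subgroup G) : Set G)).subgroupOf H := by
    intro x hx
    rw [Subgroup.mem_subgroupOf]
    exact Subgroup.mem_inf.mpr ⟨hQ ⟨x, hx, rfl⟩, Subgroup.le_normalizer ⟨x, hx, rfl⟩⟩
  have hmax := P.is_maximal' hRp hPR
  apply hyP
  have hy' : (⟨y, hyH⟩ : H) ∈ (P : Subgroup H) := by
    rw [← hmax]
    exact Subgroup.mem_subgroupOf.mpr (Subgroup.mem_inf.mpr ⟨hyQ, hyN⟩)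
  exact ⟨⟨y, hyH⟩, hy', rfl⟩

end Cfsg.Agent.S1335
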