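import Cfsg.Statements.S1336
import Cfsg.Agent.Helper5.StrEmb3

set_option autoImplicit false
open Cfsg

namespace Cfsg.Agent.S1336

variable {G : Type*} [Group G]

/-- adjacency in the rank one commuting graph -/
def adj (p : ℕ) (A B : Subgroup G) : Prop :=
  Cfsg.IsElementaryAbelian p A ∧ p ^ 1 ≤ Nat.card ↥A ∧ Cfsg.IsElementaryAbelian p B ∧
    p ^ 1 ≤ Nat.card ↥B ∧ ∀ a ∈ A, ∀ b ∈ B, a * b = b * a

theorem elemAb_conj {p : ℕ} {A : Subgroup G} (hA : Cfsg.IsElementaryAbelian p A) (g : G) :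
    Cfsg.IsElementaryAbelian p (A.map (MulAut.conj g).toMonoidHom) := by
  obtain ⟨hc, he⟩ := hA
  refine ⟨Subgroup.map_isMulCommutative _ _, ?_⟩
  rintro _ ⟨a, ha, rfl⟩
  rw [← map_pow, he a ha, map_one]

theorem adj_conj {p : ℕ} {A B : Subgroup G} (h : adj p A B) (g : G) :
    adj p (A.map (MulAut.conj g).toMonoidHom) (B.map (MulAut.conj g).toMonoidHom) := by
  obtain ⟨hA, hcA, hB, hcB, hcomm⟩ := h
  refine ⟨elemAb_conj hA g, ?_, elemAb_conj hB g, ?_, ?_⟩
  · rw [Helper5.card_conj]; exact hcA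
  · rw [Helper5.card_conj]; exact hcB
  · rintro _ ⟨a, ha, rfl⟩ _ ⟨b, hb, rfl⟩
    rw [← map_mul, ← map_mul, hcomm a ha b hb]

theorem adj_symm {p : ℕ} {A B : Subgroup G} (h : adj p A B) : adj p B A := by
  obtain ⟨hA, hcA, hB, hcB, hcomm⟩ := h
  exact ⟨hB, hcB, hA, hcA, fun b hb a ha => (hcomm a ha b hb).symm⟩

theorem rel_conj {p : ℕ} {A B : Subgroup G} (h : Relation.ReflTransGen (adj p) A B) (g : G) :
    Relation.ReflTransGen (adj p) (A.map (MulAut.conj g).toMonoidHom)
      (B.map (MulAut.conj g).toMonoidHom) :=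
  by
    induction h with
    | refl => exact Relation.ReflTransGen.refl
    | tail _ hab ih => exact Relation.ReflTransGen.tail ih (adj_conj hab g)

theorem rel_symm {p : ℕ} {A B : Subgroup G} (h : Relation.ReflTransGen (adj p) A B) :
    Relation.ReflTransGen (adj p) B A :=
  by
    induction h with
    | refl => exact Relation.ReflTransGen.refl
    | tail _ hab ih => exact Relation.ReflTransGen.head (adj_symm hab) ih

theorem elemAb_zpowers {p : ℕ} (z : G) (hz : orderOf z = p) :
    Cfsg.IsElementaryAbelian p (Subgroup.zpowers z) ∧ Nat.card ↥(Subgroup.zpowers z) = p := by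
  refine ⟨⟨Subgroup.zpowers_isMulCommutative z, ?_⟩, ?_⟩
  · intro a ha
    obtain ⟨k, rfl⟩ := Subgroup.mem_zpowers_iff.1 ha
    rw [← zpow_natCast, ← zpow_mul, mul_comm, zpow_mul, zpow_natCast, ← hz, pow_orderOf_eq_one,
      one_zpow]
  · rw [Nat.card_zpowers, hz]

theorem isPGroup_of_elemAb {p : ℕ} {A : Subgroup G} (hA : Cfsg.IsElementaryAbelian p A) :
    IsPGroup p A := by
  intro a
  refine ⟨1, ?_⟩
  rw [pow_one]
  apply Subtype.ext
  rw [Subgroup.coe_pow, hA.2 a a.2]; rfl

/-- a nontrivial `p`-subgroup has a central element of order `p`. -/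
theorem exists_central_order_p [Finite G] {p : ℕ} [Fact p.Prime] (T : Subgroup G)
    (hT : IsPGroup p T) (hne : T ≠ ⊥) :
    ∃ z ∈ T, orderOf z = p ∧ ∀ y ∈ T, z * y = y * z := by
  haveI : Nontrivial T := (Subgroup.nontrivial_iff_ne_bot T).2 hne
  haveI := hT.center_nontrivial
  have hZ : IsPGroup p (Subgroup.center T) := hT.to_subgroup _
  have hdvd : p ∣ Nat.card (Subgroup.center T) := by
    rcases hZ.card_eq_or_dvd with h | h
    · exfalso
      have := Finite.one_lt_card_iff_nontrivial.2 (inferInstance : Nontrivial (Subgroup.center T))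
      omega
    · exact h
  obtain ⟨x, hx⟩ := exists_prime_orderOf_dvd_card' p hdvd
  refine ⟨((x : T) : G), (x : T).2, ?_, ?_⟩
  · rw [Subgroup.orderOf_coe, Subgroup.orderOf_coe]; exact hx
  · intro y hy
    have h1 := Subgroup.mem_center_iff.1 x.2 ⟨y, hy⟩
    have h2 := congrArg (fun w : T => (w : G)) h1
    simpa using h2.symm

/-- two vertices inside a common `p`-subgroup are joined. -/
theorem rel_of_le [Finite G] {p : ℕ} [Fact p.Prime] (T : Subgroup G) (hT : IsPGroup p T)
    (A B : Subgroup G) (hA : Cfsg.IsElementaryAbelian p A) (hcA : p ^ 1 ≤ Nat.card ↥A)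
    (hB : Cfsg.IsElementaryAbelian p B) (hcB : p ^ 1 ≤ Nat.card ↥B) (hAT : A ≤ T) (hBT : B ≤ T) :
    Relation.ReflTransGen (adj p) A B := by
  have hp : p.Prime := Fact.out
  have hne : T ≠ ⊥ := by
    intro h
    rw [h, le_bot_iff] at hAT
    rw [hAT, Subgroup.card_bot, pow_one] at hcA
    exact absurd hcA (by have := hp.one_lt; omega)
  obtain ⟨z, hzT, hzo, hzc⟩ := exists_central_order_p T hT hne
  obtain ⟨hZ, hZc⟩ := elemAb_zpowers z hzo
  have hcomm : ∀ w ∈ Subgroup.zpowers z, ∀ y ∈ T, w * y = y * w := by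
    intro w hw y hy
    obtain ⟨k, rfl⟩ := Subgroup.mem_zpowers_iff.1 hw
    exact ((Commute.zpow_left (hzc y hy) k)).eq
  have h1 : adj p A (Subgroup.zpowers z) :=
    ⟨hA, hcA, hZ, by rw [hZc, pow_one], fun a ha w hw => (hcomm w hw a (hAT ha)).symm⟩
  have h2 : adj p (Subgroup.zpowers z) B :=
    ⟨hZ, by rw [hZc, pow_one], hB, hcB, fun w hw b hb => hcomm w hw b (hBT hb)⟩
  exact Relation.ReflTransGen.tail (Relation.ReflTransGen.single h1) h2

/-- the stabilizer of the component of `E`. -/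
def stab (p : ℕ) (E : Subgroup G) : Subgroup G where
  carrier := {g | Relation.ReflTransGen (adj p) E (E.map (MulAut.conj g).toMonoidHom)}
  one_mem' := by
    show Relation.ReflTransGen (adj p) E (E.map (MulAut.conj (1 : G)).toMonoidHom)
    rw [Helper5.conj_one]
  mul_mem' := by
    intro g h hg hh
    show Relation.ReflTransGen (adj p) E (E.map (MulAut.conj (g * h)).toMonoidHom)
    rw [← Helper5.conj_conj]
    exact Relation.ReflTransGen.trans hg (rel_conj hh g)
  inv_mem' := by
    intro g hg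
    show Relation.ReflTransGen (adj p) E (E.map (MulAut.conj g⁻¹).toMonoidHom)
    have h1 := rel_conj hg g⁻¹
    rw [Helper5.conj_conj, inv_mul_cancel, Helper5.conj_one] at h1
    exact rel_symm h1

theorem mem_stab {p : ℕ} {E : Subgroup G} {g : G} :
    g ∈ stab p E ↔ Relation.ReflTransGen (adj p) E (E.map (MulAut.conj g).toMonoidHom) :=
  Iff.rfl

theorem forward [Finite G] (p : ℕ) [Fact p.Prime] (H : Subgroup G) (hH : H ≠ ⊤)
    (hpH : p ∣ Nat.card ↥H)
    (hse : ∀ g : G, g ∉ H → ¬ p ∣ Nat.card ↥(H ⊓ H.map (MulAut.conj g).toMonoidHom)) :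
    ¬ Cfsg.IsKConnected p 1 G := by
  have hp : p.Prime := Fact.out
  intro hc
  obtain ⟨x, hx⟩ := exists_prime_orderOf_dvd_card' p hpH
  have hxo : orderOf (x : G) = p := by rw [Subgroup.orderOf_coe]; exact hx
  obtain ⟨hE, hEc⟩ := elemAb_zpowers (x : G) hxo
  obtain ⟨g, hg⟩ : ∃ g : G, g ∉ H := by
    by_contra h
    push Not at h
    exact hH (eq_top_iff.2 fun y _ => h y)
  have hrel : Relation.ReflTransGen (adj p) (Subgroup.zpowers (x : G))
      ((Subgroup.zpowers (x : G)).map (MulAut.conj g).toMonoidHom) :=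
    hc _ _ hE (by rw [hEc, pow_one]) (elemAb_conj hE g) (by rw [Helper5.card_conj, hEc, pow_one])
  have hclosed : ∀ B : Subgroup G, Relation.ReflTransGen (adj p) (Subgroup.zpowers (x : G)) B →
      B ≤ H := by
    intro B hB
    induction hB with
    | refl => exact Subgroup.zpowers_le.2 x.2
    | @tail B C _ hab ih =>
      obtain ⟨hBe, hBc, hCe, hCc, hcomm⟩ := hab
      -- a nontrivial element of B
      have hBne : B ≠ ⊥ := by
        intro h
        rw [h, Subgroup.card_bot, pow_one] at hBc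
        exact absurd hBc (by have := hp.one_lt; omega)
      obtain ⟨b, hb1⟩ := (Subgroup.ne_bot_iff_exists_ne_one).1 hBne
      have hbB : (b : G) ∈ B := b.2
      have hb1' : (b : G) ≠ 1 := fun h => hb1 (Subtype.ext h)
      have hQ : IsPGroup p (Subgroup.zpowers (b : G)) :=
        (isPGroup_of_elemAb hBe).to_le (Subgroup.zpowers_le.2 hbB)
      have hQne : Subgroup.zpowers (b : G) ≠ ⊥ := by
        intro h
        have : (b : G) ∈ Subgroup.zpowers (b : G) := Subgroup.mem_zpowers _
        rw [h, Subgroup.mem_bot] at this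
        exact hb1' this
      have hN := Helper5.normalizer_le_of_classical p H hse (Subgroup.zpowers (b : G))
        (Subgroup.zpowers_le.2 (ih hbB)) hQ hQne
      intro c hc'
      apply hN
      apply Helper5.centralizer_singleton_le_normalizer_zpowers
      rw [Helper5.mem_centralizer_singleton_iff]
      exact (hcomm b hbB c hc').symm
  have h1 := hclosed _ hrel
  apply hse g hg
  have h2 : (Subgroup.zpowers (x : G)).map (MulAut.conj g).toMonoidHom
      ≤ H ⊓ H.map (MulAut.conj g).toMonoidHom :=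
    le_inf h1 (Helper5.conj_mono (Subgroup.zpowers_le.2 x.2) g)
  have h3 := Subgroup.card_dvd_of_le h2
  rw [Helper5.card_conj, hEc] at h3
  exact h3

theorem backward [Finite G] (p : ℕ) [Fact p.Prime] (hn : ¬ Cfsg.IsKConnected p 1 G) :
    ∃ H : Subgroup G, H ≠ ⊤ ∧ p ∣ Nat.card ↥H ∧
      ∀ g : G, g ∉ H → ¬ p ∣ Nat.card ↥(H ⊓ H.map (MulAut.conj g).toMonoidHom) := by
  have hp : p.Prime := Fact.out
  unfold Cfsg.IsKConnected at hn
  push Not at hn
  obtain ⟨E, E', hE, hEc, hE', hEc', hnot⟩ := hn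
  have hnot' : ¬ Relation.ReflTransGen (adj p) E E' := hnot
  have hEp := isPGroup_of_elemAb hE
  have hEp' := isPGroup_of_elemAb hE'
  obtain ⟨P, hEP⟩ := hEp.exists_le_sylow
  obtain ⟨P', hEP'⟩ := hEp'.exists_le_sylow
  -- P lies in the stabilizer
  have hPH : (P : Subgroup G) ≤ stab p E := by
    intro y hy
    rw [mem_stab]
    apply rel_of_le (P : Subgroup G) P.2 E _ hE hEc (elemAb_conj hE y)
      (by rw [Helper5.card_conj]; exact hEc) hEP
    rintro _ ⟨e, he, rfl⟩
    exact (P : Subgroup G).mul_mem ((P : Subgroup G).mul_mem hy (hEP he)) ((P : Subgroup G).inv_mem hy)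
  have hEne : E ≠ ⊥ := by
    intro h
    rw [h, Subgroup.card_bot, pow_one] at hEc
    exact absurd hEc (by have := hp.one_lt; omega)
  refine ⟨stab p E, ?_, ?_, ?_⟩
  · intro htop
    apply hnot'
    obtain ⟨g, hg⟩ := MulAction.exists_smul_eq G P P'
    have hP' : (P' : Subgroup G) = (P : Subgroup G).map (MulAut.conj g).toMonoidHom := by
      rw [← hg, Sylow.coe_subgroup_smul]; rfl
    have h1 : E'.map (MulAut.conj g⁻¹).toMonoidHom ≤ (P : Subgroup G) := by
      rw [Helper5.conj_le_iff, inv_inv, ← hP']; exact hEP'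
    have h2 := rel_of_le (P : Subgroup G) P.2 E _ hE hEc (elemAb_conj hE' g⁻¹)
      (by rw [Helper5.card_conj]; exact hEc') hEP h1
    have h3 := rel_conj h2 g
    rw [Helper5.conj_conj, mul_inv_cancel, Helper5.conj_one] at h3
    have h4 : g ∈ stab p E := by rw [htop]; exact Subgroup.mem_top _
    exact Relation.ReflTransGen.trans (mem_stab.1 h4) h3
  · exact dvd_trans (Helper5.dvd_card_of_isPGroup_ne_bot (P : Subgroup G) P.2
      (fun h => hEne (le_bot_iff.1 (h ▸ hEP)))) (Subgroup.card_dvd_of_le hPH)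
  · intro g hg hdvd
    apply hg
    obtain ⟨x, hx⟩ := exists_prime_orderOf_dvd_card' p hdvd
    have hxo : orderOf (x : G) = p := by rw [Subgroup.orderOf_coe]; exact hx
    have hx1 : (x : G) ∈ stab p E := (Subgroup.mem_inf.1 x.2).1
    have hx2 : g⁻¹ * (x : G) * g ∈ stab p E :=
      (Helper5.mem_conj_iff _ g _).1 (Subgroup.mem_inf.1 x.2).2
    have hyo : orderOf (g⁻¹ * (x : G) * g) = p := by
      have := (MulAut.conj g⁻¹).orderOf_eq (x : G)
      simp only [MulAut.conj_apply, inv_inv] at this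
      rw [this, hxo]
    -- every subgroup of order p of the stabilizer is joined to E
    have key : ∀ u : G, u ∈ stab p E → orderOf u = p →
        Relation.ReflTransGen (adj p) E (Subgroup.zpowers u) := by
      intro u hu huo
      obtain ⟨hU, hUc⟩ := elemAb_zpowers u huo
      obtain ⟨h, hh, hle⟩ := Helper5.exists_conj_le_sylow_in_subgroup P (stab p E) hPH
        (Subgroup.zpowers u) (Subgroup.zpowers_le.2 hu) (isPGroup_of_elemAb hU)
      have h1 : (Subgroup.zpowers u).map (MulAut.conj h⁻¹).toMonoidHom ≤ (P : Subgroup G) := by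
        rw [Helper5.conj_le_iff, inv_inv]; exact hle
      have h2 := rel_of_le (P : Subgroup G) P.2 E _ hE hEc (elemAb_conj hU h⁻¹)
        (by rw [Helper5.card_conj, hUc, pow_one]) hEP h1
      have h3 := rel_conj h2 h
      rw [Helper5.conj_conj, mul_inv_cancel, Helper5.conj_one] at h3
      exact Relation.ReflTransGen.trans (mem_stab.1 hh) h3
    have k1 := key _ hx1 hxo
    have k2 := rel_conj (key _ hx2 hyo) g
    have e : (Subgroup.zpowers (g⁻¹ * (x : G) * g)).map (MulAut.conj g).toMonoidHom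
        = Subgroup.zpowers (x : G) := by
      rw [MonoidHom.map_zpowers]
      congr 1
      show g * (g⁻¹ * (x : G) * g) * g⁻¹ = (x : G)
      group
    rw [e] at k2
    rw [mem_stab]
    exact Relation.ReflTransGen.trans k1 (rel_symm k2)

/-- Let G be finite and p prime. Then G has a proper subgroup H with p ∣ |H| and p ∤ |H ∩ gHg⁻¹| for every g ∉ H (a strongly p-embedded subgroup) if and only if G is not 1-connected for p. -/
theorem result {G : Type*} [Group G] [Finite G] (p : ℕ) [Fact p.Prime] : (∃ H : Subgroup G, H ≠ ⊤ ∧ p ∣ Nat.card ↥H ∧ ∀ g : G, g ∉ H → ¬ p ∣ Nat.card ↥(H ⊓ H.map (MulAut.conj g).toMonoidHom)) ↔ ¬ Cfsg.IsKConnected p 1 G := by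
  constructor
  · rintro ⟨H, hH, hpH, hse⟩
    exact forward p H hH hpH hse
  · intro hn
    exact backward p hn

end Cfsg.Agent.S1336
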