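import Cfsg.Statements.S1343
import Cfsg.Agent.Helper3.ExtLayer

set_option autoImplicit false
open Cfsg

namespace Cfsg.Agent.S1343

/-- Let X be finite. Then L*_{2'}(X) = L_{2'}(X) ⊔ F for some subgroup F of odd order normalized by a Sylow 2-subgroup of X. -/
theorem result {X : Type*} [Group X] [Finite X] : ∃ F : Subgroup X, Odd (Nat.card ↥F) ∧ (∃ S : Sylow 2 X, (S : Subgroup X) ≤ Subgroup.normalizer (F : Set X)) ∧ Cfsg.extendedTwoLayer X = Cfsg.pLayer 2 X ⊔ F := by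
  classical
  haveI : Fact (Nat.Prime 2) := ⟨Nat.prime_two⟩
  obtain ⟨T⟩ : Nonempty (Sylow 2 ↥(Cfsg.pLayer 2 X ⊔ Cfsg.pPrimePCore 2 X)) := inferInstance
  have hTt2 : IsPGroup 2 ↥((T : Subgroup ↥(Cfsg.pLayer 2 X ⊔ Cfsg.pPrimePCore 2 X)).map
      (Cfsg.pLayer 2 X ⊔ Cfsg.pPrimePCore 2 X).subtype) := T.isPGroup'.map _
  obtain ⟨S, hS⟩ := hTt2.exists_le_sylow
  refine ⟨Cfsg.oddCore X ⊔ Cfsg.Agent.Helper3.coreCent 2
    ((T : Subgroup ↥(Cfsg.pLayer 2 X ⊔ Cfsg.pPrimePCore 2 X)).map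
      (Cfsg.pLayer 2 X ⊔ Cfsg.pPrimePCore 2 X).subtype), ?_, ⟨S, ?_⟩, ?_⟩
  · rw [← Nat.coprime_two_right, sup_comm]
    exact Cfsg.Agent.Helper3.coprime_card_sup 2 _ _ (Cfsg.Agent.Helper3.coreCent_coprime 2 _)
      (Cfsg.Agent.Helper3.pPrimeCore_coprime 2 X)
  · have hSN : (S : Subgroup X) ≤ Subgroup.normalizer
        (((T : Subgroup ↥(Cfsg.pLayer 2 X ⊔ Cfsg.pPrimePCore 2 X)).map
          (Cfsg.pLayer 2 X ⊔ Cfsg.pPrimePCore 2 X).subtype : Subgroup X) : Set X) := by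
      have h1 : (T : Subgroup ↥(Cfsg.pLayer 2 X ⊔ Cfsg.pPrimePCore 2 X)).map
          (Cfsg.pLayer 2 X ⊔ Cfsg.pPrimePCore 2 X).subtype =
          (S : Subgroup X) ⊓ (Cfsg.pLayer 2 X ⊔ Cfsg.pPrimePCore 2 X) := by
        have hle : (T : Subgroup ↥(Cfsg.pLayer 2 X ⊔ Cfsg.pPrimePCore 2 X)).map
          (Cfsg.pLayer 2 X ⊔ Cfsg.pPrimePCore 2 X).subtype ≤
          (S : Subgroup X) ⊓ (Cfsg.pLayer 2 X ⊔ Cfsg.pPrimePCore 2 X) :=
          le_inf hS (Subgroup.map_subtype_le _)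
        have h2 : IsPGroup 2 ↥(((S : Subgroup X) ⊓ (Cfsg.pLayer 2 X ⊔ Cfsg.pPrimePCore 2 X)).subgroupOf
            (Cfsg.pLayer 2 X ⊔ Cfsg.pPrimePCore 2 X)) :=
          (S.isPGroup'.to_le inf_le_left).comap_subtype
        have h3 : (T : Subgroup ↥(Cfsg.pLayer 2 X ⊔ Cfsg.pPrimePCore 2 X)) ≤
            ((S : Subgroup X) ⊓ (Cfsg.pLayer 2 X ⊔ Cfsg.pPrimePCore 2 X)).subgroupOf
              (Cfsg.pLayer 2 X ⊔ Cfsg.pPrimePCore 2 X) := by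
          intro t ht
          rw [Subgroup.mem_subgroupOf]
          exact hle ⟨t, ht, rfl⟩
        have h4 := T.is_maximal' h2 h3
        apply le_antisymm hle
        intro x hx
        have h5 : (⟨x, hx.2⟩ : ↥(Cfsg.pLayer 2 X ⊔ Cfsg.pPrimePCore 2 X)) ∈
            ((S : Subgroup X) ⊓ (Cfsg.pLayer 2 X ⊔ Cfsg.pPrimePCore 2 X)).subgroupOf
              (Cfsg.pLayer 2 X ⊔ Cfsg.pPrimePCore 2 X) := by
          rw [Subgroup.mem_subgroupOf]; exact hx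
        rw [h4] at h5
        exact ⟨⟨x, hx.2⟩, h5, rfl⟩
      rw [h1]
      apply Cfsg.Agent.Helper3.le_normalizer_of_conj_mem
      intro s hs d hd
      rw [Subgroup.mem_inf] at hd ⊢
      exact ⟨mul_mem (mul_mem hs hd.1) (inv_mem hs),
        (inferInstance : (Cfsg.pLayer 2 X ⊔ Cfsg.pPrimePCore 2 X).Normal).conj_mem d hd.2 s⟩
    intro s hs
    rw [Subgroup.mem_normalizer_iff_map_conj_eq, Subgroup.map_sup]
    have e2 := Subgroup.Normal.map_conj_eq (Cfsg.oddCore X) s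
    have e3 := Subgroup.mem_normalizer_iff_map_conj_eq.mp
      (Cfsg.Agent.Helper3.normalizer_le_normalizer_coreCent 2 _ (hSN hs))
    rw [e2, e3]
  · rw [Cfsg.Agent.Helper3.extendedTwoLayer_eq T, sup_assoc]

end Cfsg.Agent.S1343
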