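import Cfsg.Statements.S1386
import Cfsg.Agent.Helper3.TypeP
import Cfsg.Agent.S1459

set_option autoImplicit false
open Cfsg

namespace Cfsg.Agent.S1386

universe u

theorem pow_mul_mem {G : Type u} [Group G] (S' S : Subgroup G)
    (hn : S ≤ Subgroup.normalizer (S' : Set G)) {s a : G} (hs : s ∈ S') (ha : a ∈ S) :
    ∀ n : ℕ, ∃ s' ∈ S', (s * a) ^ n = s' * a ^ n := by
  intro n
  induction n with
  | zero => exact ⟨1, S'.one_mem, by simp⟩
  | succ n ih =>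
    obtain ⟨s', hs', he⟩ := ih
    refine ⟨s' * (a ^ n * s * (a ^ n)⁻¹), S'.mul_mem hs' ?_, ?_⟩
    · exact (Subgroup.mem_normalizer_iff.1 (hn (S.pow_mem ha n)) s).1 hs
    · rw [pow_succ, he, pow_succ]
      group

/-- Let G be a finite group, W₁, W₂ subgroups forming a self-normalizing cyclic pair, S a subgroup with W₂ ≤ S and W₁ a complement to S' in S, and (W₁, U, W₂') type-P data for S. Then W₂' = W₂ (that is, C_{S'}(W₁) = W₂). -/
theorem result {G : Type*} [Group G] [Finite G] (W₁ W₂ S U W₂' : Subgroup G) (hW : Cfsg.IsSelfNormalizingCyclic W₁ W₂)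
    (hSW : Cfsg.IsComplIn ⁅S, S⁆ W₁ S) (hW₂S : W₂ ≤ S) (hP : Cfsg.IsTypePWith S W₁ U W₂') :
    W₂' = W₂ := by
  classical
  obtain ⟨hW₁ne, hW₂ne, hinf, hcomm, hcyc, hnorm⟩ := hW
  obtain ⟨-, -, hinf', hcomm', hcyc', -⟩ := hP.selfNormalizing
  obtain ⟨x₀, hx₀⟩ := (Subgroup.ne_bot_iff_exists_ne_one.1 hW₁ne)
  obtain ⟨x, hxW₁, hx1⟩ : ∃ x ∈ W₁, x ≠ 1 :=
    ⟨(x₀ : G), x₀.2, fun h => hx₀ (Subtype.ext h)⟩
  have hcent := hP.W₂_centralizer x hxW₁ hx1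
  have hcop := Helper3.coprime_of_cyclic W₁ W₂ hcyc hinf
  have hW₁S : W₁ ≤ S := hSW.2.1
  have hSn : S ≤ Subgroup.normalizer ((⁅S, S⁆ : Subgroup G) : Set G) :=
    S1459.left_le_normalizer_comm S S
  have hW₂S' : W₂ ≤ ⁅S, S⁆ := by
    intro w hw
    obtain ⟨s, hs, a, ha, hwsa⟩ := hSW.2.2.2 w (hW₂S hw)
    obtain ⟨s', hs', he⟩ := pow_mul_mem ⁅S, S⁆ S hSn hs (hW₁S ha) (Nat.card ↥W₂)
    have hw1 : w ^ Nat.card ↥W₂ = 1 := by
      have h1 : (⟨w, hw⟩ : ↥W₂) ^ Nat.card ↥W₂ = 1 := pow_card_eq_one'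
      have h2 := congrArg Subtype.val h1
      rw [SubmonoidClass.coe_pow] at h2
      exact h2
    rw [← hwsa, hw1] at he
    have ha1 : a ^ Nat.card ↥W₂ ∈ ⁅S, S⁆ ⊓ W₁ := by
      refine ⟨?_, W₁.pow_mem ha _⟩
      have e : a ^ Nat.card ↥W₂ = s'⁻¹ := eq_inv_of_mul_eq_one_right he.symm
      rw [e]
      exact Subgroup.inv_mem _ hs'
    rw [hSW.2.2.1, Subgroup.mem_bot] at ha1
    have ho1 : orderOf a ∣ Nat.card ↥W₂ := orderOf_dvd_of_pow_eq_one ha1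
    have ho2 : orderOf a ∣ Nat.card ↥W₁ := Subgroup.orderOf_dvd_natCard _ ha
    have ho : orderOf a = 1 := Nat.eq_one_of_dvd_coprimes hcop ho2 ho1
    rw [orderOf_eq_one_iff] at ho
    rw [hwsa, ho, mul_one]
    exact hs
  have hW₂W₂' : W₂ ≤ W₂' := by
    intro w hw
    rw [← hcent]
    refine ⟨hW₂S' hw, Subgroup.mem_centralizer_iff.2 ?_⟩
    intro h hh
    rw [Set.mem_singleton_iff] at hh
    rw [hh]
    exact hcomm x hxW₁ w hw
  apply le_antisymm _ hW₂W₂'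
  obtain ⟨w₀', hw₀'⟩ := (Subgroup.ne_bot_iff_exists_ne_one.1 hW₂ne)
  obtain ⟨w₀, hw₀W₂, hw₀1⟩ : ∃ w ∈ W₂, w ≠ 1 :=
    ⟨(w₀' : G), w₀'.2, fun h => hw₀' (Subtype.ext h)⟩
  have hX : ({x * w₀} : Set G) ⊆ (↑(W₁ ⊔ W₂) : Set G) \ (↑W₁ ∪ ↑W₂) := by
    intro y hy
    rw [Set.mem_singleton_iff] at hy
    rw [hy]
    refine ⟨Subgroup.mul_mem _ (Subgroup.mem_sup_left hxW₁) (Subgroup.mem_sup_right hw₀W₂), ?_⟩
    rintro (h | h)
    · have h1 : w₀ ∈ W₁ ⊓ W₂ := by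
        refine ⟨?_, hw₀W₂⟩
        have e : w₀ = x⁻¹ * (x * w₀) := by group
        rw [e]
        exact W₁.mul_mem (W₁.inv_mem hxW₁) h
      rw [hinf, Subgroup.mem_bot] at h1
      exact hw₀1 h1
    · have h1 : x ∈ W₁ ⊓ W₂ := by
        refine ⟨hxW₁, ?_⟩
        have e : x = (x * w₀) * w₀⁻¹ := by group
        rw [e]
        exact W₂.mul_mem h (W₂.inv_mem hw₀W₂)
      rw [hinf, Subgroup.mem_bot] at h1
      exact hx1 h1
  have hN := hnorm {x * w₀} hX (Set.singleton_nonempty _)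
  intro v hv
  have hvx : x * v = v * x := by
    have h1 : v ∈ ⁅S, S⁆ ⊓ Subgroup.centralizer ({x} : Set G) := by rw [hcent]; exact hv
    exact Subgroup.mem_centralizer_iff.1 h1.2 x rfl
  have hvw : w₀ * v = v * w₀ :=
    Helper3.comm_of_cyclic (W₁ ⊔ W₂') hcyc' (Subgroup.mem_sup_right (hW₂W₂' hw₀W₂))
      (Subgroup.mem_sup_right hv)
  have hvN : v ∈ Subgroup.normalizer ({x * w₀} : Set G) := by
    show ∀ n, n ∈ ({x * w₀} : Set G) ↔ v * n * v⁻¹ ∈ ({x * w₀} : Set G)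
    intro n
    have hc : v * (x * w₀) * v⁻¹ = x * w₀ := by
      calc v * (x * w₀) * v⁻¹ = (v * x) * w₀ * v⁻¹ := by group
        _ = (x * v) * w₀ * v⁻¹ := by rw [hvx]
        _ = x * (v * w₀) * v⁻¹ := by group
        _ = x * (w₀ * v) * v⁻¹ := by rw [hvw]
        _ = x * w₀ := by group
    constructor
    · intro hn
      rw [Set.mem_singleton_iff] at hn
      rw [hn, Set.mem_singleton_iff, hc]
    · intro hn
      rw [Set.mem_singleton_iff] at hn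
      rw [Set.mem_singleton_iff]
      have e : n = v⁻¹ * (v * n * v⁻¹) * v := by group
      rw [e, hn]
      calc v⁻¹ * (x * w₀) * v = v⁻¹ * (v * (x * w₀) * v⁻¹) * v := by rw [hc]
        _ = x * w₀ := by group
  rw [hN] at hvN
  have hnorm₂ : W₂ ≤ Subgroup.normalizer (W₁ : Set G) := by
    apply Helper3.le_normalizer_of_conj_mem
    intro s hs d hd
    have h1 : s * d * s⁻¹ = d := by
      rw [← hcomm d hd s hs]
      group
    rw [h1]
    exact hd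
  obtain ⟨a, ha, b, hb, hab⟩ := Helper3.mem_sup_of_le_normalizer_right W₁ W₂ hnorm₂ hvN
  have ha1 : a ∈ W₁ ⊓ W₂' := by
    refine ⟨ha, ?_⟩
    have e : a = v * b⁻¹ := by rw [← hab]; group
    rw [e]
    exact W₂'.mul_mem hv (W₂'.inv_mem (hW₂W₂' hb))
  rw [hinf', Subgroup.mem_bot] at ha1
  rw [← hab, ha1, one_mul]
  exact hb

end Cfsg.Agent.S1386
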