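import Cfsg.Statements.S1388
import Cfsg.Agent.Helper3.TypeP
import Cfsg.Agent.S1459

set_option autoImplicit false
open Cfsg

namespace Cfsg.Agent.S1388

universe u

/-- Order of a group with a complemented subgroup (`IsComplIn`). -/
theorem card_of_complIn {G : Type u} [Group G] [Finite G] {A B M : Subgroup G}
    (h : Cfsg.IsComplIn A B M) (hn : B ≤ Subgroup.normalizer (A : Set G)) :
    Nat.card ↥M = Nat.card ↥A * Nat.card ↥B := by
  have h1 : A ⊔ B = M := by
    apply le_antisymm (sup_le h.1 h.2.1)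
    intro m hm
    obtain ⟨a, ha, b, hb, rfl⟩ := h.2.2.2 m hm
    exact Subgroup.mul_mem _ (Subgroup.mem_sup_left ha) (Subgroup.mem_sup_right hb)
  rw [← h1]
  exact Lead.card_sup_of_le_normalizer A B hn h.2.2.1

/-- Let M be a subgroup of a finite group G with type-P data (W₁, U, W₂) and H = M_F. Then the derived subgroup of U centralizes H, and if U ≠ 1 then U does not centralize H. -/
theorem result {G : Type*} [Group G] [Finite G] (M W₁ U W₂ : Subgroup G) (hP : Cfsg.IsTypePWith M W₁ U W₂) :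
    ⁅U, U⁆ ≤ Subgroup.centralizer (Cfsg.fittingHallOf M : Set G) ∧ (U ≠ ⊥ → ¬ U ≤ Subgroup.centralizer (Cfsg.fittingHallOf M : Set G)) := by
  classical
  have hUM' : U ≤ ⁅M, M⁆ := hP.U_compl.2.1
  have hM'M : ⁅M, M⁆ ≤ M := Subgroup.commutator_le_self M
  have hUM : U ≤ M := hUM'.trans hM'M
  have hHU : Cfsg.fittingHallOf M ⊓ U = ⊥ := hP.U_compl.2.2.1
  have hfit := Helper3.typeP_fitting hP
  have hMn : M ≤ Subgroup.normalizer ((⁅M, M⁆ : Subgroup G) : Set G) :=
    S1459.left_le_normalizer_comm M M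
  refine ⟨?_, ?_⟩
  · intro x hx
    have hxU : x ∈ U := Subgroup.commutator_le_self U hx
    have hxM'' : x ∈ ⁅⁅M, M⁆, ⁅M, M⁆⁆ := Subgroup.commutator_mono hUM' hUM' hx
    have hxF : x ∈ Cfsg.fittingHallOf M ⊔
        (U ⊓ Subgroup.centralizer (Cfsg.fittingHallOf M : Set G)) := by
      rw [← hfit, ← hP.fitting_eq]
      exact hP.derived_two_le hxM''
    have hnorm : U ⊓ Subgroup.centralizer (Cfsg.fittingHallOf M : Set G) ≤
        Subgroup.normalizer ((Cfsg.fittingHallOf M : Subgroup G) : Set G) :=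
      inf_le_left.trans (hUM.trans (Helper3.le_normalizer_fittingHallOf M))
    obtain ⟨h, hh, k, hk, hhk⟩ := Helper3.mem_sup_of_le_normalizer_right _ _ hnorm hxF
    have hh1 : h ∈ Cfsg.fittingHallOf M ⊓ U := by
      refine ⟨hh, ?_⟩
      have e : h = x * k⁻¹ := by rw [← hhk]; group
      rw [e]
      exact U.mul_mem hxU (U.inv_mem hk.1)
    rw [hHU, Subgroup.mem_bot] at hh1
    rw [← hhk, hh1, one_mul]
    exact hk.2
  · intro hUne hUC
    have hcop := Helper3.typeP_coprime hP
    obtain ⟨n, hn⟩ : ∃ n, n = Nat.card ↥(Cfsg.fittingHallOf M) := ⟨_, rfl⟩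
    obtain ⟨m, hm⟩ : ∃ m, m = Nat.card ↥U := ⟨_, rfl⟩
    rw [← hn, ← hm] at hcop
    -- characterisation of `U`
    have hchar : ∀ x ∈ ⁅M, M⁆, x ^ m = 1 → x ∈ U := by
      intro x hx hxm
      obtain ⟨h, hh, u, hu, hxhu⟩ := hP.U_compl.2.2.2 x hx
      have hc : Commute h u := Subgroup.mem_centralizer_iff.1 (hUC hu) h hh
      have hum : u ^ m = 1 := by
        have h1 : (⟨u, hu⟩ : ↥U) ^ m = 1 := by rw [hm]; exact pow_card_eq_one'
        have h2 := congrArg Subtype.val h1
        rw [SubmonoidClass.coe_pow] at h2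
        exact h2
      rw [hxhu, hc.mul_pow, hum, mul_one] at hxm
      have ho1 : orderOf h ∣ m := orderOf_dvd_of_pow_eq_one hxm
      have ho2 : orderOf h ∣ n := by rw [hn]; exact Subgroup.orderOf_dvd_natCard _ hh
      have ho : orderOf h = 1 := Nat.eq_one_of_dvd_coprimes hcop ho2 ho1
      rw [orderOf_eq_one_iff] at ho
      rw [hxhu, ho, one_mul]
      exact hu
    haveI hUn : (U.subgroupOf M).Normal := by
      refine ⟨fun y hy g => ?_⟩
      rw [Subgroup.mem_subgroupOf] at hy ⊢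
      have hyM' : (y : G) ∈ ⁅M, M⁆ := hUM' hy
      have hconj : (g : G) * (y : G) * (g : G)⁻¹ ∈ ⁅M, M⁆ :=
        (Subgroup.mem_normalizer_iff.1 (hMn g.2) _).1 hyM'
      have hym : (y : G) ^ m = 1 := by
        have h1 : (⟨(y : G), hy⟩ : ↥U) ^ m = 1 := by rw [hm]; exact pow_card_eq_one'
        have h2 := congrArg Subtype.val h1
        rw [SubmonoidClass.coe_pow] at h2
        exact h2
      have hpow : ((g : G) * (y : G) * (g : G)⁻¹) ^ m = 1 := by
        rw [conj_pow, hym]
        group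
      exact hchar _ hconj hpow
    haveI hUnil : Group.IsNilpotent ↥U := hP.U_nilpotent
    have hUnil' : Group.IsNilpotent ↥(U.subgroupOf M) :=
      Group.nilpotent_of_mulEquiv (Subgroup.subgroupOfEquivOfLe hUM).symm
    have hcardU : Nat.card ↥(U.subgroupOf M) = m := by
      rw [hm]
      exact Nat.card_congr (Subgroup.subgroupOfEquivOfLe hUM).toEquiv
    -- orders
    have hM' : Nat.card ↥(⁅M, M⁆ : Subgroup G) = n * m := by
      rw [hn, hm]
      exact card_of_complIn hP.U_compl (hUM.trans (Helper3.le_normalizer_fittingHallOf M))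
    have hW₁M : W₁ ≤ M := hP.W₁_compl.2.1
    have hMcard : Nat.card ↥M = n * m * Nat.card ↥W₁ := by
      rw [← hM']
      exact card_of_complIn hP.W₁_compl (hW₁M.trans hMn)
    have hrel : W₁.relIndex M = n * m := by
      have h1 := Subgroup.card_mul_index (W₁.subgroupOf M)
      have h2 : Nat.card ↥(W₁.subgroupOf M) = Nat.card ↥W₁ :=
        Nat.card_congr (Subgroup.subgroupOfEquivOfLe hW₁M).toEquiv
      rw [h2, hMcard] at h1
      have h3 : Nat.card ↥W₁ * (W₁.subgroupOf M).index = Nat.card ↥W₁ * (n * m) := by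
        rw [h1]
        ring
      exact Nat.eq_of_mul_eq_mul_left Nat.card_pos h3
    have hW₁cop : (Nat.card ↥W₁).Coprime (n * m) := by
      rw [← hrel]
      exact hP.W₁_hall
    have hidx : (U.subgroupOf M).index = n * Nat.card ↥W₁ := by
      have h1 := Subgroup.card_mul_index (U.subgroupOf M)
      rw [hcardU, hMcard] at h1
      have h3 : m * (U.subgroupOf M).index = m * (n * Nat.card ↥W₁) := by
        rw [h1]
        ring
      have hmpos : 0 < m := by rw [hm]; exact Nat.card_pos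
      exact Nat.eq_of_mul_eq_mul_left hmpos h3
    have hHall : (Nat.card ↥(U.subgroupOf M)).Coprime (U.subgroupOf M).index := by
      rw [hcardU, hidx]
      exact Nat.Coprime.mul_right hcop.symm
        (Nat.Coprime.coprime_dvd_right (Dvd.intro_left n rfl) hW₁cop).symm
    have hle : U.subgroupOf M ≤ Cfsg.fittingHall ↥M := le_sSup ⟨hUn, hUnil', hHall⟩
    apply hUne
    rw [eq_bot_iff]
    intro u hu
    have h1 : (⟨u, hUM hu⟩ : ↥M) ∈ Cfsg.fittingHall ↥M :=
      hle (by rw [Subgroup.mem_subgroupOf]; exact hu)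
    have h2 : u ∈ Cfsg.fittingHallOf M ⊓ U := ⟨⟨⟨u, hUM hu⟩, h1, rfl⟩, hu⟩
    rw [hHU] at h2
    exact h2

end Cfsg.Agent.S1388
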