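import Cfsg.Statements.S1460
import Mathlib
import Cfsg.Agent.Helper3.SchurZ

set_option autoImplicit false
open Cfsg

namespace Cfsg.Agent.S1460

open Cfsg.Agent
open scoped commutatorElement

/-- Let G be a finite solvable group, K a normal subgroup and U a subgroup with G = KU, and H ≤ U a subgroup whose order is coprime to that of K. Then H ∩ G' = H ∩ U'; N_G(H) is generated by K ∩ C_G(H) and U ∩ N_G(H); and if gHg⁻¹ ≤ U for some g ∈ G then g = u c with u ∈ U and c ∈ K ∩ C_G(H). -/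
theorem result {G : Type*} [Group G] [Finite G] [Group.IsSolvable G] (K U H : Subgroup G) [K.Normal] (hKU : K ⊔ U = ⊤) (hH : H ≤ U) (hcop : (Nat.card H).Coprime (Nat.card K)) :
    H ⊓ commutator G = H ⊓ ⁅U, U⁆ ∧
      Subgroup.normalizer (H : Set G) = (K ⊓ Subgroup.centralizer (H : Set G)) ⊔ (U ⊓ Subgroup.normalizer (H : Set G)) ∧
      ∀ g : G, H.map (MulAut.conj g).toMonoidHom ≤ U → ∃ u ∈ U, ∃ c ∈ K ⊓ Subgroup.centralizer (H : Set G), g = u * c := by
  classical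
  have hKnorm : K.Normal := inferInstance
  have hKH : ∀ x : G, x ∈ K → x ∈ H → x = 1 := by
    intro x hxK hxH
    exact orderOf_eq_one_iff.mp (Nat.eq_one_of_dvd_coprimes hcop
      (Subgroup.orderOf_dvd_natCard H hxH) (Subgroup.orderOf_dvd_natCard K hxK))
  have hKn : ∀ X : Subgroup G, X ≤ Subgroup.normalizer (K : Set G) := by
    intro X
    rw [Subgroup.normalizer_eq_top (H := K)]
    exact le_top
  -- part (3)
  have h3 : ∀ g : G, H.map (MulAut.conj g).toMonoidHom ≤ U →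
      ∃ u ∈ U, ∃ c ∈ K ⊓ Subgroup.centralizer (H : Set G), g = u * c := by
    intro g hgU
    have hg : g ∈ K ⊔ U := by
      rw [hKU]
      exact Subgroup.mem_top g
    obtain ⟨k', hk', u₀, hu₀, rfl⟩ := Helper3.mem_sup_of_le_normalizer_right K U (hKn U) hg
    have hk0 : u₀⁻¹ * k' * u₀ ∈ K := by
      have h0 := hKnorm.conj_mem k' hk' u₀⁻¹
      rwa [inv_inv] at h0
    obtain ⟨k, hkdef⟩ : ∃ k, k = u₀⁻¹ * k' * u₀ := ⟨_, rfl⟩
    have hk : k ∈ K := by
      rw [hkdef]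
      exact hk0
    have hgk : k' * u₀ = u₀ * k := by
      rw [hkdef]
      group
    have hconjU : ∀ h ∈ H, k * h * k⁻¹ ∈ U := by
      intro h hh
      have h1 : (k' * u₀) * h * (k' * u₀)⁻¹ ∈ U := hgU (Helper5.conj_mem_conj H _ h hh)
      have h2 : k * h * k⁻¹ = u₀⁻¹ * ((k' * u₀) * h * (k' * u₀)⁻¹) * u₀ := by
        rw [hgk]
        group
      rw [h2]
      exact U.mul_mem (U.mul_mem (U.inv_mem hu₀) h1) hu₀
    have hcommN : ∀ h ∈ H, k * h * k⁻¹ * h⁻¹ ∈ K ⊓ U := by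
      intro h hh
      refine Subgroup.mem_inf.mpr ⟨?_, U.mul_mem (hconjU h hh) (U.inv_mem (hH hh))⟩
      have h1 : h * k⁻¹ * h⁻¹ ∈ K := hKnorm.conj_mem k⁻¹ (K.inv_mem hk) h
      have h2 : k * h * k⁻¹ * h⁻¹ = k * (h * k⁻¹ * h⁻¹) := by group
      rw [h2]
      exact K.mul_mem hk h1
    have hNH : (K ⊓ U) ⊓ H = ⊥ := by
      rw [eq_bot_iff]
      intro x hx
      obtain ⟨hx1, hx2⟩ := Subgroup.mem_inf.mp hx
      rw [Subgroup.mem_bot]
      exact hKH x (Subgroup.mem_inf.mp hx1).1 hx2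
    have hNH₂ : (K ⊓ U) ⊓ H.map (MulAut.conj k).toMonoidHom = ⊥ := by
      rw [eq_bot_iff]
      intro x hx
      obtain ⟨hx1, hx2⟩ := Subgroup.mem_inf.mp hx
      rw [Subgroup.mem_bot]
      have hxK := (Subgroup.mem_inf.mp hx1).1
      have ho : orderOf x ∣ Nat.card H := by
        rw [← Helper5.card_conj H k]
        exact Subgroup.orderOf_dvd_natCard _ hx2
      exact orderOf_eq_one_iff.mp (Nat.eq_one_of_dvd_coprimes hcop ho
        (Subgroup.orderOf_dvd_natCard K hxK))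
    have hsup : (K ⊓ U) ⊔ H = (K ⊓ U) ⊔ H.map (MulAut.conj k).toMonoidHom := by
      apply le_antisymm
      · apply sup_le le_sup_left
        intro h hh
        have e : h = (k * h * k⁻¹ * h⁻¹)⁻¹ * (k * h * k⁻¹) := by group
        have h0 : (k * h * k⁻¹ * h⁻¹)⁻¹ * (k * h * k⁻¹) ∈
            (K ⊓ U) ⊔ H.map (MulAut.conj k).toMonoidHom :=
          Subgroup.mul_mem _
            ((le_sup_left : K ⊓ U ≤ (K ⊓ U) ⊔ H.map (MulAut.conj k).toMonoidHom)
              (Subgroup.inv_mem _ (hcommN h hh)))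
            ((le_sup_right : H.map (MulAut.conj k).toMonoidHom ≤
              (K ⊓ U) ⊔ H.map (MulAut.conj k).toMonoidHom) (Helper5.conj_mem_conj H k h hh))
        rw [← e] at h0
        exact h0
      · apply sup_le le_sup_left
        intro z hz
        obtain ⟨h, hh, rfl⟩ := Subgroup.mem_map.mp hz
        have e : k * h * k⁻¹ = (k * h * k⁻¹ * h⁻¹) * h := by group
        show k * h * k⁻¹ ∈ (K ⊓ U) ⊔ H
        rw [e]
        exact Subgroup.mul_mem _ ((le_sup_left : K ⊓ U ≤ (K ⊓ U) ⊔ H) (hcommN h hh))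
          ((le_sup_right : H ≤ (K ⊓ U) ⊔ H) hh)
    have hHN : H ≤ Subgroup.normalizer ((K ⊓ U : Subgroup G) : Set G) :=
      hH.trans (Helper3.le_normalizer_inf_of_le U K U (hKn U) Subgroup.le_normalizer)
    have hcopN : (Nat.card ↥(K ⊓ U)).Coprime (Nat.card H) :=
      (Nat.Coprime.coprime_dvd_right (Subgroup.card_dvd_of_le inf_le_left) hcop).symm
    obtain ⟨n, hn, hnconj⟩ := Helper3.sz_conj_rel (K ⊓ U) H (H.map (MulAut.conj k).toMonoidHom)
      hHN hNH hNH₂ hsup hcopN (Or.inl inferInstance)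
    obtain ⟨hnK, hnU⟩ := Subgroup.mem_inf.mp hn
    have hcN : H.map (MulAut.conj (n⁻¹ * k)).toMonoidHom = H := by
      rw [← Helper5.conj_conj, ← hnconj, Helper5.conj_conj, inv_mul_cancel, Helper5.conj_one]
    have hcK : n⁻¹ * k ∈ K := K.mul_mem (K.inv_mem hnK) hk
    have hcC : n⁻¹ * k ∈ Subgroup.centralizer (H : Set G) := by
      rw [Subgroup.mem_centralizer_iff]
      intro h hh
      have h1 : (n⁻¹ * k) * h * (n⁻¹ * k)⁻¹ ∈ H := by
        have h0 := Helper5.conj_mem_conj H (n⁻¹ * k) h hh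
        rwa [hcN] at h0
      have h2 : (n⁻¹ * k) * h * (n⁻¹ * k)⁻¹ * h⁻¹ = 1 := by
        apply hKH
        · have h3 : h * (n⁻¹ * k)⁻¹ * h⁻¹ ∈ K := hKnorm.conj_mem _ (K.inv_mem hcK) h
          have e : (n⁻¹ * k) * h * (n⁻¹ * k)⁻¹ * h⁻¹ =
              (n⁻¹ * k) * (h * (n⁻¹ * k)⁻¹ * h⁻¹) := by group
          rw [e]
          exact K.mul_mem hcK h3
        · exact H.mul_mem h1 (H.inv_mem hh)
      have h4 : (n⁻¹ * k) * h = h * (n⁻¹ * k) :=
        mul_inv_eq_iff_eq_mul.mp (mul_inv_eq_one.mp h2)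
      exact h4.symm
    refine ⟨u₀ * n, U.mul_mem hu₀ hnU, n⁻¹ * k, Subgroup.mem_inf.mpr ⟨hcK, hcC⟩, ?_⟩
    rw [hgk]
    group
  -- part (2)
  have h2 : Subgroup.normalizer (H : Set G) =
      (K ⊓ Subgroup.centralizer (H : Set G)) ⊔ (U ⊓ Subgroup.normalizer (H : Set G)) := by
    apply le_antisymm
    · intro g hg
      have hconj : H.map (MulAut.conj g).toMonoidHom = H :=
        (Helper5.mem_normalizer_iff_conj_eq H g).mp hg
      obtain ⟨u, hu, c, hc, hguc⟩ := h3 g (by rw [hconj]; exact hH)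
      obtain ⟨hcK, hcC⟩ := Subgroup.mem_inf.mp hc
      have hcN : c ∈ Subgroup.normalizer (H : Set G) :=
        Subgroup.centralizer_le_normalizer _ hcC
      have huN : u ∈ Subgroup.normalizer (H : Set G) := by
        have h0 := Subgroup.mul_mem _ hg (Subgroup.inv_mem _ hcN)
        rwa [hguc, mul_inv_cancel_right] at h0
      rw [hguc]
      exact Subgroup.mul_mem _
        ((le_sup_right : U ⊓ Subgroup.normalizer (H : Set G) ≤
          (K ⊓ Subgroup.centralizer (H : Set G)) ⊔ (U ⊓ Subgroup.normalizer (H : Set G)))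
          (Subgroup.mem_inf.mpr ⟨hu, huN⟩))
        ((le_sup_left : K ⊓ Subgroup.centralizer (H : Set G) ≤
          (K ⊓ Subgroup.centralizer (H : Set G)) ⊔ (U ⊓ Subgroup.normalizer (H : Set G))) hc)
    · apply sup_le
      · exact inf_le_right.trans (Subgroup.centralizer_le_normalizer _)
      · exact inf_le_right
  -- part (1)
  have hUU : ⁅U, U⁆ ≤ U :=
    Subgroup.commutator_le.mpr (fun a ha b hb =>
      U.mul_mem (U.mul_mem (U.mul_mem ha hb) (U.inv_mem ha)) (U.inv_mem hb))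
  have hπ : ∀ k ∈ K, (QuotientGroup.mk' K) k = 1 := fun k hk =>
    (QuotientGroup.eq_one_iff k).mpr hk
  have hG' : commutator G ≤ K ⊔ ⁅U, U⁆ := by
    rw [_root_.commutator_def, Subgroup.commutator_le]
    intro g₁ _ g₂ _
    have hg₁ : g₁ ∈ K ⊔ U := by
      rw [hKU]
      exact Subgroup.mem_top _
    have hg₂ : g₂ ∈ K ⊔ U := by
      rw [hKU]
      exact Subgroup.mem_top _
    obtain ⟨k₁, hk₁, u₁, hu₁, rfl⟩ := Helper3.mem_sup_of_le_normalizer_right K U (hKn U) hg₁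
    obtain ⟨k₂, hk₂, u₂, hu₂, rfl⟩ := Helper3.mem_sup_of_le_normalizer_right K U (hKn U) hg₂
    have hker : ⁅k₁ * u₁, k₂ * u₂⁆ * ⁅u₁, u₂⁆⁻¹ ∈ K := by
      have h0 : (QuotientGroup.mk' K) (⁅k₁ * u₁, k₂ * u₂⁆ * ⁅u₁, u₂⁆⁻¹) = 1 := by
        rw [map_mul, map_inv, map_commutatorElement, map_commutatorElement, map_mul, map_mul,
          hπ k₁ hk₁, hπ k₂ hk₂, one_mul, one_mul, mul_inv_cancel]
      exact (QuotientGroup.eq_one_iff _).mp h0
    have e : ⁅k₁ * u₁, k₂ * u₂⁆ = (⁅k₁ * u₁, k₂ * u₂⁆ * ⁅u₁, u₂⁆⁻¹) * ⁅u₁, u₂⁆ :=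
      (inv_mul_cancel_right _ _).symm
    rw [e]
    exact Subgroup.mul_mem _ ((le_sup_left : K ≤ K ⊔ ⁅U, U⁆) hker)
      ((le_sup_right : ⁅U, U⁆ ≤ K ⊔ ⁅U, U⁆) (Subgroup.commutator_mem_commutator hu₁ hu₂))
  have h1 : H ⊓ commutator G = H ⊓ ⁅U, U⁆ := by
    apply le_antisymm
    · intro x hx
      obtain ⟨hxH, hxG⟩ := Subgroup.mem_inf.mp hx
      refine Subgroup.mem_inf.mpr ⟨hxH, ?_⟩
      obtain ⟨k, hk, u', hu', hxe⟩ :=
        Helper3.mem_sup_of_le_normalizer_right K ⁅U, U⁆ (hKn _) (hG' hxG)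
      have hxU : x ∈ U := hH hxH
      have hu'U : u' ∈ U := hUU hu'
      have hkU : k ∈ U := by
        have e : k = x * u'⁻¹ := by
          rw [← hxe]
          group
        rw [e]
        exact U.mul_mem hxU (U.inv_mem hu'U)
      have hu'c : (⟨u', hu'U⟩ : U) ∈ commutator ↥U := by
        have h0 : u' ∈ (commutator ↥U).map U.subtype := by
          rw [Helper3.map_subtype_commutator_top]
          exact hu'
        obtain ⟨w, hw, hwe⟩ := Subgroup.mem_map.mp h0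
        have e : w = ⟨u', hu'U⟩ := Subtype.ext hwe
        rw [← e]
        exact hw
      have hq0 : (QuotientGroup.mk' (commutator ↥U)) ⟨u', hu'U⟩ = 1 :=
        (QuotientGroup.eq_one_iff _).mpr hu'c
      have hq : (QuotientGroup.mk' (commutator ↥U)) ⟨x, hxU⟩ =
          (QuotientGroup.mk' (commutator ↥U)) ⟨k, hkU⟩ := by
        have e : (⟨x, hxU⟩ : U) = ⟨k, hkU⟩ * ⟨u', hu'U⟩ := Subtype.ext hxe.symm
        rw [e, map_mul, hq0, mul_one]
      have ho1 : orderOf ((QuotientGroup.mk' (commutator ↥U)) ⟨x, hxU⟩) ∣ Nat.card H := by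
        refine (orderOf_map_dvd _ _).trans ?_
        rw [← Subgroup.orderOf_coe]
        exact Subgroup.orderOf_dvd_natCard H hxH
      have ho2 : orderOf ((QuotientGroup.mk' (commutator ↥U)) ⟨x, hxU⟩) ∣ Nat.card K := by
        rw [hq]
        refine (orderOf_map_dvd _ _).trans ?_
        rw [← Subgroup.orderOf_coe]
        exact Subgroup.orderOf_dvd_natCard K hk
      have hq1 : (QuotientGroup.mk' (commutator ↥U)) ⟨x, hxU⟩ = 1 :=
        orderOf_eq_one_iff.mp (Nat.eq_one_of_dvd_coprimes hcop ho1 ho2)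
      have hxc : (⟨x, hxU⟩ : U) ∈ commutator ↥U := (QuotientGroup.eq_one_iff _).mp hq1
      rw [← Helper3.map_subtype_commutator_top]
      exact ⟨⟨x, hxU⟩, hxc, rfl⟩
    · exact inf_le_inf_left _ (Subgroup.commutator_mono le_top le_top)
  exact ⟨h1, h2, h3⟩

end Cfsg.Agent.S1460
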