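import Cfsg.Statements.S1462
import Mathlib
import Cfsg.Agent.Helper3.PLength

set_option autoImplicit false
open Cfsg

namespace Cfsg.Agent.S1462

open Cfsg.Agent

/-- Let G be a finite solvable group, p an odd prime with G = O_{p',p,p'}(G), E an elementary abelian p-subgroup contained in no larger elementary abelian p-subgroup of G, and L a subgroup of order coprime to p normalized by E. Then L ≤ O_{p'}(G). -/
theorem result {G : Type*} [Group G] [Finite G] [Group.IsSolvable G] (p : ℕ) [Fact p.Prime] (hp : p ≠ 2) (hpl : Cfsg.PLengthLE p 1 G) (E L : Subgroup G) (hE : Cfsg.IsElementaryAbelian p E)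
    (hEmax : ∀ B : Subgroup G, Cfsg.IsElementaryAbelian p B → E ≤ B → B = E) (hL : (Nat.card L).Coprime p) (hEL : E ≤ Subgroup.normalizer (L : Set G)) :
    L ≤ Cfsg.pPrimeCore p G := by
  classical
  have hpp : p.Prime := Fact.out
  have hKcop : (Nat.card (Cfsg.pPrimeCore p G)).Coprime p := Helper3.pPrimeCore_coprime p G
  obtain ⟨π, hπ, hker⟩ : ∃ π : G →* G ⧸ Cfsg.pPrimeCore p G, Function.Surjective π ∧
      ∀ x, π x = 1 ↔ x ∈ Cfsg.pPrimeCore p G :=
    ⟨QuotientGroup.mk' _, QuotientGroup.mk'_surjective _, fun x => QuotientGroup.eq_one_iff x⟩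
  have hPbp : IsPGroup p (Cfsg.pCore p (G ⧸ Cfsg.pPrimeCore p G)) :=
    Helper3.pCore_isPGroup p (G ⧸ Cfsg.pPrimeCore p G)
  have hPbn : (Cfsg.pCore p (G ⧸ Cfsg.pPrimeCore p G)).Normal := inferInstance
  have hEp : IsPGroup p E := Helper3.isPGroup_of_isElementaryAbelian p E hE
  -- structure of p-length one
  obtain ⟨K', N', hK'n, hN'n, hK'N', hK'c, ⟨m, hm⟩, hN'i⟩ := Helper3.pLength_one_structure p hpl
  haveI := hK'n
  haveI := hN'n
  have hK'K : K' ≤ Cfsg.pPrimeCore p G := Helper3.le_pPrimeCore K' hK'c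
  have hN'p : IsPGroup p (N'.map π) := by
    rintro ⟨x, hx⟩
    obtain ⟨n, hn, rfl⟩ := Subgroup.mem_map.mp hx
    refine ⟨m, ?_⟩
    apply Subtype.ext
    show π n ^ p ^ m = 1
    rw [← map_pow]
    have h1 : n ^ p ^ m ∈ K' := by
      have h2 := Subgroup.pow_index_mem (K'.subgroupOf N') (⟨n, hn⟩ : N')
      have h3 : (K'.subgroupOf N').index = p ^ m := hm
      rw [h3, Subgroup.mem_subgroupOf] at h2
      simpa using h2
    exact (hker _).mpr (hK'K h1)
  have hN'P : N'.map π ≤ Cfsg.pCore p (G ⧸ Cfsg.pPrimeCore p G) := by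
    haveI : (N'.map π).Normal := hN'n.map π hπ
    exact Helper3.le_pCore _ hN'p
  have hEN' : E ≤ N' := Helper3.pGroup_le_of_index_coprime p N' hN'i E hEp
  have hEP : E.map π ≤ Cfsg.pCore p (G ⧸ Cfsg.pPrimeCore p G) :=
    (Subgroup.map_mono hEN').trans hN'P
  -- the image of L centralizes the image of E
  have hLE : L.map π ≤ Subgroup.centralizer
      ((E.map π : Subgroup (G ⧸ Cfsg.pPrimeCore p G)) : Set (G ⧸ Cfsg.pPrimeCore p G)) := by
    rintro _ ⟨l, hl, rfl⟩
    rw [Subgroup.mem_centralizer_iff]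
    rintro _ ⟨e, he, rfl⟩
    have hc : l * e * l⁻¹ * e⁻¹ ∈ L := by
      have h1 : e * l⁻¹ * e⁻¹ ∈ L := by
        have hen := hEL he
        rw [Subgroup.mem_normalizer_iff] at hen
        exact (hen l⁻¹).mp (L.inv_mem hl)
      have h2 : l * e * l⁻¹ * e⁻¹ = l * (e * l⁻¹ * e⁻¹) := by group
      rw [h2]
      exact L.mul_mem hl h1
    have h3 : π (l * e * l⁻¹ * e⁻¹) = π l * π e * (π l)⁻¹ * (π e)⁻¹ := by
      rw [map_mul, map_mul, map_mul, map_inv, map_inv]
    have hcP : π (l * e * l⁻¹ * e⁻¹) ∈ Cfsg.pCore p (G ⧸ Cfsg.pPrimeCore p G) := by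
      have h1 : π e ∈ Cfsg.pCore p (G ⧸ Cfsg.pPrimeCore p G) :=
        hEP (Subgroup.mem_map_of_mem π he)
      have h2 : π l * π e * (π l)⁻¹ ∈ Cfsg.pCore p (G ⧸ Cfsg.pPrimeCore p G) :=
        hPbn.conj_mem _ h1 _
      rw [h3]
      exact Subgroup.mul_mem _ h2 (Subgroup.inv_mem _ h1)
    have hord : (orderOf (π (l * e * l⁻¹ * e⁻¹))).Coprime p :=
      Nat.Coprime.coprime_dvd_left
        ((orderOf_map_dvd π _).trans (Subgroup.orderOf_dvd_natCard L hc)) hL
    have h1 := Helper3.eq_one_of_mem_pGroup_of_coprime p _ hPbp hcP hord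
    rw [h3] at h1
    exact (mul_inv_eq_iff_eq_mul.mp (mul_inv_eq_one.mp h1)).symm
  -- a Sylow p-subgroup containing E
  obtain ⟨S, hES⟩ := hEp.exists_le_sylow
  have hPS : Cfsg.pCore p (G ⧸ Cfsg.pPrimeCore p G) ≤ (S : Subgroup G).map π := by
    have hsup : IsPGroup p ((S : Subgroup G).map π ⊔ Cfsg.pCore p (G ⧸ Cfsg.pPrimeCore p G) :
        Subgroup (G ⧸ Cfsg.pPrimeCore p G)) :=
      IsPGroup.to_sup_of_normal_right (S.2.map π) hPbp
    have hle : ((S.mapSurjective hπ : Sylow p (G ⧸ Cfsg.pPrimeCore p G)) :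
        Subgroup (G ⧸ Cfsg.pPrimeCore p G)) ≤
        (S : Subgroup G).map π ⊔ Cfsg.pCore p (G ⧸ Cfsg.pPrimeCore p G) := by
      rw [Sylow.coe_mapSurjective]
      exact le_sup_left
    have hmax := (S.mapSurjective hπ).is_maximal' hsup hle
    rw [Sylow.coe_mapSurjective] at hmax
    calc Cfsg.pCore p (G ⧸ Cfsg.pPrimeCore p G)
        ≤ (S : Subgroup G).map π ⊔ Cfsg.pCore p (G ⧸ Cfsg.pPrimeCore p G) := le_sup_right
      _ = (S : Subgroup G).map π := hmax
  have hSK : ∀ s ∈ (S : Subgroup G), π s = 1 → s = 1 := by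
    intro s hs h1
    have hsK : s ∈ Cfsg.pPrimeCore p G := (hker s).mp h1
    have hord : (orderOf s).Coprime p :=
      Nat.Coprime.coprime_dvd_left (Subgroup.orderOf_dvd_natCard _ hsK) hKcop
    exact Helper3.eq_one_of_mem_pGroup_of_coprime p (S : Subgroup G) S.2 hs hord
  have hEbar : Cfsg.IsElementaryAbelian p (E.map π) := by
    refine ⟨⟨⟨?_⟩⟩, ?_⟩
    · rintro ⟨_, ⟨a, ha, rfl⟩⟩ ⟨_, ⟨b, hb, rfl⟩⟩
      apply Subtype.ext
      show π a * π b = π b * π a
      rw [← map_mul, ← map_mul, Helper5.comm_of_isMulCommutative hE.1 a ha b hb]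
    · rintro _ ⟨a, ha, rfl⟩
      rw [← map_pow, hE.2 a ha, map_one]
  have hfix : ∀ x ∈ (Cfsg.pCore p (G ⧸ Cfsg.pPrimeCore p G) ⊓ Subgroup.centralizer
      ((E.map π : Subgroup (G ⧸ Cfsg.pPrimeCore p G)) : Set (G ⧸ Cfsg.pPrimeCore p G))),
      orderOf x = p → L.map π ≤ Subgroup.centralizer ({x} : Set (G ⧸ Cfsg.pPrimeCore p G)) := by
    intro x hx hxo
    obtain ⟨hx1, hx2⟩ := Subgroup.mem_inf.mp hx
    have hxE : x ∈ E.map π := by
      obtain ⟨y, hyS, rfl⟩ := hPS hx1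
      have hyp : y ^ p = 1 := by
        apply hSK _ (Subgroup.pow_mem _ hyS p)
        have h1 := pow_orderOf_eq_one (π y)
        rw [hxo] at h1
        rw [map_pow]
        exact h1
      have hycomm : ∀ e ∈ E, y * e = e * y := by
        intro e he
        have h1 : y * e * y⁻¹ * e⁻¹ = 1 := by
          apply hSK _ (Subgroup.mul_mem _ (Subgroup.mul_mem _ (Subgroup.mul_mem _ hyS (hES he))
            (Subgroup.inv_mem _ hyS)) (Subgroup.inv_mem _ (hES he)))
          have h2 := hx2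
          rw [Subgroup.mem_centralizer_iff] at h2
          have h3 := h2 (π e) (Subgroup.mem_map_of_mem π he)
          rw [map_mul, map_mul, map_mul, map_inv, map_inv, ← h3]
          group
        exact mul_inv_eq_iff_eq_mul.mp (mul_inv_eq_one.mp h1)
      have hzN : Subgroup.zpowers y ≤ Subgroup.normalizer (E : Set G) := by
        rw [Subgroup.zpowers_le, Subgroup.mem_normalizer_iff]
        intro e
        constructor
        · intro he
          rw [hycomm e he, mul_inv_cancel_right]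
          exact he
        · intro he
          have h1 := hycomm _ he
          have h3 : y * (y * e * y⁻¹) = y * e := by
            rw [h1]
            group
          have h2 : y * e * y⁻¹ = e := mul_left_cancel h3
          rw [← h2]
          exact he
      have hrep : ∀ z ∈ E ⊔ Subgroup.zpowers y, ∃ e ∈ E, ∃ k : ℤ, e * y ^ k = z := by
        intro z hz
        obtain ⟨e, he, b, hb, rfl⟩ := Helper3.mem_sup_of_le_normalizer_right E _ hzN hz
        obtain ⟨k, rfl⟩ := Subgroup.mem_zpowers_iff.mp hb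
        exact ⟨e, he, k, rfl⟩
      have hyk : ∀ (k : ℤ) (e : G), e ∈ E → y ^ k * e = e * y ^ k := by
        intro k e he
        exact (Commute.zpow_left (show Commute y e from hycomm e he) k).eq
      have hB : Cfsg.IsElementaryAbelian p (E ⊔ Subgroup.zpowers y) := by
        refine ⟨⟨⟨?_⟩⟩, ?_⟩
        · rintro ⟨z₁, hz₁⟩ ⟨z₂, hz₂⟩
          apply Subtype.ext
          show z₁ * z₂ = z₂ * z₁
          obtain ⟨e₁, he₁, k₁, rfl⟩ := hrep z₁ hz₁
          obtain ⟨e₂, he₂, k₂, rfl⟩ := hrep z₂ hz₂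
          have c1 : e₁ * e₂ = e₂ * e₁ := Helper5.comm_of_isMulCommutative hE.1 e₁ he₁ e₂ he₂
          have c2 : y ^ k₁ * e₂ = e₂ * y ^ k₁ := hyk k₁ e₂ he₂
          have c3 : y ^ k₂ * e₁ = e₁ * y ^ k₂ := hyk k₂ e₁ he₁
          have c4 : y ^ k₁ * y ^ k₂ = y ^ k₂ * y ^ k₁ := by
            rw [← zpow_add, ← zpow_add, add_comm]
          calc e₁ * y ^ k₁ * (e₂ * y ^ k₂) = e₁ * (y ^ k₁ * e₂) * y ^ k₂ := by
                simp only [mul_assoc]
            _ = e₁ * (e₂ * y ^ k₁) * y ^ k₂ := by rw [c2]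
            _ = (e₁ * e₂) * (y ^ k₁ * y ^ k₂) := by simp only [mul_assoc]
            _ = (e₂ * e₁) * (y ^ k₂ * y ^ k₁) := by rw [c1, c4]
            _ = e₂ * (e₁ * y ^ k₂) * y ^ k₁ := by simp only [mul_assoc]
            _ = e₂ * (y ^ k₂ * e₁) * y ^ k₁ := by rw [c3]
            _ = e₂ * y ^ k₂ * (e₁ * y ^ k₁) := by simp only [mul_assoc]
        · intro z hz
          obtain ⟨e, he, k, rfl⟩ := hrep z hz
          have hc : Commute e (y ^ k) := (hyk k e he).symm
          have hyk1 : (y ^ k) ^ p = 1 := by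
            rw [← zpow_natCast, ← zpow_mul, mul_comm, zpow_mul, zpow_natCast, hyp, one_zpow]
          rw [hc.mul_pow, hE.2 e he, one_mul, hyk1]
      have hBE := hEmax _ hB le_sup_left
      have hyE : y ∈ E := by
        rw [← hBE]
        exact (le_sup_right : Subgroup.zpowers y ≤ E ⊔ Subgroup.zpowers y)
          (Subgroup.mem_zpowers y)
      exact Subgroup.mem_map_of_mem π hyE
    exact hLE.trans (Subgroup.centralizer_le (Set.singleton_subset_iff.mpr hxE))
  have hLcop : (Nat.card (L.map π)).Coprime p :=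
    Nat.Coprime.coprime_dvd_left (Subgroup.card_map_dvd L π) hL
  have hLN : L.map π ≤ Subgroup.normalizer
      ((Cfsg.pCore p (G ⧸ Cfsg.pPrimeCore p G) : Subgroup (G ⧸ Cfsg.pPrimeCore p G)) :
        Set (G ⧸ Cfsg.pPrimeCore p G)) := by
    rw [Subgroup.normalizer_eq_top (H := Cfsg.pCore p (G ⧸ Cfsg.pPrimeCore p G))]
    exact le_top
  have hcent := Helper3.centralizes_of_centralizes_order_p p hp
    (Cfsg.pCore p (G ⧸ Cfsg.pPrimeCore p G)) (E.map π) (L.map π) hPbp hEP hEbar hLN hLcop hfix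
  have hO : Cfsg.pPrimeCore p (G ⧸ Cfsg.pPrimeCore p G) = ⊥ :=
    Helper3.pPrimeCore_quotient_eq_bot p G
  have hlay : Cfsg.layer (G ⧸ Cfsg.pPrimeCore p G) = ⊥ :=
    Helper3.layer_eq_bot_of_le_solvable (⊤ : Subgroup (G ⧸ Cfsg.pPrimeCore p G)) inferInstance
      le_top
  have hFs : Cfsg.generalizedFittingSubgroup (G ⧸ Cfsg.pPrimeCore p G) =
      Cfsg.pCore p (G ⧸ Cfsg.pPrimeCore p G) :=
    (Helper3.fstar_eq_pCore_iff p).mpr ⟨hlay, hO⟩
  have hCP : Subgroup.centralizer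
      ((Cfsg.pCore p (G ⧸ Cfsg.pPrimeCore p G) : Subgroup (G ⧸ Cfsg.pPrimeCore p G)) :
        Set (G ⧸ Cfsg.pPrimeCore p G)) ≤ Cfsg.pCore p (G ⧸ Cfsg.pPrimeCore p G) := by
    have h := Helper3.centralizer_fstar_le (G ⧸ Cfsg.pPrimeCore p G)
    rw [hFs] at h
    exact h
  intro l hl
  have h1 : π l ∈ Cfsg.pCore p (G ⧸ Cfsg.pPrimeCore p G) :=
    hCP (hcent (Subgroup.mem_map_of_mem π hl))
  have hord : (orderOf (π l)).Coprime p :=
    Nat.Coprime.coprime_dvd_left
      ((orderOf_map_dvd π l).trans (Subgroup.orderOf_dvd_natCard L hl)) hL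
  exact (hker l).mp (Helper3.eq_one_of_mem_pGroup_of_coprime p _ hPbp h1 hord)

end Cfsg.Agent.S1462
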