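import Cfsg.Statements.S1467
import Mathlib

set_option autoImplicit false
open Cfsg

namespace Cfsg.Agent.S1467

/-- Let G be a finite group with Puig series L_n(G). Then L_0 = 1, L_1 = G; L_{2n} ≤ L_{2n+2} ≤ L_{2m+3} ≤ L_{2m+1} for all n, m; there is k with L_{2n}(G) = L_*(G) and L_{2n+1}(G) = L(G) for all n ≥ k; L_*(G) ≤ L(G); and applying one Puig step to L_*(G) gives L(G) and to L(G) gives L_*(G). -/
theorem result {G : Type*} [Group G] [Finite G] :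
    Cfsg.puigSeq G 0 = ⊥ ∧ Cfsg.puigSeq G 1 = ⊤ ∧
      (∀ n m : ℕ, Cfsg.puigSeq G (2 * n) ≤ Cfsg.puigSeq G (2 * n + 2) ∧ Cfsg.puigSeq G (2 * n) ≤ Cfsg.puigSeq G (2 * m + 1) ∧
        Cfsg.puigSeq G (2 * m + 3) ≤ Cfsg.puigSeq G (2 * m + 1)) ∧
      (∃ k : ℕ, ∀ n : ℕ, k ≤ n → Cfsg.puigSeq G (2 * n) = Cfsg.puigLower G ∧ Cfsg.puigSeq G (2 * n + 1) = Cfsg.puigSubgroup G) ∧
      Cfsg.puigLower G ≤ Cfsg.puigSubgroup G ∧
      Cfsg.puigStep (Cfsg.puigLower G) = Cfsg.puigSubgroup G ∧ Cfsg.puigStep (Cfsg.puigSubgroup G) = Cfsg.puigLower G := by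
  classical
  have hA : ∀ X Y : Subgroup G, X ≤ Y → Cfsg.puigStep Y ≤ Cfsg.puigStep X := by
    intro X Y hXY
    apply sSup_le_sSup
    rintro A ⟨hA1, hA2⟩
    exact ⟨hA1, le_trans hXY hA2⟩
  have h0 : Cfsg.puigSeq G 0 = ⊥ := rfl
  have h1 : Cfsg.puigSeq G 1 = ⊤ := by
    rw [eq_top_iff]
    intro g _
    have hz : Subgroup.zpowers g ≤ Cfsg.puigStep (Cfsg.puigSeq G 0) := by
      apply le_sSup
      refine ⟨?_, ?_⟩
      · refine ⟨⟨fun a b => ?_⟩⟩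
        obtain ⟨a, ha⟩ := a
        obtain ⟨b, hb⟩ := b
        obtain ⟨m, rfl⟩ := Subgroup.mem_zpowers_iff.mp ha
        obtain ⟨n, rfl⟩ := Subgroup.mem_zpowers_iff.mp hb
        apply Subtype.ext
        show g ^ m * g ^ n = g ^ n * g ^ m
        rw [← zpow_add, ← zpow_add, add_comm]
      · rw [h0]
        exact bot_le
    exact hz (Subgroup.mem_zpowers g)
  have hstepA : ∀ i j, Cfsg.puigSeq G i ≤ Cfsg.puigSeq G j →
      Cfsg.puigSeq G (j + 1) ≤ Cfsg.puigSeq G (i + 1) :=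
    fun i j h => hA _ _ h
  have hM : ∀ n, Cfsg.puigSeq G (2 * n) ≤ Cfsg.puigSeq G (2 * n + 2) ∧
      Cfsg.puigSeq G (2 * n + 3) ≤ Cfsg.puigSeq G (2 * n + 1) := by
    intro n
    induction n with
    | zero =>
      have e : Cfsg.puigSeq G (2 * 0) ≤ Cfsg.puigSeq G (2 * 0 + 2) := by
        show (⊥ : Subgroup G) ≤ _
        exact bot_le
      exact ⟨e, hstepA _ _ e⟩
    | succ n ih =>
      have h3 : Cfsg.puigSeq G (2 * n + 2) ≤ Cfsg.puigSeq G (2 * n + 4) :=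
        hstepA (2 * n + 3) (2 * n + 1) ih.2
      have h4 : Cfsg.puigSeq G (2 * n + 5) ≤ Cfsg.puigSeq G (2 * n + 3) :=
        hstepA (2 * n + 2) (2 * n + 4) h3
      have e : 2 * (n + 1) = 2 * n + 2 := by ring
      rw [e]
      exact ⟨h3, h4⟩
  have hQ : ∀ n, Cfsg.puigSeq G (2 * n) ≤ Cfsg.puigSeq G (2 * n + 1) ∧
      Cfsg.puigSeq G (2 * n + 2) ≤ Cfsg.puigSeq G (2 * n + 1) := by
    intro n
    induction n with
    | zero =>
      have e : Cfsg.puigSeq G (2 * 0) ≤ Cfsg.puigSeq G (2 * 0 + 1) := by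
        show (⊥ : Subgroup G) ≤ _
        exact bot_le
      exact ⟨e, hstepA _ _ e⟩
    | succ n ih =>
      have h3 : Cfsg.puigSeq G (2 * n + 2) ≤ Cfsg.puigSeq G (2 * n + 3) :=
        hstepA (2 * n + 2) (2 * n + 1) ih.2
      have h4 : Cfsg.puigSeq G (2 * n + 4) ≤ Cfsg.puigSeq G (2 * n + 3) :=
        hstepA (2 * n + 2) (2 * n + 3) h3
      have e : 2 * (n + 1) = 2 * n + 2 := by ring
      rw [e]
      exact ⟨h3, h4⟩
  have hEmono : Monotone (fun n => Cfsg.puigSeq G (2 * n)) := by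
    apply monotone_nat_of_le_succ
    intro n
    have e : 2 * (n + 1) = 2 * n + 2 := by ring
    show Cfsg.puigSeq G (2 * n) ≤ Cfsg.puigSeq G (2 * (n + 1))
    rw [e]
    exact (hM n).1
  have hOanti : Antitone (fun n => Cfsg.puigSeq G (2 * n + 1)) := by
    apply antitone_nat_of_succ_le
    intro n
    have e : 2 * (n + 1) + 1 = 2 * n + 3 := by ring
    show Cfsg.puigSeq G (2 * (n + 1) + 1) ≤ Cfsg.puigSeq G (2 * n + 1)
    rw [e]
    exact (hM n).2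
  have hEO : ∀ n m, Cfsg.puigSeq G (2 * n) ≤ Cfsg.puigSeq G (2 * m + 1) := by
    intro n m
    calc Cfsg.puigSeq G (2 * n) ≤ Cfsg.puigSeq G (2 * (max n m)) := hEmono (le_max_left n m)
      _ ≤ Cfsg.puigSeq G (2 * (max n m) + 1) := (hQ _).1
      _ ≤ Cfsg.puigSeq G (2 * m + 1) := hOanti (le_max_right n m)
  obtain ⟨X, ⟨kE, hkE⟩, hXmax⟩ := Set.exists_max_image
    (Set.range (fun n => Cfsg.puigSeq G (2 * n)))
    (fun X : Subgroup G => Nat.card X) (Set.toFinite _) ⟨_, 0, rfl⟩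
  obtain ⟨Y, ⟨kO, hkO⟩, hYmin⟩ := Set.exists_min_image
    (Set.range (fun n => Cfsg.puigSeq G (2 * n + 1)))
    (fun X : Subgroup G => Nat.card X) (Set.toFinite _) ⟨_, 0, rfl⟩
  have hEstab : ∀ n, kE ≤ n → Cfsg.puigSeq G (2 * n) = Cfsg.puigSeq G (2 * kE) := by
    intro n hn
    have hle : Cfsg.puigSeq G (2 * kE) ≤ Cfsg.puigSeq G (2 * n) := hEmono hn
    have hc : Nat.card (Cfsg.puigSeq G (2 * n)) ≤ Nat.card (Cfsg.puigSeq G (2 * kE)) := by
      have h := hXmax (Cfsg.puigSeq G (2 * n)) ⟨n, rfl⟩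
      rw [← hkE] at h
      exact h
    exact (Subgroup.eq_of_le_of_card_ge hle hc).symm
  have hOstab : ∀ n, kO ≤ n → Cfsg.puigSeq G (2 * n + 1) = Cfsg.puigSeq G (2 * kO + 1) := by
    intro n hn
    have hle : Cfsg.puigSeq G (2 * n + 1) ≤ Cfsg.puigSeq G (2 * kO + 1) := hOanti hn
    have hc : Nat.card (Cfsg.puigSeq G (2 * kO + 1)) ≤ Nat.card (Cfsg.puigSeq G (2 * n + 1)) := by
      have h := hYmin (Cfsg.puigSeq G (2 * n + 1)) ⟨n, rfl⟩
      rw [← hkO] at h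
      exact h
    exact Subgroup.eq_of_le_of_card_ge hle hc
  have hlow : Cfsg.puigLower G = Cfsg.puigSeq G (2 * kE) := by
    apply le_antisymm
    · show (⨆ n : ℕ, Cfsg.puigSeq G (2 * n)) ≤ _
      apply iSup_le
      intro n
      calc Cfsg.puigSeq G (2 * n) ≤ Cfsg.puigSeq G (2 * (max n kE)) :=
            hEmono (le_max_left n kE)
        _ = Cfsg.puigSeq G (2 * kE) := hEstab _ (le_max_right n kE)
    · exact le_iSup (fun n => Cfsg.puigSeq G (2 * n)) kE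
  have hsub : Cfsg.puigSubgroup G = Cfsg.puigSeq G (2 * kO + 1) := by
    apply le_antisymm
    · exact iInf_le (fun n => Cfsg.puigSeq G (2 * n + 1)) kO
    · show _ ≤ ⨅ n : ℕ, Cfsg.puigSeq G (2 * n + 1)
      apply le_iInf
      intro n
      calc Cfsg.puigSeq G (2 * kO + 1) = Cfsg.puigSeq G (2 * (max n kO) + 1) :=
            (hOstab _ (le_max_right n kO)).symm
        _ ≤ Cfsg.puigSeq G (2 * n + 1) := hOanti (le_max_left n kO)
  have hkey : ∀ n, max kE kO ≤ n → Cfsg.puigSeq G (2 * n) = Cfsg.puigLower G ∧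
      Cfsg.puigSeq G (2 * n + 1) = Cfsg.puigSubgroup G := by
    intro n hn
    rw [hlow, hsub]
    exact ⟨hEstab n (le_trans (le_max_left _ _) hn), hOstab n (le_trans (le_max_right _ _) hn)⟩
  obtain ⟨hk1, hk2⟩ := hkey (max kE kO) le_rfl
  obtain ⟨hk3, -⟩ := hkey (max kE kO + 1) (Nat.le_succ _)
  refine ⟨h0, h1, fun n m => ⟨(hM n).1, hEO n m, (hM m).2⟩, ⟨max kE kO, hkey⟩, ?_, ?_, ?_⟩
  · rw [← hk1, ← hk2]
    exact hEO _ _
  · rw [← hk1, ← hk2]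
    rfl
  · rw [← hk2, ← hk3]
    have e : 2 * (max kE kO + 1) = 2 * (max kE kO) + 1 + 1 := by ring
    rw [e]
    rfl

end Cfsg.Agent.S1467
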