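import Cfsg.Statements.S1474
import Cfsg.Agent.Helper3.CNFrob2

set_option autoImplicit false
open Cfsg

namespace Cfsg.Agent.S1474

open Cfsg.Agent.Helper3

/-- Let G be a finite group in which every non-identity element has nilpotent centralizer, not itself nilpotent, and having a nontrivial normal Sylow p-subgroup for some prime p. Let H be the largest normal nilpotent Hall subgroup of G. Then H is a nontrivial proper normal subgroup with a complement E that is a Frobenius complement in G (no non-identity element of E centralizes a non-identity element of H), and G/H is nilpotent. -/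
theorem result {G : Type*} [Group G] [Finite G] (hCN : Cfsg.IsCNGroup G) (hnn : ¬ Group.IsNilpotent G) (p : ℕ) [Fact p.Prime] (P : Sylow p G)
    (hP1 : (P : Subgroup G) ≠ ⊥) (hPn : (P : Subgroup G).Normal) :
    Cfsg.fittingHall G ≠ ⊥ ∧ Cfsg.fittingHall G ≠ ⊤ ∧
      (∃ E : Subgroup G, Subgroup.IsComplement' (Cfsg.fittingHall G) E ∧ Cfsg.IsFrobeniusComplement E ∧
        ∀ e ∈ E, e ≠ 1 → Cfsg.fittingHall G ⊓ Subgroup.centralizer ({e} : Set G) = ⊥) ∧
      Group.IsNilpotent (G ⧸ Cfsg.fittingHall G) := by
  have hspec := fittingHall_spec G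
  have hPH : (P : Subgroup G) ≤ Cfsg.fittingHall G := normal_sylow_le_fittingHall P hPn
  have hbot : Cfsg.fittingHall G ≠ ⊥ := by
    intro h
    rw [h] at hPH
    exact hP1 (le_bot_iff.mp hPH)
  exact cn_frobenius_structure hCN hnn (Cfsg.fittingHall G) hspec.1 hspec.2 hbot
    (fun q _ Q hQ => normal_sylow_le_fittingHall Q hQ)

end Cfsg.Agent.S1474
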