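import Cfsg.Statements.S1477
import Cfsg.Agent.Helper3.CN

set_option autoImplicit false
open Cfsg

namespace Cfsg.Agent.S1477

open Cfsg.Agent Cfsg.Agent.Helper3

/-- Let G be a finite group in which every non-identity element has nilpotent centralizer, and H a nilpotent subgroup not properly contained in any nilpotent subgroup. Then the order of H is coprime to its index; if the order of H is not a prime power then H ∩ gHg⁻¹ = 1 whenever gHg⁻¹ ≠ H; and if H ∩ gHg⁻¹ = 1 whenever gHg⁻¹ ≠ H, then C_G(x) ≤ H for every non-identity x ∈ H. -/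
theorem result {G : Type*} [Group G] [Finite G] (hCN : Cfsg.IsCNGroup G) (H : Subgroup G) (hH : Group.IsNilpotent H)
    (hmax : ∀ L : Subgroup G, Group.IsNilpotent L → H ≤ L → L = H) :
    (Nat.card H).Coprime H.index ∧
      (¬ IsPrimePow (Nat.card H) → Nat.card H ≠ 1 → ∀ g : G, H.map (MulAut.conj g).toMonoidHom ≠ H → H ⊓ H.map (MulAut.conj g).toMonoidHom = ⊥) ∧
      ((∀ g : G, H.map (MulAut.conj g).toMonoidHom ≠ H → H ⊓ H.map (MulAut.conj g).toMonoidHom = ⊥) → ∀ x ∈ H, x ≠ 1 → Subgroup.centralizer ({x} : Set G) ≤ H) := by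
  classical
  have hF1 : ∀ w : G, w ≠ 1 → (∀ h ∈ H, h * w = w * h) →
      Subgroup.centralizer ({w} : Set G) = H := by
    intro w hw1 hcen
    exact hmax _ (hCN w hw1)
      (fun h hh => (Helper5.mem_centralizer_singleton_iff w h).mpr (hcen h hh))
  have hne1 : ∀ (z : G) (p : ℕ), p.Prime → orderOf z = p → z ≠ 1 := by
    intro z p hp hz h1
    rw [h1, orderOf_one] at hz
    exact hp.one_lt.ne hz
  have hcop : (Nat.card H).Coprime H.index := by
    apply Nat.coprime_of_dvd
    intro p hp hpH hpI
    haveI : Fact p.Prime := ⟨hp⟩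
    obtain ⟨z, hzH, hzo, hzc⟩ := exists_central_of_order H hH p hpH
    have hz1 := hne1 z p hp hzo
    have hCz := hF1 z hz1 hzc
    obtain ⟨P, hPH, hPp, hPall⟩ := exists_sylow_of_nilpotent H hH p
    obtain ⟨S, hPS⟩ := hPp.exists_le_sylow
    have hzS : z ∈ (S : Subgroup G) := hPS (hPall z hzH 1 (by rw [hzo, pow_one]))
    haveI : Nontrivial (S : Subgroup G) :=
      ⟨⟨⟨z, hzS⟩, 1, fun h => hz1 (congrArg Subtype.val h)⟩⟩
    haveI hcn : Nontrivial (Subgroup.center (S : Subgroup G)) := S.2.center_nontrivial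
    obtain ⟨s₀, hs₀⟩ := exists_ne (1 : Subgroup.center (S : Subgroup G))
    obtain ⟨s, hs⟩ : ∃ s : G, s = ((s₀ : (S : Subgroup G)) : G) := ⟨_, rfl⟩
    have hsS : s ∈ (S : Subgroup G) := by rw [hs]; exact (s₀ : (S : Subgroup G)).2
    have hs1 : s ≠ 1 := by
      intro h
      apply hs₀
      apply Subtype.ext
      apply Subtype.ext
      exact hs.symm.trans h
    have hscS : ∀ t ∈ (S : Subgroup G), t * s = s * t := by
      intro t ht
      have h1 := Subgroup.mem_center_iff.mp s₀.2 ⟨t, ht⟩
      rw [hs]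
      exact congrArg Subtype.val h1
    have hsH : s ∈ H := by
      rw [← hCz, Helper5.mem_centralizer_singleton_iff]
      exact (hscS z hzS).symm
    obtain ⟨c, hc⟩ := (IsPGroup.iff_orderOf).mp S.2 ⟨s, hsS⟩
    rw [Subgroup.orderOf_mk] at hc
    have hscH : ∀ h ∈ H, h * s = s * h := by
      intro h hh
      have hmem : h ∈ Subgroup.centralizer ({s} : Set G) := by
        apply mem_of_prime_pow_powers
        rintro k ⟨q, hq, b, hb⟩
        rw [Helper5.mem_centralizer_singleton_iff]
        have hkH : h ^ k ∈ H := H.zpow_mem hh k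
        by_cases hqp : q = p
        · rw [hqp] at hb
          exact hscS _ (hPS (hPall _ hkH b hb))
        · exact commute_in_nilpotent H hH hq hp hqp hkH hsH hb hc
      exact (Helper5.mem_centralizer_singleton_iff s h).mp hmem
    have hCs := hF1 s hs1 hscH
    have hSH : (S : Subgroup G) ≤ H := by
      intro t ht
      rw [← hCs, Helper5.mem_centralizer_singleton_iff]
      exact hscS t ht
    exact S.not_dvd_index (dvd_trans hpI (Subgroup.index_dvd_of_le hSH))
  refine ⟨hcop, ?_, ?_⟩
  · intro hnpp hcard1 g hgne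
    by_contra hne
    obtain ⟨⟨x, hx⟩, hx1⟩ := (Subgroup.ne_bot_iff_exists_ne_one).mp hne
    have hx1' : x ≠ 1 := fun h => hx1 (Subtype.ext h)
    obtain ⟨hxH, hxHg⟩ := Subgroup.mem_inf.mp hx
    have hox : orderOf x ≠ 1 := fun h => hx1' (orderOf_eq_one_iff.mp h)
    obtain ⟨p, hp, hpx⟩ := Nat.exists_prime_and_dvd hox
    obtain ⟨x', hx'⟩ : ∃ x' : G, x' = x ^ (orderOf x / p) := ⟨_, rfl⟩
    have hx'o : orderOf x' = p := by
      rw [hx']
      exact orderOf_pow_orderOf_div (orderOf_pos x).ne' hpx
    have hx'1 := hne1 x' p hp hx'o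
    have hx'H : x' ∈ H := by rw [hx']; exact H.pow_mem hxH _
    have hx'Hg : x' ∈ H.map (MulAut.conj g).toMonoidHom := by
      rw [hx']
      exact Subgroup.pow_mem _ hxHg _
    have hpH : p ∣ Nat.card H := by
      rw [← hx'o]
      exact Subgroup.orderOf_dvd_natCard H hx'H
    obtain ⟨q, hq, hqH, hqp⟩ : ∃ q : ℕ, q.Prime ∧ q ∣ Nat.card H ∧ q ≠ p := by
      by_contra hcon
      push_neg at hcon
      have hpow := Nat.eq_prime_pow_of_unique_prime_dvd (Nat.card_pos (α := H)).ne'
        (fun {d} hd hdn => hcon d hd hdn)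
      apply hnpp
      rw [hpow]
      apply IsPrimePow.pow hp.isPrimePow
      intro h0
      rw [h0, pow_zero] at hpow
      exact hcard1 hpow
    haveI : Fact p.Prime := ⟨hp⟩
    haveI : Fact q.Prime := ⟨hq⟩
    obtain ⟨z, hzH, hzo, hzc⟩ := exists_central_of_order H hH q hqH
    obtain ⟨w, hwH, hwo, hwc⟩ := exists_central_of_order H hH p hpH
    have hz1 := hne1 z q hq hzo
    have hw1 := hne1 w p hp hwo
    have hCz := hF1 z hz1 hzc
    have hCw := hF1 w hw1 hwc
    have hCzg : Subgroup.centralizer ({g * z * g⁻¹} : Set G) =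
        H.map (MulAut.conj g).toMonoidHom := by
      rw [← centralizer_singleton_map_conj, hCz]
    have hzgo : orderOf (g * z * g⁻¹) = q := by rw [orderOf_conj_mul]; exact hzo
    have hzgHg : g * z * g⁻¹ ∈ H.map (MulAut.conj g).toMonoidHom :=
      Helper5.conj_mem_conj H g z hzH
    have hwzg : w * (g * z * g⁻¹) = g * z * g⁻¹ * w := by
      have hwN : w ∈ Subgroup.centralizer ({x'} : Set G) :=
        (Helper5.mem_centralizer_singleton_iff x' w).mpr (hwc x' hx'H).symm
      have hzgN : g * z * g⁻¹ ∈ Subgroup.centralizer ({x'} : Set G) := by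
        rw [Helper5.mem_centralizer_singleton_iff]
        have h1 : x' ∈ Subgroup.centralizer ({g * z * g⁻¹} : Set G) := by
          rw [hCzg]
          exact hx'Hg
        exact ((Helper5.mem_centralizer_singleton_iff _ _).mp h1).symm
      exact commute_in_nilpotent _ (hCN x' hx'1) hp hq hqp.symm hwN hzgN (i := 1) (j := 1)
        (by rw [hwo, pow_one]) (by rw [hzgo, pow_one])
    have hwHg : w ∈ H.map (MulAut.conj g).toMonoidHom := by
      rw [← hCzg, Helper5.mem_centralizer_singleton_iff]
      exact hwzg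
    have hzgH : g * z * g⁻¹ ∈ H := by
      rw [← hCw, Helper5.mem_centralizer_singleton_iff]
      exact hwzg.symm
    have hzHg : z ∈ H.map (MulAut.conj g).toMonoidHom := by
      rw [← hCzg, Helper5.mem_centralizer_singleton_iff]
      exact (hzc _ hzgH).symm
    have hHgnil : Group.IsNilpotent (H.map (MulAut.conj g).toMonoidHom) := by
      haveI := hH
      exact Group.nilpotent_of_mulEquiv (H.equivMapOfInjective _ (MulAut.conj g).injective)
    have hle : H.map (MulAut.conj g).toMonoidHom ≤ H := by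
      intro h hh
      apply mem_of_prime_pow_powers
      rintro k ⟨r, hr, b, hb⟩
      have hkHg : h ^ k ∈ H.map (MulAut.conj g).toMonoidHom := Subgroup.zpow_mem _ hh k
      by_cases hrp : r = p
      · have hrq : r ≠ q := by rw [hrp]; exact hqp.symm
        have hc := commute_in_nilpotent _ hHgnil hr hq hrq hkHg hzHg (j := 1) hb
          (by rw [hzo, pow_one])
        rw [← hCz, Helper5.mem_centralizer_singleton_iff]
        exact hc
      · have hc := commute_in_nilpotent _ hHgnil hr hp hrp hkHg hwHg (j := 1) hb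
          (by rw [hwo, pow_one])
        rw [← hCw, Helper5.mem_centralizer_singleton_iff]
        exact hc
    exact hgne ((Helper5.mem_normalizer_iff_conj_eq H g).mp
      (Helper5.mem_normalizer_of_conj_le H g hle))
  · intro hTI x hxH hx1 g hg
    rw [Helper5.mem_centralizer_singleton_iff] at hg
    have hnorm : ∀ u : G, u * x = x * u → H.map (MulAut.conj u).toMonoidHom = H := by
      intro u hu
      by_contra hne
      have h1 := hTI u hne
      have hxin : x ∈ H ⊓ H.map (MulAut.conj u).toMonoidHom := by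
        refine Subgroup.mem_inf.mpr ⟨hxH, ?_⟩
        rw [Helper5.mem_conj_iff]
        have e : u⁻¹ * x * u = x := by
          rw [mul_assoc, ← hu, inv_mul_cancel_left]
        rw [e]
        exact hxH
      rw [h1, Subgroup.mem_bot] at hxin
      exact hx1 hxin
    apply mem_of_prime_pow_powers
    rintro k ⟨q, hq, b, hb⟩
    obtain ⟨u, hu⟩ : ∃ u : G, u = g ^ k := ⟨_, rfl⟩
    rw [← hu] at hb ⊢
    have hux : u * x = x * u := by
      rw [hu]
      have hc : Commute g x := hg
      exact (hc.zpow_left k).eq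
    haveI : Fact q.Prime := ⟨hq⟩
    by_cases hqH : q ∣ Nat.card H
    · have hZN : Subgroup.zpowers u ≤ Subgroup.normalizer (H : Set G) := by
        rw [Subgroup.zpowers_le]
        exact (Helper5.mem_normalizer_iff_conj_eq H u).mpr (hnorm u hux)
      have hdvd := card_sup_dvd_mul_of_le_normalizer H (Subgroup.zpowers u) hZN
      rw [Nat.card_zpowers, hb] at hdvd
      have hcard : Nat.card H * H.relIndex (H ⊔ Subgroup.zpowers u) =
          Nat.card ↥(H ⊔ Subgroup.zpowers u) := by
        have h1 := Subgroup.card_mul_index (H.subgroupOf (H ⊔ Subgroup.zpowers u))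
        rw [card_subgroupOf_of_le le_sup_left] at h1
        exact h1
      rw [← hcard] at hdvd
      have hr1 : H.relIndex (H ⊔ Subgroup.zpowers u) ∣ q ^ b :=
        Nat.dvd_of_mul_dvd_mul_left Nat.card_pos hdvd
      have hr2 : H.relIndex (H ⊔ Subgroup.zpowers u) ∣ H.index :=
        Subgroup.relIndex_dvd_index_of_le le_sup_left
      have hcop2 : (q ^ b).Coprime H.index :=
        Nat.Coprime.pow_left b (Nat.Coprime.coprime_dvd_left hqH hcop)
      have hr := Nat.eq_one_of_dvd_coprimes hcop2 hr1 hr2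
      have hle := Subgroup.relIndex_eq_one.mp hr
      exact hle (le_sup_right (a := H) (Subgroup.mem_zpowers u))
    · have hox : orderOf x ≠ 1 := fun h => hx1 (orderOf_eq_one_iff.mp h)
      obtain ⟨p₁, hp₁, hp₁x⟩ := Nat.exists_prime_and_dvd hox
      obtain ⟨x₁, hx₁⟩ : ∃ x₁ : G, x₁ = x ^ (orderOf x / p₁) := ⟨_, rfl⟩
      have hx₁o : orderOf x₁ = p₁ := by
        rw [hx₁]
        exact orderOf_pow_orderOf_div (orderOf_pos x).ne' hp₁x
      have hx₁1 := hne1 x₁ p₁ hp₁ hx₁o
      have hx₁H : x₁ ∈ H := by rw [hx₁]; exact H.pow_mem hxH _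
      have hp₁H : p₁ ∣ Nat.card H := by
        rw [← hx₁o]
        exact Subgroup.orderOf_dvd_natCard H hx₁H
      have hqp₁ : q ≠ p₁ := by
        intro h
        rw [h] at hqH
        exact hqH hp₁H
      haveI : Fact p₁.Prime := ⟨hp₁⟩
      obtain ⟨z', hz'H, hz'o, hz'c⟩ := exists_central_of_order H hH p₁ hp₁H
      have hz'1 := hne1 z' p₁ hp₁ hz'o
      have hCz' := hF1 z' hz'1 hz'c
      have huD : u ∈ Subgroup.centralizer ({x₁} : Set G) := by
        rw [Helper5.mem_centralizer_singleton_iff, hx₁]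
        have hc : Commute u x := hux
        exact (hc.pow_right _).eq
      have hz'D : z' ∈ Subgroup.centralizer ({x₁} : Set G) :=
        (Helper5.mem_centralizer_singleton_iff x₁ z').mpr (hz'c x₁ hx₁H).symm
      have hc := commute_in_nilpotent _ (hCN x₁ hx₁1) hq hp₁ hqp₁ huD hz'D (j := 1) hb
        (by rw [hz'o, pow_one])
      rw [← hCz', Helper5.mem_centralizer_singleton_iff]
      exact hc

end Cfsg.Agent.S1477
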