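import Cfsg.Statements.S1485
import Cfsg.Agent.Lead.CharConj2

set_option autoImplicit false
open Cfsg

namespace Cfsg.Agent.S1485

/-- Let H be a normal subgroup of the finite group G and θ an irreducible character of H. On H, the function induced from θ equals r times the sum of the distinct G-conjugates of θ, where r is the number of elements of G fixing θ under conjugation divided by the order of H (the index of H in the inertia group). -/
theorem result {G : Type*} [Group G] [Fintype G] (H : Subgroup G) [hN : H.Normal] (θ : H → ℂ) (hθ : Cfsg.IsIrrCharacter H θ) : (fun h : H => Cfsg.indFun H θ h) = ((Nat.card {g : G // ∀ h : H, θ ⟨g * h * g⁻¹, hN.conj_mem h h.2 g⟩ = θ h} : ℂ) / (Nat.card H : ℂ)) • ∑ᶠ ψ ∈ {ψ : H → ℂ | ∃ g : G, ψ = fun h : H => θ ⟨g * h * g⁻¹, hN.conj_mem h h.2 g⟩}, ψ := by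
  classical
  rw [Lead.indFun_res_normal H θ]
  have hset : {ψ : H → ℂ | ∃ g : G, ψ = fun h : H => θ ⟨g * h * g⁻¹, hN.conj_mem h h.2 g⟩}
      = ↑(Finset.univ.image (Lead.conjFun H θ)) := by
    ext ψ
    simp only [Set.mem_setOf_eq, Finset.coe_image, Finset.coe_univ, Set.image_univ, Set.mem_range]
    constructor
    · rintro ⟨g, rfl⟩; exact ⟨g, rfl⟩
    · rintro ⟨g, rfl⟩; exact ⟨g, rfl⟩
  rw [hset, finsum_mem_coe_finset]
  have hI : Nat.card {g : G // ∀ h : H, θ ⟨g * h * g⁻¹, hN.conj_mem h h.2 g⟩ = θ h}
      = (Finset.univ.filter (fun g : G => Lead.conjFun H θ g = θ)).card := by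
    rw [Nat.card_eq_fintype_card, Fintype.card_subtype]
    congr 1
    ext g
    simp only [Finset.mem_filter, Finset.mem_univ, true_and]
    constructor
    · intro h; funext x; exact h x
    · intro h x; exact congrFun h x
  have hfib : ∀ ψ ∈ Finset.univ.image (Lead.conjFun H θ),
      (Finset.univ.filter (fun g : G => Lead.conjFun H θ g = ψ)).card
        = (Finset.univ.filter (fun g : G => Lead.conjFun H θ g = θ)).card := by
    intro ψ hψ
    obtain ⟨g₀, -, rfl⟩ := Finset.mem_image.mp hψ
    apply Finset.card_bij (fun g _ => g * g₀⁻¹)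
    · intro g hg
      simp only [Finset.mem_filter, Finset.mem_univ, true_and] at hg ⊢
      rw [← Lead.conjFun_conjFun, hg, Lead.conjFun_conjFun, mul_inv_cancel, Lead.conjFun_one]
    · intro a _ b _ hab
      exact mul_right_cancel hab
    · intro b hb
      simp only [Finset.mem_filter, Finset.mem_univ, true_and] at hb
      refine ⟨b * g₀, ?_, by group⟩
      simp only [Finset.mem_filter, Finset.mem_univ, true_and]
      rw [← Lead.conjFun_conjFun, hb]
  rw [Finset.sum_comp (fun ψ => ψ) (Lead.conjFun H θ)]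
  rw [Finset.sum_congr rfl (fun ψ hψ => by rw [hfib ψ hψ])]
  rw [← Finset.smul_sum, hI]
  rw [div_eq_mul_inv, mul_comm, mul_smul]
  congr 1
  rw [Nat.cast_smul_eq_nsmul]

end Cfsg.Agent.S1485
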