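import Cfsg.Statements.S1486
import Cfsg.Agent.Lead.CharConj2

set_option autoImplicit false
open Cfsg

namespace Cfsg.Agent.S1486

/-- Let H be a normal subgroup of the finite group G and θ, φ irreducible characters of H. If φ is a G-conjugate of θ then the functions induced from θ and φ coincide; if φ is not a G-conjugate of θ then the induced functions are orthogonal. -/
theorem result {G : Type*} [Group G] [Fintype G] (H : Subgroup G) [hN : H.Normal] (θ φ : H → ℂ) (hθ : Cfsg.IsIrrCharacter H θ) (hφ : Cfsg.IsIrrCharacter H φ) : ((∃ g : G, φ = fun h : H => θ ⟨g * h * g⁻¹, hN.conj_mem h h.2 g⟩) → Cfsg.indFun H φ = Cfsg.indFun H θ) ∧ ((¬ ∃ g : G, φ = fun h : H => θ ⟨g * h * g⁻¹, hN.conj_mem h h.2 g⟩) → Cfsg.classInner (Cfsg.indFun H φ) (Cfsg.indFun H θ) = 0) := by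
  classical
  have hext : ∀ (ψ : H → ℂ) (g z : G), Cfsg.extendByZero H (Lead.conjFun H ψ g) z
      = Cfsg.extendByZero H ψ (g * z * g⁻¹) := by
    intro ψ g z
    by_cases hz : z ∈ H
    · rw [Lead.extendByZero_mem H _ hz, Lead.extendByZero_mem H ψ (hN.conj_mem z hz g)]
      rfl
    · have hz' : g * z * g⁻¹ ∉ H := by
        intro h
        apply hz
        have := hN.conj_mem _ h g⁻¹
        simpa [mul_assoc] using this
      rw [Lead.extendByZero_not_mem H _ hz, Lead.extendByZero_not_mem H ψ hz']
  constructor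
  · rintro ⟨g, rfl⟩
    funext x
    rw [Lead.indFun_apply, Lead.indFun_apply]
    congr 1
    have hc : (fun h : H => θ ⟨g * h * g⁻¹, hN.conj_mem h h.2 g⟩) = Lead.conjFun H θ g := rfl
    rw [hc]
    refine Fintype.sum_equiv (Equiv.mulRight g⁻¹) _ _ (fun y => ?_)
    rw [hext]
    congr 1
    simp [mul_assoc]
  · intro hnc
    have hvan : ∀ (ψ : H → ℂ) (x : G), x ∉ H → Cfsg.indFun H ψ x = 0 := by
      intro ψ x hx
      rw [Lead.indFun_apply]
      rw [Finset.sum_eq_zero, mul_zero]
      intro y _
      apply Lead.extendByZero_not_mem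
      intro h
      apply hx
      have := hN.conj_mem _ h y
      simpa [mul_assoc] using this
    have hsum : ∑ g : G, Cfsg.indFun H φ g * (starRingEnd ℂ) (Cfsg.indFun H θ g)
        = ∑ h : H, Cfsg.indFun H φ h * (starRingEnd ℂ) (Cfsg.indFun H θ h) := by
      symm
      refine Finset.sum_of_injOn (Subtype.val : H → G) Subtype.val_injective.injOn (by simp)
        (fun g _ hg => ?_) (fun h _ => rfl)
      have : g ∉ H := fun hgH => hg ⟨⟨g, hgH⟩, by simp, rfl⟩
      rw [hvan φ g this, zero_mul]
    have hH : Cfsg.classInner (fun h : H => Cfsg.indFun H φ h) (fun h : H => Cfsg.indFun H θ h) = 0 := by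
      rw [Lead.indFun_res_normal H φ, Lead.indFun_res_normal H θ, Lead.classInner_smul_left,
        Lead.classInner_smul_right, Lead.classInner_sum_left]
      rw [Finset.sum_eq_zero, mul_zero, mul_zero]
      intro a _
      rw [Lead.classInner_sum_right]
      apply Finset.sum_eq_zero
      intro b _
      have h1 := Lead.isIrrCharacter_conjFun H hφ a
      have h2 := Lead.isIrrCharacter_conjFun H hθ b
      have h3 := Lead.classInner_irr (⟨_, h1⟩ : Cfsg.IrrCharacter H) ⟨_, h2⟩
      rw [if_neg] at h3
      · exact h3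
      · intro heq
        have heq' : Lead.conjFun H φ a = Lead.conjFun H θ b := congrArg Subtype.val heq
        apply hnc
        refine ⟨b * a⁻¹, ?_⟩
        have : Lead.conjFun H (Lead.conjFun H φ a) a⁻¹ = Lead.conjFun H (Lead.conjFun H θ b) a⁻¹ := by
          rw [heq']
        rw [Lead.conjFun_conjFun, Lead.conjFun_conjFun, mul_inv_cancel, Lead.conjFun_one] at this
        exact this
    unfold Cfsg.classInner at hH ⊢
    rw [hsum]
    have hc : (Nat.card H : ℂ) ≠ 0 := Lead.natCard_ne_zero_complex H
    rcases mul_eq_zero.mp hH with h | h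
    · exact absurd (inv_eq_zero.mp h) hc
    · rw [h, mul_zero]

end Cfsg.Agent.S1486
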