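import Cfsg.Statements.S1487
import Cfsg.Agent.Helper3.CharRe
import Cfsg.Agent.Lead.CharConj2

set_option autoImplicit false
open Cfsg

namespace Cfsg.Agent.S1487

/-- Let A ≤ H be normal subgroups of the finite group G and θ an irreducible character of H. Then θ takes the value θ 1 on all of A if and only if the function induced from θ to G takes its value at 1 on all of A. -/
theorem result {G : Type*} [Group G] [Fintype G] (A H : Subgroup G) [A.Normal] [H.Normal] (hAH : A ≤ H) (θ : H → ℂ) (hθ : Cfsg.IsIrrCharacter H θ) : (∀ a : H, (a : G) ∈ A → θ a = θ 1) ↔ (∀ a : G, a ∈ A → Cfsg.indFun H θ a = Cfsg.indFun H θ 1) := by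
  classical
  have hθc : Cfsg.IsCharacter H θ := Lead.isCharacter_of_isIrrCharacter hθ
  have hcA : ∀ (a x : G), a ∈ A → x⁻¹ * a * x ∈ A := by
    intro a x ha
    have := (inferInstance : A.Normal).conj_mem a ha x⁻¹
    simpa using this
  have h1 : Cfsg.indFun H θ 1 = (Nat.card H : ℂ)⁻¹ * ∑ _x : G, θ 1 := by
    rw [Lead.indFun_apply]
    congr 1
    refine Finset.sum_congr rfl (fun x _ => ?_)
    have : x⁻¹ * 1 * x = 1 := by group
    rw [this, Lead.extendByZero_mem H θ H.one_mem]
    rfl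
  have h2 : ∀ a : G, ∀ ha : a ∈ A, Cfsg.indFun H θ a
      = (Nat.card H : ℂ)⁻¹ * ∑ x : G, θ ⟨x⁻¹ * a * x, hAH (hcA a x ha)⟩ := by
    intro a ha
    rw [Lead.indFun_apply]
    congr 1
    refine Finset.sum_congr rfl (fun x _ => ?_)
    rw [Lead.extendByZero_mem H θ (hAH (hcA a x ha))]
  have hc : (Nat.card H : ℂ) ≠ 0 := Lead.natCard_ne_zero_complex H
  constructor
  · intro h a ha
    rw [h1, h2 a ha]
    congr 1
    refine Finset.sum_congr rfl (fun x _ => ?_)
    exact h ⟨x⁻¹ * a * x, hAH (hcA a x ha)⟩ (hcA a x ha)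
  · intro h a ha
    have h3 := h a ha
    rw [h1, h2 a ha] at h3
    have h4 := mul_left_cancel₀ (inv_ne_zero hc) h3
    have h5 := congrArg Complex.re h4
    rw [Complex.re_sum, Complex.re_sum] at h5
    have h6 := (Finset.sum_eq_sum_iff_of_le (fun x _ =>
      (Helper3.character_re_le hθc (⟨x⁻¹ * (a : G) * x, hAH (hcA a x ha)⟩ : H)).1)).mp h5 1
      (Finset.mem_univ _)
    have h7 := (Helper3.character_re_le hθc (⟨(1 : G)⁻¹ * (a : G) * 1, hAH (hcA a 1 ha)⟩ : H)).2 h6
    rw [← h7]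
    congr 1
    apply Subtype.ext
    simp

end Cfsg.Agent.S1487
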