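import Cfsg.Statements.S1488
import Cfsg.Agent.Lead.IndFun2

set_option autoImplicit false
open Cfsg

namespace Cfsg.Agent.S1488

theorem sum_comp_mk_aux {G : Type*} [Group G] [Fintype G] (A : Subgroup G) [A.Normal]
    [Fintype (G ⧸ A)] (F : G ⧸ A → ℂ) :
    ∑ x : G, F (QuotientGroup.mk' A x) = (Nat.card A : ℂ) * ∑ y : G ⧸ A, F y := by
  classical
  rw [← Fintype.sum_fiberwise (fun x : G => (QuotientGroup.mk' A x))
    (fun x => F (QuotientGroup.mk' A x))]
  rw [Finset.mul_sum]
  refine Finset.sum_congr rfl (fun y _ => ?_)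
  have hx : ∀ x : {x : G // QuotientGroup.mk' A x = y}, F (QuotientGroup.mk' A x) = F y :=
    fun x => by rw [x.2]
  rw [Finset.sum_congr rfl (fun x _ => hx x)]
  rw [Finset.sum_const, Finset.card_univ, nsmul_eq_mul]
  congr 1
  rw [← Nat.card_eq_fintype_card]
  have e := QuotientGroup.preimageMkEquivSubgroupProdSet A ({y} : Set (G ⧸ A))
  have h1 : Nat.card {x : G // QuotientGroup.mk' A x = y}
      = Nat.card (QuotientGroup.mk ⁻¹' ({y} : Set (G ⧸ A))) := by
    apply Nat.card_congr
    exact Equiv.subtypeEquivRight (fun z => by simp)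
  rw [h1, Nat.card_congr e, Nat.card_prod]
  simp

/-- Let A be a normal subgroup of the finite group G contained in the subgroup H, let θ be a function on H and θ₁ a function on the image of H in G ⧸ A whose composite with the projection is θ. Then the function induced from θ₁ to G ⧸ A, composed with the projection G → G ⧸ A, equals the function induced from θ to G. -/
theorem result {G : Type*} [Group G] [Fintype G] (A H : Subgroup G) [A.Normal] (hAH : A ≤ H) [Fintype (G ⧸ A)] [Fintype ↥(H.map (QuotientGroup.mk' A))] (θ : H → ℂ) (θ₁ : ↥(H.map (QuotientGroup.mk' A)) → ℂ) (hθ : ∀ x : H, θ₁ ⟨QuotientGroup.mk' A x, Subgroup.mem_map_of_mem _ x.2⟩ = θ x) (g : G) : Cfsg.indFun (H.map (QuotientGroup.mk' A)) θ₁ (QuotientGroup.mk' A g) = Cfsg.indFun H θ g := by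
  classical
  have hmem : ∀ z : G, QuotientGroup.mk' A z ∈ H.map (QuotientGroup.mk' A) ↔ z ∈ H := by
    intro z
    constructor
    · rintro ⟨w, hw, hwz⟩
      have h1 : w⁻¹ * z ∈ A := QuotientGroup.eq.mp hwz
      have h2 := H.mul_mem hw (hAH h1)
      simpa using h2
    · intro hz; exact Subgroup.mem_map_of_mem _ hz
  have hext : ∀ z : G, Cfsg.extendByZero (H.map (QuotientGroup.mk' A)) θ₁ (QuotientGroup.mk' A z)
      = Cfsg.extendByZero H θ z := by
    intro z
    by_cases hz : z ∈ H
    · rw [Lead.extendByZero_mem _ _ ((hmem z).mpr hz), Lead.extendByZero_mem H θ hz]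
      exact hθ ⟨z, hz⟩
    · rw [Lead.extendByZero_not_mem _ _ (fun h => hz ((hmem z).mp h)),
        Lead.extendByZero_not_mem H θ hz]
  have hcard : Nat.card H = Nat.card A * Nat.card (H.map (QuotientGroup.mk' A)) := by
    have e := QuotientGroup.preimageMkEquivSubgroupProdSet A
      ((H.map (QuotientGroup.mk' A) : Subgroup (G ⧸ A)) : Set (G ⧸ A))
    have h1 : Nat.card H = Nat.card (QuotientGroup.mk ⁻¹'
        ((H.map (QuotientGroup.mk' A) : Subgroup (G ⧸ A)) : Set (G ⧸ A))) := by
      apply Nat.card_congr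
      exact Equiv.subtypeEquivRight (fun z => (hmem z).symm)
    rw [h1, Nat.card_congr e, Nat.card_prod]
    rfl
  rw [Lead.indFun_apply, Lead.indFun_apply]
  have hsum : ∑ x : G, Cfsg.extendByZero H θ (x⁻¹ * g * x)
      = ∑ x : G, (fun y : G ⧸ A => Cfsg.extendByZero (H.map (QuotientGroup.mk' A)) θ₁
          (y⁻¹ * QuotientGroup.mk' A g * y)) (QuotientGroup.mk' A x) := by
    refine Finset.sum_congr rfl (fun x _ => ?_)
    rw [← hext]
    simp
  rw [hsum, sum_comp_mk_aux A (fun y : G ⧸ A => Cfsg.extendByZero (H.map (QuotientGroup.mk' A)) θ₁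
          (y⁻¹ * QuotientGroup.mk' A g * y)), hcard]
  have hA : (Nat.card A : ℂ) ≠ 0 := Lead.natCard_ne_zero_complex A
  have hHb : (Nat.card (H.map (QuotientGroup.mk' A)) : ℂ) ≠ 0 := Lead.natCard_ne_zero_complex _
  push_cast
  field_simp

end Cfsg.Agent.S1488
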