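import Mathlib
import Cfsg.Agent.Helper2.CharN5
import Cfsg.Statements.S1489

set_option autoImplicit false
open Cfsg

namespace Cfsg.Agent.S1489

/-- Let H be a normal subgroup of the finite group G, θ an irreducible character of H, and T the inertia group of θ (the elements g with θ(g h g⁻¹) = θ(h) for all h ∈ H). If ψ and ψ' are irreducible characters of T having nonzero inner product with the function induced from θ to T, then the function induced from ψ to G is an irreducible character of G, and it equals the one induced from ψ' only if ψ = ψ'. -/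
theorem result {G : Type*} [Group G] [Fintype G] (H T : Subgroup G) [hN : H.Normal] [Fintype T] (θ : H → ℂ) (hθ : Cfsg.IsIrrCharacter H θ) (hT : ∀ g : G, g ∈ T ↔ ∀ h : H, θ ⟨g * h * g⁻¹, hN.conj_mem h h.2 g⟩ = θ h) (hHT : H ≤ T) (ψ ψ' : T → ℂ) (hψ : Cfsg.IsIrrCharacter T ψ) (hψ' : Cfsg.IsIrrCharacter T ψ') (hc : Cfsg.classInner (Cfsg.indFun (H.subgroupOf T) (fun x => θ ⟨(x : T), Subgroup.mem_subgroupOf.mp x.2⟩)) ψ ≠ 0) (hc' : Cfsg.classInner (Cfsg.indFun (H.subgroupOf T) (fun x => θ ⟨(x : T), Subgroup.mem_subgroupOf.mp x.2⟩)) ψ' ≠ 0) : Cfsg.IsIrrCharacter G (Cfsg.indFun T ψ) ∧ (Cfsg.indFun T ψ = Cfsg.indFun T ψ' → ψ = ψ') := by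
  classical
  haveI : Finite (Cfsg.IrrCharacter T) := Cfsg.Agent.Lead.finite_irrCharacter T
  haveI : Fintype (Cfsg.IrrCharacter T) := Fintype.ofFinite _
  obtain ⟨f, hf, hirr, horth, _⟩ :=
    Cfsg.Agent.Helper2.CharN.clifford_corr_core H θ hθ T hT hHT
  have h0 : f ⟨ψ, hψ⟩ ≠ 0 := by
    intro h
    apply hc
    have h1 := hf ⟨ψ, hψ⟩
    rw [h] at h1
    simpa using h1
  have h0' : f ⟨ψ', hψ'⟩ ≠ 0 := by
    intro h
    apply hc'
    have h1 := hf ⟨ψ', hψ'⟩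
    rw [h] at h1
    simpa using h1
  have hirrψ : Cfsg.IsIrrCharacter G (Cfsg.indFun T ψ) := hirr ⟨ψ, hψ⟩ h0
  refine ⟨hirrψ, fun heq => ?_⟩
  by_contra hne
  have hne' : (⟨ψ, hψ⟩ : Cfsg.IrrCharacter T) ≠ ⟨ψ', hψ'⟩ :=
    fun h => hne (congrArg Subtype.val h)
  have h1 : Cfsg.classInner (Cfsg.indFun T ψ) (Cfsg.indFun T ψ') = 0 :=
    horth ⟨ψ, hψ⟩ ⟨ψ', hψ'⟩ h0 h0' hne'
  rw [← heq, Cfsg.Agent.Lead.classInner_self_of_isIrrCharacter hirrψ] at h1
  exact one_ne_zero h1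


end Cfsg.Agent.S1489
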