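import Mathlib
import Cfsg.Agent.Helper2.Dual3
import Cfsg.Statements.S1491

set_option autoImplicit false
open Cfsg

namespace Cfsg.Agent.S1491

/-- Let H be a normal subgroup of the finite group G and θ an irreducible character of H with inertia group T, where T/H is abelian (commutators of T lie in H) and the index of H in T is coprime to the order of H. Then the function induced from θ is the sum of a set of exactly [T:H] irreducible characters of G, each of degree [G:T] * θ(1). -/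
theorem result {G : Type*} [Group G] [Fintype G] (H T : Subgroup G) [hN : H.Normal] (θ : H → ℂ) (hθ : Cfsg.IsIrrCharacter H θ) (hT : ∀ g : G, g ∈ T ↔ ∀ h : H, θ ⟨g * h * g⁻¹, hN.conj_mem h h.2 g⟩ = θ h) (hab : ∀ x ∈ T, ∀ y ∈ T, x * y * x⁻¹ * y⁻¹ ∈ H) (hcop : Nat.Coprime (Nat.card H) (H.relIndex T)) : ∃ C : Finset (G → ℂ), (∀ χ ∈ C, Cfsg.IsIrrCharacter G χ) ∧ C.card = H.relIndex T ∧ Cfsg.indFun H θ = ∑ χ ∈ C, χ ∧ ∀ χ ∈ C, χ 1 = (T.index : ℂ) * θ 1 := by
  classical
  have hθcf := Cfsg.Agent.Lead.isCharacter_isClassFunction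
    (Cfsg.Agent.Lead.isCharacter_of_isIrrCharacter hθ)
  have hHT : H ≤ T := by
    intro x hx
    rw [hT]
    intro h
    exact hθcf h ⟨x, hx⟩
  obtain ⟨ψ, hψ, hψH⟩ :=
    Cfsg.Agent.Helper2.Dual.exists_extension_coprime H T θ hθ hT hHT hcop
  have hψH' : ∀ h : H, ψ ⟨h, hHT h.2⟩ = ((1 : ℕ) : ℂ) * θ h := by
    intro h
    rw [hψH h, Nat.cast_one, one_mul]
  obtain ⟨C, hC1, hC2, hC3, hC4⟩ :=
    Cfsg.Agent.Helper2.Dual.induced_decomp H T θ hθ hT hab hHT ψ hψ 1 one_ne_zero hψH'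
  refine ⟨C, hC1, ?_, ?_, ?_⟩
  · rw [one_pow, one_mul] at hC2
    have h1 : H.relIndex T * Nat.card H = Nat.card T := by
      have h2 := Subgroup.card_mul_index (H.subgroupOf T)
      have h3 : Nat.card (H.subgroupOf T) = Nat.card H :=
        Nat.card_congr (Subgroup.subgroupOfEquivOfLe hHT).toEquiv
      rw [h3, mul_comm] at h2
      exact h2
    have hH0 : 0 < Nat.card H := Nat.card_pos
    exact Nat.eq_of_mul_eq_mul_right hH0 (hC2.trans h1.symm)
  · rw [hC3, Nat.cast_one, one_smul]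
  · intro χ hχ
    rw [hC4 χ hχ, Nat.cast_one, mul_one]


end Cfsg.Agent.S1491
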