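import Mathlib
import Cfsg.Agent.Helper2.Twist
import Cfsg.Statements.S1493

set_option autoImplicit false
open Cfsg

namespace Cfsg.Agent.S1493

/-- Let G be a finite group of order a * b with a and b coprime, let k be coprime to a, and let χ be a character of G. Then there is a character χ' of G such that χ'(g) = χ(g ^ k) whenever the order of g divides a and χ'(g) = χ(g) whenever the order of g is coprime to a; moreover χ' is irreducible if χ is. -/
theorem result {G : Type*} [Group G] [Finite G] (a b k : ℕ) (hab : Nat.card G = a * b) (hcop : Nat.Coprime a b) (hk : Nat.Coprime k a) (χ : G → ℂ) (hχ : Cfsg.IsCharacter G χ) : ∃ χ' : G → ℂ, Cfsg.IsCharacter G χ' ∧ (Cfsg.IsIrrCharacter G χ → Cfsg.IsIrrCharacter G χ') ∧ (∀ g : G, orderOf g ∣ a → χ' g = χ (g ^ k)) ∧ (∀ g : G, Nat.Coprime (orderOf g) a → χ' g = χ g) := by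
  classical
  haveI : Fintype G := Fintype.ofFinite G
  obtain ⟨k', hk'a, hk'b⟩ := Nat.chineseRemainder hcop k 1
  have hc1 : Nat.Coprime k' a := by
    have h1 : Nat.gcd k' a = Nat.gcd k a := Nat.ModEq.gcd_eq hk'a
    rw [Nat.Coprime, h1]
    exact hk
  have hc2 : Nat.Coprime k' b := by
    have h1 : Nat.gcd k' b = Nat.gcd 1 b := Nat.ModEq.gcd_eq hk'b
    rw [Nat.Coprime, h1]
    exact Nat.gcd_one_left b
  have hc : Nat.Coprime k' (Nat.card G) := by
    rw [hab]
    exact Nat.Coprime.mul_right hc1 hc2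
  refine ⟨fun g => χ (g ^ k'), Cfsg.Agent.Helper2.Twist.twist_char k' hc hχ,
    fun h => Cfsg.Agent.Helper2.Twist.twist_irr k' hc h, ?_, ?_⟩
  · intro g hg
    show χ (g ^ k') = χ (g ^ k)
    congr 1
    rw [pow_eq_pow_iff_modEq]
    exact Nat.ModEq.of_dvd hg hk'a
  · intro g hg
    show χ (g ^ k') = χ g
    congr 1
    have hdvd : orderOf g ∣ b := by
      have h1 : orderOf g ∣ a * b := by
        rw [← hab]
        exact orderOf_dvd_natCard g
      exact Nat.Coprime.dvd_of_dvd_mul_left hg h1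
    have h2 : g ^ k' = g ^ 1 := by
      rw [pow_eq_pow_iff_modEq]
      exact Nat.ModEq.of_dvd hdvd hk'b
    rw [h2, pow_one]


end Cfsg.Agent.S1493
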