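import Cfsg.Statements.S1494
import Cfsg.Agent.Lead.CharOdd
import Cfsg.Agent.Lead.CharLin
import Cfsg.Agent.Lead.CharCore6

set_option autoImplicit false
open Cfsg

namespace Cfsg.Agent.S1494

open Cfsg.Agent

/-- Let χ be a generalized character of the finite group G, p a prime, x an element of order p and y an element commuting with x. Then χ(x * y) − χ(y) = (1 − ε) * ω for some algebraic integer ω, where ε = exp(2πi/p). -/
theorem result {G : Type*} [Group G] [Finite G] (χ : G → ℂ) (hχ : Cfsg.IsGeneralizedCharacter G χ) (p : ℕ) (hp : p.Prime) (x y : G) (hx : orderOf x = p) (hxy : x * y = y * x) : ∃ ω : ℂ, IsIntegral ℤ ω ∧ χ (x * y) - χ y = (1 - Complex.exp (2 * Real.pi * Complex.I / p)) * ω := by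
  classical
  obtain ⟨ε, hε⟩ : ∃ ε : ℂ, ε = Complex.exp (2 * Real.pi * Complex.I / p) := ⟨_, rfl⟩
  rw [← hε]
  haveI : NeZero p := ⟨hp.ne_zero⟩
  have hprim : IsPrimitiveRoot ε p := by
    rw [hε]
    exact Complex.isPrimitiveRoot_exp p hp.ne_zero
  have hεint : IsIntegral ℤ ε := hprim.isIntegral hp.pos
  have key : ∀ ψ : G → ℂ, Cfsg.IsCharacter G ψ →
      ∃ ω : ℂ, IsIntegral ℤ ω ∧ ψ (x * y) - ψ y = (1 - ε) * ω := by
    intro ψ hψ
    obtain ⟨A, hA⟩ : ∃ A : Subgroup G, A = Subgroup.closure {x, y} := ⟨_, rfl⟩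
    have hxA : x ∈ A := by
      rw [hA]
      exact Subgroup.subset_closure (Set.mem_insert _ _)
    have hyA : y ∈ A := by
      rw [hA]
      exact Subgroup.subset_closure (Set.mem_insert_of_mem _ rfl)
    have hgen : ∀ a ∈ ({x, y} : Set G), ∀ b ∈ ({x, y} : Set G), a * b = b * a := by
      intro a ha b hb
      rcases ha with rfl | rfl <;> rcases hb with rfl | rfl
      · rfl
      · exact hxy
      · exact hxy.symm
      · rfl
    have hAc : IsMulCommutative ↥A := by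
      rw [hA]
      exact Subgroup.isMulCommutative_closure hgen
    have hcomm : ∀ a b : A, a * b = b * a := isMulCommutative_iff.1 hAc
    obtain ⟨m, hm⟩ := Lead.exists_multiset_irr (Lead.isCharacter_res A hψ)
    have hlin : ∀ l : Cfsg.IrrCharacter A, ∃ ω : ℂ, IsIntegral ℤ ω ∧
        (l : A → ℂ) (⟨x, hxA⟩ * ⟨y, hyA⟩) - (l : A → ℂ) ⟨y, hyA⟩ = (1 - ε) * ω := by
      intro l
      have h1 : (l : A → ℂ) 1 = 1 := Lead.irrCharacter_one_of_comm hcomm l
      have hmul := Lead.isCharacter_linear_mul (Lead.isCharacter_of_isIrrCharacter l.2) h1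
      have hpow : ∀ n : ℕ, (l : A → ℂ) ((⟨x, hxA⟩ : A) ^ n) = ((l : A → ℂ) ⟨x, hxA⟩) ^ n := by
        intro n
        induction n with
        | zero => rw [pow_zero, pow_zero, h1]
        | succ n ih => rw [pow_succ, pow_succ, hmul, ih]
      have hxp : ((⟨x, hxA⟩ : A)) ^ p = 1 := by
        apply Subtype.ext
        rw [Subgroup.coe_pow, Subgroup.coe_one, ← hx]
        exact pow_orderOf_eq_one x
      have hlp : ((l : A → ℂ) ⟨x, hxA⟩) ^ p = 1 := by
        rw [← hpow, hxp, h1]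
      obtain ⟨i, -, hi⟩ := hprim.eq_pow_of_pow_eq_one hlp
      refine ⟨-(∑ j ∈ Finset.range i, ε ^ j) * (l : A → ℂ) ⟨y, hyA⟩, ?_, ?_⟩
      · exact (IsIntegral.neg (IsIntegral.sum _ (fun j _ => hεint.pow j))).mul
          (Lead.irrCharacter_isIntegral l _)
      · rw [hmul, ← hi]
        have hg := mul_neg_geom_sum ε i
        calc ε ^ i * (l : A → ℂ) ⟨y, hyA⟩ - (l : A → ℂ) ⟨y, hyA⟩
            = -(1 - ε ^ i) * (l : A → ℂ) ⟨y, hyA⟩ := by ring
          _ = -((1 - ε) * ∑ j ∈ Finset.range i, ε ^ j) * (l : A → ℂ) ⟨y, hyA⟩ := by rw [hg]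
          _ = (1 - ε) * (-(∑ j ∈ Finset.range i, ε ^ j) * (l : A → ℂ) ⟨y, hyA⟩) := by ring
    have hsum : ∀ m : Multiset (Cfsg.IrrCharacter A), ∃ ω : ℂ, IsIntegral ℤ ω ∧
        (m.map (fun l : Cfsg.IrrCharacter A => (l : A → ℂ) (⟨x, hxA⟩ * ⟨y, hyA⟩))).sum -
          (m.map (fun l : Cfsg.IrrCharacter A => (l : A → ℂ) ⟨y, hyA⟩)).sum = (1 - ε) * ω := by
      intro m
      induction m using Multiset.induction_on with
      | empty => exact ⟨0, isIntegral_zero, by simp⟩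
      | cons a s ih =>
        obtain ⟨ω₁, hi1, e1⟩ := hlin a
        obtain ⟨ω₂, hi2, e2⟩ := ih
        refine ⟨ω₁ + ω₂, hi1.add hi2, ?_⟩
        rw [Multiset.map_cons, Multiset.map_cons, Multiset.sum_cons, Multiset.sum_cons, mul_add,
          ← e1, ← e2]
        ring
    obtain ⟨ω, hω, e⟩ := hsum m
    refine ⟨ω, hω, ?_⟩
    have h1 : ψ (x * y) = (m.map (fun l : Cfsg.IrrCharacter A =>
        (l : A → ℂ) (⟨x, hxA⟩ * ⟨y, hyA⟩))).sum := by
      have h0 := congrFun hm (⟨x, hxA⟩ * ⟨y, hyA⟩)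
      rw [Lead.multiset_irr_sum_apply] at h0
      exact h0
    have h2 : ψ y = (m.map (fun l : Cfsg.IrrCharacter A => (l : A → ℂ) ⟨y, hyA⟩)).sum := by
      have h0 := congrFun hm ⟨y, hyA⟩
      rw [Lead.multiset_irr_sum_apply] at h0
      exact h0
    rw [h1, h2]
    exact e
  obtain ⟨χ₁, χ₂, h₁, h₂, rfl⟩ := hχ
  obtain ⟨ω₁, hω₁, e₁⟩ := key χ₁ h₁
  obtain ⟨ω₂, hω₂, e₂⟩ := key χ₂ h₂
  refine ⟨ω₁ - ω₂, hω₁.sub hω₂, ?_⟩
  simp only [Pi.sub_apply]
  rw [mul_sub, ← e₁, ← e₂]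
  ring

end Cfsg.Agent.S1494
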