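import Cfsg.Statements.S1495
import Mathlib

set_option autoImplicit false
open Cfsg

namespace Cfsg.Agent.S1495

/-- Let p be a prime, ε = exp(2πi/p), and n an integer such that n = (1 − ε) * ω for some algebraic integer ω. Then p divides n. -/
theorem result (p : ℕ) (hp : p.Prime) (n : ℤ) (ω : ℂ) (hω : IsIntegral ℤ ω) (h : (n : ℂ) = (1 - Complex.exp (2 * Real.pi * Complex.I / p)) * ω) : (p : ℤ) ∣ n := by
  classical
  obtain ⟨ε, hε⟩ : ∃ ε : ℂ, ε = Complex.exp (2 * Real.pi * Complex.I / p) := ⟨_, rfl⟩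
  rw [← hε] at h
  haveI : Fact p.Prime := ⟨hp⟩
  haveI : NeZero p := ⟨hp.ne_zero⟩
  have hprim : IsPrimitiveRoot ε p := by
    rw [hε]
    exact Complex.isPrimitiveRoot_exp p hp.ne_zero
  have hint : ∀ k : ℤ, IsIntegral ℤ (k : ℂ) := fun k => by
    have h0 := isIntegral_algebraMap (R := ℤ) (A := ℂ) (x := k)
    simpa using h0
  have hmemint : ∀ μ ∈ primitiveRoots p ℂ, IsIntegral ℤ μ := fun μ hμ =>
    ((mem_primitiveRoots hp.pos).mp hμ).isIntegral hp.pos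
  have hprod : ∏ μ ∈ primitiveRoots p ℂ, (1 - μ) = (p : ℂ) := by
    have h1 := Polynomial.eval_one_cyclotomic_prime (R := ℂ) (p := p)
    rw [Polynomial.cyclotomic_eq_prod_X_sub_primitiveRoots hprim, Polynomial.eval_prod] at h1
    simpa using h1
  have hεmem : ε ∈ primitiveRoots p ℂ := (mem_primitiveRoots hp.pos).mpr hprim
  by_contra hnd
  have hcop : IsCoprime (p : ℤ) n :=
    (Nat.prime_iff_prime_int.mp hp).irreducible.coprime_iff_not_dvd.mpr hnd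
  obtain ⟨u, v, huv⟩ := hcop
  obtain ⟨τ, hτint, hτ⟩ : ∃ τ : ℂ, IsIntegral ℤ τ ∧ (1 - ε) * τ = 1 := by
    refine ⟨(u : ℂ) * ∏ μ ∈ (primitiveRoots p ℂ).erase ε, (1 - μ) + (v : ℂ) * ω, ?_, ?_⟩
    · exact ((hint u).mul (IsIntegral.prod _ (fun μ hμ =>
        isIntegral_one.sub (hmemint μ (Finset.mem_of_mem_erase hμ))))).add ((hint v).mul hω)
    · have h2 : (1 - ε) * ∏ μ ∈ (primitiveRoots p ℂ).erase ε, (1 - μ) = (p : ℂ) := by
        rw [Finset.mul_prod_erase _ (fun μ => 1 - μ) hεmem, hprod]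
      have h3 : (u : ℂ) * (p : ℂ) + (v : ℂ) * (n : ℂ) = 1 := by
        have h0 : ((u * (p : ℤ) + v * n : ℤ) : ℂ) = 1 := by rw [huv]; simp
        push_cast at h0
        exact h0
      calc (1 - ε) * ((u : ℂ) * ∏ μ ∈ (primitiveRoots p ℂ).erase ε, (1 - μ) + (v : ℂ) * ω)
          = (u : ℂ) * ((1 - ε) * ∏ μ ∈ (primitiveRoots p ℂ).erase ε, (1 - μ)) +
              (v : ℂ) * ((1 - ε) * ω) := by ring
        _ = (u : ℂ) * (p : ℂ) + (v : ℂ) * (n : ℂ) := by rw [h2, ← h]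
        _ = 1 := h3
  have hinv : ∀ μ ∈ primitiveRoots p ℂ, ∃ t : ℂ, IsIntegral ℤ t ∧ (1 - μ) * t = 1 := by
    intro μ hμ
    have hμprim := (mem_primitiveRoots hp.pos).mp hμ
    have hεp : ε ^ p = 1 := hprim.pow_eq_one
    obtain ⟨j, -, hj⟩ := hμprim.eq_pow_of_pow_eq_one hεp
    refine ⟨(∑ i ∈ Finset.range j, μ ^ i) * τ,
      (IsIntegral.sum _ (fun i _ => (hmemint μ hμ).pow i)).mul hτint, ?_⟩
    rw [← mul_assoc, mul_neg_geom_sum, hj]
    exact hτ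
  have hall : ∀ s : Finset ℂ, s ⊆ primitiveRoots p ℂ →
      ∃ T : ℂ, IsIntegral ℤ T ∧ (∏ μ ∈ s, (1 - μ)) * T = 1 := by
    intro s
    induction s using Finset.induction_on with
    | empty =>
      intro _
      exact ⟨1, isIntegral_one, by simp⟩
    | insert a s ha ih =>
      intro hsub
      obtain ⟨T, hT, hTe⟩ := ih (fun x hx => hsub (Finset.mem_insert_of_mem hx))
      obtain ⟨t, ht, hte⟩ := hinv a (hsub (Finset.mem_insert_self a s))
      refine ⟨t * T, ht.mul hT, ?_⟩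
      rw [Finset.prod_insert ha]
      calc ((1 - a) * ∏ μ ∈ s, (1 - μ)) * (t * T)
          = ((1 - a) * t) * ((∏ μ ∈ s, (1 - μ)) * T) := by ring
        _ = 1 := by rw [hte, hTe, one_mul]
  obtain ⟨T, hT, hTe⟩ := hall _ (Finset.Subset.refl _)
  rw [hprod] at hTe
  have hp0 : (p : ℂ) ≠ 0 := Nat.cast_ne_zero.mpr hp.ne_zero
  have hTq : T = algebraMap ℚ ℂ (1 / (p : ℚ)) := by
    rw [eq_ratCast]
    push_cast
    rw [eq_div_iff hp0, mul_comm]
    exact hTe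
  rw [hTq] at hT
  have hT' : IsIntegral ℤ (1 / (p : ℚ) : ℚ) :=
    (isIntegral_algebraMap_iff (algebraMap ℚ ℂ).injective).mp hT
  obtain ⟨y, hy⟩ := IsIntegrallyClosed.isIntegral_iff.mp hT'
  have hpq : (p : ℚ) ≠ 0 := Nat.cast_ne_zero.mpr hp.ne_zero
  have h5 : (p : ℚ) * (y : ℚ) = 1 := by
    have h0 : (algebraMap ℤ ℚ y) = (y : ℚ) := rfl
    rw [← h0, hy]
    field_simp
  have h6 : (p : ℤ) * y = 1 := by exact_mod_cast h5
  have h7 : (p : ℤ) ∣ 1 := Dvd.intro _ h6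
  have h8 : p ∣ 1 := by exact_mod_cast h7
  exact hp.one_lt.ne' (Nat.dvd_one.mp h8)

end Cfsg.Agent.S1495
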