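import Cfsg.Statements.S1496
import Mathlib
import Cfsg.Agent.Helper3.SchurZ

set_option autoImplicit false
open Cfsg

namespace Cfsg.Agent.S1496

open Cfsg.Agent

/-- Let H be a subgroup of the finite group G and g an element normalising H whose order is coprime to the order of H. Then for every h ∈ H there are x ∈ H and c ∈ H commuting with g such that x * (h * g) * x⁻¹ = c * g. -/
theorem result {G : Type*} [Group G] [Finite G] (H : Subgroup G) (g : G) (hg : g ∈ Subgroup.normalizer (H : Set G)) (hcop : Nat.Coprime (orderOf g) (Nat.card H)) (h : G) (hh : h ∈ H) : ∃ x ∈ H, ∃ c ∈ H, c * g = g * c ∧ x * (h * g) * x⁻¹ = c * g := by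
  classical
  have hA : ∀ k : ℕ, (h * g) ^ k * (g ^ k)⁻¹ ∈ H := by
    intro k
    induction k with
    | zero => simp
    | succ k ih =>
      have hgk : g ^ k ∈ Subgroup.normalizer (H : Set G) := Subgroup.pow_mem _ hg k
      have h1 : g ^ k * h * (g ^ k)⁻¹ ∈ H := (Subgroup.mem_normalizer_iff.mp hgk h).mp hh
      have h2 : (h * g) ^ (k + 1) * (g ^ (k + 1))⁻¹ =
          ((h * g) ^ k * (g ^ k)⁻¹) * (g ^ k * h * (g ^ k)⁻¹) := by
        rw [pow_succ, pow_succ]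
        group
      rw [h2]
      exact H.mul_mem ih h1
  obtain ⟨i, hi1, hi0⟩ := Nat.chineseRemainder hcop 1 0
  have hgi : g ^ i = g := by
    have h0 := pow_eq_pow_iff_modEq.mpr hi1
    rwa [pow_one] at h0
  have hdi : Nat.card H ∣ i := (Nat.modEq_zero_iff_dvd).mp hi0
  have hyn : (h * g) ^ orderOf g ∈ H := by
    have h0 := hA (orderOf g)
    rwa [pow_orderOf_eq_one, inv_one, mul_one] at h0
  obtain ⟨y₁, hy₁⟩ : ∃ y₁ : G, y₁ = (h * g) ^ i := ⟨_, rfl⟩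
  have hb : y₁ * g⁻¹ ∈ H := by
    have h0 := hA i
    rwa [hgi, ← hy₁] at h0
  have hy₁n : y₁ ^ orderOf g = 1 := by
    rw [hy₁, ← pow_mul, mul_comm, pow_mul]
    exact orderOf_dvd_iff_pow_eq_one.mp ((Subgroup.orderOf_dvd_natCard H hyn).trans hdi)
  have hinf : ∀ w : G, w ^ orderOf g = 1 → H ⊓ Subgroup.zpowers w = ⊥ := by
    intro w hw
    rw [eq_bot_iff]
    intro z hz
    obtain ⟨hzH, hzw⟩ := Subgroup.mem_inf.mp hz
    obtain ⟨k, rfl⟩ := Subgroup.mem_zpowers_iff.mp hzw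
    rw [Subgroup.mem_bot]
    have h1 : (w ^ k) ^ orderOf g = 1 := by
      rw [← zpow_natCast, ← zpow_mul, mul_comm, zpow_mul, zpow_natCast, hw, one_zpow]
    have h2 : orderOf (w ^ k) ∣ orderOf g := orderOf_dvd_of_pow_eq_one h1
    have h3 : orderOf (w ^ k) ∣ Nat.card H := Subgroup.orderOf_dvd_natCard H hzH
    exact orderOf_eq_one_iff.mp (Nat.eq_one_of_dvd_coprimes hcop h2 h3)
  have hy₁N : y₁ ∈ Subgroup.normalizer (H : Set G) := by
    have e : y₁ = (y₁ * g⁻¹) * g := by group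
    rw [e]
    exact Subgroup.mul_mem _ (Subgroup.le_normalizer hb) hg
  have hsupeq : H ⊔ Subgroup.zpowers y₁ = H ⊔ Subgroup.zpowers g := by
    apply le_antisymm
    · apply sup_le le_sup_left
      rw [Subgroup.zpowers_le]
      have e : y₁ = (y₁ * g⁻¹) * g := by group
      rw [e]
      exact Subgroup.mul_mem _ ((le_sup_left : H ≤ H ⊔ Subgroup.zpowers g) hb)
        ((le_sup_right : Subgroup.zpowers g ≤ H ⊔ Subgroup.zpowers g) (Subgroup.mem_zpowers g))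
    · apply sup_le le_sup_left
      rw [Subgroup.zpowers_le]
      have e : g = (y₁ * g⁻¹)⁻¹ * y₁ := by group
      have h0 : (y₁ * g⁻¹)⁻¹ * y₁ ∈ H ⊔ Subgroup.zpowers y₁ :=
        Subgroup.mul_mem _ ((le_sup_left : H ≤ H ⊔ Subgroup.zpowers y₁) (H.inv_mem hb))
          ((le_sup_right : Subgroup.zpowers y₁ ≤ H ⊔ Subgroup.zpowers y₁)
            (Subgroup.mem_zpowers y₁))
      rw [← e] at h0
      exact h0
  have hcop' : (Nat.card H).Coprime (Nat.card (Subgroup.zpowers y₁)) := by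
    rw [Nat.card_zpowers]
    exact (Nat.Coprime.coprime_dvd_left (orderOf_dvd_of_pow_eq_one hy₁n) hcop).symm
  have hsolv : Group.IsSolvable (Subgroup.zpowers y₁) := by
    apply Group.isSolvable_of_comm
    rintro ⟨a, ha⟩ ⟨b, hb'⟩
    obtain ⟨m, rfl⟩ := Subgroup.mem_zpowers_iff.mp ha
    obtain ⟨m', rfl⟩ := Subgroup.mem_zpowers_iff.mp hb'
    apply Subtype.ext
    show y₁ ^ m * y₁ ^ m' = y₁ ^ m' * y₁ ^ m
    rw [← zpow_add, ← zpow_add, add_comm]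
  obtain ⟨x, hxH, hxconj⟩ := Helper3.sz_conj_rel H (Subgroup.zpowers y₁) (Subgroup.zpowers g)
    ((Subgroup.zpowers_le).mpr hy₁N) (hinf y₁ hy₁n) (hinf g (pow_orderOf_eq_one g)) hsupeq hcop'
    (Or.inr hsolv)
  have hxy : x * y₁ * x⁻¹ = g := by
    have hmem : x * y₁ * x⁻¹ ∈ Subgroup.zpowers g := by
      rw [← hxconj]
      exact Helper5.conj_mem_conj _ x y₁ (Subgroup.mem_zpowers y₁)
    have hH' : x * y₁ * x⁻¹ * g⁻¹ ∈ H := by
      have h1 : g * x⁻¹ * g⁻¹ ∈ H := (Subgroup.mem_normalizer_iff.mp hg x⁻¹).mp (H.inv_mem hxH)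
      have h2 : x * y₁ * x⁻¹ * g⁻¹ = x * (y₁ * g⁻¹) * (g * x⁻¹ * g⁻¹) := by group
      rw [h2]
      exact H.mul_mem (H.mul_mem hxH hb) h1
    have hz : x * y₁ * x⁻¹ * g⁻¹ ∈ H ⊓ Subgroup.zpowers g :=
      Subgroup.mem_inf.mpr ⟨hH', Subgroup.mul_mem _ hmem
        (Subgroup.inv_mem _ (Subgroup.mem_zpowers g))⟩
    rw [hinf g (pow_orderOf_eq_one g), Subgroup.mem_bot] at hz
    exact mul_inv_eq_one.mp hz
  have hc₀ : h * g * y₁⁻¹ ∈ H := by
    have h2 : h * g * y₁⁻¹ = h * (y₁ * g⁻¹)⁻¹ := by group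
    rw [h2]
    exact H.mul_mem hh (H.inv_mem hb)
  have hc : h * g * y₁ = y₁ * (h * g) := by
    rw [hy₁]
    exact ((Commute.refl (h * g)).pow_right i).eq
  have hcomm₀ : (h * g * y₁⁻¹) * y₁ = y₁ * (h * g * y₁⁻¹) := by
    calc (h * g * y₁⁻¹) * y₁ = h * g * y₁ * y₁⁻¹ := by group
      _ = y₁ * (h * g) * y₁⁻¹ := by rw [hc]
      _ = y₁ * (h * g * y₁⁻¹) := by group
  refine ⟨x, hxH, x * (h * g * y₁⁻¹) * x⁻¹, ?_, ?_, ?_⟩
  · exact H.mul_mem (H.mul_mem hxH hc₀) (H.inv_mem hxH)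
  · calc x * (h * g * y₁⁻¹) * x⁻¹ * g
        = x * (h * g * y₁⁻¹) * x⁻¹ * (x * y₁ * x⁻¹) := by rw [hxy]
      _ = x * ((h * g * y₁⁻¹) * y₁) * x⁻¹ := by group
      _ = x * (y₁ * (h * g * y₁⁻¹)) * x⁻¹ := by rw [hcomm₀]
      _ = (x * y₁ * x⁻¹) * (x * (h * g * y₁⁻¹) * x⁻¹) := by group
      _ = g * (x * (h * g * y₁⁻¹) * x⁻¹) := by rw [hxy]
  · calc x * (h * g) * x⁻¹ = x * (h * g * y₁⁻¹) * x⁻¹ * (x * y₁ * x⁻¹) := by group
      _ = x * (h * g * y₁⁻¹) * x⁻¹ * g := by rw [hxy]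

end Cfsg.Agent.S1496
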