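import Cfsg.Statements.S1497
import Mathlib

set_option autoImplicit false
open Cfsg

namespace Cfsg.Agent.S1497

/-- Let A be a nonempty subset of the finite group G not containing 1 and L a subgroup. Then A is a TI-subset whose normaliser is L if and only if the Dade hypothesis holds for A, L and the constant choice H(a) = ⊥. -/
theorem result {G : Type*} [Group G] [Finite G] (A : Set G) (hA : A.Nonempty) (h1 : (1 : G) ∉ A) (L : Subgroup G) : (Cfsg.IsTISubset A ∧ Subgroup.normalizer A = L) ↔ Cfsg.DadeHypothesis A L (fun _ => ⊥) := by
  constructor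
  · rintro ⟨hTI, hN⟩
    have hAL : ∀ a ∈ A, a ∈ Subgroup.normalizer A := by
      intro a ha
      by_contra hna
      have := hTI a hna a ha (by simpa using ha)
      exact h1 (this ▸ ha)
    have hCL : ∀ a ∈ A, Subgroup.centralizer ({a} : Set G) ≤ L := by
      intro a ha c hc
      rw [← hN]
      by_contra hna
      have hca : c * a * c⁻¹ = a := by
        rw [Subgroup.mem_centralizer_iff] at hc
        have := hc a rfl
        rw [← this]; group
      have := hTI c hna a ha (by rw [hca]; exact ha)
      exact h1 (this ▸ ha)
    refine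
      { one_not_mem := h1
        subset := fun a ha => hN ▸ hAL a ha
        conj_mem := ?_
        fusion := ?_
        le_centralizer := fun a _ => bot_le
        conj_mem_H := ?_
        inf_eq_bot := fun a _ => bot_inf_eq _
        sup_eq := ?_
        coprime := ?_ }
    · intro x hx a ha
      rw [← hN] at hx
      exact (Subgroup.le_set_normalizer_iff (H := Subgroup.normalizer A)).mp le_rfl x hx a ha
    · intro a ha g hg
      by_cases hgN : g ∈ Subgroup.normalizer A
      · exact ⟨g, hN ▸ hgN, rfl⟩
      · have := hTI g hgN a ha hg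
        exact absurd (this ▸ ha) h1
    · intro a _ c _ u hu
      rw [Subgroup.mem_bot] at hu ⊢
      rw [hu]; group
    · intro a ha
      rw [bot_sup_eq]
      exact inf_eq_right.mpr (hCL a ha)
    · intro a _ b _
      simp
  · intro hD
    have hCL : ∀ a ∈ A, Subgroup.centralizer ({a} : Set G) ≤ L := by
      intro a ha
      have := hD.sup_eq a ha
      rw [bot_sup_eq] at this
      rw [← this]
      exact inf_le_left
    have key : ∀ g : G, ∀ a ∈ A, g * a * g⁻¹ ∈ A → g ∈ L := by
      intro g a ha hga
      obtain ⟨x, hx, hxa⟩ := hD.fusion a ha g hga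
      have hc : x⁻¹ * g ∈ Subgroup.centralizer ({a} : Set G) := by
        rw [Subgroup.mem_centralizer_iff]
        rintro b rfl
        have : b = x⁻¹ * (x * b * x⁻¹) * x := by group
        calc b * (x⁻¹ * g) = x⁻¹ * (x * b * x⁻¹) * x * (x⁻¹ * g) := by rw [← this]
          _ = x⁻¹ * (g * b * g⁻¹) * x * (x⁻¹ * g) := by rw [hxa]
          _ = x⁻¹ * g * b := by group
      have := L.mul_mem hx (hCL a ha hc)
      simpa using this
    have hLN : L ≤ Subgroup.normalizer A :=
      Subgroup.le_set_normalizer_iff.mpr hD.conj_mem
    have hN : Subgroup.normalizer A = L := by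
      apply le_antisymm _ hLN
      intro g hg
      obtain ⟨a, ha⟩ := hA
      exact key g a ha ((Subgroup.le_set_normalizer_iff (H := Subgroup.normalizer A)).mp le_rfl g hg a ha)
    refine ⟨?_, hN⟩
    intro g hg x hx hgx
    exact absurd (hLN (key g x hx hgx)) hg

end Cfsg.Agent.S1497
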