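import Cfsg.Statements.S1498
import Cfsg.Agent.Helper3.CN

set_option autoImplicit false
open Cfsg

namespace Cfsg.Agent.S1498

open Cfsg.Agent

/-- Under the Dade hypothesis for (A, L, H): for a ∈ A and x ∈ L, the subgroup attached to x * a * x⁻¹ is the conjugate of H a by x. -/
theorem result {G : Type*} [Group G] [Finite G] (A : Set G) (L : Subgroup G) (H : G → Subgroup G) (hD : Cfsg.DadeHypothesis A L H) (a : G) (ha : a ∈ A) (x : G) (hx : x ∈ L) : H (x * a * x⁻¹) = (H a).map (MulAut.conj x).toMonoidHom := by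
  classical
  have key : ∀ (a : G), a ∈ A → ∀ (x : G), x ∈ L →
      (H a).map (MulAut.conj x).toMonoidHom ≤ H (x * a * x⁻¹) := by
    intro a ha x hx u hu
    have ha' : x * a * x⁻¹ ∈ A := hD.conj_mem x hx a ha
    obtain ⟨k, hk, hku⟩ := Subgroup.mem_map.mp hu
    have hkC : k ∈ Subgroup.centralizer ({a} : Set G) := hD.le_centralizer a ha hk
    have huC : u ∈ Subgroup.centralizer ({x * a * x⁻¹} : Set G) := by
      rw [← Helper3.centralizer_singleton_map_conj, ← hku]
      exact Subgroup.mem_map_of_mem _ hkC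
    rw [← hD.sup_eq _ ha'] at huC
    have hMN : L ⊓ Subgroup.centralizer ({x * a * x⁻¹} : Set G) ≤
        Subgroup.normalizer (H (x * a * x⁻¹) : Set G) := by
      apply Helper3.le_normalizer_of_conj_mem
      intro s hs d hd
      exact hD.conj_mem_H _ ha' s (Subgroup.mem_inf.mp hs).2 d hd
    obtain ⟨k', hk', m', hm', he⟩ := Helper3.mem_sup_of_le_normalizer_right _ _ hMN huC
    have hpow : ∀ n : ℕ, ∃ k'' ∈ H (x * a * x⁻¹), (k' * m') ^ n = k'' * m' ^ n := by
      intro n
      induction n with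
      | zero => exact ⟨1, Subgroup.one_mem _, by simp⟩
      | succ n ih =>
        obtain ⟨k'', hk'', e⟩ := ih
        refine ⟨k'' * (m' ^ n * k' * (m' ^ n)⁻¹), Subgroup.mul_mem _ hk'' ?_, ?_⟩
        · have hmn : m' ^ n ∈ Subgroup.centralizer ({x * a * x⁻¹} : Set G) :=
            Subgroup.pow_mem _ (Subgroup.mem_inf.mp hm').2 n
          exact hD.conj_mem_H _ ha' _ hmn k' hk'
        · rw [pow_succ, e, pow_succ]
          group
    obtain ⟨k'', hk'', e⟩ := hpow (orderOf k)
    have hu1 : (k' * m') ^ orderOf k = 1 := by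
      rw [he, ← hku, ← map_pow, pow_orderOf_eq_one, map_one]
    rw [hu1] at e
    have hm1 : m' ^ orderOf k ∈ H (x * a * x⁻¹) ⊓
        (L ⊓ Subgroup.centralizer ({x * a * x⁻¹} : Set G)) := by
      refine Subgroup.mem_inf.mpr ⟨?_, Subgroup.pow_mem _ hm' _⟩
      have e2 : m' ^ orderOf k = k''⁻¹ := eq_inv_of_mul_eq_one_right e.symm
      rw [e2]
      exact Subgroup.inv_mem _ hk''
    rw [hD.inf_eq_bot _ ha', Subgroup.mem_bot] at hm1
    have hd1 : orderOf m' ∣ Nat.card (H a) :=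
      (orderOf_dvd_of_pow_eq_one hm1).trans (Subgroup.orderOf_dvd_natCard _ hk)
    have hd2 : orderOf m' ∣ Nat.card ↥(L ⊓ Subgroup.centralizer ({x * a * x⁻¹} : Set G)) :=
      Subgroup.orderOf_dvd_natCard _ hm'
    have hm'1 : m' = 1 :=
      orderOf_eq_one_iff.mp (Nat.eq_one_of_dvd_coprimes (hD.coprime a ha _ ha') hd1 hd2)
    rw [← he, hm'1, mul_one]
    exact hk'
  have ha' : x * a * x⁻¹ ∈ A := hD.conj_mem x hx a ha
  apply le_antisymm
  · intro v hv
    rw [Helper5.mem_conj_iff]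
    have h2 := key (x * a * x⁻¹) ha' x⁻¹ (L.inv_mem hx)
    have e : x⁻¹ * (x * a * x⁻¹) * x⁻¹⁻¹ = a := by group
    rw [e] at h2
    have h3 := h2 (Helper5.conj_mem_conj (H (x * a * x⁻¹)) x⁻¹ v hv)
    rwa [inv_inv] at h3
  · exact key a ha x hx

end Cfsg.Agent.S1498
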