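import Cfsg.Statements.S1503
import Cfsg.Agent.Helper3.SignedIrr
import Cfsg.Agent.Helper3.NormSingle
import Cfsg.Agent.Lead.CharCore4

set_option autoImplicit false
open Cfsg

namespace Cfsg.Agent.S1503

/-- Let W₁, W₂ ≤ G with W = W₁ ⊔ W₂ and let χ an orthonormal family of irreducible characters of G up to sign, indexed by the linear characters ω of W, with χ_1 = 1, χ_ω = ω on W outside W₁ ∪ W₂, and the induction identity for (1 − φ)(1 − ψ). If θ is an irreducible character of G orthogonal to χ ω for every linear character ω of W, then θ vanishes at every element of W lying outside W₁ ∪ W₂. -/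
theorem result {G : Type*} [Group G] [Fintype G] (W₁ W₂ : Subgroup G) (hW : Cfsg.IsSelfNormalizingCyclic W₁ W₂) (χ : (↥(W₁ ⊔ W₂) →* ℂˣ) → (G → ℂ)) (hχ : Cfsg.IsCyclicTIFamily W₁ W₂ χ) (θ : G → ℂ) (hθ : Cfsg.IsIrrCharacter G θ) (horth : ∀ ω, Cfsg.classInner θ (χ ω) = 0) (w : ↥(W₁ ⊔ W₂)) (hw₁ : (w : G) ∉ W₁) (hw₂ : (w : G) ∉ W₂) : θ w = 0 := by
  classical
  obtain ⟨hW1, hW2, hdisj, hcomm, hcyc, hnorm⟩ := hW
  haveI : IsCyclic ↥(W₁ ⊔ W₂) := hcyc
  have hcent : Subgroup.centralizer ({(w : G)} : Set G) = W₁ ⊔ W₂ := by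
    rw [← Helper3.normalizer_singleton]
    apply hnorm
    · intro x hx
      rw [Set.mem_singleton_iff] at hx; subst hx
      exact ⟨w.2, fun h => h.elim hw₁ hw₂⟩
    · exact Set.singleton_nonempty _
  have hcol := Lead.column_orth_of_isConj (IsConj.refl (w : G))
  rw [hcent] at hcol
  haveI : Finite (Cfsg.IrrCharacter G) := Lead.finite_irrCharacter G
  haveI : Fintype (Cfsg.IrrCharacter G) := Fintype.ofFinite _
  rw [finsum_eq_sum_of_fintype] at hcol
  have hcolR : ∑ χ' : Cfsg.IrrCharacter G, Complex.normSq ((χ' : G → ℂ) w)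
      = (Nat.card ↥(W₁ ⊔ W₂) : ℝ) := by
    have h1 := congrArg Complex.re hcol
    rw [Complex.re_sum] at h1
    simp only [Complex.natCast_re] at h1
    rw [← h1]
    refine Finset.sum_congr rfl (fun χ' _ => ?_)
    rw [Complex.mul_conj]; simp
  choose μ s hs hμ using fun ω => Helper3.signed_irr_decomp (hχ.irr_or_neg ω)
  have hinj : Function.Injective μ := by
    intro ω ω' h
    by_contra hne
    have h1 := hχ.orthonormal ω ω'
    rw [if_neg hne, hμ ω, hμ ω', Helper3.classInner_signed _ _ _ _ (hs ω'), if_pos h] at h1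
    rcases hs ω with h2 | h2 <;> rcases hs ω' with h3 | h3 <;> rw [h2, h3] at h1 <;> simp at h1
  haveI : Fintype (↥(W₁ ⊔ W₂) →* ℂˣ) := Fintype.ofFinite _
  have hθnot : (⟨θ, hθ⟩ : Cfsg.IrrCharacter G) ∉ Finset.univ.image μ := by
    intro hmem
    obtain ⟨ω, -, hω⟩ := Finset.mem_image.mp hmem
    have h1 := horth ω
    have hval : ((μ ω : Cfsg.IrrCharacter G) : G → ℂ) = θ := congrArg Subtype.val hω
    have h2 : Cfsg.classInner θ θ = 1 := Lead.classInner_self_of_isIrrCharacter hθ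
    rw [hμ ω, hval, Lead.classInner_smul_right, h2] at h1
    rcases hs ω with h3 | h3 <;> rw [h3] at h1 <;> simp at h1
  have hsub : ∑ χ' ∈ insert (⟨θ, hθ⟩ : Cfsg.IrrCharacter G) (Finset.univ.image μ),
      Complex.normSq ((χ' : G → ℂ) w)
      ≤ ∑ χ' : Cfsg.IrrCharacter G, Complex.normSq ((χ' : G → ℂ) w) :=
    Finset.sum_le_sum_of_subset_of_nonneg (Finset.subset_univ _)
      (fun _ _ _ => Complex.normSq_nonneg _)
  rw [Finset.sum_insert hθnot, Finset.sum_image (fun a _ b _ h => hinj h), hcolR] at hsub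
  have hone : ∀ ω : ↥(W₁ ⊔ W₂) →* ℂˣ, Complex.normSq ((μ ω : G → ℂ) w) = 1 := by
    intro ω
    have h1 := hχ.eq_on ω w hw₁ hw₂
    rw [hμ ω] at h1
    have h2 : (μ ω : G → ℂ) w = s ω * (ω w : ℂ) := by
      have h5 : s ω * (s ω * (μ ω : G → ℂ) w) = s ω * (ω w : ℂ) := by rw [← h1]; rfl
      rw [← mul_assoc] at h5
      have hss : s ω * s ω = 1 := by rcases hs ω with h | h <;> rw [h] <;> norm_num
      rw [hss, one_mul] at h5
      exact h5
    rw [h2, Complex.normSq_mul]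
    have h3 : Complex.normSq (s ω) = 1 := by rcases hs ω with h | h <;> rw [h] <;> simp
    have h4 : Complex.normSq (ω w : ℂ) = 1 := by
      have hpow : (ω w : ℂ) ^ orderOf w = 1 := by
        rw [← Units.val_pow_eq_pow_val, ← map_pow, pow_orderOf_eq_one, map_one, Units.val_one]
      have hn : ‖(ω w : ℂ)‖ = 1 := Complex.norm_eq_one_of_pow_eq_one hpow (orderOf_pos w).ne'
      rw [Complex.normSq_eq_norm_sq, hn]; norm_num
    rw [h3, h4, mul_one]
  rw [Finset.sum_congr rfl (fun ω _ => hone ω)] at hsub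
  simp only [Finset.sum_const, Finset.card_univ, nsmul_eq_mul, mul_one] at hsub
  have hcard : Fintype.card (↥(W₁ ⊔ W₂) →* ℂˣ) = Nat.card ↥(W₁ ⊔ W₂) := by
    rw [← Nat.card_eq_fintype_card]
    letI : CommGroup ↥(W₁ ⊔ W₂) := IsCyclic.commGroup
    obtain ⟨e⟩ := IsCyclic.monoidHom_equiv_self ↥(W₁ ⊔ W₂) ℂ
    exact Nat.card_congr e.toEquiv
  rw [hcard] at hsub
  have h0 : Complex.normSq (θ w) ≤ 0 := by linarith
  have h00 : Complex.normSq (θ w) = 0 := le_antisymm h0 (Complex.normSq_nonneg _)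
  exact Complex.normSq_eq_zero.mp h00

end Cfsg.Agent.S1503
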