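import Cfsg.Statements.S1504

set_option autoImplicit false
open Cfsg

namespace Cfsg.Agent.S1504

theorem hom_ext_sup_aux {G : Type*} [Group G] (W₁ W₂ : Subgroup G)
    (φ φ' : ↥(W₁ ⊔ W₂) →* ℂˣ)
    (h1 : ∀ w : ↥(W₁ ⊔ W₂), (w : G) ∈ W₁ → φ w = φ' w)
    (h2 : ∀ w : ↥(W₁ ⊔ W₂), (w : G) ∈ W₂ → φ w = φ' w) : φ = φ' := by
  have hle : W₁ ⊔ W₂ ≤ (φ.eqLocus φ').map (W₁ ⊔ W₂).subtype := by
    apply sup_le
    · intro a ha
      exact ⟨⟨a, Subgroup.mem_sup_left ha⟩, h1 _ ha, rfl⟩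
    · intro a ha
      exact ⟨⟨a, Subgroup.mem_sup_right ha⟩, h2 _ ha, rfl⟩
  apply MonoidHom.ext
  intro w
  obtain ⟨w', hw', hww⟩ := hle w.2
  have : w' = w := Subtype.ext hww
  rw [← this]
  exact hw'

/-- Let W₁, W₂ be subgroups of a finite group with W₁ ⊓ W₂ = ⊥ whose elements commute, and W = W₁ ⊔ W₂. For linear characters φ, ψ of W with φ trivial on W₂ and ψ trivial on W₁, the function (1 − φ)(1 − ψ) vanishes on W₁ ∪ W₂; and the family of these functions, indexed by pairs (φ, ψ) with φ ≠ 1 ≠ ψ, is linearly independent over ℂ. -/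
theorem result {G : Type*} [Group G] [Finite G] (W₁ W₂ : Subgroup G) (hdisj : W₁ ⊓ W₂ = ⊥) (hcomm : ∀ a ∈ W₁, ∀ b ∈ W₂, a * b = b * a) : (∀ φ ψ : ↥(W₁ ⊔ W₂) →* ℂˣ, (∀ w : ↥(W₁ ⊔ W₂), (w : G) ∈ W₂ → φ w = 1) → (∀ w : ↥(W₁ ⊔ W₂), (w : G) ∈ W₁ → ψ w = 1) → ∀ w : ↥(W₁ ⊔ W₂), ((w : G) ∈ W₁ ∨ (w : G) ∈ W₂) → (1 - (φ w : ℂ) - (ψ w : ℂ) + (φ w : ℂ) * (ψ w : ℂ)) = 0) ∧ LinearIndependent ℂ (fun p : {p : (↥(W₁ ⊔ W₂) →* ℂˣ) × (↥(W₁ ⊔ W₂) →* ℂˣ) // p.1 ≠ 1 ∧ p.2 ≠ 1 ∧ (∀ w : ↥(W₁ ⊔ W₂), (w : G) ∈ W₂ → p.1 w = 1) ∧ (∀ w : ↥(W₁ ⊔ W₂), (w : G) ∈ W₁ → p.2 w = 1)} => fun w : ↥(W₁ ⊔ W₂) => 1 - (p.1.1 w : ℂ) - (p.1.2 w : ℂ) + (p.1.1 w : ℂ) * (p.1.2 w : ℂ)) := by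
  classical
  constructor
  · intro φ ψ hφ hψ w hw
    rcases hw with hw | hw
    · rw [hψ w hw]; simp
    · rw [hφ w hw]; simp
  · let c : (↥(W₁ ⊔ W₂) →* ℂˣ) → (↥(W₁ ⊔ W₂) → ℂ) := fun φ w => (φ w : ℂ)
    have hc : LinearIndependent ℂ c := by
      have h := linearIndependent_monoidHom ↥(W₁ ⊔ W₂) ℂ
      exact h.comp (fun φ : ↥(W₁ ⊔ W₂) →* ℂˣ => (Units.coeHom ℂ).comp φ) (by
        intro φ φ' hφ
        apply MonoidHom.ext
        intro w
        have h3 := DFunLike.congr_fun hφ w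
        exact Units.ext h3)
    rw [linearIndependent_iff']
    intro s a hsum p₀ hp₀
    have hsum' : ∑ p ∈ s, a p • (c 1 - c p.1.1 - c p.1.2 + c (p.1.1 * p.1.2)) = 0 := by
      rw [← hsum]
      refine Finset.sum_congr rfl (fun p _ => ?_)
      congr 1
    have hl : Finsupp.linearCombination ℂ c (∑ p ∈ s, a p • (Finsupp.single 1 1
        - Finsupp.single p.1.1 1 - Finsupp.single p.1.2 1
        + Finsupp.single (p.1.1 * p.1.2) 1)) = 0 := by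
      rw [map_sum, ← hsum']
      refine Finset.sum_congr rfl (fun p _ => ?_)
      rw [map_smul]
      simp [Finsupp.linearCombination_single]
    have hl0 := (linearIndependent_iff.mp hc) _ hl
    have hev := DFunLike.congr_fun hl0 (p₀.1.1 * p₀.1.2)
    rw [Finsupp.coe_finsetSum, Finset.sum_apply] at hev
    obtain ⟨⟨φ₀, ψ₀⟩, hφ₀, hψ₀, hφ₀t, hψ₀t⟩ := p₀
    -- witnesses
    have hw1 : ∃ w : ↥(W₁ ⊔ W₂), (w : G) ∈ W₁ ∧ φ₀ w ≠ 1 := by
      by_contra hcon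
      push Not at hcon
      exact hφ₀ (hom_ext_sup_aux W₁ W₂ φ₀ 1 (fun w hw => hcon w hw) (fun w hw => hφ₀t w hw))
    have hw2 : ∃ w : ↥(W₁ ⊔ W₂), (w : G) ∈ W₂ ∧ ψ₀ w ≠ 1 := by
      by_contra hcon
      push Not at hcon
      exact hψ₀ (hom_ext_sup_aux W₁ W₂ ψ₀ 1 (fun w hw => hψ₀t w hw) (fun w hw => hcon w hw))
    obtain ⟨w1, hw1m, hw1n⟩ := hw1
    obtain ⟨w2, hw2m, hw2n⟩ := hw2
    have hu : ∀ p ∈ s, (a p • (Finsupp.single 1 1
        - Finsupp.single p.1.1 1 - Finsupp.single p.1.2 1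
        + Finsupp.single (p.1.1 * p.1.2) 1 : (↥(W₁ ⊔ W₂) →* ℂˣ) →₀ ℂ)) (φ₀ * ψ₀)
        = if p = ⟨⟨φ₀, ψ₀⟩, hφ₀, hψ₀, hφ₀t, hψ₀t⟩ then a p else 0 := by
      intro p _
      obtain ⟨⟨φ, ψ⟩, hφ, hψ, hφt, hψt⟩ := p
      simp only [Finsupp.smul_apply, Finsupp.add_apply, Finsupp.sub_apply, Finsupp.single_apply,
        smul_eq_mul]
      have ha : (1 : ↥(W₁ ⊔ W₂) →* ℂˣ) ≠ φ₀ * ψ₀ := by
        intro h
        have h3 := DFunLike.congr_fun h w1
        rw [MonoidHom.mul_apply, hψ₀t w1 hw1m, mul_one, MonoidHom.one_apply] at h3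
        exact hw1n h3.symm
      have hb : φ ≠ φ₀ * ψ₀ := by
        intro h
        have h3 := DFunLike.congr_fun h w2
        rw [MonoidHom.mul_apply, hφ₀t w2 hw2m, one_mul, hφt w2 hw2m] at h3
        exact hw2n h3.symm
      have hcc : ψ ≠ φ₀ * ψ₀ := by
        intro h
        have h3 := DFunLike.congr_fun h w1
        rw [MonoidHom.mul_apply, hψ₀t w1 hw1m, mul_one, hψt w1 hw1m] at h3
        exact hw1n h3.symm
      rw [if_neg ha, if_neg hb, if_neg hcc]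
      by_cases h : φ * ψ = φ₀ * ψ₀
      · have e1 : φ = φ₀ := by
          apply hom_ext_sup_aux W₁ W₂
          · intro w hw
            have h3 := DFunLike.congr_fun h w
            rw [MonoidHom.mul_apply, MonoidHom.mul_apply, hψt w hw, hψ₀t w hw, mul_one,
              mul_one] at h3
            exact h3
          · intro w hw
            rw [hφt w hw, hφ₀t w hw]
        have e2 : ψ = ψ₀ := by
          apply hom_ext_sup_aux W₁ W₂
          · intro w hw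
            rw [hψt w hw, hψ₀t w hw]
          · intro w hw
            have h3 := DFunLike.congr_fun h w
            rw [MonoidHom.mul_apply, MonoidHom.mul_apply, hφt w hw, hφ₀t w hw, one_mul,
              one_mul] at h3
            exact h3
        subst e1; subst e2
        simp
      · rw [if_neg h, if_neg]
        · simp
        · intro h'
          apply h
          have h4 := congrArg Subtype.val h'
          simp only [Prod.mk.injEq] at h4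
          rw [h4.1, h4.2]
    rw [Finset.sum_congr rfl hu, Finset.sum_ite_eq' s _ a, if_pos hp₀] at hev
    exact hev

end Cfsg.Agent.S1504
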