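import Cfsg.Statements.S1505
import Cfsg.Agent.Helper3.CyclicTI
import Cfsg.Agent.S0146
import Cfsg.Agent.Lead.CharCore2

set_option autoImplicit false
open Cfsg

namespace Cfsg.Agent.S1505

theorem lin_aux {G : Type*} [Group G] (W₁ W₂ : Subgroup G) :
    ∀ φ ψ φ' ψ' : ↥(W₁ ⊔ W₂) →* ℂˣ, φ' ≠ 1 → ψ' ≠ 1 →
      (∀ w : ↥(W₁ ⊔ W₂), (w : G) ∈ W₂ → φ w = 1) → (∀ w : ↥(W₁ ⊔ W₂), (w : G) ∈ W₁ → ψ w = 1) →
      (∀ w : ↥(W₁ ⊔ W₂), (w : G) ∈ W₂ → φ' w = 1) →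
      (∀ w : ↥(W₁ ⊔ W₂), (w : G) ∈ W₁ → ψ' w = 1) →
      (1 ≠ φ' * ψ') ∧ (φ ≠ φ' * ψ') ∧ (ψ ≠ φ' * ψ') ∧ (ψ ≠ φ') ∧
        (φ * ψ = φ' * ψ' → φ = φ' ∧ ψ = ψ') := by
  intro φ ψ φ₀ ψ₀ hφ₀ hψ₀ hφt hψt hφ₀t hψ₀t
  have hw1 : ∃ w : ↥(W₁ ⊔ W₂), (w : G) ∈ W₁ ∧ φ₀ w ≠ 1 := by
    by_contra hcon
    push Not at hcon
    exact hφ₀ (Helper3.hom_ext_sup W₁ W₂ φ₀ 1 (fun w hw => hcon w hw) (fun w hw => hφ₀t w hw))
  have hw2 : ∃ w : ↥(W₁ ⊔ W₂), (w : G) ∈ W₂ ∧ ψ₀ w ≠ 1 := by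
    by_contra hcon
    push Not at hcon
    exact hψ₀ (Helper3.hom_ext_sup W₁ W₂ ψ₀ 1 (fun w hw => hψ₀t w hw) (fun w hw => hcon w hw))
  obtain ⟨w1, hw1m, hw1n⟩ := hw1
  obtain ⟨w2, hw2m, hw2n⟩ := hw2
  refine ⟨?_, ?_, ?_, ?_, ?_⟩
  · intro h
    have h3 := DFunLike.congr_fun h w1
    rw [MonoidHom.mul_apply, hψ₀t w1 hw1m, mul_one, MonoidHom.one_apply] at h3
    exact hw1n h3.symm
  · intro h
    have h3 := DFunLike.congr_fun h w2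
    rw [MonoidHom.mul_apply, hφ₀t w2 hw2m, one_mul, hφt w2 hw2m] at h3
    exact hw2n h3.symm
  · intro h
    have h3 := DFunLike.congr_fun h w1
    rw [MonoidHom.mul_apply, hψ₀t w1 hw1m, mul_one, hψt w1 hw1m] at h3
    exact hw1n h3.symm
  · intro h
    have h3 := DFunLike.congr_fun h w1
    rw [hψt w1 hw1m] at h3
    exact hw1n h3.symm
  · intro h
    constructor
    · apply Helper3.hom_ext_sup W₁ W₂
      · intro w hw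
        have h3 := DFunLike.congr_fun h w
        rw [MonoidHom.mul_apply, MonoidHom.mul_apply, hψt w hw, hψ₀t w hw, mul_one,
          mul_one] at h3
        exact h3
      · intro w hw
        rw [hφt w hw, hφ₀t w hw]
    · apply Helper3.hom_ext_sup W₁ W₂
      · intro w hw
        rw [hψt w hw, hψ₀t w hw]
      · intro w hw
        have h3 := DFunLike.congr_fun h w
        rw [MonoidHom.mul_apply, MonoidHom.mul_apply, hφt w hw, hφ₀t w hw, one_mul,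
          one_mul] at h3
        exact h3

open Classical in
/-- Let W₁, W₂ ≤ G form a self-normalising cyclic subgroup W = W₁ ⊔ W₂. For nontrivial linear characters φ, φ' of W trivial on W₂ and ψ, ψ' trivial on W₁, put α = (1 − φ)(1 − ψ) and α' = (1 − φ')(1 − ψ'). Then the function induced from α to G has inner product 1 with the principal character, and the inner product of the functions induced from α and α' is 1 + a + b + ab where a = 1 if φ = φ' (else 0) and b = 1 if ψ = ψ' (else 0). -/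
theorem result {G : Type*} [Group G] [Fintype G] (W₁ W₂ : Subgroup G) (hW : Cfsg.IsSelfNormalizingCyclic W₁ W₂) (φ φ' ψ ψ' : ↥(W₁ ⊔ W₂) →* ℂˣ) (hφ : φ ≠ 1) (hφ' : φ' ≠ 1) (hψ : ψ ≠ 1) (hψ' : ψ' ≠ 1) (hφ₂ : ∀ w : ↥(W₁ ⊔ W₂), (w : G) ∈ W₂ → φ w = 1 ∧ φ' w = 1) (hψ₁ : ∀ w : ↥(W₁ ⊔ W₂), (w : G) ∈ W₁ → ψ w = 1 ∧ ψ' w = 1) : Cfsg.classInner (Cfsg.indFun (W₁ ⊔ W₂) (fun w => 1 - (φ w : ℂ) - (ψ w : ℂ) + (φ w : ℂ) * (ψ w : ℂ))) (fun _ => 1) = 1 ∧ Cfsg.classInner (Cfsg.indFun (W₁ ⊔ W₂) (fun w => 1 - (φ w : ℂ) - (ψ w : ℂ) + (φ w : ℂ) * (ψ w : ℂ))) (Cfsg.indFun (W₁ ⊔ W₂) (fun w => 1 - (φ' w : ℂ) - (ψ' w : ℂ) + (φ' w : ℂ) * (ψ' w : ℂ))) = 1 + (if φ = φ' then 1 else 0) + (if ψ = ψ' then 1 else 0) + (if φ = φ' then 1 else 0) * (if ψ = ψ' then 1 else 0) := by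
  have hL1 := lin_aux W₁ W₂ φ ψ φ' ψ' hφ' hψ' (fun w hw => (hφ₂ w hw).1) (fun w hw => (hψ₁ w hw).1)
    (fun w hw => (hφ₂ w hw).2) (fun w hw => (hψ₁ w hw).2)
  have hL2 := lin_aux W₁ W₂ φ' ψ' φ ψ hφ hψ (fun w hw => (hφ₂ w hw).2) (fun w hw => (hψ₁ w hw).2)
    (fun w hw => (hφ₂ w hw).1) (fun w hw => (hψ₁ w hw).1)
  obtain ⟨a1, b1, c1, d1, e1⟩ := hL1
  obtain ⟨a2, b2, c2, d2, e2⟩ := hL2
  let c : (↥(W₁ ⊔ W₂) →* ℂˣ) → (↥(W₁ ⊔ W₂) → ℂ) := fun ω w => (ω w : ℂ)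
  have hα : ∀ φ ψ : ↥(W₁ ⊔ W₂) →* ℂˣ, (fun w : ↥(W₁ ⊔ W₂) =>
      1 - (φ w : ℂ) - (ψ w : ℂ) + (φ w : ℂ) * (ψ w : ℂ))
      = c 1 + (-1 : ℂ) • c φ + (-1 : ℂ) • c ψ + c (φ * ψ) := by
    intro φ ψ; funext w; simp [c]; ring
  have horth : ∀ ω ω' : ↥(W₁ ⊔ W₂) →* ℂˣ,
      Cfsg.classInner (c ω) (c ω') = if ω = ω' then 1 else 0 :=
    fun ω ω' => Helper3.classInner_linChar ω ω'
  have hvan : ∀ φ ψ : ↥(W₁ ⊔ W₂) →* ℂˣ, (∀ w : ↥(W₁ ⊔ W₂), (w : G) ∈ W₂ → φ w = 1) →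
      (∀ w : ↥(W₁ ⊔ W₂), (w : G) ∈ W₁ → ψ w = 1) → ∀ w : ↥(W₁ ⊔ W₂),
      ((w : G) ∈ W₁ ∨ (w : G) ∈ W₂) →
      (1 - (φ w : ℂ) - (ψ w : ℂ) + (φ w : ℂ) * (ψ w : ℂ)) = 0 := by
    intro φ ψ hφ hψ w hw
    rcases hw with hw | hw
    · rw [hψ w hw]; simp
    · rw [hφ w hw]; simp
  have hlast : (if φ * ψ = φ' * ψ' then (1 : ℂ) else 0)
      = (if φ = φ' then 1 else 0) * (if ψ = ψ' then 1 else 0) := by
    by_cases h : φ * ψ = φ' * ψ'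
    · obtain ⟨h1, h2⟩ := e1 h
      rw [if_pos h, if_pos h1, if_pos h2, mul_one]
    · rw [if_neg h]
      by_cases h1 : φ = φ'
      · by_cases h2 : ψ = ψ'
        · exact absurd (by rw [h1, h2]) h
        · rw [if_neg h2, mul_zero]
      · rw [if_neg h1, zero_mul]
  constructor
  · have hrec := Cfsg.Agent.S0146.result (W₁ ⊔ W₂)
      (fun w => 1 - (φ w : ℂ) - (ψ w : ℂ) + (φ w : ℂ) * (ψ w : ℂ)) (fun _ => (1 : ℂ))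
      (fun _ _ => rfl)
    rw [hrec]
    have h1 : (fun h : ↥(W₁ ⊔ W₂) => (fun _ : G => (1 : ℂ)) h) = c 1 := by
      funext w; simp [c]
    rw [h1, hα]
    simp only [Lead.classInner_add_left, Lead.classInner_smul_left, horth]
    simp [hφ, hψ, a2.symm]
  · have hrec := Cfsg.Agent.S0146.result (W₁ ⊔ W₂)
      (fun w => 1 - (φ w : ℂ) - (ψ w : ℂ) + (φ w : ℂ) * (ψ w : ℂ))
      (Cfsg.indFun (W₁ ⊔ W₂) (fun w => 1 - (φ' w : ℂ) - (ψ' w : ℂ) + (φ' w : ℂ) * (ψ' w : ℂ)))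
      (Lead.indFun_isClassFunction _ _)
    rw [hrec]
    have h2 : Cfsg.classInner (fun w : ↥(W₁ ⊔ W₂) =>
          1 - (φ w : ℂ) - (ψ w : ℂ) + (φ w : ℂ) * (ψ w : ℂ))
        (fun h : ↥(W₁ ⊔ W₂) => Cfsg.indFun (W₁ ⊔ W₂)
          (fun w => 1 - (φ' w : ℂ) - (ψ' w : ℂ) + (φ' w : ℂ) * (ψ' w : ℂ)) h)
        = Cfsg.classInner (fun w : ↥(W₁ ⊔ W₂) =>
          1 - (φ w : ℂ) - (ψ w : ℂ) + (φ w : ℂ) * (ψ w : ℂ))
          (fun w => 1 - (φ' w : ℂ) - (ψ' w : ℂ) + (φ' w : ℂ) * (ψ' w : ℂ)) := by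
      unfold Cfsg.classInner
      congr 1
      refine Finset.sum_congr rfl (fun w _ => ?_)
      beta_reduce
      by_cases hw : (w : G) ∈ W₁ ∨ (w : G) ∈ W₂
      · rw [hvan φ ψ (fun w hw => (hφ₂ w hw).1) (fun w hw => (hψ₁ w hw).1) w hw, zero_mul,
          zero_mul]
      · push Not at hw
        rw [Helper3.indFun_eq_of_selfNormalizing hW _
          (hvan φ' ψ' (fun w hw => (hφ₂ w hw).2) (fun w hw => (hψ₁ w hw).2)) w hw.1 hw.2]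
    rw [h2, hα, hα]
    simp only [Lead.classInner_add_left, Lead.classInner_add_right, Lead.classInner_smul_left,
      Lead.classInner_smul_right, horth, hlast]
    simp [hφ, hψ, hφ', hψ', a1.symm, a2.symm, Ne.symm hφ', Ne.symm hψ', b1, c1, d1, b2.symm,
      c2.symm, d2.symm, a1, a2]

end Cfsg.Agent.S1505
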