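import Cfsg.Statements.S1506
import Cfsg.Agent.S0146
import Cfsg.Agent.Lead.CharCore2

set_option autoImplicit false
open Cfsg

namespace Cfsg.Agent.S1506

/-- Let W₁, W₂ ≤ G form a self-normalising cyclic subgroup W = W₁ ⊔ W₂ and χ an orthonormal family of irreducible characters of G up to sign, indexed by the linear characters ω of W, with χ_1 = 1, χ_ω = ω on W outside W₁ ∪ W₂, and the induction identity for (1 − φ)(1 − ψ). Let θ be a class function of G vanishing at every element of W outside W₁ ∪ W₂. For linear characters φ, φ' of W trivial on W₂ and ψ, ψ' trivial on W₁, the inner products a(ω) = ⟨θ, χ ω⟩ satisfy a(φψ) + a(φ'ψ') = a(φψ') + a(φ'ψ). -/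
theorem result {G : Type*} [Group G] [Fintype G] (W₁ W₂ : Subgroup G) (hW : Cfsg.IsSelfNormalizingCyclic W₁ W₂) (χ : (↥(W₁ ⊔ W₂) →* ℂˣ) → (G → ℂ)) (hχ : Cfsg.IsCyclicTIFamily W₁ W₂ χ) (θ : G → ℂ) (hθ : Cfsg.IsClassFunction G θ) (hθV : ∀ w : ↥(W₁ ⊔ W₂), (w : G) ∉ W₁ → (w : G) ∉ W₂ → θ w = 0) (φ φ' ψ ψ' : ↥(W₁ ⊔ W₂) →* ℂˣ) (hφ₂ : ∀ w : ↥(W₁ ⊔ W₂), (w : G) ∈ W₂ → φ w = 1 ∧ φ' w = 1) (hψ₁ : ∀ w : ↥(W₁ ⊔ W₂), (w : G) ∈ W₁ → ψ w = 1 ∧ ψ' w = 1) : Cfsg.classInner θ (χ (φ * ψ)) + Cfsg.classInner θ (χ (φ' * ψ')) = Cfsg.classInner θ (χ (φ * ψ')) + Cfsg.classInner θ (χ (φ' * ψ)) := by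
  classical
  have key : ∀ φ ψ : ↥(W₁ ⊔ W₂) →* ℂˣ, (∀ w : ↥(W₁ ⊔ W₂), (w : G) ∈ W₂ → φ w = 1) →
      (∀ w : ↥(W₁ ⊔ W₂), (w : G) ∈ W₁ → ψ w = 1) →
      Cfsg.classInner θ (χ (φ * ψ)) + Cfsg.classInner θ (χ 1)
        = Cfsg.classInner θ (χ φ) + Cfsg.classInner θ (χ ψ) := by
    intro φ ψ hφ hψ
    by_cases h1 : φ = 1
    · subst h1
      have h0 : (1 : ↥(W₁ ⊔ W₂) →* ℂˣ) * ψ = ψ := by
        apply MonoidHom.ext; intro w; simp
      rw [h0]; ring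
    by_cases h2 : ψ = 1
    · subst h2
      have h0 : φ * (1 : ↥(W₁ ⊔ W₂) →* ℂˣ) = φ := by
        apply MonoidHom.ext; intro w; simp
      rw [h0]
    have hind := hχ.induced_eq φ ψ h1 h2 hφ hψ
    have hrec := Cfsg.Agent.S0146.result (W₁ ⊔ W₂)
      (fun w => 1 - (φ w : ℂ) - (ψ w : ℂ) + (φ w : ℂ) * (ψ w : ℂ)) θ hθ
    have hzero : Cfsg.classInner (fun w : ↥(W₁ ⊔ W₂) =>
        1 - (φ w : ℂ) - (ψ w : ℂ) + (φ w : ℂ) * (ψ w : ℂ)) (fun h : ↥(W₁ ⊔ W₂) => θ h) = 0 := by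
      unfold Cfsg.classInner
      rw [Finset.sum_eq_zero, mul_zero]
      intro w _
      beta_reduce
      by_cases hw1 : (w : G) ∈ W₁
      · rw [hψ w hw1]; simp
      by_cases hw2 : (w : G) ∈ W₂
      · rw [hφ w hw2]; simp
      rw [hθV w hw1 hw2]; simp
    rw [hzero, hind] at hrec
    have hrec2 := congrArg (starRingEnd ℂ) hrec
    rw [Lead.classInner_conj_symm, map_zero] at hrec2
    have hexp : Cfsg.classInner θ (fun g => 1 - χ φ g - χ ψ g + χ (φ * ψ) g)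
        = Cfsg.classInner θ (χ 1) - Cfsg.classInner θ (χ φ) - Cfsg.classInner θ (χ ψ)
          + Cfsg.classInner θ (χ (φ * ψ)) := by
      rw [hχ.map_one]
      unfold Cfsg.classInner
      rw [← mul_sub, ← mul_sub, ← mul_add, ← Finset.sum_sub_distrib, ← Finset.sum_sub_distrib,
        ← Finset.sum_add_distrib]
      congr 1
      refine Finset.sum_congr rfl (fun g _ => ?_)
      simp only [map_sub, map_add, map_one]
      ring
    rw [hexp] at hrec2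
    linear_combination hrec2
  have E1 := key φ ψ (fun w hw => (hφ₂ w hw).1) (fun w hw => (hψ₁ w hw).1)
  have E2 := key φ' ψ' (fun w hw => (hφ₂ w hw).2) (fun w hw => (hψ₁ w hw).2)
  have E3 := key φ ψ' (fun w hw => (hφ₂ w hw).1) (fun w hw => (hψ₁ w hw).2)
  have E4 := key φ' ψ (fun w hw => (hφ₂ w hw).2) (fun w hw => (hψ₁ w hw).1)
  linear_combination E1 + E2 - E3 - E4

end Cfsg.Agent.S1506
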