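import Cfsg.Statements.S1509
import Cfsg.Agent.Helper3.SignedIrr

set_option autoImplicit false
open Cfsg

namespace Cfsg.Agent.S1509

open scoped ComplexConjugate in
theorem signed_aux {X : Type*} [Group X] [Fintype X] (α β γ δ : X → ℂ)
    (hα : Cfsg.IsIrrCharacter X α ∨ Cfsg.IsIrrCharacter X (-α))
    (hβ : Cfsg.IsIrrCharacter X β ∨ Cfsg.IsIrrCharacter X (-β))
    (hγ : Cfsg.IsIrrCharacter X γ ∨ Cfsg.IsIrrCharacter X (-γ))
    (hδ : Cfsg.IsIrrCharacter X δ ∨ Cfsg.IsIrrCharacter X (-δ))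
    (u v : ℝ) (hu : u ≠ 0) (hab : Cfsg.classInner α β = 0)
    (hcd : Cfsg.classInner γ δ = 0)
    (hmix : Cfsg.classInner (α - β) ((u : ℂ) • γ - (v : ℂ) • δ) = 0) (h1 : α 1 = β 1)
    (h2 : (u : ℂ) * γ 1 = (v : ℂ) * δ 1) : Cfsg.classInner α γ = 0 := by
  by_contra hx
  have hexp : Cfsg.classInner (α - β) ((u : ℂ) • γ - (v : ℂ) • δ)
      = (u : ℂ) * Cfsg.classInner α γ - (v : ℂ) * Cfsg.classInner α δ
        - (u : ℂ) * Cfsg.classInner β γ + (v : ℂ) * Cfsg.classInner β δ := by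
    have e1 : α - β = α + (-1 : ℂ) • β := by ext; simp [sub_eq_add_neg]
    have e2 : (u : ℂ) • γ - (v : ℂ) • δ = (u : ℂ) • γ + (-(v : ℂ)) • δ := by
      ext; simp [sub_eq_add_neg]
    rw [e1, e2]
    simp only [Lead.classInner_add_right, Lead.classInner_add_left, Lead.classInner_smul_left,
      Lead.classInner_smul_right, map_neg, Complex.conj_ofReal, map_one]
    ring
  rw [hexp] at hmix
  rcases Helper3.signed_irr_inner hα hγ with h | ⟨x, hx1, hαγ, hxv⟩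
  · exact hx h
  have hy : Cfsg.classInner α δ = 0 := by
    rw [hαγ, Lead.classInner_smul_left, hcd, mul_zero]
  have hz : Cfsg.classInner β γ = 0 := by
    rcases Helper3.signed_irr_inner hβ hγ with h | ⟨z, hz1, hβγ, hzv⟩
    · exact h
    · exfalso
      rw [hαγ, hβγ, Lead.classInner_smul_left, Lead.classInner_smul_right,
        Helper3.signed_irr_self hγ] at hab
      rcases hx1 with rfl | rfl <;> rcases hz1 with rfl | rfl <;> simp at hab
  rw [hxv, hy, hz] at hmix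
  obtain ⟨c, hc, hγ1⟩ := Helper3.signed_irr_one hγ
  obtain ⟨d, hd, hδ1⟩ := Helper3.signed_irr_one hδ
  have hne : (2 : ℂ) * (u : ℂ) * (c : ℂ) ≠ 0 :=
    mul_ne_zero (mul_ne_zero two_ne_zero (Complex.ofReal_ne_zero.mpr hu))
      (Complex.ofReal_ne_zero.mpr hc)
  rcases Helper3.signed_irr_inner hβ hδ with h | ⟨w, hw1, hβδ, hwv⟩
  · rw [h] at hmix
    have : (u : ℂ) * x = 0 := by linear_combination hmix
    rcases mul_eq_zero.mp this with h0 | h0
    · exact hu (Complex.ofReal_eq_zero.mp h0)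
    · rcases hx1 with rfl | rfl <;> simp at h0
  · rw [hwv] at hmix
    have E2 : x * (c : ℂ) = w * (d : ℂ) := by
      rw [← hγ1, ← hδ1]
      have h3 := h1
      rw [hαγ, hβδ] at h3
      simpa using h3
    rw [hγ1, hδ1] at h2
    apply hne
    rcases hx1 with rfl | rfl <;> rcases hw1 with rfl | rfl
    · linear_combination h2 - (v : ℂ) * E2 + (c : ℂ) * hmix
    · linear_combination h2 + (v : ℂ) * E2 + (c : ℂ) * hmix
    · linear_combination h2 - (v : ℂ) * E2 - (c : ℂ) * hmix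
    · linear_combination h2 + (v : ℂ) * E2 - (c : ℂ) * hmix

/-- Let α, β, γ, δ be functions on a finite group X each of which is an irreducible character or the negative of one, and u, v nonzero real numbers. Suppose ⟨α, β⟩ = ⟨γ, δ⟩ = 0, ⟨α − β, uγ − vδ⟩ = 0, α 1 = β 1 and u γ 1 = v δ 1. Then also ⟨α, γ⟩ = ⟨α, δ⟩ = ⟨β, γ⟩ = ⟨β, δ⟩ = 0. -/
theorem result {X : Type*} [Group X] [Fintype X] (α β γ δ : X → ℂ) (hα : Cfsg.IsIrrCharacter X α ∨ Cfsg.IsIrrCharacter X (-α)) (hβ : Cfsg.IsIrrCharacter X β ∨ Cfsg.IsIrrCharacter X (-β)) (hγ : Cfsg.IsIrrCharacter X γ ∨ Cfsg.IsIrrCharacter X (-γ)) (hδ : Cfsg.IsIrrCharacter X δ ∨ Cfsg.IsIrrCharacter X (-δ)) (u v : ℝ) (hu : u ≠ 0) (hv : v ≠ 0) (hab : Cfsg.classInner α β = 0) (hcd : Cfsg.classInner γ δ = 0) (hmix : Cfsg.classInner (α - β) ((u : ℂ) • γ - (v : ℂ) • δ) = 0) (h1 : α 1 = β 1) (h2 : (u : ℂ) * γ 1 = (v : ℂ) * δ 1) : Cfsg.classInner α γ = 0 ∧ Cfsg.classInner α δ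 = 0 ∧ Cfsg.classInner β γ = 0 ∧ Cfsg.classInner β δ = 0 := by
  have hba : Cfsg.classInner β α = 0 := by
    rw [← Lead.classInner_conj_symm, hab, map_zero]
  have hdc : Cfsg.classInner δ γ = 0 := by
    rw [← Lead.classInner_conj_symm, hcd, map_zero]
  have e1 : β - α = (-1 : ℂ) • (α - β) := by ext; simp
  have e2 : (v : ℂ) • δ - (u : ℂ) • γ = (-1 : ℂ) • ((u : ℂ) • γ - (v : ℂ) • δ) := by ext; simp
  have hm1 : Cfsg.classInner (α - β) ((v : ℂ) • δ - (u : ℂ) • γ) = 0 := by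
    rw [e2, Lead.classInner_smul_right, hmix, mul_zero]
  have hm2 : Cfsg.classInner (β - α) ((u : ℂ) • γ - (v : ℂ) • δ) = 0 := by
    rw [e1, Lead.classInner_smul_left, hmix, mul_zero]
  have hm3 : Cfsg.classInner (β - α) ((v : ℂ) • δ - (u : ℂ) • γ) = 0 := by
    rw [e1, Lead.classInner_smul_left, hm1, mul_zero]
  exact ⟨signed_aux α β γ δ hα hβ hγ hδ u v hu hab hcd hmix h1 h2,
    signed_aux α β δ γ hα hβ hδ hγ v u hv hab hdc hm1 h1 h2.symm,
    signed_aux β α γ δ hβ hα hγ hδ u v hu hba hcd hm2 h1.symm h2,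
    signed_aux β α δ γ hβ hα hδ hγ v u hv hba hdc hm3 h1.symm h2.symm⟩

end Cfsg.Agent.S1509
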