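import Cfsg.Statements.S1510
import Cfsg.Agent.Helper3.SchurZ
import Cfsg.Agent.Helper3.Signalizer2
import Cfsg.Agent.Helper3.Layer2
import Cfsg.Agent.Helper5.Basic

set_option autoImplicit false
open Cfsg

namespace Cfsg.Agent.S1510

/-- Let L be a finite group with a normal subgroup K and a nontrivial cyclic subgroup W₁ of order coprime to its index, K ⊓ W₁ = ⊥ and K ⊔ W₁ = ⊤; let W₂ ≠ ⊥ be a cyclic subgroup of K with K ⊓ C_L(x) = W₂ for every non-identity x ∈ W₁, and suppose W₁ ⊔ W₂ has odd order. Then (W₁, W₂) is a self-normalising cyclic pair in L. -/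
theorem result {L : Type*} [Group L] [Fintype L] (K W₁ W₂ : Subgroup L) [hK : K.Normal] (hKW₁ : K ⊓ W₁ = ⊥) (hKW₁' : K ⊔ W₁ = ⊤) (hW₁ : W₁ ≠ ⊥) (hW₁c : IsCyclic W₁) (hHall : Nat.Coprime (Nat.card W₁) W₁.index) (hW₂ : W₂ ≠ ⊥) (hW₂c : IsCyclic W₂) (hW₂K : W₂ ≤ K) (hC : ∀ x ∈ W₁, x ≠ 1 → K ⊓ Subgroup.centralizer ({x} : Set L) = W₂) (hodd : Odd (Nat.card ↥(W₁ ⊔ W₂))) : Cfsg.IsSelfNormalizingCyclic W₁ W₂ := by
  classical
  have hcompl := Helper3.isComplement'_of_inf_sup K W₁ hKW₁ hKW₁'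
  have hidx : W₁.index = Nat.card K := hcompl.index_eq_card
  have hcop : Nat.Coprime (Nat.card W₁) (Nat.card W₂) := by
    apply Nat.Coprime.coprime_dvd_right (Subgroup.card_dvd_of_le hW₂K)
    rw [← hidx]; exact hHall
  have hdisj : W₁ ⊓ W₂ = ⊥ := by
    apply le_antisymm _ bot_le
    rw [← hKW₁]
    exact le_inf (inf_le_right.trans hW₂K) inf_le_left
  have hcomm : ∀ a ∈ W₁, ∀ b ∈ W₂, a * b = b * a := by
    intro a ha b hb
    by_cases ha1 : a = 1
    · subst ha1; simp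
    · rw [← hC a ha ha1] at hb
      have h1 := (Subgroup.mem_inf.mp hb).2
      rw [Subgroup.mem_centralizer_iff] at h1
      exact h1 a rfl
  have hW₁comm : ∀ a ∈ W₁, ∀ b ∈ W₁, a * b = b * a :=
    Helper5.comm_of_isMulCommutative (IsCyclic.isMulCommutative)
  have hW₂comm : ∀ a ∈ W₂, ∀ b ∈ W₂, a * b = b * a :=
    Helper5.comm_of_isMulCommutative (IsCyclic.isMulCommutative)
  have hnorm21 : W₂ ≤ Subgroup.normalizer (W₁ : Set L) := by
    intro b hb
    rw [Subgroup.mem_normalizer_iff]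
    intro a
    constructor
    · intro ha
      have h1 : b * a * b⁻¹ = a := by rw [← hcomm a ha b hb]; group
      rw [h1]; exact ha
    · intro ha
      have h1 := hcomm _ ha b hb
      have h2 : a = b⁻¹ * (b * a * b⁻¹ * b) := by group
      rw [h2, h1]
      have h3 : b⁻¹ * (b * (b * a * b⁻¹)) = b * a * b⁻¹ := by group
      rw [h3]; exact ha
  have hcard : Nat.card ↥(W₁ ⊔ W₂) ∣ Nat.card W₁ * Nat.card W₂ :=
    Helper3.card_sup_dvd_mul_of_le_normalizer W₁ W₂ hnorm21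
  have hcyc : IsCyclic ↥(W₁ ⊔ W₂) := by
    obtain ⟨g₁, hg₁⟩ := hW₁c.exists_generator
    obtain ⟨g₂, hg₂⟩ := hW₂c.exists_generator
    have ho1 : orderOf (g₁ : L) = Nat.card W₁ := by
      rw [Subgroup.orderOf_coe]; exact orderOf_eq_card_of_forall_mem_zpowers hg₁
    have ho2 : orderOf (g₂ : L) = Nat.card W₂ := by
      rw [Subgroup.orderOf_coe]; exact orderOf_eq_card_of_forall_mem_zpowers hg₂
    have hc : Commute (g₁ : L) (g₂ : L) := hcomm _ g₁.2 _ g₂.2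
    have ho : orderOf ((g₁ : L) * (g₂ : L)) = Nat.card W₁ * Nat.card W₂ := by
      rw [hc.orderOf_mul_eq_mul_orderOf_of_coprime (by rw [ho1, ho2]; exact hcop), ho1, ho2]
    have hmem : (g₁ : L) * (g₂ : L) ∈ W₁ ⊔ W₂ :=
      Subgroup.mul_mem _ (Subgroup.mem_sup_left g₁.2) (Subgroup.mem_sup_right g₂.2)
    apply isCyclic_of_orderOf_eq_card (⟨(g₁ : L) * (g₂ : L), hmem⟩ : ↥(W₁ ⊔ W₂))
    rw [Subgroup.orderOf_mk, ho]
    apply Nat.dvd_antisymm
    · rw [← ho, ← Subgroup.orderOf_mk (H := W₁ ⊔ W₂) _ hmem]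
      exact orderOf_dvd_natCard _
    · exact hcard
  -- powers
  have hpow : ∀ w ∈ W₁ ⊔ W₂, w ^ Nat.card W₂ ∈ W₁ ∧ (w ^ Nat.card W₂ = 1 → w ∈ W₂) := by
    intro w hw
    obtain ⟨a, ha, b, hb, rfl⟩ := Helper3.mem_sup_of_le_normalizer_right W₁ W₂ hnorm21 hw
    have hc : Commute a b := hcomm a ha b hb
    have hb1 : b ^ Nat.card W₂ = 1 := by
      have h1 : (⟨b, hb⟩ : ↥W₂) ^ Nat.card W₂ = 1 := pow_card_eq_one'
      have h2 := congrArg (fun z : ↥W₂ => (z : L)) h1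
      beta_reduce at h2
      rw [Subgroup.coe_pow, Subgroup.coe_one] at h2
      exact h2
    rw [hc.mul_pow, hb1, mul_one]
    refine ⟨W₁.pow_mem ha _, fun h1 => ?_⟩
    have h2 : orderOf a ∣ Nat.card W₂ := orderOf_dvd_of_pow_eq_one h1
    have h3 : orderOf a ∣ Nat.card W₁ := by
      rw [← Subgroup.orderOf_mk (H := W₁) a ha]
      exact orderOf_dvd_natCard _
    have h4 : orderOf a = 1 := Nat.eq_one_of_dvd_coprimes hcop h3 h2
    rw [orderOf_eq_one_iff] at h4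
    rw [h4, one_mul]; exact hb
  refine ⟨hW₁, hW₂, hdisj, hcomm, hcyc, ?_⟩
  intro X hX hXne
  have hWcomm : ∀ a ∈ W₁ ⊔ W₂, ∀ b ∈ W₁ ⊔ W₂, a * b = b * a :=
    Helper5.comm_of_isMulCommutative (IsCyclic.isMulCommutative)
  apply le_antisymm
  · intro g hg
    obtain ⟨w, hwX⟩ := hXne
    have hw := hX hwX
    have hw' := hX ((Subgroup.mem_set_normalizer_iff.mp hg w).mp hwX)
    obtain ⟨hwW, hwn⟩ := hw
    obtain ⟨hwW', -⟩ := hw'
    obtain ⟨hy1, hy2⟩ := hpow w hwW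
    obtain ⟨hy1', -⟩ := hpow _ hwW'
    have hyne : w ^ Nat.card W₂ ≠ 1 := fun h => hwn (Or.inr (hy2 h))
    rw [conj_pow] at hy1'
    -- g = k * u
    have hgtop : g ∈ K ⊔ W₁ := by rw [hKW₁']; exact Subgroup.mem_top g
    obtain ⟨k, hk, u, hu, rfl⟩ := Helper3.mem_sup_of_le_normalizer_right K W₁
      (by rw [Subgroup.normalizer_eq_top]; exact le_top) hgtop
    obtain ⟨y, hy⟩ : ∃ y, y = w ^ Nat.card W₂ := ⟨_, rfl⟩
    rw [← hy] at hy1 hy1' hyne
    have h1 : k * u * y * (k * u)⁻¹ = k * y * k⁻¹ := by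
      have h2 : u * y = y * u := hW₁comm u hu y hy1
      calc k * u * y * (k * u)⁻¹ = k * (u * y) * u⁻¹ * k⁻¹ := by group
        _ = k * (y * u) * u⁻¹ * k⁻¹ := by rw [h2]
        _ = k * y * k⁻¹ := by group
    rw [h1] at hy1'
    have h3 : k * y * k⁻¹ * y⁻¹ ∈ K ⊓ W₁ := by
      refine Subgroup.mem_inf.mpr ⟨?_, W₁.mul_mem hy1' (W₁.inv_mem hy1)⟩
      have h4 : k * y * k⁻¹ * y⁻¹ = k * (y * k⁻¹ * y⁻¹) := by group
      rw [h4]
      exact K.mul_mem hk (hK.conj_mem _ (K.inv_mem hk) y)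
    rw [hKW₁, Subgroup.mem_bot] at h3
    have hkW₂ : k ∈ W₂ := by
      rw [← hC y hy1 hyne]
      refine Subgroup.mem_inf.mpr ⟨hk, ?_⟩
      rw [Subgroup.mem_centralizer_iff]
      intro z hz
      rw [Set.mem_singleton_iff] at hz; subst hz
      calc z * k = (k * z * k⁻¹ * z⁻¹)⁻¹ * (k * z) := by group
        _ = k * z := by rw [h3]; group
    exact Subgroup.mul_mem _ (Subgroup.mem_sup_right hkW₂) (Subgroup.mem_sup_left hu)
  · intro g hg
    rw [Subgroup.mem_set_normalizer_iff]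
    intro x
    constructor
    · intro hx
      have h1 : g * x * g⁻¹ = x := by
        rw [hWcomm g hg x (hX hx).1]; group
      rw [h1]; exact hx
    · intro hx
      have h2 := hWcomm g hg _ (hX hx).1
      have h1 : x = g * x * g⁻¹ := by
        calc x = g⁻¹ * ((g * x * g⁻¹) * g) := by group
          _ = g⁻¹ * (g * (g * x * g⁻¹)) := by rw [h2]
          _ = g * x * g⁻¹ := by group
      rw [h1]; exact hx

end Cfsg.Agent.S1510
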