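import Cfsg.Statements.S1512
import Mathlib
import Cfsg.Agent.S1496

set_option autoImplicit false
open Cfsg

namespace Cfsg.Agent.S1512

/-- Let K be a normal subgroup of the finite group L and x a non-identity element whose order is coprime to the order of K, such that K ⊓ C_L(y) = W₂ for every non-identity element y of the cyclic group generated by x. Then the number of conjugacy classes of K mapped to themselves by conjugation by x is at most Nat.card W₂. -/
theorem result {L : Type*} [Group L] [Finite L] (K W₂ : Subgroup L) [hK : K.Normal] (x : L) (hx1 : x ≠ 1) (hx : Nat.Coprime (orderOf x) (Nat.card K)) (hC : ∀ y ∈ Subgroup.zpowers x, y ≠ 1 → K ⊓ Subgroup.centralizer ({y} : Set L) = W₂) : Nat.card {C : ConjClasses K // ConjClasses.map (MulEquiv.toMonoidHom ((MulAut.conjNormal x : MulAut K))) C = C} ≤ Nat.card W₂ := by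
  classical
  have hxN : x ∈ Subgroup.normalizer (K : Set L) := by
    rw [Subgroup.normalizer_eq_top (H := K)]
    exact Subgroup.mem_top x
  have hW : K ⊓ Subgroup.centralizer ({x} : Set L) = W₂ := hC x (Subgroup.mem_zpowers x) hx1
  have key : ∀ C : ConjClasses K,
      ConjClasses.map (MulEquiv.toMonoidHom ((MulAut.conjNormal x : MulAut K))) C = C →
      ∃ w : W₂, ∃ hw : (w : L) ∈ K, ConjClasses.mk (⟨(w : L), hw⟩ : K) = C := by
    intro C hCfix
    obtain ⟨k, rfl⟩ := ConjClasses.exists_rep C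
    have h1 : ConjClasses.mk ((MulAut.conjNormal x : MulAut K) k) = ConjClasses.mk k := hCfix
    rw [ConjClasses.mk_eq_mk_iff_isConj, isConj_iff] at h1
    obtain ⟨u, hu⟩ := h1
    have hu' : (u : L) * (x * (k : L) * x⁻¹) * (u : L)⁻¹ = (k : L) := by
      have h0 := congrArg Subtype.val hu
      rw [Subgroup.coe_mul, Subgroup.coe_mul, Subgroup.coe_inv, MulAut.conjNormal_apply] at h0
      exact h0
    obtain ⟨a, haK, c, hcK, hcx, hac⟩ := Cfsg.Agent.S1496.result K x hxN hx (u : L) u.2
    have hk'K : a * (k : L) * a⁻¹ ∈ K := K.mul_mem (K.mul_mem haK k.2) (K.inv_mem haK)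
    have hcomm : (c * x) * (a * (k : L) * a⁻¹) = (a * (k : L) * a⁻¹) * (c * x) := by
      rw [← hac]
      have h2 : (u : L) * x * (k : L) = (k : L) * ((u : L) * x) := by
        calc (u : L) * x * (k : L)
            = ((u : L) * (x * (k : L) * x⁻¹) * (u : L)⁻¹) * ((u : L) * x) := by group
          _ = (k : L) * ((u : L) * x) := by rw [hu']
      calc a * ((u : L) * x) * a⁻¹ * (a * (k : L) * a⁻¹)
          = a * ((u : L) * x * (k : L)) * a⁻¹ := by group
        _ = a * ((k : L) * ((u : L) * x)) * a⁻¹ := by rw [h2]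
        _ = a * (k : L) * a⁻¹ * (a * ((u : L) * x) * a⁻¹) := by group
    have hcopc : (orderOf x).Coprime (orderOf c) :=
      Nat.Coprime.coprime_dvd_right (Subgroup.orderOf_dvd_natCard K hcK) hx
    obtain ⟨m, hm1, hm0⟩ := Nat.chineseRemainder hcopc 1 0
    have hpow : (c * x) ^ m = x := by
      have hcx' : Commute c x := hcx
      have e1 : c ^ m = 1 := orderOf_dvd_iff_pow_eq_one.mp ((Nat.modEq_zero_iff_dvd).mp hm0)
      have e2 : x ^ m = x := by
        have h0 := pow_eq_pow_iff_modEq.mpr hm1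
        rwa [pow_one] at h0
      rw [hcx'.mul_pow, e1, e2, one_mul]
    have hxk' : x * (a * (k : L) * a⁻¹) = (a * (k : L) * a⁻¹) * x := by
      have hc' : Commute (c * x) (a * (k : L) * a⁻¹) := hcomm
      have h0 := (hc'.pow_left m).eq
      rwa [hpow] at h0
    have hk'W : a * (k : L) * a⁻¹ ∈ W₂ := by
      rw [← hW]
      refine Subgroup.mem_inf.mpr ⟨hk'K, ?_⟩
      rw [Cfsg.Agent.Helper5.mem_centralizer_singleton_iff]
      exact hxk'.symm
    refine ⟨⟨a * (k : L) * a⁻¹, hk'W⟩, hk'K, ?_⟩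
    rw [ConjClasses.mk_eq_mk_iff_isConj, isConj_iff]
    refine ⟨⟨a, haK⟩⁻¹, Subtype.ext ?_⟩
    show a⁻¹ * (a * (k : L) * a⁻¹) * a⁻¹⁻¹ = (k : L)
    group
  choose F hF using fun (C : {C : ConjClasses K //
    ConjClasses.map (MulEquiv.toMonoidHom ((MulAut.conjNormal x : MulAut K))) C = C}) =>
      key C.1 C.2
  have hinj : Function.Injective F := by
    intro C₁ C₂ h12
    obtain ⟨h1, e1⟩ := hF C₁
    obtain ⟨h2, e2⟩ := hF C₂
    have e3 : (⟨(F C₁ : L), h1⟩ : K) = ⟨(F C₂ : L), h2⟩ := Subtype.ext (congrArg (fun w : W₂ => (w : L)) h12)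
    apply Subtype.ext
    rw [← e1, ← e2, e3]
  exact Nat.card_le_card_of_injective F hinj

end Cfsg.Agent.S1512
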