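import Cfsg.Statements.S1514
import Cfsg.Agent.Helper3.GenChar
import Cfsg.Agent.Helper3.SignedIrr
import Cfsg.Agent.S1509
import Cfsg.Agent.Lead.CharConj2
import Cfsg.Agent.Lead.CharCore4

set_option autoImplicit false
open Cfsg

namespace Cfsg.Agent.S1514

/-- Let S be a nonempty set of irreducible characters of the finite group L, closed under complex conjugation and containing no real-valued member, and τ a linear isometry on the integer combinations of S vanishing at 1, with values virtual characters of G vanishing at 1. Then there is a choice R making (S, τ, R) a coherence system. -/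
theorem result {L : Type*} [Group L] [Fintype L] {G : Type*} [Group G] [Fintype G] (S : Set (L → ℂ)) (hS : S.Nonempty) (hirr : ∀ χ ∈ S, Cfsg.IsIrrCharacter L χ) (hconj : ∀ χ ∈ S, Cfsg.conjFun χ ∈ S ∧ Cfsg.conjFun χ ≠ χ) (τ : (L → ℂ) → (G → ℂ)) (hτ : Cfsg.IsLinearIsometryOn (Cfsg.zspanOn S {1}ᶜ) τ) (hτ1 : ∀ α ∈ Cfsg.zspanOn S {1}ᶜ, τ α 1 = 0) : ∃ R : (L → ℂ) → Finset (G → ℂ), Cfsg.IsCoherenceSystem S τ R := by
  classical
  obtain ⟨hadd, hsmul, hiso, hgen⟩ := hτ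
  have horth : ∀ χ ∈ S, ∀ φ ∈ S, χ ≠ φ → Cfsg.classInner χ φ = 0 := by
    intro χ hχ φ hφ hne
    have h := Lead.classInner_irr (⟨χ, hirr χ hχ⟩ : Cfsg.IrrCharacter L) ⟨φ, hirr φ hφ⟩
    rw [if_neg (fun h' => hne (congrArg Subtype.val h'))] at h
    exact h
  have hself : ∀ χ ∈ S, Cfsg.classInner χ χ = 1 :=
    fun χ hχ => Lead.classInner_self_of_isIrrCharacter (hirr χ hχ)
  have hmem : ∀ χ ∈ S, χ - Cfsg.conjFun χ ∈ Cfsg.zspanOn S {1}ᶜ := by
    intro χ hχ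
    refine ⟨(Submodule.span ℤ S).sub_mem (Submodule.subset_span hχ)
      (Submodule.subset_span (hconj χ hχ).1), ?_⟩
    intro x hx
    have hx1 : x = 1 := by simpa using hx
    subst hx1
    obtain ⟨d, -, hd⟩ := Lead.isIrrCharacter_one_eq_nat (hirr χ hχ)
    simp [Cfsg.conjFun, hd]
  have hnorm2 : ∀ χ ∈ S,
      Cfsg.classInner (τ (χ - Cfsg.conjFun χ)) (τ (χ - Cfsg.conjFun χ)) = 2 := by
    intro χ hχ
    rw [hiso _ (hmem χ hχ) _ (hmem χ hχ), Helper3.classInner_sub_left,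
      Helper3.classInner_sub_right, Helper3.classInner_sub_right, hself χ hχ,
      hself _ (hconj χ hχ).1, horth χ hχ _ (hconj χ hχ).1 (Ne.symm (hconj χ hχ).2),
      horth _ (hconj χ hχ).1 χ hχ (hconj χ hχ).2]
    norm_num
  have key : ∀ χ : L → ℂ, ∃ F : Finset (G → ℂ), χ ∈ S →
      ∃ (μ₁ μ₂ : Cfsg.IrrCharacter G) (s₁ s₂ : ℂ), μ₁ ≠ μ₂ ∧ (s₁ = 1 ∨ s₁ = -1) ∧
        (s₂ = 1 ∨ s₂ = -1) ∧
        τ (χ - Cfsg.conjFun χ) = s₁ • (μ₁ : G → ℂ) + s₂ • (μ₂ : G → ℂ) ∧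
        F = {s₁ • (μ₁ : G → ℂ), s₂ • (μ₂ : G → ℂ)} := by
    intro χ
    by_cases hχ : χ ∈ S
    · obtain ⟨μ₁, μ₂, s₁, s₂, hne, hs₁, hs₂, heq⟩ :=
        Helper3.genChar_norm_two (hgen _ (hmem χ hχ)) (hnorm2 χ hχ)
      exact ⟨{s₁ • (μ₁ : G → ℂ), s₂ • (μ₂ : G → ℂ)},
        fun _ => ⟨μ₁, μ₂, s₁, s₂, hne, hs₁, hs₂, heq, rfl⟩⟩
    · exact ⟨∅, fun h => absurd h hχ⟩
  choose R hR using key
  refine ⟨R, ?_⟩
  have hpair : ∀ (μ₁ μ₂ : Cfsg.IrrCharacter G) (s₁ s₂ : ℂ), μ₁ ≠ μ₂ → (s₁ = 1 ∨ s₁ = -1) →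
      (s₂ = 1 ∨ s₂ = -1) →
      Cfsg.classInner (s₁ • (μ₁ : G → ℂ)) (s₁ • (μ₁ : G → ℂ)) = 1 ∧
      Cfsg.classInner (s₁ • (μ₁ : G → ℂ)) (s₂ • (μ₂ : G → ℂ)) = 0 ∧
      s₁ • (μ₁ : G → ℂ) ≠ s₂ • (μ₂ : G → ℂ) := by
    intro μ₁ μ₂ s₁ s₂ hne hs₁ hs₂
    have ha : Cfsg.classInner (s₁ • (μ₁ : G → ℂ)) (s₁ • (μ₁ : G → ℂ)) = 1 := by
      rw [Helper3.classInner_signed _ _ _ _ hs₁, if_pos rfl]
      rcases hs₁ with rfl | rfl <;> norm_num
    have hb : Cfsg.classInner (s₁ • (μ₁ : G → ℂ)) (s₂ • (μ₂ : G → ℂ)) = 0 := by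
      rw [Helper3.classInner_signed _ _ _ _ hs₂, if_neg hne, mul_zero]
    refine ⟨ha, hb, fun h => ?_⟩
    rw [← h, ha] at hb
    exact one_ne_zero hb
  have hsigned : ∀ (μ : Cfsg.IrrCharacter G) (s : ℂ), (s = 1 ∨ s = -1) →
      (Cfsg.IsIrrCharacter G (s • (μ : G → ℂ)) ∨
        Cfsg.IsIrrCharacter G (-(s • (μ : G → ℂ)))) := by
    intro μ s hs
    rcases hs with rfl | rfl
    · left; rw [one_smul]; exact μ.2
    · right; rw [neg_smul, one_smul, neg_neg]; exact μ.2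
  constructor
  · exact hS
  · exact fun χ hχ => Lead.isCharacter_of_isIrrCharacter (hirr χ hχ)
  · exact fun χ hχ => (hconj χ hχ).1
  · exact fun χ hχ => (hconj χ hχ).2
  · exact ⟨hadd, hsmul, hiso, hgen⟩
  · exact hτ1
  · exact horth
  · intro χ hχ α hα β hβ
    obtain ⟨μ₁, μ₂, s₁, s₂, hne, hs₁, hs₂, heq, hF⟩ := hR χ hχ
    rw [hF] at hα hβ
    obtain ⟨h12a, h12b, hAB⟩ := hpair μ₁ μ₂ s₁ s₂ hne hs₁ hs₂
    obtain ⟨h21a, h21b, -⟩ := hpair μ₂ μ₁ s₂ s₁ (Ne.symm hne) hs₂ hs₁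
    rcases Finset.mem_insert.mp hα with rfl | hα
    · rcases Finset.mem_insert.mp hβ with rfl | hβ
      · rw [if_pos rfl]; exact h12a
      · rw [Finset.mem_singleton] at hβ; subst hβ
        rw [if_neg hAB]; exact h12b
    · rw [Finset.mem_singleton] at hα; subst hα
      rcases Finset.mem_insert.mp hβ with rfl | hβ
      · rw [if_neg (Ne.symm hAB)]; exact h21b
      · rw [Finset.mem_singleton] at hβ; subst hβ
        rw [if_pos rfl]; exact h21a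
  · intro χ hχ α hα
    obtain ⟨μ₁, μ₂, s₁, s₂, hne, hs₁, hs₂, heq, hF⟩ := hR χ hχ
    rw [hF] at hα
    have hv : ∀ (μ : Cfsg.IrrCharacter G) (s : ℂ), (s = 1 ∨ s = -1) →
        Cfsg.IsGeneralizedCharacter G (s • (μ : G → ℂ)) := by
      intro μ s hs
      rcases hs with rfl | rfl
      · rw [one_smul]
        exact Helper3.isGenChar_of_isCharacter (Lead.isCharacter_of_isIrrCharacter μ.2)
      · rw [neg_smul, one_smul]
        exact Helper3.isGenChar_neg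
          (Helper3.isGenChar_of_isCharacter (Lead.isCharacter_of_isIrrCharacter μ.2))
    rcases Finset.mem_insert.mp hα with rfl | hα
    · exact hv μ₁ s₁ hs₁
    · rw [Finset.mem_singleton] at hα; subst hα; exact hv μ₂ s₂ hs₂
  · intro χ hχ
    obtain ⟨μ₁, μ₂, s₁, s₂, hne, hs₁, hs₂, heq, hF⟩ := hR χ hχ
    obtain ⟨-, -, hAB⟩ := hpair μ₁ μ₂ s₁ s₂ hne hs₁ hs₂
    rw [hF, Finset.sum_pair hAB, heq]
  · intro χ hχ φ hφ h1 h2 α hα β hβ
    obtain ⟨μ₁, μ₂, s₁, s₂, hne, hs₁, hs₂, heq, hF⟩ := hR χ hχ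
    obtain ⟨ν₁, ν₂, t₁, t₂, hne', ht₁, ht₂, heq', hF'⟩ := hR φ hφ
    rw [hF'] at hα
    rw [hF] at hβ
    have h3 : Cfsg.classInner (Cfsg.conjFun φ) (Cfsg.conjFun χ) = 0 := by
      have h5 := Lead.classInner_conj_conj φ χ
      have h6 : Cfsg.classInner χ φ = 0 := by rw [← Lead.classInner_conj_symm, h1, map_zero]
      rw [h6] at h5
      exact h5
    have h4 : Cfsg.classInner (Cfsg.conjFun φ) χ = 0 := by
      have h5 := Lead.classInner_conj_conj φ (Cfsg.conjFun χ)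
      have h6 : Cfsg.classInner (Cfsg.conjFun χ) φ = 0 := by
        rw [← Lead.classInner_conj_symm, h2, map_zero]
      rw [h6] at h5
      have h7 : (fun g => (starRingEnd ℂ) (Cfsg.conjFun χ g)) = χ := by
        funext g; simp [Cfsg.conjFun]
      rw [h7] at h5
      exact h5
    have hmix : Cfsg.classInner (τ (φ - Cfsg.conjFun φ)) (τ (χ - Cfsg.conjFun χ)) = 0 := by
      rw [hiso _ (hmem φ hφ) _ (hmem χ hχ), Helper3.classInner_sub_left,
        Helper3.classInner_sub_right, Helper3.classInner_sub_right, h1, h2, h3, h4]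
      ring
    obtain ⟨-, hν12, -⟩ := hpair ν₁ ν₂ t₁ t₂ hne' ht₁ ht₂
    obtain ⟨-, hμ12, -⟩ := hpair μ₁ μ₂ s₁ s₂ hne hs₁ hs₂
    have e1 : t₁ • (ν₁ : G → ℂ) - -(t₂ • (ν₂ : G → ℂ)) = τ (φ - Cfsg.conjFun φ) := by
      rw [heq', sub_neg_eq_add]
    have e2 : ((1 : ℝ) : ℂ) • (s₁ • (μ₁ : G → ℂ)) - ((1 : ℝ) : ℂ) • (-(s₂ • (μ₂ : G → ℂ)))
        = τ (χ - Cfsg.conjFun χ) := by
      rw [heq]; simp
    have hone1 : (t₁ • (ν₁ : G → ℂ)) 1 = (-(t₂ • (ν₂ : G → ℂ))) 1 := by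
      have h8 := hτ1 _ (hmem φ hφ)
      rw [heq'] at h8
      simp only [Pi.add_apply] at h8
      simp only [Pi.neg_apply]
      linear_combination h8
    have hone2 : ((1 : ℝ) : ℂ) * (s₁ • (μ₁ : G → ℂ)) 1
        = ((1 : ℝ) : ℂ) * (-(s₂ • (μ₂ : G → ℂ))) 1 := by
      have h8 := hτ1 _ (hmem χ hχ)
      rw [heq] at h8
      simp only [Pi.add_apply] at h8
      simp only [Pi.neg_apply, Complex.ofReal_one, one_mul]
      linear_combination h8
    have hβ' : Cfsg.IsIrrCharacter G (-(t₂ • (ν₂ : G → ℂ))) ∨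
        Cfsg.IsIrrCharacter G (-(-(t₂ • (ν₂ : G → ℂ)))) := by
      rcases hsigned ν₂ t₂ ht₂ with h | h
      · right; rwa [neg_neg]
      · left; exact h
    have hδ' : Cfsg.IsIrrCharacter G (-(s₂ • (μ₂ : G → ℂ))) ∨
        Cfsg.IsIrrCharacter G (-(-(s₂ • (μ₂ : G → ℂ)))) := by
      rcases hsigned μ₂ s₂ hs₂ with h | h
      · right; rwa [neg_neg]
      · left; exact h
    have hres := Cfsg.Agent.S1509.result (t₁ • (ν₁ : G → ℂ)) (-(t₂ • (ν₂ : G → ℂ)))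
      (s₁ • (μ₁ : G → ℂ)) (-(s₂ • (μ₂ : G → ℂ))) (hsigned ν₁ t₁ ht₁) hβ' (hsigned μ₁ s₁ hs₁) hδ'
      1 1 one_ne_zero one_ne_zero (by rw [Helper3.classInner_neg_right, hν12, neg_zero])
      (by rw [Helper3.classInner_neg_right, hμ12, neg_zero]) (by rw [e1, e2]; exact hmix)
      hone1 hone2
    obtain ⟨r1, r2, r3, r4⟩ := hres
    rw [Helper3.classInner_neg_right, neg_eq_zero] at r2
    rw [Helper3.classInner_neg_left, neg_eq_zero] at r3
    rw [Helper3.classInner_neg_left, Helper3.classInner_neg_right, neg_neg] at r4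
    rcases Finset.mem_insert.mp hα with rfl | hα
    · rcases Finset.mem_insert.mp hβ with rfl | hβ
      · exact r1
      · rw [Finset.mem_singleton] at hβ; subst hβ; exact r2
    · rw [Finset.mem_singleton] at hα; subst hα
      rcases Finset.mem_insert.mp hβ with rfl | hβ
      · exact r3
      · rw [Finset.mem_singleton] at hβ; subst hβ; exact r4

end Cfsg.Agent.S1514
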