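import Cfsg.Statements.S1515
import Cfsg.Agent.Helper3.GenChar

set_option autoImplicit false
open Cfsg

namespace Cfsg.Agent.S1515

/-- Let (S, τ, R) be a coherence system from L to G, χ ∈ S, and ψ an integer combination of S with ⟨χ, ψ⟩ = ⟨conj χ, ψ⟩ = 0. Let τ₁ be a linear isometry on the integer combinations of χ − ψ and χ − conj χ, with virtual-character values, agreeing with τ on integer multiples of χ − conj χ. Then the sum over α ∈ R χ of the squared absolute values of ⟨τ₁(χ − ψ), α⟩ is at least ⟨χ, χ⟩; and if ⟨τ₁(χ − ψ), τ₁(χ − ψ)⟩ minus that sum is at least ⟨ψ, ψ⟩, then the sum equals ⟨χ, χ⟩ and every ⟨τ₁(χ − ψ), α⟩ with α ∈ R χ is 0 or 1. -/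
theorem result {L : Type*} [Group L] [Fintype L] {G : Type*} [Group G] [Fintype G] (S : Set (L → ℂ)) (τ : (L → ℂ) → (G → ℂ)) (R : (L → ℂ) → Finset (G → ℂ)) (hS : Cfsg.IsCoherenceSystem S τ R) (χ : L → ℂ) (hχ : χ ∈ S) (ψ : L → ℂ) (hψ : ψ ∈ Cfsg.zspan S) (h1 : Cfsg.classInner χ ψ = 0) (h2 : Cfsg.classInner (Cfsg.conjFun χ) ψ = 0) (τ₁ : (L → ℂ) → (G → ℂ)) (hτ₁ : Cfsg.IsLinearIsometryOn (Cfsg.zspan {χ - ψ, χ - Cfsg.conjFun χ}) τ₁) (hagree : ∀ n : ℤ, τ₁ (n • (χ - Cfsg.conjFun χ)) = τ (n • (χ - Cfsg.conjFun χ))) : (Cfsg.classInner χ χ).re ≤ ∑ α ∈ R χ, ‖Cfsg.classInner (τ₁ (χ - ψ)) α‖ ^ 2 ∧ ((Cfsg.classInner ψ ψ).re ≤ (Cfsg.classInner (τ₁ (χ - ψ)) (τ₁ (χ - ψ))).re - ∑ α ∈ R χ, ‖Cfsg.classInner (τ₁ (χ - ψ)) α‖ ^ 2 → (∑ α ∈ R χ, ‖Cfsg.classInner (τ₁ (χ - ψ)) α‖ ^ 2 = (Cfsg.classInner χ χ).re ∧ ∀ α ∈ R χ, Cfsg.classInner (τ₁ (χ - ψ)) α = 0 ∨ Cfsg.classInner (τ₁ (χ - ψ)) α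 = 1)) := by
  classical
  obtain ⟨hadd, hsmul, hiso, hgen⟩ := hτ₁
  have hE1 : χ - ψ ∈ Cfsg.zspan {χ - ψ, χ - Cfsg.conjFun χ} :=
    Submodule.subset_span (Set.mem_insert _ _)
  have hE2 : χ - Cfsg.conjFun χ ∈ Cfsg.zspan {χ - ψ, χ - Cfsg.conjFun χ} :=
    Submodule.subset_span (Set.mem_insert_of_mem _ rfl)
  have hX := hgen _ hE1
  have h1' : τ₁ (χ - Cfsg.conjFun χ) = ∑ α ∈ R χ, α := by
    have h3 := hagree 1
    rw [one_smul] at h3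
    rw [h3, hS.sum_eq χ hχ]
  have hχχbar : Cfsg.classInner χ (Cfsg.conjFun χ) = 0 :=
    hS.orthogonal χ hχ _ (hS.conj_mem χ hχ) (Ne.symm (hS.conj_ne χ hχ))
  have hψχ : Cfsg.classInner ψ χ = 0 := by rw [← Lead.classInner_conj_symm, h1, map_zero]
  have hψχbar : Cfsg.classInner ψ (Cfsg.conjFun χ) = 0 := by
    rw [← Lead.classInner_conj_symm, h2, map_zero]
  have hsum : ∑ α ∈ R χ, Cfsg.classInner (τ₁ (χ - ψ)) α = Cfsg.classInner χ χ := by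
    rw [← Lead.classInner_sum_right, ← h1', hiso _ hE1 _ hE2, Helper3.classInner_sub_left,
      Helper3.classInner_sub_right, Helper3.classInner_sub_right, hχχbar, hψχ, hψχbar]
    ring
  have hnorm : Cfsg.classInner (τ₁ (χ - ψ)) (τ₁ (χ - ψ))
      = Cfsg.classInner χ χ + Cfsg.classInner ψ ψ := by
    rw [hiso _ hE1 _ hE1, Helper3.classInner_sub_left, Helper3.classInner_sub_right,
      Helper3.classInner_sub_right, h1, hψχ]
    ring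
  have hterm : ∀ α ∈ R χ, (Cfsg.classInner (τ₁ (χ - ψ)) α).re
        ≤ ‖Cfsg.classInner (τ₁ (χ - ψ)) α‖ ^ 2 ∧
      ((Cfsg.classInner (τ₁ (χ - ψ)) α).re = ‖Cfsg.classInner (τ₁ (χ - ψ)) α‖ ^ 2 →
        Cfsg.classInner (τ₁ (χ - ψ)) α = 0 ∨ Cfsg.classInner (τ₁ (χ - ψ)) α = 1) := by
    intro α hα
    obtain ⟨n, hn⟩ := Helper3.genChar_inner_int hX (hS.virtual χ hχ α hα)
    rw [hn, Complex.intCast_re, Complex.norm_intCast, sq_abs]
    constructor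
    · have h3 : n ≤ n ^ 2 := Int.le_self_sq n
      exact_mod_cast h3
    · intro h
      have h' : n = n ^ 2 := by exact_mod_cast h
      have h4 : n * (n - 1) = 0 := by linear_combination (-1 : ℤ) * h'
      rcases mul_eq_zero.mp h4 with h5 | h5
      · left; rw [h5]; simp
      · right
        have h6 : n = 1 := by omega
        rw [h6]; simp
  have hre : (Cfsg.classInner χ χ).re = ∑ α ∈ R χ, (Cfsg.classInner (τ₁ (χ - ψ)) α).re := by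
    rw [← hsum, Complex.re_sum]
  have hle : (Cfsg.classInner χ χ).re ≤ ∑ α ∈ R χ, ‖Cfsg.classInner (τ₁ (χ - ψ)) α‖ ^ 2 := by
    rw [hre]; exact Finset.sum_le_sum (fun α hα => (hterm α hα).1)
  refine ⟨hle, fun hyp => ?_⟩
  rw [hnorm, Complex.add_re] at hyp
  have heq : ∑ α ∈ R χ, ‖Cfsg.classInner (τ₁ (χ - ψ)) α‖ ^ 2 = (Cfsg.classInner χ χ).re :=
    le_antisymm (by linarith) hle
  refine ⟨heq, fun α hα => ?_⟩
  have h7 := (Finset.sum_eq_sum_iff_of_le (fun α hα => (hterm α hα).1)).mp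
    (by rw [← hre, heq]) α hα
  exact (hterm α hα).2 h7

end Cfsg.Agent.S1515
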