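import Cfsg.Statements.S1527
import Cfsg.Agent.Helper3.Standard

set_option autoImplicit false
open Cfsg

namespace Cfsg.Agent.S1527

theorem card_ne_one_aux {α : Type*} [Finite α] (a : α) :
    Nat.card {x : α // x ≠ a} = Nat.card α - 1 := by
  classical
  haveI := Fintype.ofFinite α
  rw [Nat.card_eq_fintype_card, Nat.card_eq_fintype_card,
    Fintype.card_subtype_compl (fun x => x = a), Fintype.card_subtype_eq]

theorem ti_count_aux {G : Type*} [Group G] [Finite G] (H : Subgroup G)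
    (hTI : Cfsg.IsTISubset (H : Set G)) :
    Nat.card {x : G // x ≠ 1 ∧ ∃ g : G, g * x * g⁻¹ ∈ H}
      = (Subgroup.normalizer (H : Set G)).index * (Nat.card H - 1) := by
  classical
  obtain ⟨N, hN⟩ : ∃ N, N = Subgroup.normalizer (H : Set G) := ⟨_, rfl⟩
  rw [← hN]
  have hmemN : ∀ z : G, z ∈ N ↔ z ∈ Subgroup.normalizer (H : Set G) := fun z => by rw [hN]
  have hnorm : ∀ n ∈ N, ∀ h ∈ H, n * h * n⁻¹ ∈ H := by
    intro n hn h hh
    rw [hN] at hn
    exact (Subgroup.mem_normalizer_iff.mp hn h).mp hh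
  let f : (G ⧸ N) × {h : H // h ≠ 1} → {x : G // x ≠ 1 ∧ ∃ g : G, g * x * g⁻¹ ∈ H} := fun z =>
    ⟨z.1.out * (z.2.1 : G) * z.1.out⁻¹, by
      constructor
      · intro h
        apply z.2.2
        apply Subtype.ext
        have h1 : (z.2.1 : G) = z.1.out⁻¹ * (z.1.out * (z.2.1 : G) * z.1.out⁻¹) * z.1.out := by
          group
        rw [h1, h]; simp
      · refine ⟨z.1.out⁻¹, ?_⟩
        have h1 : z.1.out⁻¹ * (z.1.out * (z.2.1 : G) * z.1.out⁻¹) * z.1.out⁻¹⁻¹ = (z.2.1 : G) := by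
          group
        rw [h1]; exact z.2.1.2⟩
  have hbij : Function.Bijective f := by
    constructor
    · rintro ⟨q, y⟩ ⟨q', y'⟩ hqy
      have h1 : q.out * (y.1 : G) * q.out⁻¹ = q'.out * (y'.1 : G) * q'.out⁻¹ :=
        congrArg Subtype.val hqy
      have h2 : (q'.out⁻¹ * q.out) * (y.1 : G) * (q'.out⁻¹ * q.out)⁻¹ = (y'.1 : G) := by
        have h3 : (y'.1 : G) = q'.out⁻¹ * (q'.out * (y'.1 : G) * q'.out⁻¹) * q'.out := by group
        rw [h3, ← h1]; group
      have h4 : q'.out⁻¹ * q.out ∈ N := by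
        by_contra hnot
        have hnot' := (hmemN _).not.mp hnot
        have h5 := hTI _ hnot' (y.1 : G) y.1.2 (h2 ▸ y'.1.2)
        exact y.2 (Subtype.ext h5)
      have h7 : q' = q := by
        rw [← QuotientGroup.out_eq' q, ← QuotientGroup.out_eq' q']
        exact QuotientGroup.eq.2 h4
      subst h7
      have h8 : (y.1 : G) = y'.1 := by
        have h9 : q'.out⁻¹ * (q'.out * (y.1 : G) * q'.out⁻¹) * q'.out
            = q'.out⁻¹ * (q'.out * (y'.1 : G) * q'.out⁻¹) * q'.out := by rw [h1]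
        simpa [mul_assoc] using h9
      have h9 : y = y' := Subtype.ext (Subtype.ext h8)
      rw [h9]
    · rintro ⟨x, hx1, g, hg⟩
      obtain ⟨n, hn⟩ := QuotientGroup.mk_out_eq_mul N g⁻¹
      have hh' : (n : G)⁻¹ * (g * x * g⁻¹) * (n : G) ∈ H := by
        have h0 := hnorm (n : G)⁻¹ (N.inv_mem n.2) _ hg
        simpa using h0
      have hh'1 : (⟨(n : G)⁻¹ * (g * x * g⁻¹) * (n : G), hh'⟩ : H) ≠ 1 := by
        intro h
        apply hx1
        have h0 : (n : G)⁻¹ * (g * x * g⁻¹) * (n : G) = 1 := congrArg Subtype.val h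
        have h3 : x = g⁻¹ * ((n : G) * ((n : G)⁻¹ * (g * x * g⁻¹) * (n : G)) * (n : G)⁻¹) * g := by
          group
        rw [h3, h0]; group
      refine ⟨⟨QuotientGroup.mk g⁻¹, ⟨⟨_, hh'⟩, hh'1⟩⟩, ?_⟩
      apply Subtype.ext
      show (QuotientGroup.mk g⁻¹ : G ⧸ N).out * ((n : G)⁻¹ * (g * x * g⁻¹) * (n : G))
        * ((QuotientGroup.mk g⁻¹ : G ⧸ N).out)⁻¹ = x
      rw [hn]; group
  rw [← Nat.card_congr (Equiv.ofBijective f hbij), Nat.card_prod, card_ne_one_aux]
  rfl

/-- Let G be a finite group and H i (i in a finite index type) subgroups of pairwise coprime orders, each of whose underlying sets is a TI-subset of G, such that every non-identity element of G is conjugate to an element of some H i. Then Nat.card G − 1 = Σ_i [G : N_G(H i)] · (Nat.card (H i) − 1). -/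
theorem result {G : Type*} [Group G] [Finite G] {ι : Type*} [Fintype ι] (H : ι → Subgroup G) (hcop : ∀ i j, i ≠ j → Nat.Coprime (Nat.card (H i)) (Nat.card (H j))) (hTI : ∀ i, Cfsg.IsTISubset (H i : Set G)) (hcover : ∀ g : G, g ≠ 1 → ∃ i, ∃ x : G, x * g * x⁻¹ ∈ H i) : Nat.card G - 1 = ∑ i, (Subgroup.normalizer (H i : Set G)).index * (Nat.card (H i) - 1) := by
  classical
  have huniq : ∀ (x : G), x ≠ 1 → ∀ i j, (∃ g : G, g * x * g⁻¹ ∈ H i) →
      (∃ g : G, g * x * g⁻¹ ∈ H j) → i = j := by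
    intro x hx1 i j ⟨g, hg⟩ ⟨g', hg'⟩
    by_contra hij
    have h1 : orderOf x ∣ Nat.card (H i) := by
      rw [← Helper3.orderOf_conj_mul g x, ← Subgroup.orderOf_mk (H := H i) _ hg]
      exact orderOf_dvd_natCard _
    have h2 : orderOf x ∣ Nat.card (H j) := by
      rw [← Helper3.orderOf_conj_mul g' x, ← Subgroup.orderOf_mk (H := H j) _ hg']
      exact orderOf_dvd_natCard _
    have h3 : orderOf x = 1 := Nat.eq_one_of_dvd_coprimes (hcop i j hij) h1 h2
    exact hx1 (orderOf_eq_one_iff.mp h3)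
  let f : (Σ i, {x : G // x ≠ 1 ∧ ∃ g : G, g * x * g⁻¹ ∈ H i}) → {x : G // x ≠ 1} :=
    fun z => ⟨z.2.1, z.2.2.1⟩
  have hbij : Function.Bijective f := by
    constructor
    · rintro ⟨i, x, hx1, hx⟩ ⟨j, y, hy1, hy⟩ hxy
      have h1 : x = y := congrArg Subtype.val hxy
      subst h1
      have h2 : i = j := huniq x hx1 i j hx hy
      subst h2
      rfl
    · rintro ⟨x, hx1⟩
      obtain ⟨i, g, hg⟩ := hcover x hx1
      exact ⟨⟨i, x, hx1, g, hg⟩, rfl⟩
  rw [← card_ne_one_aux (1 : G), ← Nat.card_congr (Equiv.ofBijective f hbij), Nat.card_sigma]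
  refine Finset.sum_congr rfl (fun i _ => ?_)
  exact ti_count_aux (H i) (hTI i)

end Cfsg.Agent.S1527
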