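import Cfsg.Statements.S1528
import Cfsg.Agent.S0146
import Cfsg.Agent.S0148
import Cfsg.Agent.Lead.CharPerm
import Cfsg.Agent.Lead.CharConj2
import Cfsg.Agent.Lead.CharCore5

set_option autoImplicit false
open Cfsg

namespace Cfsg.Agent.S1528

/-- Let N be a normal subgroup of the finite group G such that every element of G commuting with a non-identity element of N lies in N. If χ is an irreducible character of G with χ n ≠ χ 1 for some n ∈ N, then χ is the function induced from some irreducible character of N. -/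
theorem result {G : Type*} [Group G] [Fintype G] (N : Subgroup G) [N.Normal] (hC : ∀ n ∈ N, n ≠ 1 → Subgroup.centralizer ({n} : Set G) ≤ N) (χ : G → ℂ) (hχ : Cfsg.IsIrrCharacter G χ) (hker : ∃ n ∈ N, χ n ≠ χ 1) : ∃ φ : N → ℂ, Cfsg.IsIrrCharacter N φ ∧ χ = Cfsg.indFun N φ := by
  classical
  haveI hNn : N.Normal := inferInstance
  have hχc : Cfsg.IsCharacter G χ := Lead.isCharacter_of_isIrrCharacter hχ
  have hresc : Cfsg.IsCharacter N (fun n : N => χ n) := Lead.isCharacter_res N hχc
  have hone : Cfsg.IsIrrCharacter N (fun _ => (1 : ℂ)) := Lead.isIrrCharacter_one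
  -- step 1: a nontrivial constituent
  have hex : ∃ φ : Cfsg.IrrCharacter N, (φ : N → ℂ) ≠ (fun _ => 1) ∧
      Cfsg.classInner (fun n : N => χ n) (φ : N → ℂ) ≠ 0 := by
    by_contra hcon
    push Not at hcon
    have hdec := Lead.classFunction_eq_finsum (fun n : N => χ n)
      (Lead.isCharacter_isClassFunction hresc)
    rw [finsum_eq_single _ (⟨fun _ => 1, hone⟩ : Cfsg.IrrCharacter N)] at hdec
    · obtain ⟨n, hn, hne⟩ := hker
      apply hne
      have h1 := congrFun hdec ⟨n, hn⟩
      have h2 := congrFun hdec 1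
      simp only [Pi.smul_apply, smul_eq_mul, mul_one] at h1 h2
      rw [h1]
      exact h2.symm
    · intro ψ hψ
      rw [hcon ψ (fun h => hψ (Subtype.ext h)), zero_smul]
  obtain ⟨φ, hφ1, hφc⟩ := hex
  -- step 2: the inertia group of φ is N
  have hinert : ∀ x : G, x ∉ N → Lead.conjFun N (φ : N → ℂ) x ≠ (φ : N → ℂ) := by
    intro x hx hfix
    have hbr := Lead.brauer_perm_general (G := N) (fun n : N => (MulAut.conjNormal x : N ≃* N) n)
      (fun ψ => Lead.isIrrCharacter_comp_mulEquiv (MulAut.conjNormal x : N ≃* N) ψ.2)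
      (by
        intro g h hgh
        have key : ∀ a b : N, IsConj a b → IsConj a ((MulAut.conjNormal x : N ≃* N) a) →
            IsConj b ((MulAut.conjNormal x : N ≃* N) b) := by
          intro a b hab haa
          have h1 : IsConj ((MulAut.conjNormal x : N ≃* N) a) ((MulAut.conjNormal x : N ≃* N) b) := by
            obtain ⟨c, hc⟩ := isConj_iff.mp hab
            apply isConj_iff.mpr
            refine ⟨(MulAut.conjNormal x : N ≃* N) c, ?_⟩
            rw [← map_inv, ← map_mul, ← map_mul, hc]
          exact (hab.symm.trans haa).trans h1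
        exact ⟨key g h hgh, key h g hgh.symm⟩)
    have hsub : Subsingleton {c : ConjClasses N // ∀ g, ConjClasses.mk g = c →
        IsConj g ((MulAut.conjNormal x : N ≃* N) g)} := by
      have hall : ∀ c : {c : ConjClasses N // ∀ g, ConjClasses.mk g = c →
          IsConj g ((MulAut.conjNormal x : N ≃* N) g)}, c.1 = ConjClasses.mk 1 := by
        rintro ⟨c, hc⟩
        obtain ⟨g, rfl⟩ := ConjClasses.exists_rep c
        have h1 := hc g rfl
        obtain ⟨m, hm⟩ := isConj_iff.mp h1
        have hm' : (m : G) * (g : G) * (m : G)⁻¹ = x * (g : G) * x⁻¹ := by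
          have h0 := congrArg (fun z : N => (z : G)) hm
          simpa using h0
        by_contra hg1
        have hgne : (g : G) ≠ 1 := by
          intro h
          apply hg1
          have : g = 1 := Subtype.ext h
          exact congrArg ConjClasses.mk this
        have hcen : x⁻¹ * (m : G) ∈ Subgroup.centralizer ({(g : G)} : Set G) := by
          rw [Subgroup.mem_centralizer_iff]
          intro z hz
          rw [Set.mem_singleton_iff] at hz; subst hz
          calc (g : G) * (x⁻¹ * (m : G)) = x⁻¹ * (x * (g : G) * x⁻¹) * (m : G) := by group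
            _ = x⁻¹ * ((m : G) * (g : G) * (m : G)⁻¹) * (m : G) := by rw [hm']
            _ = x⁻¹ * (m : G) * (g : G) := by group
        have h2 := hC (g : G) g.2 hgne hcen
        apply hx
        have h3 : x = (m : G) * (x⁻¹ * (m : G))⁻¹ := by group
        rw [h3]
        exact N.mul_mem m.2 (N.inv_mem h2)
      constructor
      intro a b
      exact Subtype.ext ((hall a).trans (hall b).symm)
    haveI : Finite (Cfsg.IrrCharacter N) := Lead.finite_irrCharacter N
    have hcard : Nat.card {ψ : Cfsg.IrrCharacter N //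
        (ψ : N → ℂ) ∘ (fun n : N => (MulAut.conjNormal x : N ≃* N) n) = (ψ : N → ℂ)} ≤ 1 := by
      rw [hbr]
      exact Finite.card_le_one_iff_subsingleton.mpr hsub
    have hsub2 := Finite.card_le_one_iff_subsingleton.mp hcard
    have e1 : (⟨φ, (Lead.conjFun_eq_comp N _ x).symm.trans hfix⟩ : {ψ : Cfsg.IrrCharacter N //
        (ψ : N → ℂ) ∘ (fun n : N => (MulAut.conjNormal x : N ≃* N) n) = (ψ : N → ℂ)})
        = ⟨⟨fun _ => 1, hone⟩, rfl⟩ := Subsingleton.elim _ _
    have e2 := congrArg (fun z => ((z.1 : Cfsg.IrrCharacter N) : N → ℂ)) e1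
    exact hφ1 e2
  -- step 3: norm of the induced function
  have hφcf : Cfsg.IsClassFunction N (φ : N → ℂ) :=
    Lead.isCharacter_isClassFunction (Lead.isCharacter_of_isIrrCharacter φ.2)
  have hterm : ∀ g : G, Cfsg.classInner (φ : N → ℂ) (Lead.conjFun N (φ : N → ℂ) g)
      = if g ∈ N then 1 else 0 := by
    intro g
    by_cases hg : g ∈ N
    · rw [if_pos hg]
      have h1 : Lead.conjFun N (φ : N → ℂ) g = (φ : N → ℂ) := by
        funext n
        have h2 := hφcf n ⟨g, hg⟩
        rw [← h2]
        rfl
      rw [h1]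
      exact Lead.classInner_self_of_isIrrCharacter φ.2
    · rw [if_neg hg]
      have h1 := Lead.classInner_irr φ ⟨_, Lead.isIrrCharacter_conjFun N φ.2 g⟩
      rw [if_neg] at h1
      · exact h1
      · intro h
        exact hinert g hg (congrArg Subtype.val h).symm
  have hnorm : Cfsg.classInner (Cfsg.indFun N (φ : N → ℂ)) (Cfsg.indFun N (φ : N → ℂ)) = 1 := by
    rw [Cfsg.Agent.S0146.result N (φ : N → ℂ) _ (Lead.indFun_isClassFunction N _),
      Lead.indFun_res_normal N (φ : N → ℂ), Lead.classInner_smul_right,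
      Lead.classInner_sum_right, Finset.sum_congr rfl (fun g _ => hterm g)]
    rw [Finset.sum_boole, map_inv₀, Complex.conj_natCast]
    have hc : (Finset.univ.filter (fun g : G => g ∈ N)).card = Nat.card N := by
      rw [← Fintype.card_subtype, ← Nat.card_eq_fintype_card]
    rw [hc]
    have hN0 : (Nat.card N : ℂ) ≠ 0 := Lead.natCard_ne_zero_complex N
    field_simp
  have hirr : Cfsg.IsIrrCharacter G (Cfsg.indFun N (φ : N → ℂ)) :=
    Lead.isIrrCharacter_of_classInner_eq_one
      (Cfsg.Agent.S0148.result N _ (Lead.isCharacter_of_isIrrCharacter φ.2)) hnorm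
  refine ⟨φ, φ.2, ?_⟩
  by_contra hne
  have h1 := Lead.classInner_irr (⟨_, hirr⟩ : Cfsg.IrrCharacter G) ⟨χ, hχ⟩
  rw [if_neg (fun h => hne (congrArg Subtype.val h).symm)] at h1
  have h2 := Cfsg.Agent.S0146.result N (φ : N → ℂ) χ (Lead.isCharacter_isClassFunction hχc)
  rw [h1] at h2
  apply hφc
  rw [← Lead.classInner_conj_symm, ← h2, map_zero]

end Cfsg.Agent.S1528
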