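import Cfsg.Statements.S1529
import Cfsg.Agent.Helper3.GenChar
import Cfsg.Agent.Lead.CharCore4

set_option autoImplicit false
open Cfsg

namespace Cfsg.Agent.S1529

/-- Let N be a subgroup of the finite group G, S a set of irreducible characters of N with at least two members, and τ₁ a linear isometry on the integer combinations of S with virtual-character values such that τ₁ α vanishes at 1 whenever α ∈ ℤ[S] does. Then there is ε ∈ {1, −1} such that ε • τ₁ χ is an irreducible character of G for every χ ∈ S, and distinct members of S give distinct characters. -/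
theorem result {G : Type*} [Group G] [Fintype G] (N : Subgroup G) [Fintype N] (S : Set (N → ℂ)) (hirr : ∀ χ ∈ S, Cfsg.IsIrrCharacter N χ) (htwo : ∃ χ ∈ S, ∃ ψ ∈ S, χ ≠ ψ) (τ₁ : (N → ℂ) → (G → ℂ)) (hτ₁ : Cfsg.IsLinearIsometryOn (Cfsg.zspan S) τ₁) (h0 : ∀ α ∈ Cfsg.zspan S, α 1 = 0 → τ₁ α 1 = 0) : ∃ ε : ℂ, (ε = 1 ∨ ε = -1) ∧ (∀ χ ∈ S, Cfsg.IsIrrCharacter G (ε • τ₁ χ)) ∧ (∀ χ ∈ S, ∀ ψ ∈ S, τ₁ χ = τ₁ ψ → χ = ψ) := by
  classical
  obtain ⟨hadd, hsmul, hiso, hgen⟩ := hτ₁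
  have hmem : ∀ χ ∈ S, χ ∈ Cfsg.zspan S := fun χ hχ => Submodule.subset_span hχ
  have hdec : ∀ χ ∈ S, ∃ (μ : Cfsg.IrrCharacter G) (s : ℂ), (s = 1 ∨ s = -1) ∧
      τ₁ χ = s • (μ : G → ℂ) := by
    intro χ hχ
    apply Helper3.genChar_norm_one (hgen χ (hmem χ hχ))
    rw [hiso χ (hmem χ hχ) χ (hmem χ hχ)]
    exact Lead.classInner_self_of_isIrrCharacter (hirr χ hχ)
  obtain ⟨χ₀, hχ₀, -⟩ := htwo
  obtain ⟨μ₀, s₀, hs₀, hμ₀⟩ := hdec χ₀ hχ₀
  refine ⟨s₀, hs₀, ?_, ?_⟩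
  · intro χ hχ
    obtain ⟨μ, s, hs, hμ⟩ := hdec χ hχ
    obtain ⟨d, hd, hd1⟩ := Lead.isIrrCharacter_one_eq_nat (hirr χ hχ)
    obtain ⟨d₀, hd₀, hd₀1⟩ := Lead.isIrrCharacter_one_eq_nat (hirr χ₀ hχ₀)
    obtain ⟨e, he, he1⟩ := Lead.isIrrCharacter_one_eq_nat μ.2
    obtain ⟨e₀, he₀, he₀1⟩ := Lead.isIrrCharacter_one_eq_nat μ₀.2
    have hα1 : ((d₀ : ℤ) • χ) ∈ Cfsg.zspan S :=
      (Submodule.span ℤ S).smul_mem _ (hmem χ hχ)
    have hα2 : ((-(d : ℤ)) • χ₀) ∈ Cfsg.zspan S :=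
      (Submodule.span ℤ S).smul_mem _ (hmem χ₀ hχ₀)
    have hα : ((d₀ : ℤ) • χ + (-(d : ℤ)) • χ₀) ∈ Cfsg.zspan S :=
      (Submodule.span ℤ S).add_mem hα1 hα2
    have hz : ((d₀ : ℤ) • χ + (-(d : ℤ)) • χ₀) 1 = 0 := by
      rw [Pi.add_apply, Pi.smul_apply, Pi.smul_apply, zsmul_eq_mul, zsmul_eq_mul, hd1, hd₀1]
      push_cast; ring
    have h1 := h0 _ hα hz
    rw [hadd _ hα1 _ hα2, hsmul χ (hmem χ hχ), hsmul χ₀ (hmem χ₀ hχ₀), hμ, hμ₀] at h1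
    rw [Pi.add_apply, Pi.smul_apply, Pi.smul_apply, Pi.smul_apply, Pi.smul_apply, zsmul_eq_mul,
      zsmul_eq_mul, smul_eq_mul, smul_eq_mul, he1, he₀1] at h1
    push_cast at h1
    have hpos : 0 < d₀ * e + d * e₀ := by
      have : 0 < d₀ * e := Nat.mul_pos hd₀ he
      omega
    have hss : s = s₀ := by
      rcases hs with rfl | rfl <;> rcases hs₀ with rfl | rfl
      · rfl
      · exfalso
        have h3 : ((d₀ * e + d * e₀ : ℕ) : ℂ) = 0 := by push_cast; linear_combination h1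
        have h2 : d₀ * e + d * e₀ = 0 := by exact_mod_cast h3
        omega
      · exfalso
        have h3 : ((d₀ * e + d * e₀ : ℕ) : ℂ) = 0 := by push_cast; linear_combination -h1
        have h2 : d₀ * e + d * e₀ = 0 := by exact_mod_cast h3
        omega
      · rfl
    rw [hμ, hss, smul_smul]
    have hsq : s₀ * s₀ = 1 := by rcases hs₀ with rfl | rfl <;> norm_num
    rw [hsq, one_smul]; exact μ.2
  · intro χ hχ ψ hψ heq
    by_contra hne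
    have h1 := hiso χ (hmem χ hχ) ψ (hmem ψ hψ)
    rw [← heq, hiso χ (hmem χ hχ) χ (hmem χ hχ),
      Lead.classInner_self_of_isIrrCharacter (hirr χ hχ)] at h1
    have h2 := Lead.classInner_irr (⟨χ, hirr χ hχ⟩ : Cfsg.IrrCharacter N) ⟨ψ, hirr ψ hψ⟩
    rw [if_neg (fun h => hne (congrArg Subtype.val h))] at h2
    rw [h2] at h1; exact one_ne_zero h1

end Cfsg.Agent.S1529
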