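import Cfsg.Statements.S1536
import Cfsg.Agent.S1496
import Cfsg.Agent.Lead.CharPerm
import Cfsg.Agent.Lead.CharConj2

set_option autoImplicit false
open Cfsg

namespace Cfsg.Agent.S1536

theorem brauer_conjNormal_aux {G : Type*} [Group G] [Finite G] (N : Subgroup G) [N.Normal]
    (x : G) :
    Nat.card {ψ : Cfsg.IrrCharacter N //
        (ψ : N → ℂ) ∘ (fun n : N => (MulAut.conjNormal x : N ≃* N) n) = (ψ : N → ℂ)}
      = Nat.card {c : ConjClasses N // ∀ g, ConjClasses.mk g = c →
        IsConj g ((MulAut.conjNormal x : N ≃* N) g)} := by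
  apply Lead.brauer_perm_general (G := N) (fun n : N => (MulAut.conjNormal x : N ≃* N) n)
    (fun ψ => Lead.isIrrCharacter_comp_mulEquiv (MulAut.conjNormal x : N ≃* N) ψ.2)
  intro g h hgh
  have key : ∀ a b : N, IsConj a b → IsConj a ((MulAut.conjNormal x : N ≃* N) a) →
      IsConj b ((MulAut.conjNormal x : N ≃* N) b) := by
    intro a b hab haa
    have h1 : IsConj ((MulAut.conjNormal x : N ≃* N) a) ((MulAut.conjNormal x : N ≃* N) b) := by
      obtain ⟨c, hc⟩ := isConj_iff.mp hab
      apply isConj_iff.mpr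
      refine ⟨(MulAut.conjNormal x : N ≃* N) c, ?_⟩
      rw [← map_inv, ← map_mul, ← map_mul, hc]
    exact (hab.symm.trans haa).trans h1
  exact ⟨key g h hgh, key h g hgh.symm⟩

/-- Let H be a normal subgroup of the finite group M whose order is coprime to its index. For x ∈ M: some non-principal irreducible character of H is unchanged under h ↦ θ(x h x⁻¹) if and only if some non-identity element of H commutes with x. -/
theorem result {M : Type*} [Group M] [Finite M] (H : Subgroup M) [hN : H.Normal] (hHall : Nat.Coprime (Nat.card H) H.index) (x : M) : (∃ θ : H → ℂ, Cfsg.IsIrrCharacter H θ ∧ θ ≠ (fun _ => 1) ∧ (fun h : H => θ ⟨x * h * x⁻¹, hN.conj_mem h h.2 x⟩) = θ) ↔ ∃ h ∈ H, h ≠ 1 ∧ x * h = h * x := by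
  classical
  haveI : Finite (Cfsg.IrrCharacter H) := Lead.finite_irrCharacter H
  have hbr := brauer_conjNormal_aux H x
  have hone : Cfsg.IsIrrCharacter H (fun _ => (1 : ℂ)) := Lead.isIrrCharacter_one
  have hxN : x ∈ Subgroup.normalizer (H : Set M) := by
    rw [Subgroup.normalizer_eq_top (H := H)]
    exact Subgroup.mem_top x
  constructor
  · rintro ⟨θ, hθ, hθ1, hfix⟩
    obtain ⟨m, hm⟩ : ∃ m, m = orderOf (QuotientGroup.mk x : M ⧸ H) := ⟨_, rfl⟩
    have hxm : x ^ m ∈ H := by
      rw [← QuotientGroup.eq_one_iff, QuotientGroup.mk_pow, hm, pow_orderOf_eq_one]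
    by_cases hxm1 : x ^ m = 1
    · have hcop : (orderOf x).Coprime (Nat.card H) := by
        have h1 : orderOf x ∣ m := orderOf_dvd_of_pow_eq_one hxm1
        have h2 : m ∣ H.index := by
          rw [hm, Subgroup.index_eq_card]
          exact orderOf_dvd_natCard _
        exact (Nat.Coprime.coprime_dvd_right (h1.trans h2) hHall).symm
      -- at least two fixed characters
      have hnsub : ¬ Subsingleton {c : ConjClasses H // ∀ g, ConjClasses.mk g = c →
          IsConj g ((MulAut.conjNormal x : H ≃* H) g)} := by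
        intro hsub
        have hcard : Nat.card {ψ : Cfsg.IrrCharacter H //
            (ψ : H → ℂ) ∘ (fun n : H => (MulAut.conjNormal x : H ≃* H) n) = (ψ : H → ℂ)} ≤ 1 := by
          rw [hbr]
          exact Finite.card_le_one_iff_subsingleton.mpr hsub
        have hsub2 := Finite.card_le_one_iff_subsingleton.mp hcard
        have e1 : (⟨⟨θ, hθ⟩, hfix⟩ : {ψ : Cfsg.IrrCharacter H //
            (ψ : H → ℂ) ∘ (fun n : H => (MulAut.conjNormal x : H ≃* H) n) = (ψ : H → ℂ)})
            = ⟨⟨fun _ => 1, hone⟩, rfl⟩ := Subsingleton.elim _ _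
        have e2 := congrArg (fun z => ((z.1 : Cfsg.IrrCharacter H) : H → ℂ)) e1
        exact hθ1 e2
      -- a nontrivial fixed class
      have hexc : ∃ k : H, k ≠ 1 ∧ IsConj k ((MulAut.conjNormal x : H ≃* H) k) := by
        by_contra hcon
        push Not at hcon
        apply hnsub
        have hall : ∀ c : {c : ConjClasses H // ∀ g, ConjClasses.mk g = c →
            IsConj g ((MulAut.conjNormal x : H ≃* H) g)}, c.1 = ConjClasses.mk 1 := by
          rintro ⟨c, hc⟩
          obtain ⟨g, rfl⟩ := ConjClasses.exists_rep c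
          have h1 := hc g rfl
          by_contra hg1
          have hgne : g ≠ 1 := by
            intro h
            exact hg1 (congrArg ConjClasses.mk h)
          exact hcon g hgne h1
        constructor
        intro a b
        exact Subtype.ext ((hall a).trans (hall b).symm)
      obtain ⟨k, hk1, hkc⟩ := hexc
      obtain ⟨u, hu⟩ := isConj_iff.mp hkc.symm
      have hu' : (u : M) * (x * (k : M) * x⁻¹) * (u : M)⁻¹ = (k : M) := by
        have h0 := congrArg Subtype.val hu
        rw [Subgroup.coe_mul, Subgroup.coe_mul, Subgroup.coe_inv, MulAut.conjNormal_apply] at h0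
        exact h0
      obtain ⟨a, haK, c, hcK, hcx, hac⟩ := Cfsg.Agent.S1496.result H x hxN hcop (u : M) u.2
      have hk'K : a * (k : M) * a⁻¹ ∈ H := H.mul_mem (H.mul_mem haK k.2) (H.inv_mem haK)
      have hcomm : (c * x) * (a * (k : M) * a⁻¹) = (a * (k : M) * a⁻¹) * (c * x) := by
        rw [← hac]
        have h2 : (u : M) * x * (k : M) = (k : M) * ((u : M) * x) := by
          calc (u : M) * x * (k : M)
              = ((u : M) * (x * (k : M) * x⁻¹) * (u : M)⁻¹) * ((u : M) * x) := by group
            _ = (k : M) * ((u : M) * x) := by rw [hu']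
        calc a * ((u : M) * x) * a⁻¹ * (a * (k : M) * a⁻¹)
            = a * ((u : M) * x * (k : M)) * a⁻¹ := by group
          _ = a * ((k : M) * ((u : M) * x)) * a⁻¹ := by rw [h2]
          _ = a * (k : M) * a⁻¹ * (a * ((u : M) * x) * a⁻¹) := by group
      have hcopc : (orderOf x).Coprime (orderOf c) :=
        Nat.Coprime.coprime_dvd_right (Subgroup.orderOf_dvd_natCard H hcK) hcop
      obtain ⟨j, hj1, hj0⟩ := Nat.chineseRemainder hcopc 1 0
      have hpow : (c * x) ^ j = x := by
        have hcx' : Commute c x := hcx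
        have e1 : c ^ j = 1 := orderOf_dvd_iff_pow_eq_one.mp ((Nat.modEq_zero_iff_dvd).mp hj0)
        have e2 : x ^ j = x := by
          have h0 := pow_eq_pow_iff_modEq.mpr hj1
          rwa [pow_one] at h0
        rw [hcx'.mul_pow, e1, e2, one_mul]
      have hxk' : x * (a * (k : M) * a⁻¹) = (a * (k : M) * a⁻¹) * x := by
        have hc' : Commute (c * x) (a * (k : M) * a⁻¹) := hcomm
        have h0 := (hc'.pow_left j).eq
        rwa [hpow] at h0
      refine ⟨a * (k : M) * a⁻¹, hk'K, ?_, hxk'⟩
      intro h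
      apply hk1
      apply Subtype.ext
      have h3 : (k : M) = a⁻¹ * (a * (k : M) * a⁻¹) * a := by group
      rw [h3, h]; simp
    · exact ⟨x ^ m, hxm, hxm1, by rw [← pow_succ', ← pow_succ]⟩
  · rintro ⟨h, hh, hh1, hxh⟩
    have hfixc : ∀ k : H, x * (k : M) = (k : M) * x → ∀ g, ConjClasses.mk g = ConjClasses.mk k →
        IsConj g ((MulAut.conjNormal x : H ≃* H) g) := by
      intro k hk g hg
      have hgk : IsConj g k := ConjClasses.mk_eq_mk_iff_isConj.mp hg
      have hkk : (MulAut.conjNormal x : H ≃* H) k = k := by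
        apply Subtype.ext
        rw [MulAut.conjNormal_apply, hk]; group
      have h1 : IsConj ((MulAut.conjNormal x : H ≃* H) g) ((MulAut.conjNormal x : H ≃* H) k) := by
        obtain ⟨c, hc⟩ := isConj_iff.mp hgk
        apply isConj_iff.mpr
        refine ⟨(MulAut.conjNormal x : H ≃* H) c, ?_⟩
        rw [← map_inv, ← map_mul, ← map_mul, hc]
      rw [hkk] at h1
      exact hgk.trans h1.symm
    have hnsub : ¬ Subsingleton {c : ConjClasses H // ∀ g, ConjClasses.mk g = c →
        IsConj g ((MulAut.conjNormal x : H ≃* H) g)} := by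
      intro hsub
      have e1 : (⟨ConjClasses.mk (⟨h, hh⟩ : H), hfixc ⟨h, hh⟩ hxh⟩ :
          {c : ConjClasses H // ∀ g, ConjClasses.mk g = c →
            IsConj g ((MulAut.conjNormal x : H ≃* H) g)})
          = ⟨ConjClasses.mk 1, hfixc 1 (by simp)⟩ := Subsingleton.elim _ _
      have e2 : ConjClasses.mk (⟨h, hh⟩ : H) = ConjClasses.mk 1 := congrArg Subtype.val e1
      rw [ConjClasses.mk_eq_mk_iff_isConj, isConj_one_left] at e2
      exact hh1 (congrArg Subtype.val e2)
    have hnsub2 : ¬ Subsingleton {ψ : Cfsg.IrrCharacter H //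
        (ψ : H → ℂ) ∘ (fun n : H => (MulAut.conjNormal x : H ≃* H) n) = (ψ : H → ℂ)} := by
      intro hsub
      apply hnsub
      apply Finite.card_le_one_iff_subsingleton.mp
      rw [← hbr]
      exact Finite.card_le_one_iff_subsingleton.mpr hsub
    by_contra hcon
    push Not at hcon
    apply hnsub2
    have hall : ∀ ψ : {ψ : Cfsg.IrrCharacter H //
        (ψ : H → ℂ) ∘ (fun n : H => (MulAut.conjNormal x : H ≃* H) n) = (ψ : H → ℂ)},
        (ψ.1 : H → ℂ) = fun _ => 1 := by
      rintro ⟨ψ, hψ⟩
      by_contra hne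
      exact hcon ψ ψ.2 hne hψ
    constructor
    intro a b
    exact Subtype.ext (Subtype.ext ((hall a).trans (hall b).symm))

end Cfsg.Agent.S1536
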