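import Cfsg.Statements.S1546

set_option autoImplicit false
open Cfsg

namespace Cfsg.Agent.S1546

theorem geom_modEq_aux (p m : ℕ) (h : p ≡ 1 [MOD m]) (q : ℕ) :
    ∑ i ∈ Finset.range q, p ^ i ≡ q [MOD m] := by
  induction q with
  | zero => simp [Nat.ModEq]
  | succ n ih =>
    rw [Finset.sum_range_succ]
    have h1 : p ^ n ≡ 1 [MOD m] := by
      have := h.pow n
      rwa [one_pow] at this
    exact ih.add h1

/-- Let p and q be odd primes and N = (p ^ q − 1) / (p − 1) = 1 + p + ⋯ + p^(q−1). Then N is odd; if p ≡ 1 (mod q) then q ∣ N; and if p is not ≡ 1 (mod q) then N is coprime to p − 1 and every divisor of N is ≡ 1 (mod q). -/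
theorem result (p q : ℕ) (hp : p.Prime) (hq : q.Prime) (hp2 : p ≠ 2) (hq2 : q ≠ 2) : Odd ((p ^ q - 1) / (p - 1)) ∧ (p % q = 1 → q ∣ (p ^ q - 1) / (p - 1)) ∧ (p % q ≠ 1 → Nat.Coprime ((p ^ q - 1) / (p - 1)) (p - 1) ∧ ∀ x : ℕ, x ∣ (p ^ q - 1) / (p - 1) → x % q = 1) := by
  have hp2' : 2 ≤ p := hp.two_le
  have hq2' : 2 ≤ q := hq.two_le
  have hgs := Nat.geomSum_eq hp2' q
  rw [← hgs]
  obtain ⟨N, hN⟩ : ∃ N, N = ∑ i ∈ Finset.range q, p ^ i := ⟨_, rfl⟩
  rw [← hN]
  have hNpos : 0 < N := by
    rw [hN]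
    have : 0 < q := by omega
    calc 0 < p ^ 0 := by simp
      _ ≤ ∑ i ∈ Finset.range q, p ^ i :=
        Finset.single_le_sum (f := fun i => p ^ i) (fun i _ => Nat.zero_le _)
          (Finset.mem_range.mpr this)
  have hmod : ∀ m, p ≡ 1 [MOD m] → N ≡ q [MOD m] := by
    intro m hm
    rw [hN]; exact geom_modEq_aux p m hm q
  have hone_mod : 1 % q = 1 := Nat.mod_eq_of_lt (by omega)
  have hkey : ∀ r : ℕ, r.Prime → r ∣ N → p ≡ 1 [MOD r] → p % q = 1 := by
    intro r hr hrN hpr
    have h1 := hmod r hpr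
    have h2 : r ∣ q := by
      have h3 : N ≡ 0 [MOD r] := (Nat.modEq_zero_iff_dvd).mpr hrN
      exact (Nat.modEq_zero_iff_dvd).mp (h1.symm.trans h3)
    have h4 : r = q := (Nat.prime_dvd_prime_iff_eq hr hq).mp h2
    rw [h4] at hpr
    have h5 : p % q = 1 % q := hpr
    rw [h5, hone_mod]
  refine ⟨?_, ?_, ?_⟩
  · have hpodd : p ≡ 1 [MOD 2] := by
      rcases hp.eq_two_or_odd with h | h
      · exact absurd h hp2
      · exact h
    have hqodd : q % 2 = 1 := by
      rcases hq.eq_two_or_odd with h | h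
      · exact absurd h hq2
      · exact h
    have h1 := hmod 2 hpodd
    rw [Nat.odd_iff]
    have h2 : N % 2 = q % 2 := h1
    rw [h2, hqodd]
  · intro hpq
    have hpq' : p ≡ 1 [MOD q] := by
      show p % q = 1 % q
      rw [hpq, hone_mod]
    have h1 := hmod q hpq'
    have h2 : q ≡ 0 [MOD q] := (Nat.modEq_zero_iff_dvd).mpr dvd_rfl
    exact (Nat.modEq_zero_iff_dvd).mp (h1.trans h2)
  · intro hpq
    constructor
    · apply Nat.coprime_of_dvd
      intro r hr hrN hrp
      apply hpq
      apply hkey r hr hrN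
      exact ((Nat.modEq_iff_dvd' (by omega : 1 ≤ p)).mpr hrp).symm
    · intro x
      induction x using Nat.recOnMul with
      | zero =>
        intro h
        have := Nat.eq_zero_of_zero_dvd h
        omega
      | one => intro _; exact hone_mod
      | prime r hr =>
        intro hrN
        haveI : Fact r.Prime := ⟨hr⟩
        have hcast : ((N : ℕ) : ZMod r) = 0 := (ZMod.natCast_eq_zero_iff N r).mpr hrN
        have hgeom : (∑ i ∈ Finset.range q, (p : ZMod r) ^ i) * ((p : ZMod r) - 1)
            = (p : ZMod r) ^ q - 1 := geom_sum_mul _ _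
        have hsum0 : ∑ i ∈ Finset.range q, (p : ZMod r) ^ i = 0 := by
          rw [← hcast, hN]; push_cast; rfl
        rw [hsum0, zero_mul] at hgeom
        have hpow : (p : ZMod r) ^ q = 1 := by
          have := sub_eq_zero.mp hgeom.symm
          exact this
        have hord : orderOf (p : ZMod r) ∣ q := orderOf_dvd_of_pow_eq_one hpow
        rcases (Nat.dvd_prime hq).mp hord with h1 | h1
        · exfalso
          apply hpq
          apply hkey r hr hrN
          have h2 : (p : ZMod r) = 1 := orderOf_eq_one_iff.mp h1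
          have h3 : ((p : ℕ) : ZMod r) = ((1 : ℕ) : ZMod r) := by rw [h2]; simp
          exact (ZMod.natCast_eq_natCast_iff p 1 r).mp h3
        · have hne0 : (p : ZMod r) ≠ 0 := by
            intro h0
            rw [h0, zero_pow (by omega : q ≠ 0)] at hpow
            exact zero_ne_one hpow
          have h2 : (p : ZMod r) ^ (r - 1) = 1 := ZMod.pow_card_sub_one_eq_one hne0
          have h3 : q ∣ r - 1 := by
            rw [← h1]; exact orderOf_dvd_of_pow_eq_one h2
          have h4 : 1 ≡ r [MOD q] := (Nat.modEq_iff_dvd' hr.one_le).mpr h3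
          have h5 : r % q = 1 % q := h4.symm
          rw [h5, hone_mod]
      | mul a b iha ihb =>
        intro hab
        have ha := iha (dvd_trans (dvd_mul_right a b) hab)
        have hb := ihb (dvd_trans (dvd_mul_left b a) hab)
        rw [Nat.mul_mod, ha, hb, one_mul, hone_mod]

end Cfsg.Agent.S1546
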