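import Cfsg.Statements.S1552
import Mathlib
import Cfsg.Agent.Helper1.FamISS
import Cfsg.Agent.Helper1.FamFinal

set_option autoImplicit false
open scoped Pointwise
open Cfsg

namespace Cfsg.Agent.S1552

/-- A sextet stabiliser has four orbits on the 1771 sextets, of sizes 1, 90, 240, 1440; and the stabiliser is a maximal proper subgroup. -/
theorem result (S : Finset (Finset Cfsg.GolayPt)) (hS : S ∈ Cfsg.sextets) : ∃ X₁ ∈ Cfsg.sextets, ∃ X₂ ∈ Cfsg.sextets, ∃ X₃ ∈ Cfsg.sextets, (MulAction.orbit ↥(MulAction.stabilizer Cfsg.M24 S) X₁).ncard = 90 ∧ (MulAction.orbit ↥(MulAction.stabilizer Cfsg.M24 S) X₂).ncard = 240 ∧ (MulAction.orbit ↥(MulAction.stabilizer Cfsg.M24 S) X₃).ncard = 1440 ∧ Cfsg.sextets = {S} ∪ MulAction.orbit ↥(MulAction.stabilizer Cfsg.M24 S) X₁ ∪ MulAction.orbit ↥(MulAction.stabilizer Cfsg.M24 S) X₂ ∪ MulAction.orbit ↥(MulAction.stabilizer Cfsg.M24 S) X₃ ∧ IsCoatom (MulAction.stabilizer Cfsg.M24 S) := by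
  have hbase : Cfsg.Agent.Helper1.Golay.famOf Cfsg.Agent.Helper1.Golay.laSS ∈ Cfsg.sextets := by
    have e : Cfsg.Agent.Helper1.Golay.laSS = Cfsg.Agent.Helper1.Golay.sextTb 0 := by
      decide +kernel
    rw [e]
    exact Cfsg.Agent.Helper1.Golay.sext_base
  obtain ⟨hO, hself⟩ := Cfsg.Agent.Helper1.Golay.orbData_any
    Cfsg.Agent.Helper1.Golay.sext_isTable hbase Cfsg.Agent.Helper1.Golay.orbSS
    Cfsg.Agent.Helper1.Golay.sextets_inv S hS
  have hs : Cfsg.Agent.Helper1.Golay.famType S S = 96 := by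
    rw [hself, Cfsg.Agent.Helper1.Golay.famType_famOf Cfsg.Agent.Helper1.Golay.laSS_good
      Cfsg.Agent.Helper1.Golay.laSS_good]
    decide +kernel
  have hTs : ({32, 36, 48, 96} : Finset ℕ) = {96, 48, 36, 32} := by decide
  obtain ⟨X₁, h1, X₂, h2, X₃, h3, c1, c2, c3, hU⟩ :=
    Cfsg.Agent.Helper1.Golay.orbits3_self hO Cfsg.Agent.Helper1.Golay.sextets_inv hS hTs hs
      (by decide) (by decide) (by decide) (by decide)
  refine ⟨X₁, h1, X₂, h2, X₃, h3, c1.trans (by decide), c2.trans (by decide),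
    c3.trans (by decide), hU, ?_⟩
  refine Cfsg.Agent.Helper1.Golay.isCoatom_of_table Cfsg.Agent.Helper1.Golay.sext_isTable
    Cfsg.Agent.Helper1.Golay.sextets_inv
    (by rw [Cfsg.Agent.Helper1.Golay.sextets_ncard]; norm_num) hO hS hs (by decide) ?_
  decide


end Cfsg.Agent.S1552
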