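import Cfsg.Statements.S1559
import Mathlib
import Cfsg.Agent.Helper1.FamITT
import Cfsg.Agent.Helper1.FamFinal

set_option autoImplicit false
open scoped Pointwise
open Cfsg

namespace Cfsg.Agent.S1559

/-- A trio stabiliser has five orbits on the 3795 trios, of sizes 1, 42, 56, 1008, 2688; and the stabiliser is a maximal proper subgroup. -/
theorem result (T : Finset (Finset Cfsg.GolayPt)) (hT : T ∈ Cfsg.trios) : ∃ X₁ ∈ Cfsg.trios, ∃ X₂ ∈ Cfsg.trios, ∃ X₃ ∈ Cfsg.trios, ∃ X₄ ∈ Cfsg.trios, (MulAction.orbit ↥(MulAction.stabilizer Cfsg.M24 T) X₁).ncard = 42 ∧ (MulAction.orbit ↥(MulAction.stabilizer Cfsg.M24 T) X₂).ncard = 56 ∧ (MulAction.orbit ↥(MulAction.stabilizer Cfsg.M24 T) X₃).ncard = 1008 ∧ (MulAction.orbit ↥(MulAction.stabilizer Cfsg.M24 T) X₄).ncard = 2688 ∧ Cfsg.trios = {T} ∪ MulAction.orbit ↥(MulAction.stabilizer Cfsg.M24 T) X₁ ∪ MulAction.orbit ↥(MulAction.stabilizer Cfsg.M24 T) X₂ ∪ MulAction.orbit ↥(MulAction.stabilizer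 Cfsg.M24 T) X₃ ∪ MulAction.orbit ↥(MulAction.stabilizer Cfsg.M24 T) X₄ ∧ IsCoatom (MulAction.stabilizer Cfsg.M24 T) := by
  have hbase : Cfsg.Agent.Helper1.Golay.famOf Cfsg.Agent.Helper1.Golay.laTT ∈ Cfsg.trios := by
    have e : Cfsg.Agent.Helper1.Golay.laTT = Cfsg.Agent.Helper1.Golay.trioTb 0 := by
      decide +kernel
    rw [e]
    exact Cfsg.Agent.Helper1.Golay.trio_base
  obtain ⟨hO, hself⟩ := Cfsg.Agent.Helper1.Golay.orbData_any
    Cfsg.Agent.Helper1.Golay.trio_isTable hbase Cfsg.Agent.Helper1.Golay.orbTT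
    Cfsg.Agent.Helper1.Golay.trios_inv T hT
  have hs : Cfsg.Agent.Helper1.Golay.famType T T = 192 := by
    rw [hself, Cfsg.Agent.Helper1.Golay.famType_famOf Cfsg.Agent.Helper1.Golay.laTT_good
      Cfsg.Agent.Helper1.Golay.laTT_good]
    decide +kernel
  have hTs : ({72, 80, 96, 128, 192} : Finset ℕ) = {192, 128, 96, 80, 72} := by decide
  obtain ⟨X₁, h1, X₂, h2, X₃, h3, X₄, h4, c1, c2, c3, c4, hU⟩ :=
    Cfsg.Agent.Helper1.Golay.orbits4_self hO Cfsg.Agent.Helper1.Golay.trios_inv hT hTs hs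
      (by decide) (by decide) (by decide) (by decide) (by decide)
  refine ⟨X₁, h1, X₂, h2, X₃, h3, X₄, h4, c1.trans (by decide), c2.trans (by decide),
    c3.trans (by decide), c4.trans (by decide), hU, ?_⟩
  refine Cfsg.Agent.Helper1.Golay.isCoatom_of_table Cfsg.Agent.Helper1.Golay.trio_isTable
    Cfsg.Agent.Helper1.Golay.trios_inv
    (by rw [Cfsg.Agent.Helper1.Golay.trios_ncard]; norm_num) hO hT hs (by decide) ?_
  decide


end Cfsg.Agent.S1559
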