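import Cfsg.Statements.S1587

set_option autoImplicit false
open Matrix
open Cfsg

namespace Cfsg.Agent.S1587

/-- First step of the characterisation of the rank-24 lattice: in an even lattice without roots, norm-8 vectors congruent modulo 2 are equal, opposite or orthogonal. -/
theorem result (B : Matrix (Fin 24) (Fin 24) ℤ) (hsymm : B.IsSymm) (hpos : ∀ x : Fin 24 → ℤ, x ≠ 0 → 0 < x ⬝ᵥ (B *ᵥ x)) (heven : ∀ x : Fin 24 → ℤ, (2 : ℤ) ∣ x ⬝ᵥ (B *ᵥ x)) (h2 : ∀ x : Fin 24 → ℤ, x ⬝ᵥ (B *ᵥ x) ≠ 2) (x y : Fin 24 → ℤ) (hx : x ⬝ᵥ (B *ᵥ x) = 8) (hy : y ⬝ᵥ (B *ᵥ y) = 8) (hc : ∀ i, (2 : ℤ) ∣ (x - y) i) : y = x ∨ y = -x ∨ x ⬝ᵥ (B *ᵥ y) = 0 := by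
  have hsymm' : ∀ u v : Fin 24 → ℤ, u ⬝ᵥ (B *ᵥ v) = v ⬝ᵥ (B *ᵥ u) := by
    intro u v
    rw [Matrix.dotProduct_mulVec, ← Matrix.mulVec_transpose, hsymm.eq, dotProduct_comm]
  have hq : ∀ u v : Fin 24 → ℤ, (u + v) ⬝ᵥ (B *ᵥ (u + v))
      = u ⬝ᵥ (B *ᵥ u) + 2 * (u ⬝ᵥ (B *ᵥ v)) + v ⬝ᵥ (B *ᵥ v) := by
    intro u v
    rw [Matrix.mulVec_add, add_dotProduct, dotProduct_add, dotProduct_add, hsymm' v u]
    ring
  have hsc : ∀ (c : ℤ) (u : Fin 24 → ℤ), (c • u) ⬝ᵥ (B *ᵥ (c • u)) = c * c * (u ⬝ᵥ (B *ᵥ u)) := by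
    intro c u
    rw [Matrix.mulVec_smul, smul_dotProduct, dotProduct_smul, smul_eq_mul, smul_eq_mul]
    ring
  -- z and w
  have hz : ∃ z : Fin 24 → ℤ, x - y = (2 : ℤ) • z := by
    choose z hz using hc
    exact ⟨z, funext fun i => by rw [hz i]; simp⟩
  obtain ⟨z, hz⟩ := hz
  have hw : x + y = (2 : ℤ) • (z + y) := by
    have : x = (2 : ℤ) • z + y := by rw [← hz]; abel
    rw [this]; ext i; simp; ring
  have hqz := hsc 2 z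
  have hqw := hsc 2 (z + y)
  rw [← hz] at hqz
  rw [← hw] at hqw
  have e1 : (x - y) ⬝ᵥ (B *ᵥ (x - y)) = 16 - 2 * (x ⬝ᵥ (B *ᵥ y)) := by
    have h := hq x (-y)
    have h2 : x + -y = x - y := by abel
    rw [h2] at h
    rw [h, Matrix.mulVec_neg, dotProduct_neg, neg_dotProduct, dotProduct_neg, neg_neg, hx, hy]
    ring
  have e2 : (x + y) ⬝ᵥ (B *ᵥ (x + y)) = 16 + 2 * (x ⬝ᵥ (B *ᵥ y)) := by
    rw [hq x y, hx, hy]; ring
  rw [e1] at hqz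
  rw [e2] at hqw
  by_cases hz0 : z = 0
  · left
    rw [hz0, smul_zero] at hz
    exact (sub_eq_zero.mp hz).symm
  by_cases hw0 : z + y = 0
  · right; left
    rw [hw0, smul_zero] at hw
    exact (eq_neg_of_add_eq_zero_right hw)
  right; right
  have pz := hpos z hz0
  have pw := hpos (z + y) hw0
  obtain ⟨a, ha⟩ := heven z
  obtain ⟨b, hb⟩ := heven (z + y)
  have nz := h2 z
  have nw := h2 (z + y)
  rw [ha] at hqz pz nz
  rw [hb] at hqw pw nw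
  omega

end Cfsg.Agent.S1587
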