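import Cfsg.Statements.S1591
import Mathlib

set_option autoImplicit false
open Cfsg

namespace Cfsg.Agent.S1591

/-- Any two words of the length-12 ternary code have dot product zero. -/
theorem result (x y : Cfsg.ArrayPt → ZMod 3) (hx : x ∈ Cfsg.ternaryGolayCode) (hy : y ∈ Cfsg.ternaryGolayCode) : ∑ p, x p * y p = 0 := by
  obtain ⟨s, hs, hs'⟩ := hx
  obtain ⟨s₂, hs₂, hs₂'⟩ := hy
  have hz3 : ∀ f : ZMod 3 → ZMod 3, ∑ r : ZMod 3, f r = f 0 + f 1 + f 2 :=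
    fun f => Fin.sum_univ_three f
  have h3 : (3 : ZMod 3) = 0 := by decide
  have m1 : (![1, 0, 1, 2] : Fin 4 → ZMod 3) ∈ Cfsg.tetracode :=
    Submodule.subset_span (Set.mem_insert_of_mem _ (Set.mem_singleton _))
  have m3 : (![0, 1, 1, 1] : Fin 4 → ZMod 3) ∈ Cfsg.tetracode :=
    Submodule.subset_span (Set.mem_insert _ _)
  have hxc0 := hs 0
  have hxc1 := hs 1
  have hxc2 := hs 2
  have hxc3 := hs 3
  have hyc0 := hs₂ 0
  have hyc1 := hs₂ 1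
  have hyc2 := hs₂ 2
  have hyc3 := hs₂ 3
  simp only [hz3] at hxc0 hxc1 hxc2 hxc3 hyc0 hyc1 hyc2 hyc3
  have hxe0 := hs' 0 (Submodule.zero_mem _)
  have hye0 := hs₂' 0 (Submodule.zero_mem _)
  have hxe1 := hs' _ m1
  have hye1 := hs₂' _ m1
  have hxe3 := hs' _ m3
  have hye3 := hs₂' _ m3
  simp [Fin.sum_univ_four] at hxe0 hye0 hxe1 hye1 hxe3 hye3
  rw [Fintype.sum_prod_type]
  simp only [Fin.sum_univ_four, hz3]
  linear_combination (-y (1, 2) - y (2, 1) + y (3, 0) - y (3, 1) - y (3, 2)) * hxc0 + (y (1, 2)) * hxc1 + (y (2, 2)) * hxc2 + (y (2, 1) - y (2, 2) - y (3, 1) - y (3, 2)) * hxc3 + (-y (2, 1) + y (2, 2) + y (3, 0) + y (3, 1) + y (3, 2)) * hxe0 + (-y (2, 1) + y (2, 2) + y (3, 1) - y (3, 2)) * hxe1 + (-y (2, 1) + y (2, 2) - y (3, 1) + y (3, 2)) * hxe3 + (x (0, 2)) * hyc0 + (x (0, 0) + x (0, 1) + x (0, 2) - x (1, 0) - x (1, 1)) * hyc1 + (x (0, 0)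 - x (0, 1) + x (1, 0) - x (1, 1) + x (2, 0)) * hyc2 + (-x (0, 0) + x (0, 1) - x (0, 2) - x (1, 1) - x (2, 0)) * hyc3 + (-x (0, 0) + x (0, 1) - x (1, 0) + x (1, 1)) * hye0 + (x (0, 1) - x (0, 2)) * hye1 + (-x (0, 0) - x (0, 1) - x (0, 2) + x (1, 0) - x (1, 1)) * hye3 + ((1) * x (0, 0) * y (0, 0) + (1) * x (0, 0) * y (2, 1) + (-1) * x (0, 0) * y (2, 2) + (1) * x (0, 0) * y (3, 1) + (-1) * x (0, 0) * s₂ + (-1) * x (0, 1) * y (1, 0) + (1) * x (0, 1) * y (2, 1) + (-1) * x (0, 1) * y (3, 0) + (1) * x (0, 2) * y (2, 1) + (1) * x (0, 2) * y (3, 1) + (1) * x (0, 2) * y (3, 2) + (-1) * x (0, 2) * s₂ + (1) * x (1, 0) * y (1, 0) + (-1) * x (1, 0) * y (2, 2) + (-1) * x (1, 0) * y (3, 1) + (1) * x (1, 1) * y (1, 1) + (1) * x (1, 1) * y (2, 1) + (1) * x (1, 1) * y (3, 1) + (1) * x (1, 1) * s₂ + (-1) * x (2, 0) * y (2, 2) + (1) * x (2, 1) * y (2, 1) + (-1) * x (2,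 1) * y (2, 2) + (1) * x (3, 1) * y (3, 1) + (1) * x (3, 2) * y (3, 2) + (-1) * s * y (2, 1) + (1) * s * y (2, 2) + (1) * s * y (3, 1) + (1) * s * y (3, 2)) * h3

end Cfsg.Agent.S1591
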