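import Cfsg.Statements.S1593
import Mathlib

set_option autoImplicit false
open Cfsg

namespace Cfsg.Agent.S1593

/-- The only sign changes preserving the length-12 ternary code are the identity and negation of all coordinates. -/
theorem result (c : Cfsg.ArrayPt → (ZMod 3)ˣ) (h : (∀ x ∈ Cfsg.ternaryGolayCode, Cfsg.monomialMap 1 c x ∈ Cfsg.ternaryGolayCode)) : (∀ p, c p = 1) ∨ (∀ p, c p = -1) := by
  have hz3 : ∀ f : ZMod 3 → ZMod 3, ∑ r : ZMod 3, f r = f 0 + f 1 + f 2 :=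
    fun f => Fin.sum_univ_three f
  have hmm : ∀ x : Cfsg.ArrayPt → ZMod 3,
      Cfsg.monomialMap 1 c x = fun p => (c p : ZMod 3) * x p := fun x => rfl
  have hu3 : ∀ a b d : (ZMod 3)ˣ, (a : ZMod 3) + b + d = 0 → a = b ∧ b = d := by decide
  have hu1 : ∀ a : (ZMod 3)ˣ, a = 1 ∨ a = -1 := by decide
  have hy3 : ∀ y : ZMod 3, y + y + y = -0 := by decide
  have hW : ∀ a : Fin 4 → ZMod 3, ∑ i, a i = 0 →
      (fun p : Cfsg.ArrayPt => a p.1) ∈ Cfsg.ternaryGolayCode := by
    intro a ha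
    have hw : Cfsg.IsTernaryGolayWord (fun p : Cfsg.ArrayPt => a p.1) := by
      refine ⟨0, fun i => ?_, fun t _ => ?_⟩
      · rw [hz3]
        exact hy3 (a i)
      · exact ha
    exact hw
  have key : ∀ (j k : Fin 4) (a : Fin 4 → ZMod 3), a j = 1 → a k = 0 → ∑ i, a i = 0 →
      c (j, 0) = c (j, 1) ∧ c (j, 1) = c (j, 2) := by
    intro j k a haj hak hsum
    obtain ⟨s, hs1, -⟩ := h _ (hW a hsum)
    have e1 := hs1 k
    have e2 := hs1 j
    rw [hz3] at e1 e2
    simp only [hmm, hak, haj, mul_zero, mul_one, add_zero] at e1 e2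
    have hs0 : s = 0 := neg_eq_zero.mp e1.symm
    rw [hs0, neg_zero] at e2
    exact hu3 _ _ _ e2
  have k0 := key 0 2 ![1, -1, 0, 0] rfl rfl (by decide)
  have k1 := key 1 3 ![0, 1, -1, 0] rfl rfl (by decide)
  have k2 := key 2 0 ![0, 0, 1, -1] rfl rfl (by decide)
  have k3 := key 3 1 ![-1, 0, 0, 1] rfl rfl (by decide)
  have htet : ∀ a b : ZMod 3, ∑ i : Fin 4,
      (if (a • ![0, 1, 1, 1] + b • ![1, 0, 1, 2] : Fin 4 → ZMod 3) i = 0 then (1 : ZMod 3)
        else -1) = 1 := by decide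
  have hx0 : (fun p : Cfsg.ArrayPt => if p.2 = 0 then (1 : ZMod 3) else -1)
      ∈ Cfsg.ternaryGolayCode := by
    have hw : Cfsg.IsTernaryGolayWord
        (fun p : Cfsg.ArrayPt => if p.2 = 0 then (1 : ZMod 3) else -1) := by
      refine ⟨1, fun i => ?_, fun t ht => ?_⟩
      · rw [hz3]
        have h3 : ((if (0 : ZMod 3) = 0 then (1 : ZMod 3) else -1)
            + (if (1 : ZMod 3) = 0 then (1 : ZMod 3) else -1)
            + (if (2 : ZMod 3) = 0 then (1 : ZMod 3) else -1)) = -1 := by decide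
        exact h3
      · obtain ⟨a, b, rfl⟩ := Submodule.mem_span_pair.mp ht
        exact htet a b
    exact hw
  obtain ⟨s, hs1, -⟩ := h _ hx0
  have hcol : ∀ i : Fin 4, c (i, 0) = c (i, 1) → c (i, 1) = c (i, 2) →
      ((c (i, 0) : (ZMod 3)ˣ) : ZMod 3) = s := by
    intro i h01 h12
    have e := hs1 i
    rw [hz3] at e
    simp only [hmm] at e
    rw [← h12, ← h01] at e
    have e' : ((c (i, 0) : (ZMod 3)ˣ) : ZMod 3) * 1 + (c (i, 0) : ZMod 3) * (-1)
        + (c (i, 0) : ZMod 3) * (-1) = -s := e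
    have hgen : ∀ y z : ZMod 3, y * 1 + y * (-1) + y * (-1) = -z → y = z := by decide
    exact hgen _ _ e'
  have hall : ∀ p : Cfsg.ArrayPt, ((c p : (ZMod 3)ˣ) : ZMod 3) = s := by
    rintro ⟨i, r⟩
    have hi : ∀ i : Fin 4, c (i, 0) = c (i, 1) ∧ c (i, 1) = c (i, 2) := by
      intro i
      fin_cases i
      · exact k0
      · exact k1
      · exact k2
      · exact k3
    have h0 := hcol i (hi i).1 (hi i).2
    fin_cases r
    · exact h0
    · show ((c (i, 1) : (ZMod 3)ˣ) : ZMod 3) = s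
      rw [← (hi i).1]
      exact h0
    · show ((c (i, 2) : (ZMod 3)ˣ) : ZMod 3) = s
      rw [← (hi i).2, ← (hi i).1]
      exact h0
  have heq : ∀ p q : Cfsg.ArrayPt, c p = c q := fun p q => Units.ext (by rw [hall p, hall q])
  rcases hu1 (c (0, 0)) with h1 | h1
  · left
    intro p
    rw [heq p (0, 0), h1]
  · right
    intro p
    rw [heq p (0, 0), h1]


end Cfsg.Agent.S1593
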