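import Cfsg.Statements.S1595
import Mathlib
import Cfsg.Agent.Helper1.Steiner3

set_option autoImplicit false
open Cfsg

namespace Cfsg.Agent.S1595

/-- Leech triangle of S(5, 6, 12): blocks meet in 0, 2, 3 or 4 points, and a block is met exactly in a given 2-, 3- or 4-subset by 3, 2, 3 blocks respectively. -/
theorem result {α : Type*} [Fintype α] [DecidableEq α] (hα : Fintype.card α = 12) {B : Set (Finset α)} (hB : Cfsg.IsSteinerSystem 5 6 B) (b : Finset α) (hb : b ∈ B) : (∀ c ∈ B, c ≠ b → (b ∩ c).card = 0 ∨ (b ∩ c).card = 2 ∨ (b ∩ c).card = 3 ∨ (b ∩ c).card = 4) ∧ ∀ s ⊆ b, (s.card = 2 → {c : Finset α | c ∈ B ∧ b ∩ c = s}.ncard = 3) ∧ (s.card = 3 → {c : Finset α | c ∈ B ∧ b ∩ c = s}.ncard = 2) ∧ (s.card = 4 → {c : Finset α | c ∈ B ∧ b ∩ c = s}.ncard = 3) := by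
  obtain ⟨h1, h2⟩ := Cfsg.Agent.Helper1.leech_5_6_12 hα hB b hb
  refine ⟨h1, fun s hs => ?_⟩
  obtain ⟨a2, a3, a4⟩ := h2 s hs
  refine ⟨fun h => ?_, fun h => ?_, fun h => ?_⟩
  · rw [Cfsg.Agent.Helper1.ncard_setOf_exact]
    exact a2 h
  · rw [Cfsg.Agent.Helper1.ncard_setOf_exact]
    exact a3 h
  · rw [Cfsg.Agent.Helper1.ncard_setOf_exact]
    exact a4 h


end Cfsg.Agent.S1595
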