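import Cfsg.Statements.S1600
import Mathlib
import Cfsg.Agent.Helper1.M12three

set_option autoImplicit false
open scoped Pointwise
open Cfsg

namespace Cfsg.Agent.S1600

/-- The pointwise stabiliser of three points of a dodecad inside the dodecad stabiliser (order 72) is transitive on the complementary dodecad. -/
theorem result (d : Finset Cfsg.GolayPt) (hd : d ∈ Cfsg.dodecads) (p q r : Cfsg.GolayPt) (hp : p ∈ d) (hq : q ∈ d) (hr : r ∈ d) (hpq : p ≠ q) (hpr : p ≠ r) (hqr : q ≠ r) : Nat.card ↥(MulAction.stabilizer Cfsg.M24 d ⊓ MulAction.stabilizer Cfsg.M24 p ⊓ MulAction.stabilizer Cfsg.M24 q ⊓ MulAction.stabilizer Cfsg.M24 r) = 72 ∧ ∀ x ∉ d, ∀ y ∉ d, ∃ g ∈ (MulAction.stabilizer Cfsg.M24 d ⊓ MulAction.stabilizer Cfsg.M24 p ⊓ MulAction.stabilizer Cfsg.M24 q ⊓ MulAction.stabilizer Cfsg.M24 r), ((g : ↥Cfsg.M24) : Equiv.Perm Cfsg.GolayPt) x = y := by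
  refine ⟨Cfsg.Agent.Helper1.Golay.card_m12_three_stab d hd p q r hp hq hr hpq hpr hqr, ?_⟩
  intro x hx y hy
  obtain ⟨g, hg, hgd, hgp, hgq, hgr, hgx⟩ :=
    Cfsg.Agent.Helper1.Golay.m12_three_stab_trans d hd p q r hp hq hr hpq hpr hqr x y hx hy
  refine ⟨⟨g, hg⟩, ?_, hgx⟩
  exact Subgroup.mem_inf.mpr ⟨Subgroup.mem_inf.mpr ⟨Subgroup.mem_inf.mpr
    ⟨MulAction.mem_stabilizer_iff.mpr hgd, MulAction.mem_stabilizer_iff.mpr hgp⟩,
    MulAction.mem_stabilizer_iff.mpr hgq⟩, MulAction.mem_stabilizer_iff.mpr hgr⟩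


end Cfsg.Agent.S1600
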