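import Cfsg.Statements.S1691

set_option autoImplicit false
open Cfsg

namespace Cfsg.Agent.S1691

theorem eq_of_braid {A : Type*} [CommGroup A] (a b : A) (ha : a * a = 1) (hb : b * b = 1)
    (hab : (a * b) ^ 3 = 1) : a = b := by
  have h3 : (a * b) ^ 3 = (a * a) * (b * b) * (a * b) := by
    rw [pow_succ, pow_two]; ac_rfl
  rw [h3, ha, hb, one_mul, one_mul] at hab
  calc a = a * (b * b) := by rw [hb, mul_one]
    _ = (a * b) * b := by rw [mul_assoc]
    _ = b := by rw [hab, one_mul]

open Cfsg.Spor in
theorem fi24_rel (x y : Fi24.Gen) (hx : x ∈ coxNodes Fi24.edges) (hy : y ∈ coxNodes Fi24.edges) :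
    ((PresentedGroup.of x : Fi24) * PresentedGroup.of y) ^ coxLabel Fi24.edges x y = 1 := by
  have h : (FreeGroup.of x * FreeGroup.of y) ^ coxLabel Fi24.edges x y
      ∈ (coxRelators Fi24.edges ∪ {r | r ∈ Fi24.extra}) :=
    Or.inl ⟨x, hx, y, hy, rfl⟩
  have h1 := PresentedGroup.one_of_mem h
  rw [map_pow, map_mul] at h1
  exact h1

open Cfsg.Spor in
theorem fi24_ab_sq (x : Fi24.Gen) :
    (Abelianization.of (PresentedGroup.of x : Fi24)) * Abelianization.of (PresentedGroup.of x : Fi24) = 1 := by
  have h := fi24_rel x x (by cases x <;> decide) (by cases x <;> decide)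
  have hl : coxLabel Fi24.edges x x = 1 := by cases x <;> decide
  rw [hl, pow_one] at h
  rw [← map_mul, h, map_one]

open Cfsg.Spor in
theorem fi24_ab_edge (x y : Fi24.Gen) (hl : coxLabel Fi24.edges x y = 3) :
    (Abelianization.of (PresentedGroup.of x : Fi24)) = Abelianization.of (PresentedGroup.of y : Fi24) := by
  have h := fi24_rel x y (by cases x <;> decide) (by cases y <;> decide)
  rw [hl] at h
  refine eq_of_braid _ _ (fi24_ab_sq x) (fi24_ab_sq y) ?_
  rw [← map_mul, ← map_pow, h, map_one]

open Cfsg.Spor in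
theorem fi24_ab_all (x : Fi24.Gen) :
    (Abelianization.of (PresentedGroup.of x : Fi24)) = Abelianization.of (PresentedGroup.of Fi24.Gen.d : Fi24) := by
  have hlk := fi24_ab_edge .l .k (by decide)
  have hka := fi24_ab_edge .k .a (by decide)
  have hab := fi24_ab_edge .a .b (by decide)
  have hbc := fi24_ab_edge .b .c (by decide)
  have hcd := fi24_ab_edge .c .d (by decide)
  have hed := fi24_ab_edge .e .d (by decide)
  have hhd := fi24_ab_edge .h .d (by decide)
  have hfe := fi24_ab_edge .f .e (by decide)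
  have hgf := fi24_ab_edge .g .f (by decide)
  have hjg := fi24_ab_edge .j .g (by decide)
  have hih := fi24_ab_edge .i .h (by decide)
  cases x
  · rw [hlk, hka, hab, hbc, hcd]
  · rw [hka, hab, hbc, hcd]
  · rw [hab, hbc, hcd]
  · rw [hbc, hcd]
  · rw [hcd]
  · rfl
  · rw [hed]
  · rw [hfe, hed]
  · rw [hgf, hfe, hed]
  · rw [hjg, hgf, hfe, hed]
  · rw [hhd]
  · rw [hih, hhd]

/-- The commutator subgroup of the presented group Fi₂₄ has index 2 (the presented group is Fi₂₄′:2 with Fi₂₄′ its derived subgroup). -/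
theorem result : (commutator Cfsg.Spor.Fi24).index = 2 := by
  classical
  -- the abelianization is generated by one involution
  obtain ⟨t, ht⟩ : ∃ t : Abelianization Cfsg.Spor.Fi24,
      t = Abelianization.of (PresentedGroup.of Cfsg.Spor.Fi24.Gen.d : Cfsg.Spor.Fi24) := ⟨_, rfl⟩
  have htt : t * t = 1 := by rw [ht]; exact fi24_ab_sq _
  have hall : ∀ u : Abelianization Cfsg.Spor.Fi24, u ∈ Subgroup.zpowers t := by
    intro u
    obtain ⟨w, rfl⟩ := QuotientGroup.mk_surjective u
    have hw : w ∈ Subgroup.closure (Set.range (PresentedGroup.of :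
        Cfsg.Spor.Fi24.Gen → Cfsg.Spor.Fi24)) := by
      rw [PresentedGroup.closure_range_of]; exact Subgroup.mem_top _
    induction hw using Subgroup.closure_induction with
    | mem x hx =>
      obtain ⟨y, rfl⟩ := hx
      have := fi24_ab_all y
      rw [← ht] at this
      change Abelianization.of (PresentedGroup.of y) ∈ _
      rw [this]; exact Subgroup.mem_zpowers t
    | one => exact Subgroup.one_mem _
    | mul x y _ _ hx hy => exact Subgroup.mul_mem _ hx hy
    | inv x _ hx => exact Subgroup.inv_mem _ hx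
  have hcard : Nat.card (Abelianization Cfsg.Spor.Fi24) ∣ 2 := by
    have h1 : Subgroup.zpowers t = ⊤ := by
      rw [eq_top_iff]; intro u _; exact hall u
    have h2 : Nat.card (Subgroup.zpowers t) = orderOf t := Nat.card_zpowers t
    rw [h1, Subgroup.card_top] at h2
    rw [h2]
    exact orderOf_dvd_of_pow_eq_one (by rw [pow_two]; exact htt)
  have hidx : (commutator Cfsg.Spor.Fi24).index ∣ 2 := by
    rw [Subgroup.index_eq_card]; exact hcard
  -- the sign map
  have hrel : ∀ r ∈ (Cfsg.Spor.coxRelators Cfsg.Spor.Fi24.edges ∪ {r | r ∈ Cfsg.Spor.Fi24.extra}),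
      FreeGroup.lift (fun _ : Cfsg.Spor.Fi24.Gen => Multiplicative.ofAdd (1 : ZMod 2)) r = 1 := by
    intro r hr
    rcases hr with ⟨x, _, y, _, rfl⟩ | hr
    · rw [map_pow, map_mul, FreeGroup.lift_apply_of, FreeGroup.lift_apply_of]
      have : Multiplicative.ofAdd (1 : ZMod 2) * Multiplicative.ofAdd (1 : ZMod 2) = 1 := by decide
      rw [this, one_pow]
    · have hr' : r ∈ Cfsg.Spor.Fi24.extra := hr
      unfold Cfsg.Spor.Fi24.extra at hr'
      simp only [List.mem_cons, List.mem_nil_iff, or_false] at hr'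
      rcases hr' with rfl | rfl
      · simp only [map_mul, map_inv, map_pow, FreeGroup.lift_apply_of]
        decide
      · simp only [map_mul, map_inv, map_pow, FreeGroup.lift_apply_of]
        decide
  have hne : commutator Cfsg.Spor.Fi24 ≠ ⊤ := by
    intro htop
    have hmem : (PresentedGroup.of Cfsg.Spor.Fi24.Gen.l : Cfsg.Spor.Fi24) ∈ commutator Cfsg.Spor.Fi24 := by
      rw [htop]; exact Subgroup.mem_top _
    have hk := Abelianization.commutator_subset_ker (PresentedGroup.toGroup hrel) hmem
    rw [MonoidHom.mem_ker, PresentedGroup.toGroup.of] at hk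
    exact absurd hk (by decide)
  have h1 : (commutator Cfsg.Spor.Fi24).index ≠ 1 := by
    intro h; exact hne (Subgroup.index_eq_one.mp h)
  have h2 : (commutator Cfsg.Spor.Fi24).index ≤ 2 := Nat.le_of_dvd (by norm_num) hidx
  have h0 : (commutator Cfsg.Spor.Fi24).index ≠ 0 := by
    intro h; rw [h] at hidx; exact absurd hidx (by norm_num)
  omega

end Cfsg.Agent.S1691
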