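import Cfsg.Statements.S1717
import Mathlib

set_option autoImplicit false
open Cfsg

namespace Cfsg.Agent.S1717

section s1717

/-- rank function for the order `0 ≺ 2 ≺ 3 ≺ 4 ≺ 1`. -/
def rk5 : Fin 5 → ℕ := ![0, 4, 1, 2, 3]

lemma rk5_le (i : Fin 5) : rk5 i ≤ 4 := by fin_cases i <;> simp [rk5]

lemma rk5_lt_one (i : Fin 5) (h : i ≠ 1) : rk5 i < rk5 1 := by
  fin_cases i <;> simp [rk5] at h ⊢

lemma rk5_zero_lt (i : Fin 5) (h : i ≠ 0) : rk5 0 < rk5 i := by
  fin_cases i <;> simp [rk5] at h ⊢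

def SUT5 (N : Matrix (Fin 5) (Fin 5) (ZMod 2)) : Prop := ∀ i j, N i j ≠ 0 → rk5 i < rk5 j

lemma sut_add {N N' : Matrix (Fin 5) (Fin 5) (ZMod 2)} (h : SUT5 N) (h' : SUT5 N') :
    SUT5 (N + N') := by
  intro i j hij
  by_contra hlt
  apply hij
  have h1 : N i j = 0 := by by_contra h0; exact hlt (h i j h0)
  have h2 : N' i j = 0 := by by_contra h0; exact hlt (h' i j h0)
  rw [Matrix.add_apply, h1, h2, add_zero]

lemma sut_mul_gen {N N' : Matrix (Fin 5) (Fin 5) (ZMod 2)} {k : ℕ}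
    (h : ∀ i j, N i j ≠ 0 → rk5 i + k ≤ rk5 j) (h' : SUT5 N') :
    ∀ i j, (N * N') i j ≠ 0 → rk5 i + (k + 1) ≤ rk5 j := by
  intro i j hij
  rw [Matrix.mul_apply] at hij
  obtain ⟨l, -, hl⟩ := Finset.exists_ne_zero_of_sum_ne_zero hij
  have h1 : N i l ≠ 0 := left_ne_zero_of_mul hl
  have h2 : N' l j ≠ 0 := right_ne_zero_of_mul hl
  have := h i l h1
  have := h' l j h2
  omega

lemma sut_mul {N N' : Matrix (Fin 5) (Fin 5) (ZMod 2)} (h : SUT5 N) (h' : SUT5 N') :
    SUT5 (N * N') := by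
  intro i j hij
  have := sut_mul_gen (k := 1) (fun i j hij => h i j hij) h' i j hij
  omega

lemma sut_pow {N : Matrix (Fin 5) (Fin 5) (ZMod 2)} (h : SUT5 N) :
    ∀ k i j, (N ^ (k + 1)) i j ≠ 0 → rk5 i + (k + 1) ≤ rk5 j := by
  intro k
  induction k with
  | zero => intro i j hij; rw [zero_add, pow_one] at hij; exact h i j hij
  | succ k ih => intro i j hij; rw [pow_succ] at hij; exact sut_mul_gen ih h i j hij

lemma sut_pow_five {N : Matrix (Fin 5) (Fin 5) (ZMod 2)} (h : SUT5 N) : N ^ 5 = 0 := by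
  ext i j
  by_contra hij
  have := sut_pow h 4 i j hij
  have := rk5_le j
  omega

lemma ut_mul {g h : Matrix (Fin 5) (Fin 5) (ZMod 2)} (hg : SUT5 (g - 1)) (hh : SUT5 (h - 1)) :
    SUT5 (g * h - 1) := by
  have e : g * h - 1 = (g - 1) + (h - 1) + (g - 1) * (h - 1) := by noncomm_ring
  rw [e]; exact sut_add (sut_add hg hh) (sut_mul hg hh)

lemma ut_one : SUT5 ((1 : Matrix (Fin 5) (Fin 5) (ZMod 2)) - 1) := by
  rw [sub_self]; intro i j h; exact absurd rfl h

lemma ut_pow {g : Matrix (Fin 5) (Fin 5) (ZMod 2)} (hg : SUT5 (g - 1)) :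
    ∀ k : ℕ, SUT5 (g ^ k - 1) := by
  intro k
  induction k with
  | zero => rw [pow_zero]; exact ut_one
  | succ k ih => rw [pow_succ]; exact ut_mul ih hg

lemma ut_pow8 {g : Matrix (Fin 5) (Fin 5) (ZMod 2)} (hg : SUT5 (g - 1)) : g ^ 8 = 1 := by
  have h5 := sut_pow_five hg
  have h8 : (g - 1) ^ 2 ^ 3 = 0 := by
    rw [show 2 ^ 3 = 5 + 3 from rfl, pow_add, h5, zero_mul]
  have e : g = 1 + (g - 1) := by abel
  have h := add_pow_char_pow_of_commute (R := Matrix (Fin 5) (Fin 5) (ZMod 2)) 2 3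
    (Commute.one_left (g - 1))
  rw [h8, one_pow, add_zero, ← e] at h
  exact h

def P5 : Subgroup (Matrix.SpecialLinearGroup (Fin 5) (ZMod 2)) where
  carrier := {g | SUT5 ((g : Matrix (Fin 5) (Fin 5) (ZMod 2)) - 1)}
  mul_mem' := fun {a b} ha hb => by
    show SUT5 (((a * b : Matrix.SpecialLinearGroup (Fin 5) (ZMod 2)) :
      Matrix (Fin 5) (Fin 5) (ZMod 2)) - 1)
    rw [Matrix.SpecialLinearGroup.coe_mul]; exact ut_mul ha hb
  one_mem' := by
    show SUT5 (((1 : Matrix.SpecialLinearGroup (Fin 5) (ZMod 2)) :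
      Matrix (Fin 5) (Fin 5) (ZMod 2)) - 1)
    rw [Matrix.SpecialLinearGroup.coe_one]; exact ut_one
  inv_mem' := fun {a} ha => by
    have h8 : a ^ 8 = 1 := by
      apply Subtype.ext
      rw [Matrix.SpecialLinearGroup.coe_pow, Matrix.SpecialLinearGroup.coe_one]
      exact ut_pow8 ha
    have h7 : a⁻¹ = a ^ 7 := inv_eq_of_mul_eq_one_right (by rw [← pow_succ', h8])
    rw [h7]
    show SUT5 (((a ^ 7 : Matrix.SpecialLinearGroup (Fin 5) (ZMod 2)) :
      Matrix (Fin 5) (Fin 5) (ZMod 2)) - 1)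
    rw [Matrix.SpecialLinearGroup.coe_pow]; exact ut_pow ha 7

lemma mem_P5 (g : Matrix.SpecialLinearGroup (Fin 5) (ZMod 2)) :
    g ∈ P5 ↔ SUT5 ((g : Matrix (Fin 5) (Fin 5) (ZMod 2)) - 1) := Iff.rfl

lemma P5_pgroup : IsPGroup 2 ↥P5 := by
  intro g
  refine ⟨3, ?_⟩
  apply Subtype.ext
  rw [Subgroup.coe_pow, Subgroup.coe_one]
  apply Subtype.ext
  rw [Matrix.SpecialLinearGroup.coe_pow, Matrix.SpecialLinearGroup.coe_one]
  exact ut_pow8 g.2

def x5 (a b : Fin 5) (h : a ≠ b) : Matrix.SpecialLinearGroup (Fin 5) (ZMod 2) :=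
  ⟨Matrix.transvection a b 1, Matrix.det_transvection_of_ne a b h 1⟩

lemma sut_single (a b : Fin 5) (hr : rk5 a < rk5 b) :
    SUT5 (Matrix.single a b (1 : ZMod 2)) := by
  intro i j hij
  rw [Matrix.single_apply] at hij
  split_ifs at hij with h'
  · rw [← h'.1, ← h'.2]; exact hr
  · exact absurd rfl hij

lemma x5_mem (a b : Fin 5) (h : a ≠ b) (hr : rk5 a < rk5 b) : x5 a b h ∈ P5 := by
  show SUT5 (Matrix.transvection a b 1 - 1)
  rw [Matrix.transvection, add_sub_cancel_left]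
  exact sut_single a b hr

lemma s_mem_P5 (s : Matrix.SpecialLinearGroup (Fin 5) (ZMod 2))
    (hs : (s : Matrix (Fin 5) (Fin 5) (ZMod 2)) = Matrix.transvection 0 1 1) : s ∈ P5 := by
  show SUT5 ((s : Matrix (Fin 5) (Fin 5) (ZMod 2)) - 1)
  rw [hs, Matrix.transvection, add_sub_cancel_left]
  exact sut_single 0 1 (by simp [rk5])

lemma P5_le (s : Matrix.SpecialLinearGroup (Fin 5) (ZMod 2))
    (hs : (s : Matrix (Fin 5) (Fin 5) (ZMod 2)) = Matrix.transvection 0 1 1) :
    P5 ≤ Subgroup.centralizer ({s} : Set (Matrix.SpecialLinearGroup (Fin 5) (ZMod 2))) := by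
  intro g hg
  rw [Subgroup.mem_centralizer_iff]
  intro h hh
  rw [Set.mem_singleton_iff.1 hh]
  apply Subtype.ext
  rw [Matrix.SpecialLinearGroup.coe_mul, Matrix.SpecialLinearGroup.coe_mul, hs]
  have hN : SUT5 ((g : Matrix (Fin 5) (Fin 5) (ZMod 2)) - 1) := hg
  have e : (g : Matrix (Fin 5) (Fin 5) (ZMod 2)) =
      1 + ((g : Matrix (Fin 5) (Fin 5) (ZMod 2)) - 1) := by abel
  generalize (g : Matrix (Fin 5) (Fin 5) (ZMod 2)) - 1 = N at hN e
  have h1 : Matrix.single (0 : Fin 5) (1 : Fin 5) (1 : ZMod 2) * N = 0 := by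
    ext i j
    rw [Matrix.mul_apply]
    apply Finset.sum_eq_zero
    intro l _
    by_cases hNl : N l j = 0
    · rw [hNl, mul_zero]
    · have h1 := hN l j hNl
      have hl : l ≠ 1 := by
        rintro rfl
        have := rk5_le j
        have h4 : rk5 (1 : Fin 5) = 4 := rfl
        rw [h4] at h1
        omega
      rw [Matrix.single_apply, if_neg (fun hh => hl hh.2.symm), zero_mul]
  have h2 : N * Matrix.single (0 : Fin 5) (1 : Fin 5) (1 : ZMod 2) = 0 := by
    ext i j
    rw [Matrix.mul_apply]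
    apply Finset.sum_eq_zero
    intro l _
    by_cases hNl : N i l = 0
    · rw [hNl, zero_mul]
    · have h1 := hN i l hNl
      have hl : l ≠ 0 := by
        rintro rfl
        have h0 : rk5 (0 : Fin 5) = 0 := rfl
        rw [h0] at h1
        omega
      rw [Matrix.single_apply, if_neg (fun hh => hl hh.1.symm), mul_zero]
  rw [e, Matrix.transvection]
  generalize Matrix.single (0 : Fin 5) (1 : Fin 5) (1 : ZMod 2) = E at h1 h2
  calc (1 + E) * (1 + N) = 1 + E + N + E * N := by noncomm_ring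
    _ = 1 + N + E + N * E := by rw [h1, h2]; abel
    _ = (1 + N) * (1 + E) := by noncomm_ring

lemma zmod2_cases (x : ZMod 2) : x = 0 ∨ x = 1 := by
  revert x; decide

lemma cent_P5 (s : Matrix.SpecialLinearGroup (Fin 5) (ZMod 2))
    (hs : (s : Matrix (Fin 5) (Fin 5) (ZMod 2)) = Matrix.transvection 0 1 1)
    (g : Matrix.SpecialLinearGroup (Fin 5) (ZMod 2)) (hg : ∀ x ∈ P5, g * x = x * g) :
    g = 1 ∨ g = s := by
  have hcomm : ∀ a b : Fin 5, a ≠ b → rk5 a < rk5 b →
      (g : Matrix (Fin 5) (Fin 5) (ZMod 2)) * Matrix.single a b 1 =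
        Matrix.single a b 1 * (g : Matrix (Fin 5) (Fin 5) (ZMod 2)) := by
    intro a b hab hr
    have h1 := hg (x5 a b hab) (x5_mem a b hab hr)
    have h2 := congrArg (fun x : Matrix.SpecialLinearGroup (Fin 5) (ZMod 2) =>
      (x : Matrix (Fin 5) (Fin 5) (ZMod 2))) h1
    simp only [Matrix.SpecialLinearGroup.coe_mul] at h2
    have h3 : ((x5 a b hab : Matrix.SpecialLinearGroup (Fin 5) (ZMod 2)) :
        Matrix (Fin 5) (Fin 5) (ZMod 2)) = 1 + Matrix.single a b 1 := rfl
    rw [h3, mul_add, add_mul, mul_one, one_mul] at h2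
    exact add_left_cancel h2
  have hcol : ∀ i a : Fin 5, i ≠ a → a ≠ 1 → (g : Matrix (Fin 5) (Fin 5) (ZMod 2)) i a = 0 := by
    intro i a hia ha
    have h := congrFun (congrFun (hcomm a 1 ha (rk5_lt_one a ha)) i) 1
    rw [Matrix.mul_single_apply_same, Matrix.single_mul_apply_of_ne _ _ _ _ _ hia, mul_one] at h
    exact h
  have hrow : ∀ b j : Fin 5, j ≠ b → b ≠ 0 → (g : Matrix (Fin 5) (Fin 5) (ZMod 2)) b j = 0 := by
    intro b j hjb hb
    have h := congrFun (congrFun (hcomm 0 b (Ne.symm hb) (rk5_zero_lt b hb)) 0) j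
    rw [Matrix.single_mul_apply_same, Matrix.mul_single_apply_of_ne _ _ _ _ _ hjb, one_mul] at h
    exact h.symm
  have hdiag : ∀ b : Fin 5, b ≠ 0 → (g : Matrix (Fin 5) (Fin 5) (ZMod 2)) b b =
      (g : Matrix (Fin 5) (Fin 5) (ZMod 2)) 0 0 := by
    intro b hb
    have h := congrFun (congrFun (hcomm 0 b (Ne.symm hb) (rk5_zero_lt b hb)) 0) b
    rw [Matrix.single_mul_apply_same, Matrix.mul_single_apply_same, one_mul, mul_one] at h
    exact h.symm
  have hoff : ∀ i j : Fin 5, i ≠ j → ¬ (i = 0 ∧ j = 1) →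
      (g : Matrix (Fin 5) (Fin 5) (ZMod 2)) i j = 0 := by
    intro i j hij hne
    by_cases hj : j = 1
    · have hi : i ≠ 0 := fun h => hne ⟨h, hj⟩
      exact hrow i j (Ne.symm hij) hi
    · exact hcol i j hij hj
  have h00 : (g : Matrix (Fin 5) (Fin 5) (ZMod 2)) 0 0 = 1 := by
    rcases zmod2_cases ((g : Matrix (Fin 5) (Fin 5) (ZMod 2)) 0 0) with h | h
    · exfalso
      have hdet := g.2
      rw [Matrix.det_eq_zero_of_row_eq_zero (1 : Fin 5) (fun j => by
        by_cases hj : j = 1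
        · rw [hj, hdiag 1 (by decide), h]
        · exact hrow 1 j hj (by decide))] at hdet
      exact zero_ne_one hdet
    · exact h
  have hdiag' : ∀ b : Fin 5, (g : Matrix (Fin 5) (Fin 5) (ZMod 2)) b b = 1 := by
    intro b
    by_cases hb : b = 0
    · rw [hb, h00]
    · rw [hdiag b hb, h00]
  rcases zmod2_cases ((g : Matrix (Fin 5) (Fin 5) (ZMod 2)) 0 1) with h | h
  · left
    apply Subtype.ext
    rw [Matrix.SpecialLinearGroup.coe_one]
    ext i j
    by_cases hij : i = j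
    · rw [hij, hdiag', Matrix.one_apply_eq]
    · rw [Matrix.one_apply_ne hij]
      by_cases h01 : i = 0 ∧ j = 1
      · rw [h01.1, h01.2, h]
      · exact hoff i j hij h01
  · right
    apply Subtype.ext
    rw [hs, Matrix.transvection]
    ext i j
    rw [Matrix.add_apply, Matrix.single_apply]
    by_cases hij : i = j
    · rw [hij, hdiag', Matrix.one_apply_eq, if_neg, add_zero]
      rintro ⟨h1, h2⟩
      rw [← h1] at h2
      exact absurd h2 (by decide)
    · rw [Matrix.one_apply_ne hij, zero_add]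
      by_cases h01 : i = 0 ∧ j = 1
      · rw [h01.1, h01.2, h, if_pos ⟨rfl, rfl⟩]
      · rw [hoff i j hij h01, if_neg (fun hh => h01 ⟨hh.1.symm, hh.2.symm⟩)]

end s1717

/-- Let G be a finite group with an involution z whose centraliser C is isomorphic to the centraliser of a transvection of SL(5, 2). Then a Sylow 2-subgroup of C, viewed in G, is a Sylow 2-subgroup of G (its index in G is odd). -/
theorem result {G : Type*} [Group G] [Finite G] (s : Matrix.SpecialLinearGroup (Fin 5) (ZMod 2)) (hs : (s : Matrix (Fin 5) (Fin 5) (ZMod 2)) = Matrix.transvection 0 1 1) (z : G) (hz : orderOf z = 2) (e : (Subgroup.centralizer ({z} : Set G)) ≃* Subgroup.centralizer ({s} : Set (Matrix.SpecialLinearGroup (Fin 5) (ZMod 2)))) (T : Sylow 2 (Subgroup.centralizer ({z} : Set G))) : ¬ 2 ∣ ((T : Subgroup (Subgroup.centralizer ({z} : Set G))).map (Subgroup.subtype (Subgroup.centralizer ({z} : Set G)))).index := by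
  classical
  haveI : Fact (Nat.Prime 2) := ⟨Nat.prime_two⟩
  have hz1 : z ≠ 1 := by
    rintro rfl; rw [orderOf_one] at hz; omega
  have hzC : z ∈ (Subgroup.centralizer ({z} : Set G)) := Subgroup.mem_centralizer_iff.2 (fun h hh => by
    rw [Set.mem_singleton_iff.1 hh])
  set zC : (Subgroup.centralizer ({z} : Set G)) := ⟨z, hzC⟩ with hzCdef
  have hzcent : ∀ c : (Subgroup.centralizer ({z} : Set G)), c * zC = zC * c := by
    intro c
    apply Subtype.ext
    have := Subgroup.mem_centralizer_iff.1 c.2 z rfl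
    exact this.symm
  have hP5C : P5 ≤ (Subgroup.centralizer ({s} : Set (Matrix.SpecialLinearGroup (Fin 5) (ZMod 2)))) := P5_le s hs
  have hM1 : ∀ g : Matrix.SpecialLinearGroup (Fin 5) (ZMod 2),
      (∀ x ∈ P5, g * x = x * g) → g = 1 ∨ g = s := cent_P5 s hs
  -- e z = s
  have hez : ((e zC : (Subgroup.centralizer ({s} : Set (Matrix.SpecialLinearGroup (Fin 5) (ZMod 2))))) : Matrix.SpecialLinearGroup (Fin 5) (ZMod 2)) = s := by
    rcases hM1 (e zC : (Subgroup.centralizer ({s} : Set (Matrix.SpecialLinearGroup (Fin 5) (ZMod 2))))) (fun x hx => by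
      have h1 := hzcent (e.symm ⟨x, hP5C hx⟩)
      have h2 := congrArg e h1
      rw [map_mul, map_mul, e.apply_symm_apply] at h2
      have h3 := congrArg Subtype.val h2
      exact h3.symm) with h | h
    · exfalso; apply hz1
      have h1 : e zC = 1 := Subtype.ext h
      have h2 : zC = 1 := (MulEquiv.map_eq_one_iff e).1 h1
      exact congrArg Subtype.val h2
    · exact h
  -- the 2-subgroup PC of (Subgroup.centralizer ({z} : Set G))
  set PC : Subgroup (Subgroup.centralizer ({z} : Set G)) := (P5.subgroupOf (Subgroup.centralizer ({s} : Set (Matrix.SpecialLinearGroup (Fin 5) (ZMod 2))))).comap e.toMonoidHom with hPCdef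
  have hPC : IsPGroup 2 PC := by
    have h1 : IsPGroup 2 (P5.subgroupOf (Subgroup.centralizer ({s} : Set (Matrix.SpecialLinearGroup (Fin 5) (ZMod 2))))) := P5_pgroup.comap_subtype
    exact h1.comap_of_injective e.toMonoidHom e.injective
  obtain ⟨Q, hQ⟩ := hPC.exists_le_sylow
  obtain ⟨g, hg⟩ := MulAction.exists_smul_eq (Subgroup.centralizer ({z} : Set G)) Q T
  have hconj : ∀ x ∈ PC, g * x * g⁻¹ ∈ T := by
    intro x hx
    have h1 : x ∈ Q := hQ hx
    rw [← hg]
    have h2 := Subgroup.smul_mem_pointwise_smul x (MulAut.conj g) (Q : Subgroup (Subgroup.centralizer ({z} : Set G))) h1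
    exact h2
  have hzPC : zC ∈ PC := by
    show e zC ∈ P5.subgroupOf (Subgroup.centralizer ({s} : Set (Matrix.SpecialLinearGroup (Fin 5) (ZMod 2))))
    rw [Subgroup.mem_subgroupOf, hez]; exact s_mem_P5 s hs
  have hzT : zC ∈ T := by
    have := hconj zC hzPC
    rwa [hzcent g, mul_inv_cancel_right] at this
  set TG := (T : Subgroup (Subgroup.centralizer ({z} : Set G))).map (Subgroup.centralizer ({z} : Set G)).subtype with hTG
  have hmemTG : ∀ y : G, y ∈ TG ↔ ∃ h : y ∈ (Subgroup.centralizer ({z} : Set G)), (⟨y, h⟩ : (Subgroup.centralizer ({z} : Set G))) ∈ T := by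
    intro y; constructor
    · rintro ⟨t, ht, rfl⟩; exact ⟨t.2, ht⟩
    · rintro ⟨h, ht⟩; exact ⟨⟨y, h⟩, ht, rfl⟩
  have hN : Subgroup.normalizer (TG : Set G) ≤ (Subgroup.centralizer ({z} : Set G)) := by
    intro x hx
    rw [Subgroup.mem_normalizer_iff] at hx
    have hy : x * z * x⁻¹ ∈ TG := (hx z).1 ((hmemTG z).2 ⟨hzC, hzT⟩)
    obtain ⟨hyC, hyT⟩ := (hmemTG _).1 hy
    set yC : (Subgroup.centralizer ({z} : Set G)) := ⟨x * z * x⁻¹, hyC⟩ with hyCdef
    have hyc : ∀ t : (Subgroup.centralizer ({z} : Set G)), t ∈ T → yC * t = t * yC := by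
      intro t ht
      apply Subtype.ext
      show x * z * x⁻¹ * (t : G) = (t : G) * (x * z * x⁻¹)
      have h1 : (t : G) ∈ TG := (hmemTG _).2 ⟨t.2, ht⟩
      have h2 : x⁻¹ * (t : G) * x ∈ TG := by
        rw [hx]; convert h1 using 1; group
      obtain ⟨h3, -⟩ := (hmemTG _).1 h2
      have h4 := Subgroup.mem_centralizer_iff.1 h3 z rfl
      calc x * z * x⁻¹ * (t : G) = x * (z * (x⁻¹ * (t : G) * x)) * x⁻¹ := by group
        _ = x * ((x⁻¹ * (t : G) * x) * z) * x⁻¹ := by rw [h4]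
        _ = (t : G) * (x * z * x⁻¹) := by group
    have hw : ∀ x' ∈ PC, (g⁻¹ * yC * g) * x' = x' * (g⁻¹ * yC * g) := by
      intro x' hx'
      have h1 := hyc _ (hconj x' hx')
      calc g⁻¹ * yC * g * x' = g⁻¹ * (yC * (g * x' * g⁻¹)) * g := by group
        _ = g⁻¹ * ((g * x' * g⁻¹) * yC) * g := by rw [h1]
        _ = x' * (g⁻¹ * yC * g) := by group
    have hew : ((e (g⁻¹ * yC * g) : (Subgroup.centralizer ({s} : Set (Matrix.SpecialLinearGroup (Fin 5) (ZMod 2))))) : Matrix.SpecialLinearGroup (Fin 5) (ZMod 2)) = 1 ∨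
        ((e (g⁻¹ * yC * g) : (Subgroup.centralizer ({s} : Set (Matrix.SpecialLinearGroup (Fin 5) (ZMod 2))))) : Matrix.SpecialLinearGroup (Fin 5) (ZMod 2)) = s := by
      apply hM1
      intro x hx
      have hx' : e.symm ⟨x, hP5C hx⟩ ∈ PC := by
        show e (e.symm ⟨x, hP5C hx⟩) ∈ P5.subgroupOf (Subgroup.centralizer ({s} : Set (Matrix.SpecialLinearGroup (Fin 5) (ZMod 2))))
        rw [e.apply_symm_apply, Subgroup.mem_subgroupOf]; exact hx
      have h1 := congrArg e (hw _ hx')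
      rw [map_mul e (g⁻¹ * yC * g) (e.symm ⟨x, hP5C hx⟩),
        map_mul e (e.symm ⟨x, hP5C hx⟩) (g⁻¹ * yC * g), e.apply_symm_apply] at h1
      exact congrArg Subtype.val h1
    have hyz : yC = zC := by
      rcases hew with h | h
      · exfalso; apply hz1
        have h1 : e (g⁻¹ * yC * g) = 1 := Subtype.ext h
        have h2 : g⁻¹ * yC * g = 1 := (MulEquiv.map_eq_one_iff e).1 h1
        have h3 : yC = 1 := by
          have : yC = g * (g⁻¹ * yC * g) * g⁻¹ := by group
          rw [this, h2]; group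
        have h4 : x * z * x⁻¹ = 1 := congrArg Subtype.val h3
        have : z = x⁻¹ * (x * z * x⁻¹) * x := by group
        rw [this, h4]; group
      · have h1 : e (g⁻¹ * yC * g) = e zC := Subtype.ext (h.trans hez.symm)
        have h2 : g⁻¹ * yC * g = zC := e.injective h1
        have : yC = g * (g⁻¹ * yC * g) * g⁻¹ := by group
        rw [this, h2, hzcent g, mul_inv_cancel_right]
    have h5 : x * z * x⁻¹ = z := congrArg Subtype.val hyz
    rw [Subgroup.mem_centralizer_iff]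
    intro h hh
    rw [Set.mem_singleton_iff.1 hh]
    calc z * x = (x * z * x⁻¹) * x := by rw [h5]
      _ = x * z := by group
  -- index
  have hTGp : IsPGroup 2 TG := T.2.map (Subgroup.centralizer ({z} : Set G)).subtype
  obtain ⟨k, hk⟩ := IsPGroup.iff_card.1 hTGp
  have hmod := Sylow.card_quotient_normalizer_modEq_card_quotient (p := 2) hk
  intro hdvd
  have h1 : 2 ∣ TG.relIndex (Subgroup.normalizer (TG : Set G)) :=
    (Nat.ModEq.dvd_iff hmod (dvd_refl 2)).2 hdvd
  have h2 : TG.relIndex (Subgroup.normalizer (TG : Set G)) *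
      (Subgroup.normalizer (TG : Set G)).relIndex (Subgroup.centralizer ({z} : Set G)) = TG.relIndex (Subgroup.centralizer ({z} : Set G)) :=
    Subgroup.relIndex_mul_relIndex _ _ _ Subgroup.le_normalizer hN
  have h3 : TG.relIndex (Subgroup.centralizer ({z} : Set G)) = (T : Subgroup (Subgroup.centralizer ({z} : Set G))).index := by
    unfold Subgroup.relIndex Subgroup.subgroupOf
    rw [hTG, Subgroup.comap_map_eq_self_of_injective (Subgroup.subtype_injective (Subgroup.centralizer ({z} : Set G)))]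
  have h4 : 2 ∣ (T : Subgroup (Subgroup.centralizer ({z} : Set G))).index := by
    rw [← h3, ← h2]; exact dvd_mul_of_dvd_left h1 _
  exact T.not_dvd_index h4

end Cfsg.Agent.S1717
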