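import Cfsg.Statements.S1755
import Cfsg.Agent.Helper3.CyclicInv
import Cfsg.Agent.Helper3.FStar
import Cfsg.Agent.Helper3.Cores
import Cfsg.Agent.Helper3.Standard
import Cfsg.Agent.Helper4.PGroup
import Cfsg.Agent.Helper5.Basic

set_option autoImplicit false
open Cfsg

namespace Cfsg.Agent.S1755

theorem symp_aux {G : Type*} [Group G] [Finite G] (z : G) (hz : orderOf z = 2) (C : Subgroup G)
    (hC : C = Subgroup.centralizer ({z} : Set G)) (Q : Subgroup ↥C) [hQn : Q.Normal]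
    (hzQ : ∀ hzC : z ∈ C, (⟨z, hzC⟩ : ↥C) ∈ Q) (hQ : Cfsg.IsOfSymplecticType ↥Q)
    (B : Subgroup ↥Q) (hBc : B.Characteristic) (hBa : IsMulCommutative ↥B) (g : G) :
    ((B.map Q.subtype).map C.subtype).map (MulAut.conj g).toMonoidHom
        = (B.map Q.subtype).map C.subtype ∨
    ((B.map Q.subtype).map C.subtype).map (MulAut.conj g).toMonoidHom
        ⊓ (B.map Q.subtype).map C.subtype = ⊥ := by
  classical
  haveI : Fact (Nat.Prime 2) := ⟨Nat.prime_two⟩
  obtain ⟨hQ2, hQcyc⟩ := hQ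
  have hmemC : ∀ c : G, c ∈ C ↔ c * z = z * c := by
    intro c
    rw [hC, Subgroup.mem_centralizer_iff]
    constructor
    · intro h; exact (h z rfl).symm
    · intro h y hy
      rw [Set.mem_singleton_iff] at hy
      rw [hy]; exact h.symm
  have hzC : z ∈ C := (hmemC z).mpr rfl
  obtain ⟨BG, hBG⟩ : ∃ BG : Subgroup G, BG = (B.map Q.subtype).map C.subtype := ⟨_, rfl⟩
  rw [← hBG]
  have hmemBG : ∀ y : G, y ∈ BG ↔ ∃ (hyC : y ∈ C) (hyQ : (⟨y, hyC⟩ : ↥C) ∈ Q),
      (⟨⟨y, hyC⟩, hyQ⟩ : ↥Q) ∈ B := by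
    intro y
    rw [hBG]
    constructor
    · rintro ⟨c, ⟨q, hq, rfl⟩, rfl⟩
      exact ⟨q.1.2, q.2, hq⟩
    · rintro ⟨hyC, hyQ, hyB⟩
      exact ⟨⟨y, hyC⟩, ⟨⟨⟨y, hyC⟩, hyQ⟩, hyB, rfl⟩, rfl⟩
  obtain ⟨zQ, hzQdef⟩ : ∃ zQ : ↥Q, ((zQ : ↥C) : G) = z := ⟨⟨⟨z, hzC⟩, hzQ hzC⟩, rfl⟩
  have hzQo : orderOf zQ = 2 := by
    rw [← hz, ← hzQdef, Subgroup.orderOf_coe, Subgroup.orderOf_coe]
  have hzQc : zQ ∈ Subgroup.center ↥Q := by
    rw [Subgroup.mem_center_iff]
    intro q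
    apply Subtype.ext; apply Subtype.ext
    have hq := (hmemC ((q : ↥C) : G)).mp q.1.2
    rw [Subgroup.coe_mul, Subgroup.coe_mul, Subgroup.coe_mul, Subgroup.coe_mul, hzQdef]
    exact hq
  have hcen_cyc : IsCyclic (Subgroup.center ↥Q) := hQcyc _ inferInstance inferInstance
  have hBcyc : IsCyclic B := hQcyc B hBc hBa
  haveI hBn : B.Normal := Subgroup.normal_of_characteristic B
  have hord : ∀ q : ↥Q, ∃ k, orderOf q = 2 ^ k := IsPGroup.iff_orderOf.mp hQ2
  have hkey : ∀ b ∈ B, b ≠ 1 → zQ ∈ Subgroup.zpowers b := by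
    intro b hb hb1
    have hBne : B ≠ ⊥ := fun h => hb1 (by rw [h] at hb; exact Subgroup.mem_bot.mp hb)
    obtain ⟨x, hxB, hx1, hxc⟩ := Helper4.exists_ne_one_mem_center_of_normal hQ2 B hBne
    obtain ⟨kx, hkx⟩ := hord x
    obtain ⟨t, ht, hto⟩ := Helper3.exists_involution_zpowers hx1 kx hkx
    have htc : t ∈ Subgroup.center ↥Q := (Subgroup.zpowers_le.mpr hxc) ht
    have htB : t ∈ B := (Subgroup.zpowers_le.mpr hxB) ht
    have htz : t = zQ :=
      Helper3.involution_unique_in_cyclic (Subgroup.center ↥Q) hcen_cyc htc hzQc hto hzQo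
    obtain ⟨kb, hkb⟩ := hord b
    obtain ⟨t', ht', hto'⟩ := Helper3.exists_involution_zpowers hb1 kb hkb
    have ht'B : t' ∈ B := (Subgroup.zpowers_le.mpr hb) ht'
    have htt : t' = t := Helper3.involution_unique_in_cyclic B hBcyc ht'B htB hto' hto
    rw [← htz, ← htt]; exact ht'
  -- transfer to G
  have hkeyG : ∀ y ∈ BG, y ≠ 1 → z ∈ Subgroup.zpowers y := by
    intro y hy hy1
    obtain ⟨hyC, hyQ, hyB⟩ := (hmemBG y).mp hy
    have hb1 : (⟨⟨y, hyC⟩, hyQ⟩ : ↥Q) ≠ 1 := by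
      intro h
      apply hy1
      have h2 := congrArg (fun q : ↥Q => ((q : ↥C) : G)) h
      exact h2
    obtain ⟨k, hk⟩ := Subgroup.mem_zpowers_iff.mp (hkey _ hyB hb1)
    rw [Subgroup.mem_zpowers_iff]
    refine ⟨k, ?_⟩
    have h2 := congrArg (fun q : ↥Q => ((q : ↥C) : G)) hk
    beta_reduce at h2
    rw [Subgroup.coe_zpow, Subgroup.coe_zpow, hzQdef] at h2
    exact h2
  -- invariance under C
  have hinv : ∀ c ∈ C, ∀ y ∈ BG, c * y * c⁻¹ ∈ BG := by
    intro c hc y hy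
    obtain ⟨hyC, hyQ, hyB⟩ := (hmemBG y).mp hy
    have hmap := (Subgroup.characteristic_iff_map_eq.mp hBc)
      (MulAut.conjNormal (⟨c, hc⟩ : ↥C) : ↥Q ≃* ↥Q)
    have h1 : (MulAut.conjNormal (⟨c, hc⟩ : ↥C) : ↥Q ≃* ↥Q) ⟨⟨y, hyC⟩, hyQ⟩ ∈ B := by
      rw [← hmap]
      exact Subgroup.mem_map_of_mem _ hyB
    rw [hmemBG]
    have hcC : c * y * c⁻¹ ∈ C := C.mul_mem (C.mul_mem hc hyC) (C.inv_mem hc)
    have hcQ : (⟨c * y * c⁻¹, hcC⟩ : ↥C) ∈ Q := hQn.conj_mem ⟨y, hyC⟩ hyQ ⟨c, hc⟩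
    refine ⟨hcC, hcQ, ?_⟩
    have h2 : (MulAut.conjNormal (⟨c, hc⟩ : ↥C) : ↥Q ≃* ↥Q) ⟨⟨y, hyC⟩, hyQ⟩
        = ⟨⟨c * y * c⁻¹, hcC⟩, hcQ⟩ := by
      apply Subtype.ext
      rw [MulAut.conjNormal_apply]
      rfl
    rw [← h2]; exact h1
  by_cases hbot : BG.map (MulAut.conj g).toMonoidHom ⊓ BG = ⊥
  · right; exact hbot
  left
  obtain ⟨y, hy, hy1⟩ : ∃ y ∈ BG.map (MulAut.conj g).toMonoidHom ⊓ BG, y ≠ 1 := by
    by_contra hcon
    push Not at hcon
    exact hbot ((Subgroup.eq_bot_iff_forall _).mpr hcon)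
  obtain ⟨hy_conj, hyB⟩ := Subgroup.mem_inf.mp hy
  rw [Helper5.mem_conj_iff] at hy_conj
  have hz1 := hkeyG y hyB hy1
  have hy1' : g⁻¹ * y * g ≠ 1 := by
    intro h
    apply hy1
    have h3 : y = g * (g⁻¹ * y * g) * g⁻¹ := by group
    rw [h3, h]; group
  have hz2 := hkeyG _ hy_conj hy1'
  have hz3 : g * z * g⁻¹ ∈ Subgroup.zpowers y := by
    obtain ⟨k, hk⟩ := Subgroup.mem_zpowers_iff.mp hz2
    rw [Subgroup.mem_zpowers_iff]
    refine ⟨k, ?_⟩
    rw [← hk]
    have h4 : g⁻¹ * y * g = g⁻¹ * y * g⁻¹⁻¹ := by group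
    rw [h4, conj_zpow]; group
  have hgz : g * z * g⁻¹ = z :=
    Helper3.involution_unique_in_cyclic (Subgroup.zpowers y) inferInstance hz3 hz1
      (by rw [Helper3.orderOf_conj_mul, hz]) hz
  have hgC : g ∈ C := by
    rw [hmemC]
    calc g * z = (g * z * g⁻¹) * g := by group
      _ = z * g := by rw [hgz]
  ext w
  rw [Helper5.mem_conj_iff]
  constructor
  · intro h
    have h5 := hinv g hgC _ h
    have h6 : g * (g⁻¹ * w * g) * g⁻¹ = w := by group
    rwa [h6] at h5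
  · intro h
    have h5 := hinv g⁻¹ (C.inv_mem hgC) _ h
    rwa [inv_inv] at h5

/-- Let G be a finite group and let z be an involution of G such that Q, the generalized Fitting subgroup of the centralizer C of z, is a 2-group of symplectic type (every characteristic abelian subgroup of Q is cyclic). Let B be a characteristic abelian subgroup of Q, viewed as a subgroup of G. Then for every g in G, the conjugate of B by g either equals B or meets B trivially. -/
theorem result {G : Type*} [Group G] [Finite G] (z : G) (hz : orderOf z = 2) (hQ : Cfsg.IsOfSymplecticType ↥(Cfsg.generalizedFittingSubgroup ↥(Subgroup.centralizer ({z} : Set G))))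
    (B : Subgroup ↥(Cfsg.generalizedFittingSubgroup ↥(Subgroup.centralizer ({z} : Set G)))) (hBc : B.Characteristic) (hBa : IsMulCommutative ↥B) (g : G) :
    ((B.map (Cfsg.generalizedFittingSubgroup ↥(Subgroup.centralizer ({z} : Set G))).subtype).map (Subgroup.centralizer ({z} : Set G)).subtype).map (MulAut.conj g).toMonoidHom =
        (B.map (Cfsg.generalizedFittingSubgroup ↥(Subgroup.centralizer ({z} : Set G))).subtype).map (Subgroup.centralizer ({z} : Set G)).subtype ∨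
      ((B.map (Cfsg.generalizedFittingSubgroup ↥(Subgroup.centralizer ({z} : Set G))).subtype).map (Subgroup.centralizer ({z} : Set G)).subtype).map (MulAut.conj g).toMonoidHom ⊓
        (B.map (Cfsg.generalizedFittingSubgroup ↥(Subgroup.centralizer ({z} : Set G))).subtype).map (Subgroup.centralizer ({z} : Set G)).subtype = ⊥ := by
  haveI := Helper3.fstar_characteristic ↥(Subgroup.centralizer ({z} : Set G))
  apply symp_aux z hz _ rfl _ _ hQ B hBc hBa g
  intro hzC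
  have hcen : (⟨z, hzC⟩ : ↥(Subgroup.centralizer ({z} : Set G))) ∈
      Subgroup.center ↥(Subgroup.centralizer ({z} : Set G)) := by
    rw [Subgroup.mem_center_iff]
    intro c
    apply Subtype.ext
    have hc := c.2
    rw [Subgroup.mem_centralizer_iff] at hc
    exact (hc z rfl).symm
  have hle : Subgroup.zpowers (⟨z, hzC⟩ : ↥(Subgroup.centralizer ({z} : Set G)))
      ≤ Subgroup.center ↥(Subgroup.centralizer ({z} : Set G)) := Subgroup.zpowers_le.mpr hcen
  haveI hnorm : (Subgroup.zpowers (⟨z, hzC⟩ : ↥(Subgroup.centralizer ({z} : Set G)))).Normal := by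
    constructor
    intro n hn c
    have h1 := Subgroup.mem_center_iff.mp (hle hn) c
    have h2 : c * n * c⁻¹ = n := by rw [h1]; group
    rw [h2]; exact hn
  have hnil : Group.IsNilpotent
      ↥(Subgroup.zpowers (⟨z, hzC⟩ : ↥(Subgroup.centralizer ({z} : Set G)))) := by
    haveI : Fact (Nat.Prime 2) := ⟨Nat.prime_two⟩
    apply IsPGroup.isNilpotent (p := 2)
    apply IsPGroup.of_card (n := 1)
    rw [Nat.card_zpowers, Subgroup.orderOf_mk, hz, pow_one]
  exact Helper3.fitting_le_fstar _ (Helper3.le_fitting _ hnil (Subgroup.mem_zpowers _))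

end Cfsg.Agent.S1755
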