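import Cfsg.Statements.S1756
import Cfsg.Agent.Helper3.Layer2

set_option autoImplicit false
open Cfsg

namespace Cfsg.Agent.S1756

open scoped commutatorElement

theorem cent_step {G : Type*} [Group G] [Finite G] (Q K Z : Subgroup G) (u : G) (huQ : u ∈ Q)
    (hcomm : ∀ a ∈ Q, ∀ b ∈ Q, ⁅a, b⁆ ∈ Z) (hZc : ∀ w ∈ Z, ∀ q ∈ Q, q * w = w * q)
    (hZcard : Nat.card ↥Z = 2) :
    Nat.card ↥(Q ⊓ Subgroup.centralizer (K : Set G)) ≤
      2 * Nat.card ↥(Q ⊓ Subgroup.centralizer ((K ⊔ Subgroup.zpowers u : Subgroup G) : Set G)) := by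
  classical
  obtain ⟨C, hC⟩ : ∃ C : Subgroup G, C = Q ⊓ Subgroup.centralizer (K : Set G) := ⟨_, rfl⟩
  rw [← hC]
  have hCQ : C ≤ Q := by rw [hC]; exact inf_le_left
  have hcq : ∀ g ∈ Q, ⁅g, u⁆ ∈ Q := by
    intro g hg
    rw [commutatorElement_def]
    exact Q.mul_mem (Q.mul_mem (Q.mul_mem hg huQ) (Q.inv_mem hg)) (Q.inv_mem huQ)
  obtain ⟨f, hf⟩ : ∃ f : ↥C →* G, ∀ g : ↥C, f g = ⁅(g : G), u⁆ := by
    refine ⟨{ toFun := fun g => ⁅(g : G), u⁆, map_one' := by simp, map_mul' := ?_ }, fun g => rfl⟩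
    intro g g'
    have hw := hcomm (g' : G) (hCQ g'.2) u huQ
    have e1 : ⁅((g * g' : ↥C) : G), u⁆
        = (g : G) * ⁅(g' : G), u⁆ * (g : G)⁻¹ * ⁅(g : G), u⁆ := by
      rw [Subgroup.coe_mul]; simp only [commutatorElement_def]; group
    have e2 : (g : G) * ⁅(g' : G), u⁆ * (g : G)⁻¹ = ⁅(g' : G), u⁆ := by
      rw [hZc _ hw _ (hCQ g.2)]; group
    have e3 := hZc _ hw _ (hcq (g : G) (hCQ g.2))
    show ⁅((g * g' : ↥C) : G), u⁆ = ⁅(g : G), u⁆ * ⁅(g' : G), u⁆
    rw [e1, e2]; exact e3.symm
  have hrange : f.range ≤ Z := by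
    rintro _ ⟨g, rfl⟩
    rw [hf]; exact hcomm _ (hCQ g.2) u huQ
  have hker : f.ker.map C.subtype
      ≤ Q ⊓ Subgroup.centralizer ((K ⊔ Subgroup.zpowers u : Subgroup G) : Set G) := by
    rintro _ ⟨g, hg, rfl⟩
    rw [SetLike.mem_coe, MonoidHom.mem_ker, hf] at hg
    have hgu : (g : G) * u = u * (g : G) := commutatorElement_eq_one_iff_mul_comm.1 hg
    refine Subgroup.mem_inf.2 ⟨hCQ g.2, ?_⟩
    have hCK : C ≤ Subgroup.centralizer (K : Set G) := by rw [hC]; exact inf_le_right
    have hgK : (g : G) ∈ Subgroup.centralizer (K : Set G) := hCK g.2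
    show (g : G) ∈ Subgroup.centralizer ((K ⊔ Subgroup.zpowers u : Subgroup G) : Set G)
    rw [Subgroup.mem_centralizer_iff]
    intro h hh
    have hle : K ⊔ Subgroup.zpowers u ≤ Subgroup.centralizer ({(g : G)} : Set G) := by
      apply sup_le
      · intro k hk
        rw [Subgroup.mem_centralizer_iff]
        intro y hy
        rw [Set.mem_singleton_iff] at hy
        rw [hy]
        exact ((Subgroup.mem_centralizer_iff.1 hgK) k hk).symm
      · rw [Subgroup.zpowers_le, Subgroup.mem_centralizer_iff]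
        intro y hy
        rw [Set.mem_singleton_iff] at hy
        rw [hy]; exact hgu
    have := Subgroup.mem_centralizer_iff.1 (hle hh) (g : G) rfl
    exact this.symm
  have h1 : Nat.card f.ker * f.ker.index = Nat.card C := Subgroup.card_mul_index f.ker
  have h2 : f.ker.index = Nat.card f.range := Subgroup.index_ker f
  have h3 : Nat.card f.range ≤ 2 := by rw [← hZcard]; exact Subgroup.card_le_of_le hrange
  have h4 : Nat.card f.ker
      ≤ Nat.card ↥(Q ⊓ Subgroup.centralizer ((K ⊔ Subgroup.zpowers u : Subgroup G) : Set G)) := by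
    rw [Nat.card_congr (f.ker.equivMapOfInjective C.subtype C.subtype_injective).toEquiv]
    exact Subgroup.card_le_of_le hker
  rw [h2] at h1
  calc Nat.card C = Nat.card f.ker * Nat.card f.range := h1.symm
    _ ≤ Nat.card f.ker * 2 := Nat.mul_le_mul_left _ h3
    _ ≤ 2 * Nat.card ↥(Q ⊓ Subgroup.centralizer ((K ⊔ Subgroup.zpowers u : Subgroup G) : Set G)) := by
        rw [mul_comm]; exact Nat.mul_le_mul_left _ h4

theorem cent_count {G : Type*} [Group G] [Finite G] (Q Z : Subgroup G)
    (hcomm : ∀ a ∈ Q, ∀ b ∈ Q, ⁅a, b⁆ ∈ Z) (hZc : ∀ w ∈ Z, ∀ q ∈ Q, q * w = w * q)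
    (hZcard : Nat.card ↥Z = 2) (S : Finset G) (hS : ∀ u ∈ S, u ∈ Q) :
    2 * Nat.card ↥Q ≤
      Nat.card ↥(Q ⊓ Subgroup.centralizer ((Z ⊔ Subgroup.closure (S : Set G) : Subgroup G) : Set G))
        * Nat.card ↥(Z ⊔ Subgroup.closure (S : Set G) : Subgroup G) := by
  classical
  induction S using Finset.induction_on with
  | empty =>
    rw [Finset.coe_empty, Subgroup.closure_empty, sup_bot_eq, hZcard]
    have : Q ⊓ Subgroup.centralizer (Z : Set G) = Q := by
      apply inf_eq_left.2
      intro q hq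
      rw [Subgroup.mem_centralizer_iff]
      intro w hw
      exact (hZc w hw q hq).symm
    rw [this, mul_comm]
  | insert u S hu ih =>
    have ih' := ih (fun v hv => hS v (Finset.mem_insert_of_mem hv))
    have huQ : u ∈ Q := hS u (Finset.mem_insert_self u S)
    obtain ⟨K, hK⟩ : ∃ K : Subgroup G, K = Z ⊔ Subgroup.closure (S : Set G) := ⟨_, rfl⟩
    have hK' : Z ⊔ Subgroup.closure ((insert u S : Finset G) : Set G) = K ⊔ Subgroup.zpowers u := by
      rw [Finset.coe_insert, Set.insert_eq, Subgroup.closure_union, ← Subgroup.zpowers_eq_closure,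
        hK, sup_left_comm, sup_comm]
    rw [hK']
    rw [← hK] at ih'
    by_cases huK : u ∈ K
    · have : K ⊔ Subgroup.zpowers u = K := sup_eq_left.2 (Subgroup.zpowers_le.2 huK)
      rw [this]; exact ih'
    · have hstep := cent_step Q K Z u huQ hcomm hZc hZcard
      have hlt : 2 * Nat.card ↥K ≤ Nat.card ↥(K ⊔ Subgroup.zpowers u : Subgroup G) := by
        have hle : K ≤ K ⊔ Subgroup.zpowers u := le_sup_left
        obtain ⟨m, hm⟩ := Subgroup.card_dvd_of_le hle
        have hpos : 0 < Nat.card ↥(K ⊔ Subgroup.zpowers u : Subgroup G) := Nat.card_pos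
        have hm1 : m ≠ 1 := by
          intro h1
          rw [h1, mul_one] at hm
          have := Subgroup.eq_of_le_of_card_ge hle (le_of_eq hm)
          apply huK
          rw [this]
          exact Subgroup.mem_sup_right (Subgroup.mem_zpowers u)
        have hm0 : m ≠ 0 := by
          intro h0; rw [h0, mul_zero] at hm; omega
        rw [hm]
        have : 2 ≤ m := by omega
        calc 2 * Nat.card ↥K = Nat.card ↥K * 2 := mul_comm _ _
          _ ≤ Nat.card ↥K * m := Nat.mul_le_mul_left _ this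
      calc 2 * Nat.card ↥Q ≤ Nat.card ↥(Q ⊓ Subgroup.centralizer (K : Set G)) * Nat.card ↥K := ih'
        _ ≤ (2 * Nat.card ↥(Q ⊓ Subgroup.centralizer ((K ⊔ Subgroup.zpowers u : Subgroup G) : Set G)))
              * Nat.card ↥K := Nat.mul_le_mul_right _ hstep
        _ = Nat.card ↥(Q ⊓ Subgroup.centralizer ((K ⊔ Subgroup.zpowers u : Subgroup G) : Set G))
              * (2 * Nat.card ↥K) := by ring
        _ ≤ Nat.card ↥(Q ⊓ Subgroup.centralizer ((K ⊔ Subgroup.zpowers u : Subgroup G) : Set G))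
              * Nat.card ↥(K ⊔ Subgroup.zpowers u : Subgroup G) := Nat.mul_le_mul_left _ hlt

/-- Let Q be an extraspecial 2-subgroup of the finite group G (special with centre of order 2) and t an involution of G normalizing Q such that the centralizer of t in Q has index at most 2 in Q. Then t lies in the product of Q with the centralizer of Q. -/
theorem result {G : Type*} [Group G] [Finite G] (Q : Subgroup G)
    (hQ : Cfsg.IsExtraspecial 2 ↥Q) (t : G) (ht : orderOf t = 2) (htN : t ∈ Subgroup.normalizer (Q : Set G))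
    (hi : (Subgroup.centralizer ({t} : Set G) ⊓ Q).relIndex Q ≤ 2) :
    t ∈ Q ⊔ Subgroup.centralizer (Q : Set G) := by
  classical
  obtain ⟨⟨hQ2, hfrat, hcommQ⟩, hcardZ⟩ := hQ
  obtain ⟨Z, hZdef⟩ : ∃ Z : Subgroup G, Z = Q ⊓ Subgroup.centralizer (Q : Set G) := ⟨_, rfl⟩
  have hZmap : (Subgroup.center ↥Q).map Q.subtype = Z := by
    rw [hZdef]; exact Helper3.map_center_subtype Q
  have hZcard : Nat.card ↥Z = 2 := by
    rw [← hZmap, ← Nat.card_congr ((Subgroup.center ↥Q).equivMapOfInjective Q.subtype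
      Q.subtype_injective).toEquiv]
    exact hcardZ
  have hcomm : ∀ a ∈ Q, ∀ b ∈ Q, ⁅a, b⁆ ∈ Z := by
    intro a ha b hb
    have h1 : ⁅(⟨a, ha⟩ : ↥Q), ⟨b, hb⟩⁆ ∈ commutator ↥Q := by
      rw [commutator_def]
      exact Subgroup.commutator_mem_commutator (Subgroup.mem_top _) (Subgroup.mem_top _)
    rw [hcommQ] at h1
    rw [← hZmap]
    exact ⟨_, h1, rfl⟩
  have hZQ : Z ≤ Q := by rw [hZdef]; exact inf_le_left
  have hZc : ∀ w ∈ Z, ∀ q ∈ Q, q * w = w * q := by
    intro w hw q hq
    rw [hZdef] at hw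
    exact (Subgroup.mem_centralizer_iff.1 (Subgroup.mem_inf.1 hw).2) q hq
  have hZuniq : ∀ w ∈ Z, ∀ w' ∈ Z, w ≠ 1 → w' ≠ 1 → w = w' := by
    intro w hw w' hw' h1 h1'
    obtain ⟨a, b, hab, huniv⟩ := Nat.card_eq_two_iff.1 hZcard
    have key : ∀ v : ↥Z, v = a ∨ v = b := by
      intro v
      have : v ∈ ({a, b} : Set ↥Z) := by rw [huniv]; exact Set.mem_univ _
      simpa using this
    have hw0 := key ⟨w, hw⟩
    have hw0' := key ⟨w', hw'⟩
    have h10 := key 1
    have hne : (⟨w, hw⟩ : ↥Z) ≠ 1 := fun h => h1 (congrArg Subtype.val h)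
    have hne' : (⟨w', hw'⟩ : ↥Z) ≠ 1 := fun h => h1' (congrArg Subtype.val h)
    have : (⟨w, hw⟩ : ↥Z) = ⟨w', hw'⟩ := by
      rcases h10 with h | h <;> rcases hw0 with h2 | h2 <;> rcases hw0' with h3 | h3
      all_goals first
        | (exact absurd (h2.trans h.symm) hne)
        | (exact absurd (h3.trans h.symm) hne')
        | (rw [h2, h3])
    exact congrArg Subtype.val this
  obtain ⟨M, hM⟩ : ∃ M : Subgroup G, M = Subgroup.centralizer ({t} : Set G) ⊓ Q := ⟨_, rfl⟩
  rw [← hM] at hi
  have hMQ : M ≤ Q := by rw [hM]; exact inf_le_right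
  have hMt : ∀ m ∈ M, t * m = m * t := by
    intro m hm
    rw [hM] at hm
    exact Subgroup.mem_centralizer_iff.1 (Subgroup.mem_inf.1 hm).1 t rfl
  have hmemM : ∀ q ∈ Q, t * q = q * t → q ∈ M := by
    intro q hq h
    rw [hM]
    refine Subgroup.mem_inf.2 ⟨?_, hq⟩
    rw [Subgroup.mem_centralizer_iff]
    intro y hy
    rw [Set.mem_singleton_iff] at hy
    rw [hy]; exact h
  have htt : t * t = 1 := by
    have := pow_orderOf_eq_one t
    rw [ht, pow_two] at this
    exact this
  have hti : t⁻¹ = t := inv_eq_of_mul_eq_one_left htt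
  have htQ : ∀ q ∈ Q, t * q * t⁻¹ ∈ Q := fun q hq => (Subgroup.mem_normalizer_iff.1 htN q).1 hq
  have hidx0 : (M.subgroupOf Q).index ≠ 0 := Subgroup.index_ne_zero_of_finite
  have hi' : (M.subgroupOf Q).index ≤ 2 := hi
  rcases Nat.lt_or_ge ((M.subgroupOf Q).index) 2 with hlt | hge
  · have h1 : M.relIndex Q = 1 := by
      show (M.subgroupOf Q).index = 1
      omega
    rw [Subgroup.relIndex_eq_one] at h1
    apply Subgroup.mem_sup_right
    rw [Subgroup.mem_centralizer_iff]
    intro q hq
    exact (hMt q (h1 hq)).symm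
  · have h2 : (M.subgroupOf Q).index = 2 := le_antisymm hi' hge
    have hmul : ∀ a ∈ Q, ∀ b ∈ Q, (a * b ∈ M ↔ (a ∈ M ↔ b ∈ M)) := by
      intro a ha b hb
      have := Subgroup.mul_mem_iff_of_index_two h2 (a := ⟨a, ha⟩) (b := ⟨b, hb⟩)
      simpa [Subgroup.mem_subgroupOf] using this
    obtain ⟨x, hxQ, hxM⟩ : ∃ x ∈ Q, x ∉ M := by
      by_contra hcon
      push Not at hcon
      have : (M.subgroupOf Q) = ⊤ := by rw [Subgroup.subgroupOf_eq_top]; exact hcon
      rw [this, Subgroup.index_top] at h2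
      omega
    obtain ⟨c, hc⟩ : ∃ c : G, c = x⁻¹ * (t * x * t⁻¹) := ⟨_, rfl⟩
    have hcQ : c ∈ Q := by rw [hc]; exact Q.mul_mem (Q.inv_mem hxQ) (htQ x hxQ)
    have htx : t * x * t⁻¹ = x * c := by rw [hc]; group
    have hcM : c ∈ M := by
      by_contra hcM
      have h3 : x * c ∈ M :=
        (hmul x hxQ c hcQ).2 ⟨fun h => absurd h hxM, fun h => absurd h hcM⟩
      apply hxM
      apply hmemM x hxQ
      have h4 := hMt _ h3
      rw [← htx] at h4
      have h5 : t * (t * x * t⁻¹) = (t * t) * x * t⁻¹ := by group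
      have h6 : t * x * t⁻¹ * t = t * x := by group
      rw [h5, h6, htt, one_mul] at h4
      rw [← h4, hti]
    have hct : t * c = c * t := hMt c hcM
    have hcc : c * c = 1 := by
      have h5 : t * (t * x * t⁻¹) * t⁻¹ = x := by
        calc t * (t * x * t⁻¹) * t⁻¹ = (t * t) * x * (t * t)⁻¹ := by group
          _ = x := by rw [htt]; group
      have h6 : t * (x * c) * t⁻¹ = (t * x * t⁻¹) * (t * c * t⁻¹) := by group
      have h7 : t * c * t⁻¹ = c := by rw [hct]; group
      rw [htx, h6, htx, h7] at h5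
      have : x * (c * c) = x * 1 := by rw [mul_one, ← mul_assoc]; exact h5
      exact mul_left_cancel this
    have hci : c⁻¹ = c := inv_eq_of_mul_eq_one_left hcc
    have hcMc : ∀ m ∈ M, c * m = m * c := by
      intro m hm
      have hxm : x * m ∉ M := fun h => hxM (((hmul x hxQ m (hMQ hm)).1 h).2 hm)
      have hxi : x⁻¹ ∉ M := fun h => hxM (by simpa using M.inv_mem h)
      have h8 : x * m * x⁻¹ ∈ M :=
        (hmul (x * m) (Q.mul_mem hxQ (hMQ hm)) x⁻¹ (Q.inv_mem hxQ)).2
          ⟨fun h => absurd h hxm, fun h => absurd h hxi⟩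
      have h9 := hMt _ h8
      have h10 : t * (x * m * x⁻¹) * t⁻¹
          = (t * x * t⁻¹) * (t * m * t⁻¹) * (t * x * t⁻¹)⁻¹ := by group
      have h11 : t * m * t⁻¹ = m := by rw [hMt m hm]; group
      have h12 : t * (x * m * x⁻¹) * t⁻¹ = x * m * x⁻¹ := by rw [h9]; group
      rw [h12, htx, h11] at h10
      have h13 : m = c * m * c⁻¹ := by
        have ea : x⁻¹ * (x * m * x⁻¹) * x = m := by group
        have eb : x⁻¹ * (x * c * m * (x * c)⁻¹) * x = c * m * c⁻¹ := by group
        calc m = x⁻¹ * (x * m * x⁻¹) * x := ea.symm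
          _ = x⁻¹ * (x * c * m * (x * c)⁻¹) * x := by rw [← h10]
          _ = c * m * c⁻¹ := eb
      calc c * m = c * m * c⁻¹ * c := by group
        _ = m * c := by rw [← h13]
    have hcx : c * x = x * c := by
      have hx2 : x * x ∈ M := (hmul x hxQ x hxQ).2 Iff.rfl
      have h13 := hMt _ hx2
      have h14 : t * (x * x) * t⁻¹ = (t * x * t⁻¹) * (t * x * t⁻¹) := by group
      have h15 : t * (x * x) * t⁻¹ = x * x := by rw [h13]; group
      rw [h15, htx] at h14
      have h16 : x = c * x * c := by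
        have e : x * x = x * (c * x * c) := by rw [h14]; group
        exact mul_left_cancel e
      calc c * x = c * x * c * c⁻¹ := by group
        _ = x * c⁻¹ := by rw [← h16]
        _ = x * c := by rw [hci]
    have hQsplit : ∀ q ∈ Q, q ∈ M ∨ x⁻¹ * q ∈ M := by
      intro q hq
      by_cases hqM : q ∈ M
      · exact Or.inl hqM
      · right
        have h17 := (hmul x hxQ (x⁻¹ * q) (Q.mul_mem (Q.inv_mem hxQ) hq))
        have e : x * (x⁻¹ * q) = q := by group
        rw [e] at h17
        by_contra hn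
        exact hqM (h17.2 ⟨fun h => absurd h hxM, fun h => absurd h hn⟩)
    have hcentral : ∀ g : G, (∀ m ∈ M, g * m = m * g) → g * x = x * g →
        ∀ q ∈ Q, g * q = q * g := by
      intro g hgM hgx q hq
      rcases hQsplit q hq with h | h
      · exact hgM q h
      · have e : q = x * (x⁻¹ * q) := by group
        rw [e]
        calc g * (x * (x⁻¹ * q)) = (g * x) * (x⁻¹ * q) := by group
          _ = (x * g) * (x⁻¹ * q) := by rw [hgx]
          _ = x * (g * (x⁻¹ * q)) := by group
          _ = x * ((x⁻¹ * q) * g) := by rw [hgM _ h]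
          _ = x * (x⁻¹ * q) * g := by group
    have hcZ : c ∈ Z := by
      rw [hZdef]
      refine Subgroup.mem_inf.2 ⟨hcQ, ?_⟩
      rw [Subgroup.mem_centralizer_iff]
      intro q hq
      exact (hcentral c hcMc hcx q hq).symm
    have hc1 : c ≠ 1 := by
      intro h
      apply hxM
      apply hmemM x hxQ
      rw [h, mul_one] at htx
      calc t * x = t * x * t⁻¹ * t := by group
        _ = x * t := by rw [htx]
    have hZM : Z ≤ M := by
      intro w hw
      by_cases hw1 : w = 1
      · rw [hw1]; exact M.one_mem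
      · apply hmemM w (hZQ hw)
        have hconj : t * w * t⁻¹ ∈ Z := by
          rw [hZdef]
          refine Subgroup.mem_inf.2 ⟨htQ w (hZQ hw), ?_⟩
          rw [Subgroup.mem_centralizer_iff]
          intro q hq
          have hq' : t⁻¹ * q * t ∈ Q := by
            apply (Subgroup.mem_normalizer_iff.1 htN (t⁻¹ * q * t)).2
            have e : t * (t⁻¹ * q * t) * t⁻¹ = q := by group
            rw [e]; exact hq
          have := hZc w hw _ hq'
          calc q * (t * w * t⁻¹) = t * ((t⁻¹ * q * t) * w) * t⁻¹ := by group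
            _ = t * (w * (t⁻¹ * q * t)) * t⁻¹ := by rw [this]
            _ = t * w * t⁻¹ * q := by group
        have hne : t * w * t⁻¹ ≠ 1 := by
          intro h
          apply hw1
          have e : w = t⁻¹ * (t * w * t⁻¹) * t := by group
          rw [e, h]; group
        have := hZuniq _ hconj _ hw hne hw1
        calc t * w = t * w * t⁻¹ * t := by group
          _ = w * t := by rw [this]
    obtain ⟨y, hyQ, hyM, hyZ⟩ : ∃ y ∈ Q, (∀ m ∈ M, y * m = m * y) ∧ y ∉ Z := by
      have hcount := cent_count Q Z hcomm hZc hZcard (Set.toFinite (M : Set G)).toFinset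
        (by intro u hu; exact hMQ (by simpa using hu))
      have hK : Z ⊔ Subgroup.closure (((Set.toFinite (M : Set G)).toFinset : Finset G) : Set G)
          = M := by
        rw [Set.Finite.coe_toFinset, Subgroup.closure_eq]; exact sup_eq_right.2 hZM
      rw [hK] at hcount
      have hcardM : Nat.card ↥M * 2 = Nat.card ↥Q := by
        have := Subgroup.card_mul_index (M.subgroupOf Q)
        rw [h2, Nat.card_congr (Subgroup.subgroupOfEquivOfLe hMQ).toEquiv] at this
        exact this
      have h4 : 4 ≤ Nat.card ↥(Q ⊓ Subgroup.centralizer (M : Set G)) := by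
        have hpos : 0 < Nat.card ↥M := Nat.card_pos
        nlinarith
      by_contra hcon
      push Not at hcon
      have hle : Q ⊓ Subgroup.centralizer (M : Set G) ≤ Z := by
        intro y hy
        obtain ⟨hy1, hy2⟩ := Subgroup.mem_inf.1 hy
        exact hcon y hy1 (fun m hm => ((Subgroup.mem_centralizer_iff.1 hy2) m hm).symm)
      have := Subgroup.card_le_of_le hle
      omega
    have hyx : ⁅y, x⁆ = c := by
      apply hZuniq _ (hcomm y hyQ x hxQ) _ hcZ _ hc1
      intro h
      rw [commutatorElement_eq_one_iff_mul_comm] at h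
      apply hyZ
      rw [hZdef]
      refine Subgroup.mem_inf.2 ⟨hyQ, ?_⟩
      rw [Subgroup.mem_centralizer_iff]
      intro q hq
      exact (hcentral y hyM h q hq).symm
    have hg : y⁻¹ * t ∈ Subgroup.centralizer (Q : Set G) := by
      rw [Subgroup.mem_centralizer_iff]
      intro q hq
      refine (hcentral (y⁻¹ * t) ?_ ?_ q hq).symm
      · intro m hm
        calc y⁻¹ * t * m = y⁻¹ * (t * m) := by group
          _ = y⁻¹ * (m * t) := by rw [hMt m hm]
          _ = y⁻¹ * (m * y) * y⁻¹ * t := by group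
          _ = y⁻¹ * (y * m) * y⁻¹ * t := by rw [hyM m hm]
          _ = m * (y⁻¹ * t) := by group
      · have e1 : t * x = x * c * t := by
          calc t * x = t * x * t⁻¹ * t := by group
            _ = x * c * t := by rw [htx]
        have e2 : y * x = c * x * y := by
          rw [← hyx, commutatorElement_def]; group
        have e3 : y⁻¹ * (x * c) = x * y⁻¹ := by
          have : x * c = y * x * y⁻¹ := by rw [e2, hcx]; group
          rw [this]; group
        calc y⁻¹ * t * x = y⁻¹ * (t * x) := by group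
          _ = y⁻¹ * (x * c * t) := by rw [e1]
          _ = y⁻¹ * (x * c) * t := by group
          _ = x * y⁻¹ * t := by rw [e3]
          _ = x * (y⁻¹ * t) := by group
    have hfin : y * (y⁻¹ * t) ∈ Q ⊔ Subgroup.centralizer (Q : Set G) :=
      Subgroup.mul_mem _ (Subgroup.mem_sup_left hyQ) (Subgroup.mem_sup_right hg)
    have e : y * (y⁻¹ * t) = t := by group
    rw [e] at hfin
    exact hfin

end Cfsg.Agent.S1756
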