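import Cfsg.Statements.S1757
import Cfsg.Agent.Helper3.Basic

set_option autoImplicit false
open Cfsg

namespace Cfsg.Agent.S1757

open scoped commutatorElement
open Cfsg.Agent.Helper3

/-- Let p be a prime and A, B p-subgroups of the finite group G, each of which meets every conjugate of itself other than itself trivially. Suppose the order of A is at most that of B, A and B intersect trivially, and B normalizes A. Then A and B commute elementwise. -/
theorem result {G : Type*} [Group G] [Finite G] (p : ℕ) [Fact p.Prime] (A B : Subgroup G)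
    (hA : IsPGroup p ↥A) (hB : IsPGroup p ↥B)
    (hAti : ∀ g : G, A.map (MulAut.conj g).toMonoidHom = A ∨ A.map (MulAut.conj g).toMonoidHom ⊓ A = ⊥)
    (hBti : ∀ g : G, B.map (MulAut.conj g).toMonoidHom = B ∨ B.map (MulAut.conj g).toMonoidHom ⊓ B = ⊥)
    (hle : Nat.card ↥A ≤ Nat.card ↥B) (hAB : A ⊓ B = ⊥) (hN : B ≤ Subgroup.normalizer (A : Set G)) : ⁅A, B⁆ = ⊥ := by
  have hnorm : ∀ a ∈ A, B.map (MulAut.conj a).toMonoidHom = B := by
    intro a ha
    by_contra hne
    have hinf : B.map (MulAut.conj a).toMonoidHom ⊓ B = ⊥ := (hBti a).resolve_left hne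
    have ha1 : a ≠ 1 := by
      rintro rfl
      apply hne
      ext x
      simp
    let f : B → A := fun b => ⟨b * a * (b : G)⁻¹, (Subgroup.le_normalizer_iff.mp hN) b b.2 a ha⟩
    have hf : Function.Injective f := by
      intro b b' hbb
      have h1 : (b : G) * a * (b : G)⁻¹ = b' * a * (b' : G)⁻¹ := congrArg Subtype.val hbb
      have hc : a * ((b' : G)⁻¹ * b) * a⁻¹ = (b' : G)⁻¹ * b := by
        have : a = (b' : G)⁻¹ * ((b : G) * a * (b : G)⁻¹) * b' := by rw [h1]; group
        calc a * ((b' : G)⁻¹ * b) * a⁻¹ = ((b' : G)⁻¹ * ((b : G) * a * (b : G)⁻¹) * b') * ((b' : G)⁻¹ * b) * a⁻¹ := by rw [← this]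
          _ = (b' : G)⁻¹ * b := by group
      have hmem : (b' : G)⁻¹ * b ∈ B.map (MulAut.conj a).toMonoidHom ⊓ B := by
        refine ⟨⟨(b' : G)⁻¹ * b, B.mul_mem (B.inv_mem b'.2) b.2, ?_⟩, B.mul_mem (B.inv_mem b'.2) b.2⟩
        simpa [MulAut.conj_apply] using hc
      rw [hinf, Subgroup.mem_bot] at hmem
      exact Subtype.ext (inv_mul_eq_one.mp hmem).symm
    have h1 : (1 : A) ∉ Set.range f := by
      rintro ⟨b, hb⟩
      have h2 : (b : G) * a * (b : G)⁻¹ = 1 := congrArg Subtype.val hb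
      apply ha1
      have : a = (b : G)⁻¹ * ((b : G) * a * (b : G)⁻¹) * b := by group
      rw [this, h2]; group
    have := nat_card_lt_of_injective_of_notMem f hf h1
    omega
  rw [eq_bot_iff, Subgroup.commutator_le]
  intro a ha b hb
  rw [← hAB]
  refine ⟨?_, ?_⟩
  · have h1 : b * a⁻¹ * b⁻¹ ∈ A := (Subgroup.le_normalizer_iff.mp hN) b hb a⁻¹ (A.inv_mem ha)
    have : ⁅a, b⁆ = a * (b * a⁻¹ * b⁻¹) := by rw [commutatorElement_def]; group
    rw [this]
    exact A.mul_mem ha h1
  · have h1 : a * b * a⁻¹ ∈ B := by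
      have : a * b * a⁻¹ ∈ B.map (MulAut.conj a).toMonoidHom := ⟨b, hb, by simp [MulAut.conj_apply]⟩
      rwa [hnorm a ha] at this
    rw [commutatorElement_def]
    exact B.mul_mem h1 (B.inv_mem hb)

end Cfsg.Agent.S1757
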