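import Cfsg.Statements.S1780
import Mathlib

set_option autoImplicit false
open Cfsg

namespace Cfsg.Agent.S1780

/-- Let A be a finite abelian 2-group and t an automorphism of A whose order is a power of 2. If every element of A fixed by t² is fixed by t, then t fixes every element of A. -/
theorem result {A : Type*} [CommGroup A] [Finite A]
    (hA : IsPGroup 2 A) (t : MulAut A) (ht : ∃ k : ℕ, orderOf t = 2 ^ k) (hC : ∀ a : A, t (t a) = a → t a = a) :
    ∀ a : A, t a = a := by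
  by_contra hne
  push Not at hne
  obtain ⟨a, ha⟩ := hne
  obtain ⟨k, hk⟩ := ht
  let W : A → Prop := fun w => w ^ 2 = 1 ∧ ∃ b, t b * b⁻¹ = w
  have hWmul : ∀ x y, W x → W y → W (x * y) := by
    rintro x y ⟨hx, b₁, rfl⟩ ⟨hy, b₂, rfl⟩
    refine ⟨by rw [mul_pow, hx, hy, mul_one], b₁ * b₂, ?_⟩
    rw [map_mul, mul_inv]
    exact mul_mul_mul_comm _ _ _ _
  have hWt : ∀ x, W x → W (t x) := by
    rintro x ⟨hx, b, rfl⟩
    refine ⟨by rw [← map_pow, hx, map_one], t b, ?_⟩
    rw [← map_inv, ← map_mul]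
  have hWpow : ∀ n : ℕ, ∀ x, W x → W ((t ^ n) x) := by
    intro n
    induction n with
    | zero => intro x hx; simpa using hx
    | succ n ih =>
      intro x hx
      rw [pow_succ', MulAut.mul_apply]
      exact hWt _ (ih x hx)
  have hex : ∃ w, W w ∧ w ≠ 1 := by
    have hc1 : t a * a⁻¹ ≠ 1 := fun h => ha (mul_inv_eq_one.mp h)
    have hfin : ∃ m : ℕ, (t a * a⁻¹) ^ 2 ^ m = 1 := hA (t a * a⁻¹)
    classical
    have hmin : ∀ {n : ℕ}, n < Nat.find hfin → ¬ (t a * a⁻¹) ^ 2 ^ n = 1 := fun {n} h => Nat.find_min hfin h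
    have hspec := Nat.find_spec hfin
    set m := Nat.find hfin with hm
    have hm0 : m ≠ 0 := by
      intro h0
      rw [h0] at hspec
      simp at hspec
      exact hc1 hspec
    obtain ⟨m', hm'⟩ := Nat.exists_eq_succ_of_ne_zero hm0
    rw [hm'] at hspec
    refine ⟨(t a * a⁻¹) ^ 2 ^ m', ⟨?_, a ^ 2 ^ m', ?_⟩, ?_⟩
    · rw [← pow_mul, ← pow_succ]; exact hspec
    · rw [map_pow, ← inv_pow, ← mul_pow]
    · exact hmin (by omega)
  obtain ⟨w₀, hw₀, hw₀1⟩ := hex
  have key : ∀ j, j ≤ k → ∃ w, W w ∧ w ≠ 1 ∧ (t ^ (2 ^ (k - j))) w = w := by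
    intro j
    induction j with
    | zero =>
      intro _
      refine ⟨w₀, hw₀, hw₀1, ?_⟩
      have : t ^ 2 ^ k = 1 := hk ▸ pow_orderOf_eq_one t
      simp [this]
    | succ j ih =>
      intro hj
      obtain ⟨w, hw, hw1, hfix⟩ := ih (by omega)
      obtain ⟨m, hm⟩ : ∃ m, k - (j + 1) = m := ⟨_, rfl⟩
      have hm' : k - j = m + 1 := by omega
      rw [hm]
      rw [hm'] at hfix
      set s := t ^ 2 ^ m with hs
      have hss : t ^ 2 ^ (m + 1) = s * s := by
        rw [pow_succ, pow_mul, pow_two]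
      rw [hss, MulAut.mul_apply] at hfix
      by_cases hv : w * s w = 1
      · refine ⟨w, hw, hw1, ?_⟩
        have h1 : s w = w⁻¹ := by rw [eq_inv_iff_mul_eq_one, mul_comm]; exact hv
        have h2 : w⁻¹ = w := by
          rw [inv_eq_iff_mul_eq_one, ← pow_two]; exact hw.1
        rw [h1, h2]
      · refine ⟨w * s w, hWmul _ _ hw (hWpow _ _ hw), hv, ?_⟩
        rw [map_mul, hfix, mul_comm]
  obtain ⟨w, ⟨hw2, b, hb⟩, hw1, hfix⟩ := key k le_rfl
  simp at hfix
  have htb : t b = w * b := by rw [← hb]; simp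
  have h2 : t (t b) = b := by
    rw [htb, map_mul, hfix, htb, ← mul_assoc, ← pow_two, hw2, one_mul]
  have h3 := hC b h2
  apply hw1
  rw [← hb, h3, mul_inv_cancel]

end Cfsg.Agent.S1780
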