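import Cfsg.Statements.S1781
import Cfsg.Agent.Helper3.Basic
import Cfsg.Agent.S1780

set_option autoImplicit false
open Cfsg

namespace Cfsg.Agent.S1781

open scoped commutatorElement
open Cfsg.Agent.Helper3

theorem ti_lemma {G : Type*} [Group G] [Finite G] (X Y : Subgroup G)
    (hY2 : IsPGroup 2 Y) (hYc : IsMulCommutative Y)
    (hti : ∀ h : G, X.map (MulAut.conj h).toMonoidHom = X ∨ X.map (MulAut.conj h).toMonoidHom ⊓ X = ⊥)
    (hXY : X ⊓ Y = ⊥) (d : G) (hdX : d ∈ X) (hdN : d ∈ Subgroup.normalizer (Y : Set G))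
    (hdk : ∃ k : ℕ, d ^ 2 ^ k = 1) (hd2 : d ^ 2 ≠ 1) :
    Y ≤ Subgroup.normalizer (X : Set G) := by
  have hcomm : ∀ y x : G, x ∈ X → x ≠ 1 → y * x = x * y → X.map (MulAut.conj y).toMonoidHom = X := by
    intro y x hx hx1 hyx
    rcases hti y with h | h
    · exact h
    · exfalso
      apply hx1
      have : x ∈ X.map (MulAut.conj y).toMonoidHom ⊓ X := by
        refine ⟨⟨x, hx, ?_⟩, hx⟩
        simp only [MulEquiv.coe_toMonoidHom, MulAut.conj_apply]
        rw [hyx]; group
      rw [h] at this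
      exact this
  let _ : CommGroup Y := { (inferInstance : Group Y) with mul_comm := fun a b => mul_comm' a b }
  let t : MulAut Y := Y.normalizerMonoidHom ⟨d, hdN⟩
  have ht : ∀ y : Y, ((t y : Y) : G) = d * y * d⁻¹ := fun y => rfl
  have hres : ∀ y : Y, t y = y := by
    apply Cfsg.Agent.S1780.result hY2 t
    · obtain ⟨k, hk⟩ := hdk
      have h1 : t ^ 2 ^ k = 1 := by
        show (Y.normalizerMonoidHom ⟨d, hdN⟩) ^ 2 ^ k = 1
        rw [← map_pow]
        have : (⟨d, hdN⟩ : Subgroup.normalizer (Y : Set G)) ^ 2 ^ k = 1 := by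
          apply Subtype.ext
          simpa using hk
        rw [this, map_one]
      have h2 : orderOf t ∣ 2 ^ k := orderOf_dvd_of_pow_eq_one h1
      obtain ⟨m, -, hm⟩ := (Nat.dvd_prime_pow Nat.prime_two).mp h2
      exact ⟨m, hm⟩
    · intro y hy
      have h1 : (d ^ 2) * (y : G) = (y : G) * (d ^ 2) := by
        have := congrArg (fun z : Y => (z : G)) hy
        simp only [ht] at this
        calc (d ^ 2) * (y : G) = (d * (d * (y : G) * d⁻¹) * d⁻¹) * d ^ 2 := by simp only [pow_two]; group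
          _ = (y : G) * d ^ 2 := by rw [this]
      have h2 := hcomm (y : G) (d ^ 2) (X.pow_mem hdX 2) hd2 h1.symm
      have h3 : (y : G) * d * (y : G)⁻¹ ∈ X := by
        have : (y : G) * d * (y : G)⁻¹ ∈ X.map (MulAut.conj (y : G)).toMonoidHom :=
          ⟨d, hdX, by simp [MulAut.conj_apply]⟩
        rwa [h2] at this
      have h4 : (y : G) * d * (y : G)⁻¹ * d⁻¹ ∈ X ⊓ Y := by
        refine ⟨X.mul_mem h3 (X.inv_mem hdX), ?_⟩
        have h5 : d * (y : G)⁻¹ * d⁻¹ ∈ Y := by
          have := (t y⁻¹).2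
          rw [ht] at this
          simpa using this
        have : (y : G) * d * (y : G)⁻¹ * d⁻¹ = (y : G) * (d * (y : G)⁻¹ * d⁻¹) := by group
        rw [this]
        exact Y.mul_mem y.2 h5
      rw [hXY, Subgroup.mem_bot] at h4
      apply Subtype.ext
      rw [ht]
      have : d * (y : G) * d⁻¹ = ((y : G) * d * (y : G)⁻¹ * d⁻¹)⁻¹ * (y : G) := by group
      rw [this, h4]; group
  intro y hy
  rw [Subgroup.mem_normalizer_iff_map_conj_eq]
  have hd1 : d ≠ 1 := by
    rintro rfl
    exact hd2 (one_pow 2)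
  have h1 := congrArg (fun z : Y => (z : G)) (hres ⟨y, hy⟩)
  simp only [ht] at h1
  apply hcomm y d hdX hd1
  calc y * d = (d * y * d⁻¹) * d := by rw [h1]
    _ = d * y := by group

/-- Let A be an abelian 2-subgroup of the finite group G such that every conjugate of A equals A or meets A trivially, and let g ∈ G with g A g⁻¹ ≠ A. Then either the subgroup of those elements of A that normalize g A g⁻¹ is an elementary abelian 2-group, or A and g A g⁻¹ commute elementwise. -/
theorem result {G : Type*} [Group G] [Finite G] (A : Subgroup G)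
    (hA2 : IsPGroup 2 ↥A) (hAa : IsMulCommutative ↥A)
    (hti : ∀ h : G, A.map (MulAut.conj h).toMonoidHom = A ∨ A.map (MulAut.conj h).toMonoidHom ⊓ A = ⊥)
    (g : G) (hg : A.map (MulAut.conj g).toMonoidHom ≠ A) :
    Cfsg.IsElementaryAbelian 2 (A ⊓ Subgroup.normalizer ((A.map (MulAut.conj g).toMonoidHom : Subgroup G) : Set G)) ∨
      ⁅A, A.map (MulAut.conj g).toMonoidHom⁆ = ⊥ := by
  by_cases hall : ∀ a ∈ A ⊓ Subgroup.normalizer ((A.map (MulAut.conj g).toMonoidHom : Subgroup G) : Set G), a ^ 2 = 1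
  · left
    refine ⟨?_, hall⟩
    exact IsMulCommutative.of_setLike_mul_comm fun a ha b hb =>
      setLike_mul_comm ha.1 hb.1
  · right
    push Not at hall
    obtain ⟨d, hdAN, hd2⟩ := hall
    obtain ⟨hdA, hdN⟩ := Subgroup.mem_inf.mp hdAN
    set B := A.map (MulAut.conj g).toMonoidHom with hB
    have hBA : B ⊓ A = ⊥ := (hti g).resolve_left hg
    have hAB : A ⊓ B = ⊥ := by rw [inf_comm]; exact hBA
    have hdk : ∃ k : ℕ, d ^ 2 ^ k = 1 := by
      obtain ⟨k, hk⟩ := hA2 ⟨d, hdA⟩
      exact ⟨k, by simpa using congrArg Subtype.val hk⟩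
    have hB2 : IsPGroup 2 B := hA2.map _
    have hBc : IsMulCommutative B := Subgroup.map_isMulCommutative _ _
    have hBN : B ≤ Subgroup.normalizer (A : Set G) :=
      ti_lemma A B hB2 hBc hti hAB d hdA hdN hdk hd2
    have htiB : ∀ h : G, B.map (MulAut.conj h).toMonoidHom = B ∨ B.map (MulAut.conj h).toMonoidHom ⊓ B = ⊥ := by
      intro h
      rcases hti (g⁻¹ * h * g) with h1 | h1
      · left
        ext x
        rw [mem_map_conj, hB, mem_map_conj, mem_map_conj]
        have := Subgroup.ext_iff.mp h1 (g⁻¹ * x * g)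
        rw [mem_map_conj] at this
        rw [← this]
        have e : (g⁻¹ * h * g)⁻¹ * (g⁻¹ * x * g) * (g⁻¹ * h * g) = g⁻¹ * (h⁻¹ * x * h) * g := by group
        rw [e]
      · right
        rw [eq_bot_iff]
        intro x hx
        rw [Subgroup.mem_inf, mem_map_conj, hB, mem_map_conj, mem_map_conj] at hx
        have : g⁻¹ * x * g ∈ A.map (MulAut.conj (g⁻¹ * h * g)).toMonoidHom ⊓ A := by
          refine Subgroup.mem_inf.mpr ⟨?_, hx.2⟩
          rw [mem_map_conj]
          have e : (g⁻¹ * h * g)⁻¹ * (g⁻¹ * x * g) * (g⁻¹ * h * g) = g⁻¹ * (h⁻¹ * x * h) * g := by group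
          rw [e]
          exact hx.1
        rw [h1, Subgroup.mem_bot] at this
        rw [Subgroup.mem_bot]
        have e : x = g * (g⁻¹ * x * g) * g⁻¹ := by group
        rw [e, this]; group
    have hd'B : g * d * g⁻¹ ∈ B := conj_mem_map_conj A g d hdA
    have hAN : A ≤ Subgroup.normalizer (B : Set G) := by
      refine ti_lemma B A hA2 hAa htiB hBA (g * d * g⁻¹) hd'B (hBN hd'B) ?_ ?_
      · obtain ⟨k, hk⟩ := hdk
        exact ⟨k, by rw [conj_pow, hk]; group⟩
      · intro h
        apply hd2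
        rw [conj_pow] at h
        have e : d ^ 2 = g⁻¹ * (g * d ^ 2 * g⁻¹) * g := by group
        rw [e, h]; group
    exact commutator_eq_bot_of_normalize A B hAN hBN hAB

end Cfsg.Agent.S1781
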