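import Cfsg.Statements.S1782
import Cfsg.Agent.Helper3.Layer2
import Cfsg.Agent.Helper3.Signalizer2
import Cfsg.Agent.Helper5.Basic
import Cfsg.Agent.Helper5.Frattini
import Cfsg.Agent.S1336

set_option autoImplicit false
open Cfsg

namespace Cfsg.Agent.S1782

universe u

theorem conj_eq_of_commute {S : Type u} [Group S] (Δ : Set (Subgroup S))
    (hinv : ∀ s : S, ∀ R ∈ Δ, R.map (MulAut.conj s).toMonoidHom ∈ Δ)
    (hti : ∀ R ∈ Δ, ∀ T ∈ Δ, R = T ∨ R ⊓ T = ⊥)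
    (R : Subgroup S) (hR : R ∈ Δ) (c : S) (hc : c ∈ R) (hc1 : c ≠ 1) (s : S)
    (hs : s * c = c * s) : R.map (MulAut.conj s).toMonoidHom = R := by
  rcases hti _ (hinv s R hR) R hR with h | h
  · exact h
  · exfalso
    have h1 : c ∈ R.map (MulAut.conj s).toMonoidHom ⊓ R := by
      refine Subgroup.mem_inf.2 ⟨⟨c, hc, ?_⟩, hc⟩
      show s * c * s⁻¹ = c
      rw [hs]; group
    rw [h, Subgroup.mem_bot] at h1
    exact hc1 h1

theorem commute_of_normalizes {S : Type u} [Group S] [Finite S] (hS : IsPGroup 2 S)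
    (Δ : Set (Subgroup S))
    (hinv : ∀ s : S, ∀ R ∈ Δ, R.map (MulAut.conj s).toMonoidHom ∈ Δ)
    (hord : ∀ R ∈ Δ, ∀ T ∈ Δ, Nat.card ↥R = Nat.card ↥T)
    (hti : ∀ R ∈ Δ, ∀ T ∈ Δ, R = T ∨ R ⊓ T = ⊥)
    (R T : Subgroup S) (hR : R ∈ Δ) (hT : T ∈ Δ) (hne : R ≠ T)
    (hTR : ∀ b ∈ T, ∀ x ∈ R, b * x * b⁻¹ ∈ R) : ∀ x ∈ R, ∀ y ∈ T, x * y = y * x := by
  classical
  haveI : Fact (Nat.Prime 2) := ⟨Nat.prime_two⟩
  have hRT : R ⊓ T = ⊥ := (hti R hR T hT).resolve_left hne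
  obtain ⟨C, hC⟩ : ∃ C : Subgroup S, C = R ⊓ Subgroup.centralizer (T : Set S) := ⟨_, rfl⟩
  have hCR : C ≤ R := by rw [hC]; exact inf_le_left
  have hCT : ∀ c ∈ C, ∀ y ∈ T, y * c = c * y := by
    intro c hc y hy
    rw [hC] at hc
    exact Subgroup.mem_centralizer_iff.1 (Subgroup.mem_inf.1 hc).2 y hy
  by_cases hCeq : C = R
  · intro x hx y hy
    have hx' : x ∈ C := by rw [hCeq]; exact hx
    exact (hCT x hx' y hy).symm
  exfalso
  have hCnT : C ≤ Subgroup.normalizer (T : Set S) := by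
    rw [hC]; exact inf_le_right.trans (Subgroup.centralizer_le_normalizer _)
  have hTnR : T ≤ Subgroup.normalizer (R : Set S) := Helper3.le_normalizer_of_conj_mem T R hTR
  obtain ⟨D, hD⟩ : ∃ D : Subgroup S, D = T ⊔ C := ⟨_, rfl⟩
  have hTD : T ≤ D := by rw [hD]; exact le_sup_left
  have hCD : C ≤ D := by rw [hD]; exact le_sup_right
  have hDle : D ≤ R ⊔ T := by rw [hD]; exact sup_le le_sup_right (hCR.trans le_sup_left)
  have hDne : D ≠ R ⊔ T := by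
    intro h
    apply hCeq
    apply le_antisymm hCR
    intro x hx
    have hxD : x ∈ T ⊔ C := by rw [← hD, h]; exact Subgroup.mem_sup_left hx
    obtain ⟨y, hy, c, hc, hyc⟩ := Helper3.mem_sup_of_le_normalizer_right T C hCnT hxD
    have hyR : y ∈ R := by
      have e : y = x * c⁻¹ := by rw [← hyc]; group
      rw [e]; exact R.mul_mem hx (R.inv_mem (hCR hc))
    have hy1 : y = 1 := by
      have : y ∈ R ⊓ T := Subgroup.mem_inf.2 ⟨hyR, hy⟩
      rw [hRT, Subgroup.mem_bot] at this; exact this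
    rw [hy1, one_mul] at hyc
    rw [← hyc]; exact hc
  have hP2 : IsPGroup 2 ↥(R ⊔ T : Subgroup S) := hS.to_subgroup _
  obtain ⟨g, hgP, hgN, hgD⟩ := Helper5.exists_mem_normalizer_not_mem (R ⊔ T) D hP2 hDle hDne
  obtain ⟨a, ha, b, hb, hab⟩ := Helper3.mem_sup_of_le_normalizer_right R T hTnR hgP
  have haN : a ∈ Subgroup.normalizer (D : Set S) := by
    have e : a = g * b⁻¹ := by rw [← hab]; group
    rw [e]
    exact Subgroup.mul_mem _ hgN (Subgroup.inv_mem _ (Subgroup.le_normalizer (hTD hb)))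
  have haD : a ∉ D := by
    intro h; apply hgD; rw [← hab]; exact D.mul_mem h (hTD hb)
  have hTa : T.map (MulAut.conj a).toMonoidHom ∈ Δ := hinv a T hT
  have hTaD : ∀ y ∈ T, a * y * a⁻¹ ∈ D :=
    fun y hy => (Subgroup.mem_normalizer_iff.1 haN y).1 (hTD hy)
  have hTane : T.map (MulAut.conj a).toMonoidHom ≠ T := by
    intro h
    apply haD
    apply hCD
    rw [hC]
    refine Subgroup.mem_inf.2 ⟨ha, ?_⟩
    rw [Subgroup.mem_centralizer_iff]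
    intro y hy
    have h1 : a * y * a⁻¹ ∈ T := by rw [← h]; exact ⟨y, hy, rfl⟩
    have h2 : a * y * a⁻¹ * y⁻¹ ∈ R ⊓ T := by
      refine Subgroup.mem_inf.2 ⟨?_, T.mul_mem h1 (T.inv_mem hy)⟩
      have e : a * y * a⁻¹ * y⁻¹ = a * (y * a⁻¹ * y⁻¹) := by group
      rw [e]; exact R.mul_mem ha (hTR y hy a⁻¹ (R.inv_mem ha))
    rw [hRT, Subgroup.mem_bot] at h2
    have e2 : a * y = y * a := by
      calc a * y = (a * y * a⁻¹ * y⁻¹) * (y * a) := by group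
        _ = y * a := by rw [h2, one_mul]
    exact e2.symm
  have hTaT : T.map (MulAut.conj a).toMonoidHom ⊓ T = ⊥ := (hti _ hTa T hT).resolve_left hTane
  have hcard1 : Nat.card ↥T * Nat.card ↥T ≤ Nat.card ↥D := by
    rw [← Nat.card_prod]
    refine Nat.card_le_card_of_injective (fun p : ↥T × ↥T =>
      (⟨(p.1 : S) * (a * (p.2 : S) * a⁻¹), D.mul_mem (hTD p.1.2) (hTaD _ p.2.2)⟩ : ↥D)) ?_
    rintro ⟨y₁, y₁'⟩ ⟨y₂, y₂'⟩ h
    have h' : (y₁ : S) * (a * (y₁' : S) * a⁻¹) = (y₂ : S) * (a * (y₂' : S) * a⁻¹) :=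
      congrArg Subtype.val h
    have h3 : (y₂ : S)⁻¹ * (y₁ : S) = a * ((y₂' : S) * (y₁' : S)⁻¹) * a⁻¹ := by
      calc (y₂ : S)⁻¹ * (y₁ : S)
          = (y₂ : S)⁻¹ * ((y₁ : S) * (a * (y₁' : S) * a⁻¹)) * (a * (y₁' : S) * a⁻¹)⁻¹ := by group
        _ = (y₂ : S)⁻¹ * ((y₂ : S) * (a * (y₂' : S) * a⁻¹)) * (a * (y₁' : S) * a⁻¹)⁻¹ := by rw [h']
        _ = a * ((y₂' : S) * (y₁' : S)⁻¹) * a⁻¹ := by group
    have h4 : (y₂ : S)⁻¹ * (y₁ : S) ∈ T.map (MulAut.conj a).toMonoidHom ⊓ T := by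
      refine Subgroup.mem_inf.2 ⟨?_, T.mul_mem (T.inv_mem y₂.2) y₁.2⟩
      rw [h3]; exact ⟨_, T.mul_mem y₂'.2 (T.inv_mem y₁'.2), rfl⟩
    rw [hTaT, Subgroup.mem_bot] at h4
    have h5 : (y₁ : S) = y₂ := by
      calc (y₁ : S) = y₂ * ((y₂ : S)⁻¹ * y₁) := by group
        _ = y₂ := by rw [h4, mul_one]
    have h6 : (y₁' : S) = y₂' := by
      rw [h5] at h'
      have h7 := mul_left_cancel h'
      calc (y₁' : S) = a⁻¹ * (a * y₁' * a⁻¹) * a := by group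
        _ = a⁻¹ * (a * y₂' * a⁻¹) * a := by rw [h7]
        _ = y₂' := by group
    exact Prod.ext (Subtype.ext h5) (Subtype.ext h6)
  have hcard2 : Nat.card ↥D ≤ Nat.card ↥T * Nat.card ↥C := by
    rw [hD]
    exact Nat.le_of_dvd (Nat.mul_pos Nat.card_pos Nat.card_pos)
      (Helper3.card_sup_dvd_mul_of_le_normalizer T C hCnT)
  have hTpos : 0 < Nat.card ↥T := Nat.card_pos
  have hcard3 : Nat.card ↥T ≤ Nat.card ↥C :=
    Nat.le_of_mul_le_mul_left (le_trans hcard1 hcard2) hTpos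
  apply hCeq
  exact Subgroup.eq_of_le_of_card_ge hCR (by rw [hord R hR T hT]; exact hcard3)

theorem exists_normal_proper {S : Type u} [Group S] [Finite S] (hS : IsPGroup 2 S)
    (P R : Subgroup S) (hRP : R ≤ P) (hne : R ≠ P) :
    ∃ N : Subgroup S, R ≤ N ∧ N ≤ P ∧ N ≠ P ∧ P ≤ Subgroup.normalizer (N : Set S) := by
  classical
  haveI : Fact (Nat.Prime 2) := ⟨Nat.prime_two⟩
  obtain ⟨N, hRN, hN⟩ := (Set.toFinite {X : Subgroup S | R ≤ X ∧ X ≤ P ∧ X ≠ P}).exists_le_maximal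
    (show R ∈ {X : Subgroup S | R ≤ X ∧ X ≤ P ∧ X ≠ P} from ⟨le_rfl, hRP, hne⟩)
  obtain ⟨-, hNP, hNne⟩ := hN.prop
  obtain ⟨y, hyP, hyN, hyn⟩ :=
    Helper5.exists_mem_normalizer_not_mem P N (hS.to_subgroup _) hNP hNne
  refine ⟨N, hRN, hNP, hNne, ?_⟩
  have hX : N ⊔ Subgroup.zpowers y = P := by
    by_contra hX
    have hmem : N ⊔ Subgroup.zpowers y ∈ {X : Subgroup S | R ≤ X ∧ X ≤ P ∧ X ≠ P} :=
      ⟨hRN.trans le_sup_left, sup_le hNP (Subgroup.zpowers_le.2 hyP), hX⟩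
    have := hN.le_of_ge hmem le_sup_left
    exact hyn (this (Subgroup.mem_sup_right (Subgroup.mem_zpowers y)))
  rw [← hX]
  exact sup_le Subgroup.le_normalizer (Subgroup.zpowers_le.2 hyN)

theorem exists_sq_ne_one {S : Type u} [Group S] [Finite S] (R : Subgroup S)
    (hΦ : frattini ↥R ≠ ⊥) : ∃ a ∈ R, a ^ 2 ≠ 1 := by
  by_contra hcon
  push Not at hcon
  apply hΦ
  rw [eq_bot_iff]
  have hsq : ∀ w : ↥R, w * w = 1 := by
    intro w
    apply Subtype.ext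
    rw [Subgroup.coe_mul, ← pow_two]; exact hcon w w.2
  have hinv : ∀ w : ↥R, w⁻¹ = w := fun w => inv_eq_of_mul_eq_one_left (hsq w)
  apply Helper5.frattini_le_of_elementary_quotient Nat.prime_two ⊥
  · intro x y
    rw [Subgroup.mem_bot, hinv x, hinv y]
    calc x * y * x * y = (x * y) * (x * y) := by group
      _ = 1 := hsq (x * y)
  · intro x
    rw [Subgroup.mem_bot, pow_two]
    exact hsq x

theorem regular_aux {S : Type u} [Group S] [Finite S] (hS : IsPGroup 2 S) (Δ : Set (Subgroup S))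
    (hinv : ∀ s : S, ∀ R ∈ Δ, R.map (MulAut.conj s).toMonoidHom ∈ Δ)
    (hti : ∀ R ∈ Δ, ∀ T ∈ Δ, R = T ∨ R ⊓ T = ⊥)
    (R T : Subgroup S) (hR : R ∈ Δ) (hT : T ∈ Δ) (hRne : R ≠ ⊥)
    (hH1 : ∀ b ∈ T, R.map (MulAut.conj b).toMonoidHom ≠ R →
      ∀ x ∈ R, ∀ x' ∈ R, x * (b * x' * b⁻¹) = (b * x' * b⁻¹) * x)
    (hb₀ : ∃ b ∈ T, R.map (MulAut.conj b).toMonoidHom ≠ R)
    (ha₀ : ∃ a ∈ R, T.map (MulAut.conj a).toMonoidHom ≠ T) :
    ∀ c ∈ R, c ≠ 1 → T.map (MulAut.conj c).toMonoidHom ≠ T := by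
  haveI : Fact (Nat.Prime 2) := ⟨Nat.prime_two⟩
  obtain ⟨b₀, hb₀T, hb₀R⟩ := hb₀
  have X : ∀ c ∈ R, c ≠ 1 → T.map (MulAut.conj c).toMonoidHom = T →
      ∀ a ∈ R, a * c = c * a → T.map (MulAut.conj a).toMonoidHom = T := by
    intro c hc hc1 hTc a ha hac
    have hv : c⁻¹ * (b₀ * c * b₀⁻¹) ∈ T := by
      have h1 : c⁻¹ * b₀ * c ∈ T := by
        have : b₀ ∈ T.map (MulAut.conj c).toMonoidHom := by rw [hTc]; exact hb₀T
        exact (Helper5.mem_conj_iff T c b₀).1 this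
      have e : c⁻¹ * (b₀ * c * b₀⁻¹) = (c⁻¹ * b₀ * c) * b₀⁻¹ := by group
      rw [e]; exact T.mul_mem h1 (T.inv_mem hb₀T)
    have hv1 : c⁻¹ * (b₀ * c * b₀⁻¹) ≠ 1 := by
      intro h
      apply hb₀R
      apply conj_eq_of_commute Δ hinv hti R hR c hc hc1 b₀
      have e1 : b₀ * c * b₀⁻¹ = c := by
        calc b₀ * c * b₀⁻¹ = c * (c⁻¹ * (b₀ * c * b₀⁻¹)) := by group
          _ = c := by rw [h, mul_one]
      calc b₀ * c = (b₀ * c * b₀⁻¹) * b₀ := by group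
        _ = c * b₀ := by rw [e1]
    apply conj_eq_of_commute Δ hinv hti T hT _ hv hv1 a
    have h1 := hH1 b₀ hb₀T hb₀R a ha c hc
    have h2 : a * c⁻¹ = c⁻¹ * a := by
      calc a * c⁻¹ = c⁻¹ * (c * a) * c⁻¹ := by group
        _ = c⁻¹ * (a * c) * c⁻¹ := by rw [hac]
        _ = c⁻¹ * a := by group
    calc a * (c⁻¹ * (b₀ * c * b₀⁻¹)) = (a * c⁻¹) * (b₀ * c * b₀⁻¹) := by group
      _ = (c⁻¹ * a) * (b₀ * c * b₀⁻¹) := by rw [h2]
      _ = c⁻¹ * (a * (b₀ * c * b₀⁻¹)) := by group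
      _ = c⁻¹ * ((b₀ * c * b₀⁻¹) * a) := by rw [h1]
      _ = c⁻¹ * (b₀ * c * b₀⁻¹) * a := by group
  intro c hc hc1 hTc
  obtain ⟨z, hzR, hzo, hzc⟩ := S1336.exists_central_order_p R (hS.to_subgroup _) hRne
  have hz1 : z ≠ 1 := by
    intro h; rw [h, orderOf_one] at hzo; omega
  have hTz := X c hc hc1 hTc z hzR (hzc c hc)
  obtain ⟨a₀, ha₀R, ha₀T⟩ := ha₀
  exact ha₀T (X z hzR hz1 hTz a₀ ha₀R (hzc a₀ ha₀R).symm)

theorem order_eq_aux {S : Type u} [Group S] (R T : Subgroup S) (a b : S) (ha : a ∈ R)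
    (hb : b ∈ T)
    (hRb : R.map (MulAut.conj b).toMonoidHom ⊓ R = ⊥)
    (hcR : ∀ x ∈ R, ∀ x' ∈ R, x * (b * x' * b⁻¹) = (b * x' * b⁻¹) * x)
    (hTa : T.map (MulAut.conj a).toMonoidHom ⊓ T = ⊥)
    (hcT : ∀ y ∈ T, ∀ y' ∈ T, y * (a * y' * a⁻¹) = (a * y' * a⁻¹) * y) :
    orderOf a = orderOf b := by
  have h1 : ∀ m : ℕ, (a * b * a⁻¹ * b⁻¹) ^ m = a ^ m * (b * (a ^ m)⁻¹ * b⁻¹) := by
    intro m
    have e : a * b * a⁻¹ * b⁻¹ = a * (b * a⁻¹ * b⁻¹) := by group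
    have hc : Commute a (b * a⁻¹ * b⁻¹) := hcR a ha a⁻¹ (R.inv_mem ha)
    rw [e, hc.mul_pow, conj_pow, inv_pow]
  have h2 : ∀ m : ℕ, (a * b * a⁻¹ * b⁻¹) ^ m = (a * b ^ m * a⁻¹) * (b ^ m)⁻¹ := by
    intro m
    have hc : Commute (a * b * a⁻¹) b⁻¹ := (hcT b⁻¹ (T.inv_mem hb) b hb).symm
    rw [hc.mul_pow, conj_pow, inv_pow]
  have ha_iff : ∀ m : ℕ, (a * b * a⁻¹ * b⁻¹) ^ m = 1 ↔ a ^ m = 1 := by
    intro m
    rw [h1]
    constructor
    · intro h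
      have h3 : a ^ m = b * a ^ m * b⁻¹ := by
        calc a ^ m = (a ^ m * (b * (a ^ m)⁻¹ * b⁻¹)) * (b * a ^ m * b⁻¹) := by group
          _ = b * a ^ m * b⁻¹ := by rw [h, one_mul]
      have h4 : b * a ^ m * b⁻¹ ∈ R.map (MulAut.conj b).toMonoidHom :=
        ⟨a ^ m, R.pow_mem ha m, rfl⟩
      rw [← h3] at h4
      have h5 : a ^ m ∈ R.map (MulAut.conj b).toMonoidHom ⊓ R :=
        Subgroup.mem_inf.2 ⟨h4, R.pow_mem ha m⟩
      rw [hRb, Subgroup.mem_bot] at h5; exact h5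
    · intro h; rw [h]; group
  have hb_iff : ∀ m : ℕ, (a * b * a⁻¹ * b⁻¹) ^ m = 1 ↔ b ^ m = 1 := by
    intro m
    rw [h2]
    constructor
    · intro h
      have h3 : a * b ^ m * a⁻¹ = b ^ m := by
        calc a * b ^ m * a⁻¹ = (a * b ^ m * a⁻¹ * (b ^ m)⁻¹) * b ^ m := by group
          _ = b ^ m := by rw [h, one_mul]
      have h4 : a * b ^ m * a⁻¹ ∈ T.map (MulAut.conj a).toMonoidHom :=
        ⟨b ^ m, T.pow_mem hb m, rfl⟩
      rw [h3] at h4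
      have h5 : b ^ m ∈ T.map (MulAut.conj a).toMonoidHom ⊓ T :=
        Subgroup.mem_inf.2 ⟨h4, T.pow_mem hb m⟩
      rw [hTa, Subgroup.mem_bot] at h5; exact h5
    · intro h; rw [h]; group
  rw [orderOf_eq_orderOf_iff]
  intro m
  rw [← ha_iff, ← hb_iff]

theorem main_aux {S : Type u} [Group S] [Finite S] (hS : IsPGroup 2 S) (Δ : Set (Subgroup S))
    (hinv : ∀ s : S, ∀ R ∈ Δ, R.map (MulAut.conj s).toMonoidHom ∈ Δ)
    (hΦ : ∀ R ∈ Δ, frattini ↥R ≠ ⊥) (hord : ∀ R ∈ Δ, ∀ T ∈ Δ, Nat.card ↥R = Nat.card ↥T)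
    (hti : ∀ R ∈ Δ, ∀ T ∈ Δ, R = T ∨ R ⊓ T = ⊥) :
    ∀ n : ℕ, ∀ P : Subgroup S, Nat.card ↥P ≤ n → ∀ R ∈ Δ, ∀ T ∈ Δ, R ≤ P → T ≤ P → R ≠ T →
      ∀ x ∈ R, ∀ y ∈ T, x * y = y * x := by
  classical
  haveI : Fact (Nat.Prime 2) := ⟨Nat.prime_two⟩
  intro n
  induction n with
  | zero =>
    intro P hP
    have := Nat.card_pos (α := ↥P)
    omega
  | succ n ih =>
    intro P hP R hR T hT hRP hTP hne
    by_contra hcon
    have hb₀ : ∃ b ∈ T, R.map (MulAut.conj b).toMonoidHom ≠ R := by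
      by_contra h
      push Not at h
      apply hcon
      apply commute_of_normalizes hS Δ hinv hord hti R T hR hT hne
      intro b hb x hx
      have : b * x * b⁻¹ ∈ R.map (MulAut.conj b).toMonoidHom := ⟨x, hx, rfl⟩
      rw [h b hb] at this; exact this
    have ha₀ : ∃ a ∈ R, T.map (MulAut.conj a).toMonoidHom ≠ T := by
      by_contra h
      push Not at h
      apply hcon
      have hc := commute_of_normalizes hS Δ hinv hord hti T R hT hR (Ne.symm hne) (by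
        intro a ha y hy
        have : a * y * a⁻¹ ∈ T.map (MulAut.conj a).toMonoidHom := ⟨y, hy, rfl⟩
        rw [h a ha] at this; exact this)
      intro x hx y hy
      exact (hc y hy x hx).symm
    have hH : ∀ R' ∈ Δ, R' ≤ P → R' ≠ P → ∀ b ∈ P, R'.map (MulAut.conj b).toMonoidHom ≠ R' →
        ∀ x ∈ R', ∀ x' ∈ R', x * (b * x' * b⁻¹) = (b * x' * b⁻¹) * x := by
      intro R' hR' hR'P hR'ne b hb hbne x hx x' hx'
      obtain ⟨N, hRN, hNP, hNne, hPN⟩ := exists_normal_proper hS P R' hR'P hR'ne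
      have hcardN : Nat.card ↥N ≤ n := by
        have h1 : Nat.card ↥N < Nat.card ↥P := by
          by_contra h2
          push Not at h2
          exact hNne (Subgroup.eq_of_le_of_card_ge hNP h2)
        omega
      have hconjN : R'.map (MulAut.conj b).toMonoidHom ≤ N := by
        rintro _ ⟨w, hw, rfl⟩
        exact (Subgroup.mem_normalizer_iff.1 (hPN hb) w).1 (hRN hw)
      exact ih N hcardN R' hR' _ (hinv b R' hR') hRN hconjN (Ne.symm hbne) x hx _ ⟨x', hx', rfl⟩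
    have hRneP : R ≠ P := by
      intro h
      apply hne
      have hTR : T ≤ R := by rw [h]; exact hTP
      exact (Subgroup.eq_of_le_of_card_ge hTR (le_of_eq (hord R hR T hT))).symm
    have hTneP : T ≠ P := by
      intro h
      apply hne
      have hRT : R ≤ T := by rw [h]; exact hRP
      exact Subgroup.eq_of_le_of_card_ge hRT (le_of_eq (hord T hT R hR))
    have hH1 := fun b (hb : b ∈ T) => hH R hR hRP hRneP b (hTP hb)
    have hH2 := fun a (ha : a ∈ R) => hH T hT hTP hTneP a (hRP ha)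
    obtain ⟨a₁, ha₁R, ha₁sq⟩ := exists_sq_ne_one R (hΦ R hR)
    have ha₁1 : a₁ ≠ 1 := by
      intro h; rw [h] at ha₁sq; simp at ha₁sq
    have hRbot : R ≠ ⊥ := by
      intro h; rw [h, Subgroup.mem_bot] at ha₁R; exact ha₁1 ha₁R
    have hTbot : T ≠ ⊥ := by
      intro h
      have h1 := hord R hR T hT
      rw [h, Subgroup.card_bot] at h1
      exact hRbot (Subgroup.card_eq_one.1 h1)
    have hregR := regular_aux hS Δ hinv hti R T hR hT hRbot hH1 hb₀ ha₀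
    have hregT := regular_aux hS Δ hinv hti T R hT hR hTbot hH2 ha₀ hb₀
    obtain ⟨b₁, hb₁T, hb₁o, -⟩ := S1336.exists_central_order_p T (hS.to_subgroup _) hTbot
    have hb₁1 : b₁ ≠ 1 := by
      intro h; rw [h, orderOf_one] at hb₁o; omega
    have hRb := hregT b₁ hb₁T hb₁1
    have hTa := hregR a₁ ha₁R ha₁1
    have h1 := order_eq_aux R T a₁ b₁ ha₁R hb₁T
      ((hti _ (hinv b₁ R hR) R hR).resolve_left hRb) (hH1 b₁ hb₁T hRb)
      ((hti _ (hinv a₁ T hT) T hT).resolve_left hTa) (hH2 a₁ ha₁R hTa)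
    rw [hb₁o] at h1
    apply ha₁sq
    rw [← h1]; exact pow_orderOf_eq_one a₁

/-- Let S be a finite 2-group and Δ a set of subgroups of S closed under conjugation by S, all of the same order, each with nontrivial Frattini subgroup, and such that two distinct members of Δ meet trivially. Then any two distinct members of Δ commute elementwise. -/
theorem result {S : Type*} [Group S] [Finite S] (hS : IsPGroup 2 S)
    (Δ : Set (Subgroup S)) (hinv : ∀ s : S, ∀ R ∈ Δ, R.map (MulAut.conj s).toMonoidHom ∈ Δ)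
    (hΦ : ∀ R ∈ Δ, frattini ↥R ≠ ⊥) (hord : ∀ R ∈ Δ, ∀ T ∈ Δ, Nat.card ↥R = Nat.card ↥T)
    (hti : ∀ R ∈ Δ, ∀ T ∈ Δ, R = T ∨ R ⊓ T = ⊥) :
    ∀ R ∈ Δ, ∀ T ∈ Δ, R ≠ T → ⁅R, T⁆ = ⊥ := by
  intro R hR T hT hne
  rw [Subgroup.commutator_eq_bot_iff_le_centralizer]
  intro x hx
  rw [Subgroup.mem_centralizer_iff]
  intro y hy
  exact (main_aux hS Δ hinv hΦ hord hti (Nat.card ↥(⊤ : Subgroup S)) ⊤ le_rfl R hR T hT
    le_top le_top hne x hx y hy).symm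

end Cfsg.Agent.S1782
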