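import Cfsg.Statements.S1966
import Cfsg.Agent.Helper4.Cores

set_option autoImplicit false
open Cfsg

namespace Cfsg.Agent.S1966

/-- Let p be a prime, G a finite group with Sylow p-subgroup S and 𝓕 a conjugation family for S in G. Then the members of 𝓕 containing O_p(G) still form a conjugation family for S in G. -/
theorem result {G : Type*} [Group G] [Finite G] {p : ℕ} [Fact p.Prime] (S : Sylow p G) (𝓕 : Set (Subgroup G)) (h : Cfsg.IsConjugationFamily 𝓕 (S : Subgroup G)) : Cfsg.IsConjugationFamily {T : Subgroup G | T ∈ 𝓕 ∧ Cfsg.pCore p G ≤ T} (S : Subgroup G) := by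
  refine ⟨fun T hT => h.1 T hT.1, ?_⟩
  intro A g hAne hAS hAg
  have hOS : Cfsg.pCore p G ≤ (S : Subgroup G) := Cfsg.Agent.Helper4.pCore_le_sylow S
  obtain ⟨n, T, x, hprod, hT, hx, h0, hstep⟩ := h.2 (A ∪ (Cfsg.pCore p G : Set G)) g
    (hAne.mono Set.subset_union_left)
    (Set.union_subset hAS hOS)
    (by
      rintro _ ⟨a, ha | ha, rfl⟩
      · exact hAg ⟨a, ha, rfl⟩
      · exact hOS (Cfsg.Agent.Helper4.pCore_conj_mem' ha g))
  refine ⟨n, T, x, hprod, ?_, hx, ?_, ?_⟩
  · intro i
    refine ⟨hT i, ?_⟩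
    obtain ⟨j, hj⟩ := i
    cases j with
    | zero =>
      intro y hy
      exact h0 hj (Or.inr hy)
    | succ j =>
      intro y hy
      have hj' : j < n := by omega
      have := hstep ⟨j, hj'⟩ hj
      apply this
      refine ⟨((List.ofFn x).take (j + 1)).prod * y * (((List.ofFn x).take (j + 1)).prod)⁻¹,
        Or.inr (Cfsg.Agent.Helper4.pCore_conj_mem hy _), ?_⟩
      simp only
      group
  · intro h0'
    exact Set.subset_union_left.trans (h0 h0')
  · intro i hi
    exact (Set.image_mono Set.subset_union_left).trans (hstep i hi)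

end Cfsg.Agent.S1966
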