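import Cfsg.Statements.S1967
import Cfsg.Agent.Helper4.Basic

set_option autoImplicit false
open Cfsg

namespace Cfsg.Agent.S1967

/-- Let p be a prime, G a finite group with Sylow p-subgroup S and W a conjugacy functor for p on G. Then W controls strong fusion in G if and only if, whenever T ≤ S and g ∈ G satisfy gTg⁻¹ ≤ S, one can write g = n c with n ∈ N_G(W(S)) and c ∈ C_G(T). -/
theorem result {G : Type*} [Group G] [Finite G] {p : ℕ} [Fact p.Prime] (S : Sylow p G) (W : Subgroup G → Subgroup G) (hW : Cfsg.IsConjugacyFunctor p W) : Cfsg.ControlsStrongFusionIn p W ⊤ ↔ ∀ (T : Subgroup G) (g : G), T ≤ (S : Subgroup G) → T.map (MulAut.conj g).toMonoidHom ≤ (S : Subgroup G) → ∃ n ∈ Subgroup.normalizer ((W (S : Subgroup G) : Subgroup G) : Set G), ∃ c ∈ Subgroup.centralizer (T : Set G), g = n * c := by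
  constructor
  · rintro ⟨T₀, -, hT₀p, hT₀i, hprop⟩ T g hTS hTg
    rw [Subgroup.relIndex_top_right] at hT₀i
    obtain ⟨k, hk⟩ := MulAction.exists_smul_eq G S (hT₀p.toSylow hT₀i)
    have hmem : ∀ y : G, y ∈ T₀ ↔ k⁻¹ * y * k ∈ (S : Subgroup G) := by
      intro y
      rw [← Cfsg.Agent.Helper4.mem_smul_sylow_iff, hk]
      rfl
    have hT₀eq : T₀ = (S : Subgroup G).map (MulAut.conj k).toMonoidHom := by
      ext y
      rw [hmem, Subgroup.mem_map]
      constructor
      · intro hy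
        exact ⟨_, hy, by simp [MulAut.conj_apply, mul_assoc]⟩
      · rintro ⟨s, hs, rfl⟩
        simpa [MulAut.conj_apply, mul_assoc] using hs
    have hWT₀ : W T₀ = (W (S : Subgroup G)).map (MulAut.conj k).toMonoidHom := by
      rw [hT₀eq]; exact (hW _ S.2).2.2 k
    obtain ⟨x, hx, hxA⟩ := hprop ((fun t => k * t * k⁻¹) '' (T : Set G)) (k * g * k⁻¹) (Subgroup.mem_top _)
      (by
        rintro _ ⟨t, ht, rfl⟩
        show k * t * k⁻¹ ∈ T₀
        rw [hmem]
        have : k⁻¹ * (k * t * k⁻¹) * k = t := by group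
        rw [this]; exact hTS ht)
      (by
        rintro _ ⟨_, ⟨t, ht, rfl⟩, rfl⟩
        show k * g * k⁻¹ * (k * t * k⁻¹) * (k * g * k⁻¹)⁻¹ ∈ T₀
        rw [hmem]
        have : k⁻¹ * (k * g * k⁻¹ * (k * t * k⁻¹) * (k * g * k⁻¹)⁻¹) * k = g * t * g⁻¹ := by group
        rw [this]
        exact hTg ⟨t, ht, by simp [MulAut.conj_apply]⟩)
    have hx' : x ∈ Subgroup.normalizer ((W T₀ : Subgroup G) : Set G) := hx.2
    rw [hWT₀, ← Subgroup.map_equiv_normalizer_eq] at hx'
    obtain ⟨n, hn, hnx⟩ := hx'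
    have hnx' : k * n * k⁻¹ = x := by simpa [MulAut.conj_apply] using hnx
    refine ⟨n, hn, n⁻¹ * g, ?_, by group⟩
    rw [Subgroup.mem_centralizer_iff]
    intro t ht
    have h1 := hxA (k * t * k⁻¹) ⟨t, ht, rfl⟩
    rw [← hnx'] at h1
    have h2 : n * t * n⁻¹ = g * t * g⁻¹ := by
      have := congrArg (fun y => k⁻¹ * y * k) h1
      calc n * t * n⁻¹ = k⁻¹ * (k * n * k⁻¹ * (k * t * k⁻¹) * (k * n * k⁻¹)⁻¹) * k := by group
        _ = k⁻¹ * (k * g * k⁻¹ * (k * t * k⁻¹) * (k * g * k⁻¹)⁻¹) * k := this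
        _ = g * t * g⁻¹ := by group
    calc t * (n⁻¹ * g) = n⁻¹ * (n * t * n⁻¹) * g := by group
      _ = n⁻¹ * (g * t * g⁻¹) * g := by rw [h2]
      _ = n⁻¹ * g * t := by group
  · intro hyp
    refine ⟨S, le_top, S.2, ?_, ?_⟩
    · rw [Subgroup.relIndex_top_right]; exact S.not_dvd_index
    · intro A h _ hAS hAh
      have h1 : Subgroup.closure A ≤ (S : Subgroup G) := (Subgroup.closure_le _).mpr hAS
      have h2 : (Subgroup.closure A).map (MulAut.conj h).toMonoidHom ≤ (S : Subgroup G) := by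
        rw [MonoidHom.map_closure, Subgroup.closure_le]
        rintro _ ⟨a, ha, rfl⟩
        exact hAh ⟨a, ha, by simp [MulAut.conj_apply]⟩
      obtain ⟨n, hn, c, hc, hnc⟩ := hyp (Subgroup.closure A) h h1 h2
      refine ⟨n, ⟨Subgroup.mem_top _, hn⟩, fun a ha => ?_⟩
      have hca : a * c = c * a := (Subgroup.mem_centralizer_iff.mp hc) a (Subgroup.subset_closure ha)
      rw [hnc]
      calc n * a * n⁻¹ = n * (a * c) * c⁻¹ * n⁻¹ := by group
        _ = n * (c * a) * c⁻¹ * n⁻¹ := by rw [hca]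
        _ = n * c * a * (n * c)⁻¹ := by group

end Cfsg.Agent.S1967
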