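import Cfsg.Statements.S1968
import Cfsg.Agent.Helper4.WellPlaced
import Mathlib.Data.Set.Finite.Lemmas

set_option autoImplicit false
open Cfsg

namespace Cfsg.Agent.S1968

open Cfsg.Agent.Helper4 in
theorem chain_first_move {G : Type*} [Group G] {𝓕 : Set (Subgroup G)} {A : Set G} {x : G}
    (h : ConjChain 𝓕 A x) : rconj A x ≠ A →
    ∃ T ∈ 𝓕, ∃ y ∈ Subgroup.normalizer (T : Set G), A ⊆ T ∧ rconj A y ≠ A := by
  induction h with
  | nil A => intro h; exact absurd (rconj_one A) h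
  | cons A T x g hT hA hx _ ih =>
    intro hne
    by_cases hx' : rconj A x = A
    · rw [← rconj_mul, hx'] at hne
      rw [hx'] at ih
      exact ih hne
    · exact ⟨T, hT, x, hx, hA, hx'⟩

open Cfsg.Agent.Helper4 in
theorem tower_shift {G : Type*} [Group G] (W : Subgroup G → Subgroup G) (S T : Subgroup G) :
    ∀ i, functorTower W S (functorTower W S T 1) i = functorTower W S T (i + 1) := by
  intro i
  induction i with
  | zero => rfl
  | succ i ih =>
    show W (S ⊓ Subgroup.normalizer ((functorTower W S (functorTower W S T 1) i : Subgroup G) : Set G)) =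
      W (S ⊓ Subgroup.normalizer ((functorTower W S T (i + 1) : Subgroup G) : Set G))
    rw [ih]

/-- Let p be a prime, G a finite group with Sylow p-subgroup S and W a conjugacy functor for p on G with Z(P) ≤ W(P) for every p-subgroup P. Let A be a subgroup of Z(S) normalized by N_G(W(S)) that is not weakly closed in S with respect to G. Then there is a subgroup T of S, well placed in S with respect to W, such that: A ≤ T; N_G(W(N_S(T))) normalizes A; N_S(T) is a Sylow p-subgroup of N_G(T); A ≤ Z(N_S(T)); and A is not weakly closed in N_S(T) with respect to N_G(T), that is, some N_G(T)-conjugate of A other than A lies in N_S(T). -/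
theorem result {G : Type*} [Group G] [Finite G] {p : ℕ} [Fact p.Prime] (S : Sylow p G) (W : Subgroup G → Subgroup G) (hW : Cfsg.IsConjugacyFunctor p W) (hWZ : ∀ P : Subgroup G, IsPGroup p ↥P → P ⊓ Subgroup.centralizer (P : Set G) ≤ W P) (A : Subgroup G) (hAZ : A ≤ (S : Subgroup G) ⊓ Subgroup.centralizer ((S : Subgroup G) : Set G)) (hAN : Subgroup.normalizer ((W (S : Subgroup G) : Subgroup G) : Set G) ≤ Subgroup.normalizer ((A : Subgroup G) : Set G)) (hnwc : ¬ Cfsg.IsWeaklyClosed A (S : Subgroup G)) : ∃ T : Subgroup G, Cfsg.IsWellPlaced p W (S : Subgroup G) T ∧ A ≤ T ∧ Subgroup.normalizer ((W ((S : Subgroup G) ⊓ Subgroup.normalizer ((T : Subgroup G) : Set G)) : Subgroup G) : Set G) ≤ Subgroup.normalizer ((A : Subgroup G) : Set G) ∧ ¬ p ∣ ((S : Subgroup G) ⊓ Subgroup.normalizer ((T : Subgroup G) : Set G)).relIndex (Subgroup.normalizer ((T : Subgroup G) : Set G)) ∧ A ≤ Subgroup.centralizer (((S : Subgroup G) ⊓ Subgroup.normalizer ((T : Subgroup G) : Set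 G) : Subgroup G) : Set G) ∧ ∃ g ∈ Subgroup.normalizer ((T : Subgroup G) : Set G), A.map (MulAut.conj g).toMonoidHom ≤ (S : Subgroup G) ⊓ Subgroup.normalizer ((T : Subgroup G) : Set G) ∧ A.map (MulAut.conj g).toMonoidHom ≠ A := by
  classical
  have hAS : A ≤ (S : Subgroup G) := hAZ.trans inf_le_left
  have hAC : A ≤ Subgroup.centralizer ((S : Subgroup G) : Set G) := hAZ.trans inf_le_right
  -- the candidate set
  let 𝒞 : Set (Subgroup G) := {T | Cfsg.IsWellPlaced p W (S : Subgroup G) T ∧ A ≤ T ∧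
    ∃ g ∈ Subgroup.normalizer ((T : Subgroup G) : Set G),
      A.map (MulAut.conj g).toMonoidHom ≤ (S : Subgroup G) ⊓ Subgroup.normalizer ((T : Subgroup G) : Set G) ∧
      A.map (MulAut.conj g).toMonoidHom ≠ A}
  have hmove : ∀ T : Subgroup G, Cfsg.IsWellPlaced p W (S : Subgroup G) T → A ≤ T →
      ∀ y ∈ Subgroup.normalizer ((T : Subgroup G) : Set G), A.map (MulAut.conj y).toMonoidHom ≠ A → T ∈ 𝒞 := by
    intro T hT hAT y hy hne
    refine ⟨hT, hAT, y, hy, ?_, hne⟩
    have h1 : T.map (MulAut.conj y).toMonoidHom = T := Cfsg.Agent.Helper4.mem_normalizer_iff_map_cj.mp hy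
    have h2 : A.map (MulAut.conj y).toMonoidHom ≤ T := by
      rw [← h1]; exact Subgroup.map_mono hAT
    exact h2.trans (le_inf hT.1 Subgroup.le_normalizer)
  have hne : 𝒞.Nonempty := by
    have h1 : ∃ g : G, A.map (MulAut.conj g).toMonoidHom ≤ (S : Subgroup G) ∧ A.map (MulAut.conj g).toMonoidHom ≠ A := by
      by_contra hcon
      apply hnwc
      refine ⟨hAS, fun g hg => ?_⟩
      by_contra hne
      exact hcon ⟨g, hg, hne⟩
    obtain ⟨g, hgS, hgne⟩ := h1
    have hfam := Cfsg.Agent.Helper4.alperin_chain S {T : Subgroup G | Cfsg.IsWellPlaced p W (S : Subgroup G) T}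
      (fun U hU => hU.1)
      (fun T hT => by
        obtain ⟨k, hk⟩ := Cfsg.Agent.Helper4.exists_isWellPlaced S hW T hT
        exact ⟨_, hk, ⟨k, rfl⟩, hk.2 0⟩)
    have hsub : Cfsg.Agent.Helper4.rconj (A : Set G) g⁻¹ ⊆ (S : Subgroup G) := by
      rw [← Cfsg.Agent.Helper4.coe_map_conj_inv, inv_inv]; exact hgS
    have hchain := hfam A hAS g⁻¹ hsub
    have hne' : Cfsg.Agent.Helper4.rconj (A : Set G) g⁻¹ ≠ A := by
      rw [← Cfsg.Agent.Helper4.coe_map_conj_inv, inv_inv]
      intro h; exact hgne (SetLike.coe_injective h)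
    obtain ⟨T, hT, y, hy, hAT, hyne⟩ := chain_first_move hchain hne'
    refine ⟨T, hmove T hT hAT y⁻¹ (Subgroup.inv_mem _ hy) ?_⟩
    intro h
    apply hyne
    rw [← Cfsg.Agent.Helper4.coe_map_conj_inv, h]
  obtain ⟨T, hT𝒞, hmax⟩ := Set.exists_max_image 𝒞
    (fun T => Nat.card ((S : Subgroup G) ⊓ Subgroup.normalizer ((T : Subgroup G) : Set G) : Subgroup G))
    (Set.toFinite 𝒞) hne
  obtain ⟨hTwp, hAT, g, hg, hgS, hgne⟩ := hT𝒞
  have hAN₀ : A ≤ (S : Subgroup G) ⊓ Subgroup.normalizer ((T : Subgroup G) : Set G) :=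
    le_inf hAS (hAT.trans Subgroup.le_normalizer)
  have hAcen : A ≤ Subgroup.centralizer (((S : Subgroup G) ⊓ Subgroup.normalizer ((T : Subgroup G) : Set G) : Subgroup G) : Set G) :=
    hAC.trans (Subgroup.centralizer_le inf_le_left)
  refine ⟨T, hTwp, hAT, ?_, hTwp.2 0, hAcen, g, hg, hgS, hgne⟩
  -- the main point
  by_contra hcon
  obtain ⟨y, hy, hyA⟩ := SetLike.not_le_iff_exists.mp hcon
  set N₀ : Subgroup G := (S : Subgroup G) ⊓ Subgroup.normalizer ((T : Subgroup G) : Set G) with hN₀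
  set T₁ : Subgroup G := W N₀ with hT₁
  have hN₀p : IsPGroup p N₀ := S.2.to_le inf_le_left
  have hT₁eq : T₁ = functorTower W (S : Subgroup G) T 1 := rfl
  have hT₁wp : Cfsg.IsWellPlaced p W (S : Subgroup G) T₁ := by
    refine ⟨((hW N₀ hN₀p).1).trans inf_le_left, fun i => ?_⟩
    rw [hT₁eq, tower_shift]
    exact hTwp.2 (i + 1)
  have hAT₁ : A ≤ T₁ := (le_inf hAN₀ hAcen).trans (hWZ N₀ hN₀p)
  have hyne : A.map (MulAut.conj y).toMonoidHom ≠ A := by
    intro h
    exact hyA (Cfsg.Agent.Helper4.mem_normalizer_iff_map_cj.mpr h)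
  have hT₁𝒞 : T₁ ∈ 𝒞 := hmove T₁ hT₁wp hAT₁ y hy hyne
  have hle : N₀ ≤ (S : Subgroup G) ⊓ Subgroup.normalizer ((T₁ : Subgroup G) : Set G) :=
    Cfsg.Agent.Helper4.tower_NS_le_succ S hW T 0
  have hcard := hmax T₁ hT₁𝒞
  have heq : N₀ = (S : Subgroup G) ⊓ Subgroup.normalizer ((T₁ : Subgroup G) : Set G) :=
    Subgroup.eq_of_le_of_card_ge hle hcard
  have hN₀S : N₀ = (S : Subgroup G) := by
    by_contra hne'
    have hlt : N₀ < (S : Subgroup G) := lt_of_le_of_ne inf_le_left hne'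
    have h1 := Cfsg.Agent.Helper4.lt_inf_normalizer (S : Subgroup G) N₀ S.2 hlt
    have h2' : (S : Subgroup G) ⊓ Subgroup.normalizer ((N₀ : Subgroup G) : Set G) ≤
        (S : Subgroup G) ⊓ Subgroup.normalizer ((T₁ : Subgroup G) : Set G) :=
      inf_le_inf_left _ (Cfsg.Agent.Helper4.normalizer_le_normalizer_functor hW N₀ hN₀p)
    have h2 : (S : Subgroup G) ⊓ Subgroup.normalizer ((N₀ : Subgroup G) : Set G) ≤ N₀ :=
      h2'.trans heq.symm.le
    exact lt_irrefl _ (lt_of_lt_of_le h1 h2)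
  have hy' : y ∈ Subgroup.normalizer ((W (S : Subgroup G) : Subgroup G) : Set G) := by
    rw [← hN₀S]; exact hy
  exact hyA (hAN hy')


end Cfsg.Agent.S1968
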