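import Cfsg.Statements.S1976
import Cfsg.Agent.Helper4.KInf

set_option autoImplicit false
open Cfsg

namespace Cfsg.Agent.S1976

/-- Let P be a finite p-group. The K-sequence of P is eventually constant on each parity: from some index on, every even-indexed term equals the lower K-infinity subgroup and every odd-indexed term equals the upper K-infinity subgroup. -/
theorem result {P : Type*} [Group P] [Finite P] {p : ℕ} [Fact p.Prime] (hP : IsPGroup p P) : ∃ n : ℕ, ∀ m : ℕ, n ≤ m → Cfsg.kSeqEven P m = Cfsg.kInfLower P ∧ Cfsg.kSeqOdd P m = Cfsg.kInfUpper P := by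
  obtain ⟨n₁, h₁⟩ := WellFoundedGT.monotone_chain_condition
    (⟨Cfsg.kSeqEven P, Cfsg.Agent.Helper4.kSeqEven_monotone⟩ : ℕ →o Subgroup P)
  obtain ⟨n₂, h₂⟩ := WellFoundedGT.monotone_chain_condition
    (⟨OrderDual.toDual ∘ Cfsg.kSeqOdd P, Cfsg.Agent.Helper4.kSeqOdd_antitone⟩ : ℕ →o (Subgroup P)ᵒᵈ)
  have h₁' : ∀ m, n₁ ≤ m → Cfsg.kSeqEven P n₁ = Cfsg.kSeqEven P m := h₁
  have h₂' : ∀ m, n₂ ≤ m → Cfsg.kSeqOdd P n₂ = Cfsg.kSeqOdd P m := fun m hm => h₂ m hm
  have hL : Cfsg.kInfLower P = Cfsg.kSeqEven P n₁ := by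
    apply le_antisymm
    · refine iSup_le fun k => ?_
      rw [h₁' (max k n₁) (le_max_right _ _)]
      exact Cfsg.Agent.Helper4.kSeqEven_monotone (le_max_left _ _)
    · exact le_iSup (Cfsg.kSeqEven P) n₁
  have hU : Cfsg.kInfUpper P = Cfsg.kSeqOdd P n₂ := by
    apply le_antisymm
    · exact iInf_le (Cfsg.kSeqOdd P) n₂
    · refine le_iInf fun k => ?_
      rw [h₂' (max k n₂) (le_max_right _ _)]
      exact Cfsg.Agent.Helper4.kSeqOdd_antitone (le_max_left _ _)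
  refine ⟨max n₁ n₂, fun m hm => ⟨?_, ?_⟩⟩
  · rw [hL, h₁' m ((le_max_left _ _).trans hm)]
  · rw [hU, h₂' m ((le_max_right _ _).trans hm)]

end Cfsg.Agent.S1976
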