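import Cfsg.Statements.S2007
import Cfsg.Agent.Helper4.NPC

set_option autoImplicit false
open Cfsg

namespace Cfsg.Agent.S2007

/-- Let p be a prime, G a finite group with Sylow p-subgroup S, and T a normal subgroup of S containing C_S(T). If N_G(T)/C_G(T) is a p-group (every element of N_G(T) of order prime to p centralizes T), then N_G(T) has a normal p-complement. -/
theorem result {G : Type*} [Group G] [Finite G] {p : ℕ} [Fact p.Prime] (S : Sylow p G) (T : Subgroup G) (hTS : T ≤ (S : Subgroup G)) (hTn : (S : Subgroup G) ≤ Subgroup.normalizer ((T : Subgroup G) : Set G)) (hC : (S : Subgroup G) ⊓ Subgroup.centralizer ((T : Subgroup G) : Set G) ≤ T) (hN : ∀ g ∈ Subgroup.normalizer ((T : Subgroup G) : Set G), (orderOf g).Coprime p → g ∈ Subgroup.centralizer ((T : Subgroup G) : Set G)) : Cfsg.HasNormalPComplement p ↥(Subgroup.normalizer ((T : Subgroup G) : Set G)) := by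
  classical
  have hCN : Subgroup.centralizer ((T : Subgroup G) : Set G) ≤
      Subgroup.normalizer ((T : Subgroup G) : Set G) := Subgroup.centralizer_le_normalizer _
  have hconj : ∀ n ∈ Subgroup.normalizer ((T : Subgroup G) : Set G),
      ∀ c ∈ Subgroup.centralizer ((T : Subgroup G) : Set G),
        n * c * n⁻¹ ∈ Subgroup.centralizer ((T : Subgroup G) : Set G) := by
    intro n hn c hc
    have hnorm := Subgroup.normal_subgroupOf_centralizer_normalizer ((T : Subgroup G) : Set G)
    have := hnorm.conj_mem ⟨c, hCN hc⟩ (Subgroup.mem_subgroupOf.mpr hc) ⟨n, hn⟩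
    exact this
  obtain ⟨P₀⟩ : Nonempty (Sylow p (Subgroup.centralizer ((T : Subgroup G) : Set G))) := inferInstance
  have hcen : ∀ x ∈ (P₀ : Subgroup (Subgroup.centralizer ((T : Subgroup G) : Set G))),
      ∀ c : Subgroup.centralizer ((T : Subgroup G) : Set G), c * x = x * c := by
    intro x hx c
    have hQp : IsPGroup p ((P₀ : Subgroup (Subgroup.centralizer ((T : Subgroup G) : Set G))).map
        (Subgroup.centralizer ((T : Subgroup G) : Set G)).subtype) := P₀.2.map _
    have hQN : (P₀ : Subgroup (Subgroup.centralizer ((T : Subgroup G) : Set G))).map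
        (Subgroup.centralizer ((T : Subgroup G) : Set G)).subtype ≤
        Subgroup.normalizer ((T : Subgroup G) : Set G) := by
      rintro _ ⟨y, _, rfl⟩; exact hCN y.2
    have hidx : ¬ p ∣ (S : Subgroup G).relIndex (Subgroup.normalizer ((T : Subgroup G) : Set G)) := by
      intro h
      exact S.not_dvd_index (h.trans (Subgroup.relIndex_dvd_index_of_le hTn))
    obtain ⟨n, hnN, hn⟩ := Helper4.exists_conj_le_of_relIndex
      (Subgroup.normalizer ((T : Subgroup G) : Set G)) (S : Subgroup G) _ S.2 hidx hQp hQN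
    have hxQ : (x : G) ∈ (P₀ : Subgroup (Subgroup.centralizer ((T : Subgroup G) : Set G))).map
        (Subgroup.centralizer ((T : Subgroup G) : Set G)).subtype := ⟨x, hx, rfl⟩
    have hyS := hn _ hxQ
    have hyC := hconj n hnN (x : G) x.2
    have hyT : n * (x : G) * n⁻¹ ∈ T := hC (Subgroup.mem_inf.mpr ⟨hyS, hyC⟩)
    have hcC := hconj n hnN (c : G) c.2
    have h1 : n * (x : G) * n⁻¹ * (n * (c : G) * n⁻¹) = n * (c : G) * n⁻¹ * (n * (x : G) * n⁻¹) :=
      hcC _ hyT
    apply Subtype.ext
    show (c : G) * (x : G) = (x : G) * (c : G)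
    calc (c : G) * (x : G) = n⁻¹ * (n * (c : G) * n⁻¹ * (n * (x : G) * n⁻¹)) * n := by group
      _ = n⁻¹ * (n * (x : G) * n⁻¹ * (n * (c : G) * n⁻¹)) * n := by rw [h1]
      _ = (x : G) * (c : G) := by group
  obtain ⟨K₁, hK₁n, hK₁c, hK₁⟩ := Helper4.exists_normal_coprime_of_central_sylow P₀ hcen
  have hKmem : ∀ g : Subgroup.normalizer ((T : Subgroup G) : Set G), (orderOf g).Coprime p →
      g ∈ K₁.map (Subgroup.inclusion hCN) := by
    intro g hg
    have hgC : (g : G) ∈ Subgroup.centralizer ((T : Subgroup G) : Set G) :=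
      hN g g.2 (by rwa [Subgroup.orderOf_coe])
    refine ⟨⟨g, hgC⟩, hK₁ _ ?_, ?_⟩
    · have : orderOf (⟨(g : G), hgC⟩ : Subgroup.centralizer ((T : Subgroup G) : Set G)) =
          orderOf (g : G) := Subgroup.orderOf_mk _ _
      rw [this, Subgroup.orderOf_coe]; exact hg
    · rfl
  have hKcard : (Nat.card (K₁.map (Subgroup.inclusion hCN))).Coprime p := by
    rw [Subgroup.card_map_of_injective (Subgroup.inclusion_injective hCN)]
    exact hK₁c
  have hKn : (K₁.map (Subgroup.inclusion hCN)).Normal := by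
    constructor
    intro g hg n
    apply hKmem
    have h1 : orderOf (n * g * n⁻¹) = orderOf g :=
      orderOf_injective (MulAut.conj n).toMonoidHom (MulAut.conj n).injective g
    rw [h1]
    have h2 : orderOf (⟨g, hg⟩ : K₁.map (Subgroup.inclusion hCN)) ∣
        Nat.card (K₁.map (Subgroup.inclusion hCN)) := orderOf_dvd_natCard _
    rw [Subgroup.orderOf_mk] at h2
    exact Nat.Coprime.coprime_dvd_left h2 hKcard
  have hQ : IsPGroup p (Subgroup.normalizer ((T : Subgroup G) : Set G) ⧸ K₁.map (Subgroup.inclusion hCN)) := by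
    intro x
    obtain ⟨g, rfl⟩ := QuotientGroup.mk_surjective x
    have hpos : orderOf g ≠ 0 := (orderOf_pos g).ne'
    obtain ⟨a, m, hm, hgm⟩ := Nat.exists_eq_pow_mul_and_not_dvd hpos p (Fact.out : p.Prime).ne_one
    refine ⟨a, ?_⟩
    rw [← QuotientGroup.mk_pow, QuotientGroup.eq_one_iff]
    apply hKmem
    have : orderOf (g ^ p ^ a) = m := by
      rw [orderOf_pow' _ (pow_ne_zero a (Fact.out : p.Prime).ne_zero), hgm,
        Nat.gcd_eq_right (dvd_mul_right _ _),
        Nat.mul_div_cancel_left _ (pow_pos (Fact.out : p.Prime).pos a)]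
    rw [this]
    exact ((Nat.Prime.coprime_iff_not_dvd Fact.out).mpr hm).symm
  exact Helper4.hasNormalPComplement_of_coprime_of_isPGroup _ hKcard hQ


end Cfsg.Agent.S2007
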