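import Cfsg.Statements.S2331
import Mathlib
import Cfsg.Agent.Helper4.Conj2

set_option autoImplicit false
open Cfsg

namespace Cfsg.Agent.S2331

open Matrix in
/-- The companion matrix of trace `t` in `SL_2` in characteristic two. -/
def compSL {F : Type*} [Field F] [CharP F 2] (t : F) : SpecialLinearGroup (Fin 2) F :=
  ⟨!![0, 1; 1, t], by rw [Matrix.det_fin_two_of, zero_mul, mul_one, zero_sub, CharTwo.neg_eq]⟩

open Matrix in
/-- Representatives of the conjugacy classes of `SL_2(F)` in characteristic two. -/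
def PsiSL {F : Type*} [Field F] [CharP F 2] : Option F → ConjClasses (SpecialLinearGroup (Fin 2) F)
  | none => ConjClasses.mk 1
  | some t => ConjClasses.mk (compSL t)

open Matrix in
theorem trace_conj_SL {F : Type*} [Field F] (c A : SpecialLinearGroup (Fin 2) F) :
    Matrix.trace ((c * A * c⁻¹ : SpecialLinearGroup (Fin 2) F).1) = Matrix.trace A.1 := by
  have e : (c * A * c⁻¹ : SpecialLinearGroup (Fin 2) F).1 = c.1 * A.1 * (c⁻¹).1 := rfl
  have e2 : (c⁻¹).1 * c.1 = (1 : Matrix (Fin 2) (Fin 2) F) := by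
    have e3 : ((c⁻¹ * c : SpecialLinearGroup (Fin 2) F)).1 = (c⁻¹).1 * c.1 := rfl
    rw [← e3, inv_mul_cancel]
    rfl
  rw [e, Matrix.trace_mul_comm, ← Matrix.mul_assoc, e2, Matrix.one_mul]

open Matrix Cfsg.Agent.Helper4.Conj2 in
theorem PsiSL_bijective {F : Type*} [Field F] [Fintype F] [CharP F 2] :
    Function.Bijective (PsiSL (F := F)) := by
  have key : ∀ t : F, ConjClasses.mk (1 : SpecialLinearGroup (Fin 2) F) ≠
      ConjClasses.mk (compSL t) := by
    intro t h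
    obtain ⟨c, hc⟩ := isConj_iff.1 (ConjClasses.mk_eq_mk_iff_isConj.1 h)
    rw [mul_one, mul_inv_cancel] at hc
    have h2 := congrArg
      (fun M : SpecialLinearGroup (Fin 2) F => (M : Matrix (Fin 2) (Fin 2) F) 1 0) hc
    simp [compSL] at h2
  constructor
  · rintro (_ | t) (_ | t') h
    · rfl
    · exact absurd h (key t')
    · exact absurd h.symm (key t)
    · obtain ⟨c, hc⟩ := isConj_iff.1 (ConjClasses.mk_eq_mk_iff_isConj.1 h)
      have h1 := trace_conj_SL c (compSL t)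
      rw [hc, Matrix.trace_fin_two, Matrix.trace_fin_two] at h1
      have h3 : t' = t := by simpa [compSL] using h1
      rw [h3]
  · intro x
    obtain ⟨g, rfl⟩ := ConjClasses.exists_rep x
    have hdet : (g : Matrix (Fin 2) (Fin 2) F) 0 0 * (g : Matrix (Fin 2) (Fin 2) F) 1 1 -
        (g : Matrix (Fin 2) (Fin 2) F) 0 1 * (g : Matrix (Fin 2) (Fin 2) F) 1 0 = 1 := by
      rw [← Matrix.det_fin_two]
      exact g.2
    by_cases hs : ((g : Matrix (Fin 2) (Fin 2) F) 0 1 = 0 ∧ (g : Matrix (Fin 2) (Fin 2) F) 1 0 = 0 ∧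
        (g : Matrix (Fin 2) (Fin 2) F) 0 0 = (g : Matrix (Fin 2) (Fin 2) F) 1 1)
    · refine ⟨none, ?_⟩
      show ConjClasses.mk 1 = ConjClasses.mk g
      congr 1
      obtain ⟨hb, hc, hae⟩ := hs
      rw [hb, ← hae, zero_mul, sub_zero] at hdet
      have h2 : ((g : Matrix (Fin 2) (Fin 2) F) 0 0 - 1) * ((g : Matrix (Fin 2) (Fin 2) F) 0 0 - 1) = 0 := by
        linear_combination hdet + (1 - (g : Matrix (Fin 2) (Fin 2) F) 0 0) * (CharTwo.two_eq_zero (R := F))
      have h3 : (g : Matrix (Fin 2) (Fin 2) F) 0 0 = 1 := sub_eq_zero.1 (mul_self_eq_zero.1 h2)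
      apply Subtype.ext
      ext i j
      fin_cases i <;> fin_cases j <;> simp [hb, hc, ← hae, h3]
    · obtain ⟨v1, v2, hv⟩ := exists_cyclic _ _ _ _ hs
      obtain ⟨ε, hε⟩ := FiniteField.isSquare_of_char_two (ringChar.eq F 2)
        (v1 * ((g : Matrix (Fin 2) (Fin 2) F) 1 0 * v1 + (g : Matrix (Fin 2) (Fin 2) F) 1 1 * v2) -
          ((g : Matrix (Fin 2) (Fin 2) F) 0 0 * v1 + (g : Matrix (Fin 2) (Fin 2) F) 0 1 * v2) * v2)⁻¹
      have hP1 : (!![ε * v1, (g : Matrix (Fin 2) (Fin 2) F) 0 0 * (ε * v1) +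
            (g : Matrix (Fin 2) (Fin 2) F) 0 1 * (ε * v2);
          ε * v2, (g : Matrix (Fin 2) (Fin 2) F) 1 0 * (ε * v1) +
            (g : Matrix (Fin 2) (Fin 2) F) 1 1 * (ε * v2)] : Matrix (Fin 2) (Fin 2) F).det = 1 := by
        rw [Matrix.det_fin_two_of]
        have e1 : ε * v1 * ((g : Matrix (Fin 2) (Fin 2) F) 1 0 * (ε * v1) +
            (g : Matrix (Fin 2) (Fin 2) F) 1 1 * (ε * v2)) -
            ((g : Matrix (Fin 2) (Fin 2) F) 0 0 * (ε * v1) +
              (g : Matrix (Fin 2) (Fin 2) F) 0 1 * (ε * v2)) * (ε * v2) =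
            (ε * ε) * (v1 * ((g : Matrix (Fin 2) (Fin 2) F) 1 0 * v1 +
              (g : Matrix (Fin 2) (Fin 2) F) 1 1 * v2) -
              ((g : Matrix (Fin 2) (Fin 2) F) 0 0 * v1 +
                (g : Matrix (Fin 2) (Fin 2) F) 0 1 * v2) * v2) := by ring
        rw [e1, ← hε, inv_mul_cancel₀ hv]
      obtain ⟨P, hPval⟩ : ∃ P : SpecialLinearGroup (Fin 2) F, P.1 =
          !![ε * v1, (g : Matrix (Fin 2) (Fin 2) F) 0 0 * (ε * v1) +
            (g : Matrix (Fin 2) (Fin 2) F) 0 1 * (ε * v2);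
          ε * v2, (g : Matrix (Fin 2) (Fin 2) F) 1 0 * (ε * v1) +
            (g : Matrix (Fin 2) (Fin 2) F) 1 1 * (ε * v2)] := ⟨⟨_, hP1⟩, rfl⟩
      have hP : g * P = P *
          compSL ((g : Matrix (Fin 2) (Fin 2) F) 0 0 + (g : Matrix (Fin 2) (Fin 2) F) 1 1) := by
        apply Subtype.ext
        have h1 := mat_eq ((g : Matrix (Fin 2) (Fin 2) F) 0 0) ((g : Matrix (Fin 2) (Fin 2) F) 0 1)
          ((g : Matrix (Fin 2) (Fin 2) F) 1 0) ((g : Matrix (Fin 2) (Fin 2) F) 1 1) (ε * v1) (ε * v2)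
        rw [← Matrix.eta_fin_two (g : Matrix (Fin 2) (Fin 2) F), hdet, CharTwo.neg_eq] at h1
        show g.1 * P.1 = P.1 * _
        rw [hPval]
        exact h1
      refine ⟨some ((g : Matrix (Fin 2) (Fin 2) F) 0 0 + (g : Matrix (Fin 2) (Fin 2) F) 1 1), ?_⟩
      refine (ConjClasses.mk_eq_mk_iff_isConj.2 (isConj_iff.2 ⟨P⁻¹, ?_⟩)).symm
      rw [inv_inv, mul_assoc, hP, inv_mul_cancel_left]

/-- Over a finite field with q elements, q even, the special linear group SL₂ has exactly q + 1 conjugacy classes. -/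
theorem result {F : Type*} [Field F] [Fintype F] [CharP F 2] :
    Nat.card (ConjClasses (Matrix.SpecialLinearGroup (Fin 2) F)) = Fintype.card F + 1 := by
  classical
  rw [← Nat.card_congr (Equiv.ofBijective PsiSL PsiSL_bijective), Nat.card_eq_fintype_card,
    Fintype.card_option]

end Cfsg.Agent.S2331
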