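import Cfsg.Statements.S2302
import Mathlib
import Cfsg.Agent.S2331
import Cfsg.Agent.S0276

set_option autoImplicit false
open Cfsg

namespace Cfsg.Agent.S2302

theorem sq_inj {F : Type*} [Field F] [CharP F 2] {a b : F} (h : a * a = b * b) : a = b := by
  have h2 : (a - b) * (a - b) = 0 := by
    linear_combination h + (b * b - a * b) * (CharTwo.two_eq_zero (R := F))
  exact sub_eq_zero.1 (mul_self_eq_zero.1 h2)

open Matrix in
/-- Entries of a trace-zero element of `SL_2` in characteristic two. -/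
theorem entries {F : Type*} [Field F] [CharP F 2] (x : SpecialLinearGroup (Fin 2) F)
    (ht : x.1 0 0 + x.1 1 1 = 0) :
    x.1 1 1 = x.1 0 0 ∧ x.1 0 0 * x.1 0 0 = 1 + x.1 0 1 * x.1 1 0 := by
  have hdet : x.1 0 0 * x.1 1 1 - x.1 0 1 * x.1 1 0 = 1 := by
    rw [← Matrix.det_fin_two]
    exact x.2
  have he : x.1 1 1 = x.1 0 0 := by
    linear_combination ht - (x.1 0 0) * (CharTwo.two_eq_zero (R := F))
  refine ⟨he, ?_⟩
  rw [he] at hdet
  linear_combination hdet

open Matrix Cfsg.Agent.S2331 in
theorem conj_of {F : Type*} [Field F] [Fintype F] [CharP F 2] (x : SpecialLinearGroup (Fin 2) F)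
    (hx1 : x ≠ 1) : IsConj (compSL (x.1 0 0 + x.1 1 1)) x := by
  obtain ⟨o, ho⟩ := (PsiSL_bijective (F := F)).2 (ConjClasses.mk x)
  cases o with
  | none =>
    exfalso
    apply hx1
    change ConjClasses.mk 1 = ConjClasses.mk x at ho
    obtain ⟨c, hc⟩ := isConj_iff.1 (ConjClasses.mk_eq_mk_iff_isConj.1 ho)
    rw [← hc, mul_one, mul_inv_cancel]
  | some t =>
    change ConjClasses.mk (compSL t) = ConjClasses.mk x at ho
    have hc := ConjClasses.mk_eq_mk_iff_isConj.1 ho
    obtain ⟨c, hc'⟩ := isConj_iff.1 hc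
    have h1 := trace_conj_SL c (compSL t)
    rw [hc', Matrix.trace_fin_two, Matrix.trace_fin_two] at h1
    have ht : x.1 0 0 + x.1 1 1 = t := by simpa [compSL] using h1
    rw [ht]
    exact hc

open Matrix in
/-- The off-diagonal entries of a trace-zero non-identity element. -/
def classMap {F : Type*} [Field F] [CharP F 2]
    (x : {x : SpecialLinearGroup (Fin 2) F // x ≠ 1 ∧ x.1 0 0 + x.1 1 1 = 0}) :
    {p : F × F // ¬ p = (0, 0)} :=
  ⟨(x.1.1 0 1, x.1.1 1 0), by
    intro hp
    have hb : x.1.1 0 1 = 0 := congrArg Prod.fst hp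
    have hc : x.1.1 1 0 = 0 := congrArg Prod.snd hp
    apply x.2.1
    obtain ⟨he, ha2⟩ := entries x.1 x.2.2
    rw [hb, zero_mul, add_zero] at ha2
    have ha : x.1.1 0 0 = 1 := sq_inj (by rw [ha2, mul_one])
    apply Subtype.ext
    ext i j
    fin_cases i <;> fin_cases j <;> simp [hb, hc, he, ha]⟩

open Matrix in
theorem classMap_bijective {F : Type*} [Field F] [Fintype F] [CharP F 2] :
    Function.Bijective (classMap (F := F)) := by
  constructor
  · intro x y hxy
    have h1 := congrArg Subtype.val hxy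
    have hb : x.1.1 0 1 = y.1.1 0 1 := congrArg Prod.fst h1
    have hc : x.1.1 1 0 = y.1.1 1 0 := congrArg Prod.snd h1
    obtain ⟨hex, hax⟩ := entries x.1 x.2.2
    obtain ⟨hey, hay⟩ := entries y.1 y.2.2
    have ha : x.1.1 0 0 = y.1.1 0 0 := sq_inj (by rw [hax, hay, hb, hc])
    apply Subtype.ext
    apply Subtype.ext
    ext i j
    fin_cases i <;> fin_cases j <;> simp [hb, hc, hex, hey, ha]
  · rintro ⟨⟨b, c⟩, hp⟩
    obtain ⟨s, hs⟩ := FiniteField.isSquare_of_char_two (ringChar.eq F 2) (1 + b * c)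
    have hdet : (!![s, b; c, s] : Matrix (Fin 2) (Fin 2) F).det = 1 := by
      rw [Matrix.det_fin_two_of, ← hs]
      ring
    refine ⟨⟨⟨_, hdet⟩, ?_, ?_⟩, ?_⟩
    · intro h1
      apply hp
      have h2 := congrArg (fun M : SpecialLinearGroup (Fin 2) F => M.1 0 1) h1
      have h3 := congrArg (fun M : SpecialLinearGroup (Fin 2) F => M.1 1 0) h1
      have hb : b = 0 := by simpa using h2
      have hc : c = 0 := by simpa using h3
      rw [hb, hc]
    · exact CharTwo.add_self_eq_zero s
    · rfl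

/-- Over a finite field with q elements of characteristic 2, the involutions of SL₂ (the non-identity unipotent elements) form a single conjugacy class, of size q² − 1. -/
theorem result {F : Type*} [Field F] [Fintype F] [CharP F 2] (g h : Matrix.SpecialLinearGroup (Fin 2) F) (hg : orderOf g = 2) (hh : orderOf h = 2) :
    IsConj g h ∧ Nat.card (ConjClasses.mk g).carrier = Fintype.card F ^ 2 - 1 := by
  classical
  have facts : ∀ x : Matrix.SpecialLinearGroup (Fin 2) F, orderOf x = 2 →
      x ≠ 1 ∧ x.1 0 0 + x.1 1 1 = 0 := by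
    intro x hx
    have hx1 : x ≠ 1 := by
      intro h1
      rw [h1, orderOf_one] at hx
      norm_num at hx
    refine ⟨hx1, ?_⟩
    have hx2 : x * x = 1 := by
      have := pow_orderOf_eq_one x
      rwa [hx, pow_two] at this
    have h2 : x.1 * x.1 = 1 := congrArg Subtype.val hx2
    have hCH := Cfsg.Agent.S0276.cayley_two x.1 x.2
    rw [h2] at hCH
    have h3 : (x.1 0 0 + x.1 1 1) • x.1 = 0 := by
      have h4 : (x.1 0 0 + x.1 1 1) • x.1 = (1 : Matrix (Fin 2) (Fin 2) F) + 1 :=
        eq_add_of_sub_eq hCH.symm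
      rw [h4]
      ext i j
      fin_cases i <;> fin_cases j <;> simp [CharTwo.add_self_eq_zero]
    rcases smul_eq_zero.1 h3 with h | h
    · exact h
    · exfalso
      have hd := x.2
      rw [h] at hd
      simp at hd
  obtain ⟨hg1, hgt⟩ := facts g hg
  obtain ⟨hh1, hht⟩ := facts h hh
  have hcg := conj_of g hg1
  have hch := conj_of h hh1
  rw [hgt] at hcg
  rw [hht] at hch
  refine ⟨hcg.symm.trans hch, ?_⟩
  have e : ((ConjClasses.mk g).carrier) ≃
      {x : Matrix.SpecialLinearGroup (Fin 2) F // x ≠ 1 ∧ x.1 0 0 + x.1 1 1 = 0} := by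
    refine Equiv.subtypeEquivRight (fun x => ?_)
    rw [ConjClasses.mem_carrier_iff_mk_eq, ConjClasses.mk_eq_mk_iff_isConj]
    constructor
    · intro hxg
      obtain ⟨c, hc⟩ := isConj_iff.1 hxg
      have hx1 : x ≠ 1 := by
        rintro rfl
        apply hg1
        rw [← hc, mul_one, mul_inv_cancel]
      refine ⟨hx1, ?_⟩
      have h1 := Cfsg.Agent.S2331.trace_conj_SL c x
      rw [hc, Matrix.trace_fin_two, Matrix.trace_fin_two] at h1
      rw [← h1]
      exact hgt
    · rintro ⟨hx1, hxt⟩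
      have hcx := conj_of x hx1
      rw [hxt] at hcx
      exact hcx.symm.trans hcg
  rw [Nat.card_congr (e.trans (Equiv.ofBijective classMap classMap_bijective)),
    Nat.card_eq_fintype_card, Fintype.card_subtype_compl, Fintype.card_subtype_eq,
    Fintype.card_prod, pow_two]

end Cfsg.Agent.S2302
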