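import Cfsg.Statements.S2303
import Mathlib
import Cfsg.Agent.Helper4.Conj2

set_option autoImplicit false
open Cfsg

namespace Cfsg.Agent.S2303

open Matrix Cfsg.Agent.Helper4.GL2 in
/-- Centraliser of a diagonal matrix with distinct entries. -/
theorem mem_cent_diag {F : Type*} [Field F] (g : GL (Fin 2) F)
    (h01 : (g : Matrix (Fin 2) (Fin 2) F) 0 1 = 0) (h10 : (g : Matrix (Fin 2) (Fin 2) F) 1 0 = 0)
    (hne : (g : Matrix (Fin 2) (Fin 2) F) 0 0 ≠ (g : Matrix (Fin 2) (Fin 2) F) 1 1)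
    (h : GL (Fin 2) F) :
    h ∈ Subgroup.centralizer ({g} : Set (GL (Fin 2) F)) ↔
      (h : Matrix (Fin 2) (Fin 2) F) 1 0 = 0 ∧ (h : Matrix (Fin 2) (Fin 2) F) 0 1 = 0 := by
  rw [Subgroup.mem_centralizer_singleton_iff]
  constructor
  · intro hc
    have e1 := congrArg (fun M : GL (Fin 2) F => (M : Matrix (Fin 2) (Fin 2) F) 0 1) hc
    have e2 := congrArg (fun M : GL (Fin 2) F => (M : Matrix (Fin 2) (Fin 2) F) 1 0) hc
    simp only [Units.val_mul, Matrix.mul_apply, Fin.sum_univ_two, h01, h10, mul_zero, zero_mul,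
      add_zero, zero_add] at e1 e2
    have hne' : (g : Matrix (Fin 2) (Fin 2) F) 0 0 - (g : Matrix (Fin 2) (Fin 2) F) 1 1 ≠ 0 :=
      sub_ne_zero_of_ne hne
    constructor
    · have : (h : Matrix (Fin 2) (Fin 2) F) 1 0 *
          ((g : Matrix (Fin 2) (Fin 2) F) 0 0 - (g : Matrix (Fin 2) (Fin 2) F) 1 1) = 0 := by
        linear_combination e2
      exact (mul_eq_zero.1 this).resolve_right hne'
    · have : (h : Matrix (Fin 2) (Fin 2) F) 0 1 *
          ((g : Matrix (Fin 2) (Fin 2) F) 0 0 - (g : Matrix (Fin 2) (Fin 2) F) 1 1) = 0 := by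
        linear_combination (-1 : F) * e1
      exact (mul_eq_zero.1 this).resolve_right hne'
  · rintro ⟨k10, k01⟩
    apply Units.ext
    rw [Units.val_mul, Units.val_mul]
    ext i j
    fin_cases i <;> fin_cases j <;>
      simp [Matrix.mul_apply, Fin.sum_univ_two, h01, h10, k10, k01, mul_comm]

open Matrix Cfsg.Agent.Helper4.GL2 in
/-- The diagonal subgroup is in bijection with `Fˣ × Fˣ`. -/
noncomputable def diagEquiv {F : Type*} [Field F] :
    {h : GL (Fin 2) F // (h : Matrix (Fin 2) (Fin 2) F) 1 0 = 0 ∧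
      (h : Matrix (Fin 2) (Fin 2) F) 0 1 = 0} ≃ Fˣ × Fˣ where
  toFun h := (Units.mk0 _ (diag_ne_zero h.2.1).1, Units.mk0 _ (diag_ne_zero h.2.1).2)
  invFun t := ⟨mkUT t.1 t.2 0, by simp [mkUT_val]⟩
  left_inv h := by
    apply Subtype.ext
    apply Units.ext
    rw [mkUT_val]
    ext i j
    fin_cases i <;> fin_cases j <;> simp [h.2.1, h.2.2]
  right_inv t := by
    obtain ⟨a, d⟩ := t
    simp [mkUT_val]

theorem cent_mat {F : Type*} [Field F] (x y t δ : F) :
    (!![x, -δ * y; y, x + t * y] : Matrix (Fin 2) (Fin 2) F) * !![0, -δ; 1, t] =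
      !![0, -δ; 1, t] * !![x, -δ * y; y, x + t * y] := by
  ext i j
  fin_cases i <;> fin_cases j <;> simp [Matrix.mul_apply, Fin.sum_univ_two] <;> ring

open Matrix Cfsg.Agent.Helper4.Conj2 in
theorem mem_cent_comp {F : Type*} [Field F] (t : F) (d : Fˣ) (h : GL (Fin 2) F) :
    h ∈ Subgroup.centralizer ({comp t d} : Set (GL (Fin 2) F)) ↔
      (h : Matrix (Fin 2) (Fin 2) F) 0 1 = -(d : F) * (h : Matrix (Fin 2) (Fin 2) F) 1 0 ∧
      (h : Matrix (Fin 2) (Fin 2) F) 1 1 =
        (h : Matrix (Fin 2) (Fin 2) F) 0 0 + t * (h : Matrix (Fin 2) (Fin 2) F) 1 0 := by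
  rw [Subgroup.mem_centralizer_singleton_iff]
  constructor
  · intro hc
    have e1 := congrArg (fun M : GL (Fin 2) F => (M : Matrix (Fin 2) (Fin 2) F) 0 0) hc
    have e2 := congrArg (fun M : GL (Fin 2) F => (M : Matrix (Fin 2) (Fin 2) F) 1 0) hc
    simp only [Units.val_mul, comp_val, Matrix.mul_apply, Fin.sum_univ_two] at e1 e2
    constructor
    · simpa using e1
    · simpa using e2
  · rintro ⟨k1, k2⟩
    have hh : (h : Matrix (Fin 2) (Fin 2) F) =
        !![(h : Matrix (Fin 2) (Fin 2) F) 0 0, -(d : F) * (h : Matrix (Fin 2) (Fin 2) F) 1 0;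
           (h : Matrix (Fin 2) (Fin 2) F) 1 0,
           (h : Matrix (Fin 2) (Fin 2) F) 0 0 + t * (h : Matrix (Fin 2) (Fin 2) F) 1 0] := by
      ext i j
      fin_cases i <;> fin_cases j <;> simp [k1, k2]
    apply Units.ext
    rw [Units.val_mul, Units.val_mul, comp_val, hh]
    exact cent_mat _ _ _ _

open Matrix in
/-- No eigenvector means the characteristic polynomial has no root. -/
theorem char_ne_zero {F : Type*} [Field F] (g : GL (Fin 2) F)
    (hne : ∀ (c : F) (v : Fin 2 → F), v ≠ 0 →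
      (g : Matrix (Fin 2) (Fin 2) F).mulVec v ≠ c • v) (l : F) :
    ((g : Matrix (Fin 2) (Fin 2) F) 0 0 - l) * ((g : Matrix (Fin 2) (Fin 2) F) 1 1 - l) -
      (g : Matrix (Fin 2) (Fin 2) F) 0 1 * (g : Matrix (Fin 2) (Fin 2) F) 1 0 ≠ 0 := by
  intro h0
  by_cases hb : (g : Matrix (Fin 2) (Fin 2) F) 0 1 = 0
  · by_cases hc : (g : Matrix (Fin 2) (Fin 2) F) 1 0 = 0
    · rw [hb, zero_mul, sub_zero] at h0
      rcases mul_eq_zero.1 h0 with h | h
      · refine hne l ![1, 0] (fun hv => one_ne_zero (congrFun hv 0)) ?_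
        funext i
        fin_cases i
        · simp [Matrix.mulVec, dotProduct, Fin.sum_univ_two]
          linear_combination h
        · simp [Matrix.mulVec, dotProduct, Fin.sum_univ_two, hc]
      · refine hne l ![0, 1] (fun hv => one_ne_zero (congrFun hv 1)) ?_
        funext i
        fin_cases i
        · simp [Matrix.mulVec, dotProduct, Fin.sum_univ_two, hb]
        · simp [Matrix.mulVec, dotProduct, Fin.sum_univ_two]
          linear_combination h
    · refine hne l ![l - (g : Matrix (Fin 2) (Fin 2) F) 1 1, (g : Matrix (Fin 2) (Fin 2) F) 1 0]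
        (fun hv => hc (congrFun hv 1)) ?_
      funext i
      fin_cases i
      · simp [Matrix.mulVec, dotProduct, Fin.sum_univ_two]
        linear_combination (-1 : F) * h0
      · simp [Matrix.mulVec, dotProduct, Fin.sum_univ_two]
        ring
  · refine hne l ![(g : Matrix (Fin 2) (Fin 2) F) 0 1, l - (g : Matrix (Fin 2) (Fin 2) F) 0 0]
      (fun hv => hb (congrFun hv 0)) ?_
    funext i
    fin_cases i
    · simp [Matrix.mulVec, dotProduct, Fin.sum_univ_two]
      ring
    · simp [Matrix.mulVec, dotProduct, Fin.sum_univ_two]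
      linear_combination (-1 : F) * h0

theorem form_ne_zero {F : Type*} [Field F] (a b c e : F)
    (hχ : ∀ l : F, (a - l) * (e - l) - b * c ≠ 0) (x y : F) (hxy : ¬ (x, y) = ((0 : F), (0 : F))) :
    x * (x + (a + e) * y) - (-(a * e - b * c) * y) * y ≠ 0 := by
  intro h0
  by_cases hy : y = 0
  · subst hy
    have hx : x ≠ 0 := fun hx => hxy (by rw [hx])
    have : x * x = 0 := by linear_combination h0
    exact hx (mul_self_eq_zero.1 this)
  · apply hχ (-x / y)
    have : (a - -x / y) * (e - -x / y) - b * c =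
        (x * (x + (a + e) * y) - (-(a * e - b * c) * y) * y) / y ^ 2 := by
      field_simp
      ring
    rw [this, h0, zero_div]

open Matrix Cfsg.Agent.Helper4.Conj2 in
/-- The centraliser of an anisotropic companion matrix is in bijection with the non-zero pairs. -/
noncomputable def centCompEquiv {F : Type*} [Field F] (t : F) (d : Fˣ)
    (hform : ∀ x y : F, ¬ (x, y) = ((0 : F), (0 : F)) → x * (x + t * y) - (-(d : F) * y) * y ≠ 0) :
    {h : GL (Fin 2) F //
      (h : Matrix (Fin 2) (Fin 2) F) 0 1 = -(d : F) * (h : Matrix (Fin 2) (Fin 2) F) 1 0 ∧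
      (h : Matrix (Fin 2) (Fin 2) F) 1 1 =
        (h : Matrix (Fin 2) (Fin 2) F) 0 0 + t * (h : Matrix (Fin 2) (Fin 2) F) 1 0} ≃
    {p : F × F // ¬ p = ((0 : F), (0 : F))} where
  toFun h := ⟨((h.1 : Matrix (Fin 2) (Fin 2) F) 0 0, (h.1 : Matrix (Fin 2) (Fin 2) F) 1 0), by
    intro hp
    have hx : (h.1 : Matrix (Fin 2) (Fin 2) F) 0 0 = 0 := congrArg Prod.fst hp
    have hy : (h.1 : Matrix (Fin 2) (Fin 2) F) 1 0 = 0 := congrArg Prod.snd hp
    have hdet := Matrix.GeneralLinearGroup.det_ne_zero h.1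
    rw [Matrix.det_fin_two, h.2.1, h.2.2, hx, hy] at hdet
    simp at hdet⟩
  invFun p := ⟨Matrix.GeneralLinearGroup.mkOfDetNeZero !![p.1.1, -(d : F) * p.1.2; p.1.2, p.1.1 + t * p.1.2]
    (by rw [Matrix.det_fin_two_of]; exact hform p.1.1 p.1.2 p.2), by
      constructor <;> rfl⟩
  left_inv h := by
    apply Subtype.ext
    apply Units.ext
    show (!![_, _; _, _] : Matrix (Fin 2) (Fin 2) F) = _
    ext i j
    fin_cases i <;> fin_cases j <;> simp [h.2.1, h.2.2]
  right_inv p := Subtype.ext rfl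

/-- Over a finite field with q elements: a diagonal element of GL₂ with two distinct diagonal entries has centralizer of order (q − 1)² (so q(q + 1) conjugates), and an element of GL₂ with no eigenvector in F² has centralizer of order q² − 1 (so q(q − 1) conjugates). -/
theorem result {F : Type*} [Field F] [Fintype F] (g : Matrix.GeneralLinearGroup (Fin 2) F) :
    ((g : Matrix (Fin 2) (Fin 2) F) 0 1 = 0 → (g : Matrix (Fin 2) (Fin 2) F) 1 0 = 0 → (g : Matrix (Fin 2) (Fin 2) F) 0 0 ≠ (g : Matrix (Fin 2) (Fin 2) F) 1 1 →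
      Nat.card (Subgroup.centralizer ({g} : Set (Matrix.GeneralLinearGroup (Fin 2) F))) = (Fintype.card F - 1) ^ 2) ∧
    ((∀ (c : F) (v : Fin 2 → F), v ≠ 0 → (g : Matrix (Fin 2) (Fin 2) F).mulVec v ≠ c • v) →
      Nat.card (Subgroup.centralizer ({g} : Set (Matrix.GeneralLinearGroup (Fin 2) F))) = Fintype.card F ^ 2 - 1) := by
  classical
  constructor
  · intro h01 h10 hne
    have e : (Subgroup.centralizer ({g} : Set (Matrix.GeneralLinearGroup (Fin 2) F))) ≃
        {h : Matrix.GeneralLinearGroup (Fin 2) F // (h : Matrix (Fin 2) (Fin 2) F) 1 0 = 0 ∧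
          (h : Matrix (Fin 2) (Fin 2) F) 0 1 = 0} :=
      Equiv.subtypeEquivRight (fun h => mem_cent_diag g h01 h10 hne h)
    rw [Nat.card_congr (e.trans diagEquiv), Nat.card_prod, Nat.card_units, Nat.card_eq_fintype_card,
      pow_two]
  · intro hev
    have hχ := char_ne_zero g hev
    have hns : ¬ ((g : Matrix (Fin 2) (Fin 2) F) 0 1 = 0 ∧ (g : Matrix (Fin 2) (Fin 2) F) 1 0 = 0 ∧
        (g : Matrix (Fin 2) (Fin 2) F) 0 0 = (g : Matrix (Fin 2) (Fin 2) F) 1 1) := by
      rintro ⟨hb, hc, hae⟩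
      apply hχ ((g : Matrix (Fin 2) (Fin 2) F) 0 0)
      rw [hb]
      ring
    obtain ⟨c, hc⟩ := isConj_iff.1 (Cfsg.Agent.Helper4.Conj2.conj_comp g hns)
    have h1 := Cfsg.Agent.Helper4.GL2.card_centralizer_conj g c⁻¹
    rw [inv_inv, hc] at h1
    rw [← h1]
    have hform : ∀ x y : F, ¬ (x, y) = ((0 : F), (0 : F)) →
        x * (x + ((g : Matrix (Fin 2) (Fin 2) F) 0 0 + (g : Matrix (Fin 2) (Fin 2) F) 1 1) * y) -
          (-((Matrix.GeneralLinearGroup.det g : Fˣ) : F) * y) * y ≠ 0 := by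
      intro x y hxy
      rw [Cfsg.Agent.Helper4.Conj2.det_coe]
      exact form_ne_zero _ _ _ _ hχ x y hxy
    have e : (Subgroup.centralizer ({Cfsg.Agent.Helper4.Conj2.comp
        ((g : Matrix (Fin 2) (Fin 2) F) 0 0 + (g : Matrix (Fin 2) (Fin 2) F) 1 1)
        (Matrix.GeneralLinearGroup.det g)} : Set (Matrix.GeneralLinearGroup (Fin 2) F))) ≃ _ :=
      Equiv.subtypeEquivRight (fun h => mem_cent_comp _ _ h)
    rw [Nat.card_congr (e.trans (centCompEquiv _ _ hform)),
      Nat.card_eq_fintype_card, Fintype.card_subtype_compl, Fintype.card_subtype_eq,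
      Fintype.card_prod, pow_two]

end Cfsg.Agent.S2303
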