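import Cfsg.Statements.S2308
import Mathlib

set_option autoImplicit false
open Cfsg

namespace Cfsg.Agent.S2308

open Matrix

local notation "GL2" => Matrix.GeneralLinearGroup (Fin 2)
local notation "B2" => Cfsg.upperTriangularGL 2

def nmat {F : Type*} [Field F] (t : F) : Matrix (Fin 2) (Fin 2) F := !![t, 1; 1, 0]
def mmat {F : Type*} [Field F] (t : F) : Matrix (Fin 2) (Fin 2) F := !![0, 1; 1, -t]

theorem nm {F : Type*} [Field F] (t : F) : nmat t * mmat t = 1 := by
  ext i j
  fin_cases i <;> fin_cases j <;>
    simp [nmat, mmat, Matrix.mul_apply, Fin.sum_univ_two]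

theorem mn {F : Type*} [Field F] (t : F) : mmat t * nmat t = 1 := by
  ext i j
  fin_cases i <;> fin_cases j <;>
    simp [nmat, mmat, Matrix.mul_apply, Fin.sum_univ_two]

def nGL {F : Type*} [Field F] (t : F) : GL2 F := ⟨nmat t, mmat t, nm t, mn t⟩

theorem mem_B {F : Type*} [Field F] (x : GL2 F) : x ∈ B2 F ↔ x.1 1 0 = 0 := by
  constructor
  · intro h
    have h' : (x.1).BlockTriangular id := h
    exact h' (show id (0 : Fin 2) < id (1 : Fin 2) by decide)
  · intro h
    change (x.1).BlockTriangular id
    intro i j hij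
    fin_cases i <;> fin_cases j
    · exact absurd hij (by decide)
    · exact absurd hij (by decide)
    · exact h
    · exact absurd hij (by decide)

theorem entry_inv_mul {F : Type*} [Field F] (t : F) (y : GL2 F) :
    ((nGL t)⁻¹ * y : GL2 F).1 1 0 = y.1 0 0 - t * y.1 1 0 := by
  have h : ((nGL t)⁻¹ * y : GL2 F).1 = mmat t * y.1 := rfl
  rw [h]
  simp [mmat, Matrix.mul_apply, Fin.sum_univ_two] <;> ring

theorem entry_mul_n {F : Type*} [Field F] (t : F) (g : GL2 F) (i : Fin 2) :
    (g * nGL t : GL2 F).1 i 0 = g.1 i 0 * t + g.1 i 1 := by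
  have h : (g * nGL t : GL2 F).1 = g.1 * nmat t := rfl
  rw [h]
  simp [nmat, Matrix.mul_apply, Fin.sum_univ_two]

noncomputable def phi {F : Type*} [Field F] (o : Option F) : GL2 F ⧸ B2 F :=
  o.elim (QuotientGroup.mk (1 : GL2 F)) (fun t => QuotientGroup.mk (nGL t))

def Pred {F : Type*} [Field F] (g : GL2 F) (o : Option F) : Prop :=
  o.elim (g.1 1 0 = 0) (fun t => g.1 0 0 * t + g.1 0 1 - t * (g.1 1 0 * t + g.1 1 1) = 0)

theorem fix_iff {F : Type*} [Field F] (g : GL2 F) (o : Option F) :
    Pred g o ↔ phi o ∈ MulAction.fixedBy (GL2 F ⧸ B2 F) g := by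
  rw [MulAction.mem_fixedBy]
  cases o with
  | none =>
    show g.1 1 0 = 0 ↔ g • (QuotientGroup.mk (1 : GL2 F) : GL2 F ⧸ B2 F) = QuotientGroup.mk 1
    have h1 : g • (QuotientGroup.mk (1 : GL2 F) : GL2 F ⧸ B2 F) = QuotientGroup.mk (g * 1) := rfl
    rw [h1, QuotientGroup.eq]
    constructor
    · intro h
      simpa using (mem_B g).mpr h
    · intro h
      exact (mem_B g).mp (by simpa using h)
  | some t =>
    show Pred g (some t) ↔ g • (QuotientGroup.mk (nGL t) : GL2 F ⧸ B2 F) = QuotientGroup.mk (nGL t)
    have h1 : g • (QuotientGroup.mk (nGL t) : GL2 F ⧸ B2 F) = QuotientGroup.mk (g * nGL t) := rfl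
    have h2 : (QuotientGroup.mk (g * nGL t) : GL2 F ⧸ B2 F) = QuotientGroup.mk (nGL t) ↔
        (nGL t)⁻¹ * (g * nGL t) ∈ B2 F := by
      rw [eq_comm]; exact QuotientGroup.eq
    rw [h1, h2, mem_B, entry_inv_mul, entry_mul_n, entry_mul_n]
    exact Iff.rfl

theorem phi_bij {F : Type*} [Field F] : Function.Bijective (phi (F := F)) := by
  constructor
  · intro o1 o2 h
    cases o1 with
    | none =>
      cases o2 with
      | none => rfl
      | some s =>
        exfalso
        have h' : (QuotientGroup.mk (1 : GL2 F) : GL2 F ⧸ B2 F) = QuotientGroup.mk (nGL s) := h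
        rw [QuotientGroup.eq, mem_B] at h'
        simp [nGL, nmat] at h'
    | some t =>
      cases o2 with
      | none =>
        exfalso
        have h' : (QuotientGroup.mk (nGL t) : GL2 F ⧸ B2 F) = QuotientGroup.mk (1 : GL2 F) := h
        rw [QuotientGroup.eq, mem_B, entry_inv_mul] at h'
        simp at h'
      | some s =>
        have h' : (QuotientGroup.mk (nGL t) : GL2 F ⧸ B2 F) = QuotientGroup.mk (nGL s) := h
        rw [QuotientGroup.eq, mem_B, entry_inv_mul] at h'
        have h3 : s - t = 0 := by simpa [nGL, nmat] using h'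
        rw [sub_eq_zero.mp h3]
  · intro q
    induction q using QuotientGroup.induction_on with
    | H x =>
      by_cases hx : x.1 1 0 = 0
      · refine ⟨none, ?_⟩
        show (QuotientGroup.mk (1 : GL2 F) : GL2 F ⧸ B2 F) = QuotientGroup.mk x
        rw [QuotientGroup.eq]
        simpa using (mem_B x).mpr hx
      · refine ⟨some (x.1 0 0 / x.1 1 0), ?_⟩
        show (QuotientGroup.mk (nGL (x.1 0 0 / x.1 1 0)) : GL2 F ⧸ B2 F) = QuotientGroup.mk x
        have hd : x.1 0 0 / x.1 1 0 * x.1 1 0 = x.1 0 0 := by field_simp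
        rw [QuotientGroup.eq, mem_B, entry_inv_mul, hd, sub_self]

theorem fpc_eq {F : Type*} [Field F] (g : GL2 F) :
    Cfsg.fixedPointCharacter (B2 F) g = (Nat.card {o : Option F // Pred g o} : ℂ) := by
  have e := Equiv.subtypeEquiv (Equiv.ofBijective phi phi_bij) (p := Pred g)
    (q := fun x => x ∈ MulAction.fixedBy (GL2 F ⧸ B2 F) g) (fun o => fix_iff g o)
  exact congrArg (Nat.cast : ℕ → ℂ) (Nat.card_congr e).symm

/-- Values of the permutation character of GL₂ over a finite field F with q elements on the cosets of its upper triangular subgroup (equivalently, the number of lines of F² that an element maps to themselves): q + 1 at a scalar matrix, 2 at a diagonal matrix with two different diagonal entries, 0 at an element with no eigenvector in F², and 1 at an upper triangular matrix with equal diagonal entries and non-zero upper right entry. -/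
theorem result {F : Type*} [Field F] [Fintype F] (g : Matrix.GeneralLinearGroup (Fin 2) F) :
    ((∃ a : F, (g : Matrix (Fin 2) (Fin 2) F) = a • (1 : Matrix (Fin 2) (Fin 2) F)) → Cfsg.fixedPointCharacter (Cfsg.upperTriangularGL 2 F) g = Fintype.card F + 1) ∧
    ((g : Matrix (Fin 2) (Fin 2) F) 0 1 = 0 → (g : Matrix (Fin 2) (Fin 2) F) 1 0 = 0 → (g : Matrix (Fin 2) (Fin 2) F) 0 0 ≠ (g : Matrix (Fin 2) (Fin 2) F) 1 1 →
      Cfsg.fixedPointCharacter (Cfsg.upperTriangularGL 2 F) g = 2) ∧
    ((∀ (c : F) (v : Fin 2 → F), v ≠ 0 → (g : Matrix (Fin 2) (Fin 2) F).mulVec v ≠ c • v) → Cfsg.fixedPointCharacter (Cfsg.upperTriangularGL 2 F) g = 0) ∧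
    ((g : Matrix (Fin 2) (Fin 2) F) 1 0 = 0 → (g : Matrix (Fin 2) (Fin 2) F) 0 0 = (g : Matrix (Fin 2) (Fin 2) F) 1 1 → (g : Matrix (Fin 2) (Fin 2) F) 0 1 ≠ 0 →
      Cfsg.fixedPointCharacter (Cfsg.upperTriangularGL 2 F) g = 1) := by
  classical
  have key := fpc_eq g
  refine ⟨?_, ?_, ?_, ?_⟩
  · rintro ⟨a, ha⟩
    have h00 : g.1 0 0 = a := by rw [ha]; simp
    have h01 : g.1 0 1 = 0 := by rw [ha]; simp
    have h10 : g.1 1 0 = 0 := by rw [ha]; simp
    have h11 : g.1 1 1 = a := by rw [ha]; simp
    have hall : ∀ o : Option F, Pred g o := by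
      intro o
      cases o with
      | none => exact h10
      | some t =>
        show g.1 0 0 * t + g.1 0 1 - t * (g.1 1 0 * t + g.1 1 1) = 0
        rw [h00, h01, h10, h11]; ring
    rw [key, Nat.card_congr (Equiv.subtypeUnivEquiv hall), Nat.card_eq_fintype_card,
      Fintype.card_option]
    push_cast
    rfl
  · intro h01 h10 hne
    have hset : {o : Option F | Pred g o} = {none, some 0} := by
      ext o
      constructor
      · intro ho
        cases o with
        | none => exact Set.mem_insert _ _
        | some t =>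
          have ho' : g.1 0 0 * t + g.1 0 1 - t * (g.1 1 0 * t + g.1 1 1) = 0 := ho
          rw [h01, h10] at ho'
          have h3 : t * (g.1 0 0 - g.1 1 1) = 0 := by linear_combination ho'
          rcases mul_eq_zero.mp h3 with h | h
          · subst h
            exact Set.mem_insert_of_mem _ rfl
          · exact absurd (sub_eq_zero.mp h) hne
      · rintro (rfl | rfl)
        · exact h10
        · show g.1 0 0 * 0 + g.1 0 1 - 0 * (g.1 1 0 * 0 + g.1 1 1) = 0
          rw [h01]; ring
    have hc : Nat.card {o : Option F // Pred g o} = 2 := by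
      have h : Nat.card {o : Option F // Pred g o} = Set.ncard {o : Option F | Pred g o} :=
        Nat.card_coe_set_eq {o : Option F | Pred g o}
      rw [h, hset]
      exact Set.ncard_pair (by simp)
    rw [key, hc]; norm_num
  · intro hno
    haveI : IsEmpty {o : Option F // Pred g o} := by
      refine ⟨fun ⟨o, ho⟩ => ?_⟩
      cases o with
      | none =>
        have h10 : g.1 1 0 = 0 := ho
        refine hno (g.1 0 0) ![1, 0] ?_ ?_
        · intro h
          have := congrFun h 0
          simp at this
        · funext i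
          fin_cases i
          · simp [Matrix.mulVec, dotProduct, Fin.sum_univ_two]
          · simp [Matrix.mulVec, dotProduct, Fin.sum_univ_two, h10]
      | some t =>
        have ho' : g.1 0 0 * t + g.1 0 1 - t * (g.1 1 0 * t + g.1 1 1) = 0 := ho
        refine hno (g.1 1 0 * t + g.1 1 1) ![t, 1] ?_ ?_
        · intro h
          have := congrFun h 1
          simp at this
        · funext i
          fin_cases i
          · simp [Matrix.mulVec, dotProduct, Fin.sum_univ_two]
            linear_combination ho'
          · simp [Matrix.mulVec, dotProduct, Fin.sum_univ_two]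
    rw [key, Nat.card_of_isEmpty]; simp
  · intro h10 heq hne
    have hset : {o : Option F | Pred g o} = {none} := by
      ext o
      constructor
      · intro ho
        cases o with
        | none => rfl
        | some t =>
          exfalso
          have ho' : g.1 0 0 * t + g.1 0 1 - t * (g.1 1 0 * t + g.1 1 1) = 0 := ho
          rw [h10, heq] at ho'
          apply hne
          linear_combination ho'
      · rintro rfl
        exact h10
    have hc : Nat.card {o : Option F // Pred g o} = 1 := by
      have h : Nat.card {o : Option F // Pred g o} = Set.ncard {o : Option F | Pred g o} :=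
        Nat.card_coe_set_eq {o : Option F | Pred g o}
      rw [h, hset]
      exact Set.ncard_singleton _
    rw [key, hc]; norm_num


end Cfsg.Agent.S2308
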