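import Cfsg.Statements.S2329
import Cfsg.Agent.Helper4.GL2Unip

set_option autoImplicit false
open Cfsg

namespace Cfsg.Agent.S2329

/-- Over a finite field of characteristic p, any two elements of order p of GL₂ are conjugate: there is a single conjugacy class of non-identity unipotent elements. -/
theorem result {F : Type*} [Field F] [Fintype F] (p : ℕ) [Fact p.Prime] [CharP F p] (g h : Matrix.GeneralLinearGroup (Fin 2) F)
    (hg : orderOf g = p) (hh : orderOf h = p) : IsConj g h := by
  have hpp : p.Prime := Fact.out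
  have key : ∀ g : Matrix.GeneralLinearGroup (Fin 2) F, orderOf g = p →
      ∃ P : Matrix.GeneralLinearGroup (Fin 2) F,
        P * Matrix.GeneralLinearGroup.mkOfDetNeZero (!![1, 1; 0, 1] : Matrix (Fin 2) (Fin 2) F)
          (by simp [Matrix.det_fin_two]) * P⁻¹ = g := by
    intro g hg
    have hgp : (g : Matrix (Fin 2) (Fin 2) F) ^ p = 1 := by
      have h1 : g ^ p = 1 := by rw [← hg]; exact pow_orderOf_eq_one g
      have h2 := congrArg (fun x : Matrix.GeneralLinearGroup (Fin 2) F => (x : Matrix (Fin 2) (Fin 2) F)) h1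
      simpa using h2
    have h3 := Helper4.matrix_pow_char_pow_sub_one (F := F) p (g : Matrix (Fin 2) (Fin 2) F) 1
    rw [pow_one, hgp, sub_self] at h3
    have hnil : IsNilpotent ((g : Matrix (Fin 2) (Fin 2) F) - 1) := ⟨p, h3.symm⟩
    have h4 := Helper4.nilpotent_matrix_pow_card _ hnil
    rw [pow_two] at h4
    apply Helper4.gl2_conj_of_sub_one_sq_zero g h4
    intro h5
    have h6 : g = 1 := by
      apply Units.ext
      exact h5
    rw [h6, orderOf_one] at hg
    exact hpp.one_lt.ne hg
  obtain ⟨P, hP⟩ := key g hg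
  obtain ⟨Q, hQ⟩ := key h hh
  have h1 : IsConj (Matrix.GeneralLinearGroup.mkOfDetNeZero (!![1, 1; 0, 1] : Matrix (Fin 2) (Fin 2) F)
      (by simp [Matrix.det_fin_two])) g := isConj_iff.mpr ⟨P, hP⟩
  have h2 : IsConj (Matrix.GeneralLinearGroup.mkOfDetNeZero (!![1, 1; 0, 1] : Matrix (Fin 2) (Fin 2) F)
      (by simp [Matrix.det_fin_two])) h := isConj_iff.mpr ⟨Q, hQ⟩
  exact h1.symm.trans h2


end Cfsg.Agent.S2329
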