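import Cfsg.Statements.S2330
import Mathlib
import Cfsg.Agent.Helper4.Conj2

set_option autoImplicit false
open Cfsg

namespace Cfsg.Agent.S2330

open Matrix Cfsg.Agent.Helper4.GL2 Cfsg.Agent.Helper4.Conj2 in
/-- Representatives of the conjugacy classes of `GL_2(F)`. -/
noncomputable def Psi {F : Type*} [Field F] : Fˣ ⊕ (F × Fˣ) → ConjClasses (GL (Fin 2) F)
  | Sum.inl a => ConjClasses.mk (mkUT a a 0)
  | Sum.inr td => ConjClasses.mk (comp td.1 td.2)

open Matrix Cfsg.Agent.Helper4.GL2 Cfsg.Agent.Helper4.Conj2 in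
theorem det_comp {F : Type*} [Field F] (t : F) (d : Fˣ) :
    Matrix.GeneralLinearGroup.det (comp t d) = d := by
  apply Units.ext
  rw [det_coe, comp_val]
  simp

open Matrix Cfsg.Agent.Helper4.GL2 Cfsg.Agent.Helper4.Conj2 in
theorem Psi_bijective {F : Type*} [Field F] : Function.Bijective (Psi (F := F)) := by
  have key : ∀ (a : Fˣ) (td : F × Fˣ),
      ConjClasses.mk (mkUT a a 0) ≠ ConjClasses.mk (comp td.1 td.2) := by
    intro a td h
    have h1 := scalar_conj (ConjClasses.mk_eq_mk_iff_isConj.1 h)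
    have h2 := congrArg (fun M : GL (Fin 2) F => (M : Matrix (Fin 2) (Fin 2) F) 1 0) h1
    simp [comp_val, mkUT_val] at h2
  constructor
  · rintro (a | td) (a' | td') h
    · have h1 := scalar_conj (ConjClasses.mk_eq_mk_iff_isConj.1 h)
      have h2 := congrArg (fun M : GL (Fin 2) F => (M : Matrix (Fin 2) (Fin 2) F) 0 0) h1
      simp only [mkUT_val] at h2
      have h3 : (a' : F) = a := by simpa using h2
      rw [Units.ext h3]
    · exact absurd h (key a td')
    · exact absurd h.symm (key a' td)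
    · have hc := ConjClasses.mk_eq_mk_iff_isConj.1 h
      have h1 := trace_conj hc
      have h2 := det_conj hc
      rw [det_comp, det_comp] at h2
      simp only [comp_val] at h1
      have h3 : td.1 = td'.1 := by simpa using h1
      rw [Prod.ext h3 h2]
  · intro x
    obtain ⟨g, rfl⟩ := ConjClasses.exists_rep x
    by_cases hs : ((g : Matrix (Fin 2) (Fin 2) F) 0 1 = 0 ∧ (g : Matrix (Fin 2) (Fin 2) F) 1 0 = 0 ∧
        (g : Matrix (Fin 2) (Fin 2) F) 0 0 = (g : Matrix (Fin 2) (Fin 2) F) 1 1)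
    · refine ⟨Sum.inl (Units.mk0 _ (diag_ne_zero hs.2.1).1), ?_⟩
      show ConjClasses.mk (mkUT _ _ 0) = ConjClasses.mk g
      congr 1
      apply Units.ext
      rw [mkUT_val]
      ext i j
      fin_cases i <;> fin_cases j <;> simp [hs.1, hs.2.1, hs.2.2]
    · exact ⟨Sum.inr ((g : Matrix (Fin 2) (Fin 2) F) 0 0 + (g : Matrix (Fin 2) (Fin 2) F) 1 1,
        Matrix.GeneralLinearGroup.det g), (ConjClasses.mk_eq_mk_iff_isConj.2 (conj_comp g hs)).symm⟩

/-- Over a finite field with q elements, the general linear group GL₂ has exactly q² − 1 conjugacy classes. -/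
theorem result {F : Type*} [Field F] [Fintype F] :
    Nat.card (ConjClasses (Matrix.GeneralLinearGroup (Fin 2) F)) = Fintype.card F ^ 2 - 1 := by
  classical
  rw [← Nat.card_congr (Equiv.ofBijective Psi Psi_bijective), Nat.card_sum, Nat.card_prod,
    Nat.card_units, Nat.card_eq_fintype_card]
  have hq : 1 ≤ Fintype.card F := Fintype.card_pos
  obtain ⟨r, hr⟩ : ∃ r, Fintype.card F = r + 1 := ⟨Fintype.card F - 1, by omega⟩
  rw [hr, Nat.add_sub_cancel]
  have : (r + 1) ^ 2 = r + (r + 1) * r + 1 := by ring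
  omega

end Cfsg.Agent.S2330
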