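import Cfsg.Statements.S2364
import Mathlib
import Cfsg.Agent.S0242

set_option autoImplicit false
open Cfsg

namespace Cfsg.Agent.S2364

section s2364

lemma pow_add_sub_pow (q a b : ℕ) : q ^ (a + b) - q ^ a = q ^ a * (q ^ b - 1) := by
  rw [pow_add, Nat.mul_sub, mul_one]

lemma sl_primes {F : Type*} [Field F] [Fintype F] (m : ℕ) (hm : 2 ≤ m)
    (r : ℕ) (hr : r.Prime) (hnot : ¬ r ∣ Nat.card (Matrix.SpecialLinearGroup (Fin m) F)) :
    ¬ r ∣ Fintype.card F ∧ ∀ i, 1 ≤ i → i ≤ m → ¬ r ∣ Fintype.card F ^ i - 1 := by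
  have hcard := Cfsg.Agent.S0242.result (F := F) rfl m (by omega)
  have hq2 : 1 < Fintype.card F := Fintype.one_lt_card
  generalize Fintype.card F = q at hcard hq2 ⊢
  generalize Nat.card (Matrix.SpecialLinearGroup (Fin m) F) = S at hcard hnot ⊢
  have hfac : ∀ i : Fin m, (q ^ m - q ^ (i : ℕ)) ∣ (q - 1) * S := by
    intro i; rw [hcard]; exact Finset.dvd_prod_of_mem _ (Finset.mem_univ i)
  have h2 : (q ^ m - q ^ (m - 1)) * (q ^ m - q ^ (m - 2)) ∣ (q - 1) * S := by
    rw [hcard]
    have hne : (⟨m - 1, by omega⟩ : Fin m) ≠ ⟨m - 2, by omega⟩ := by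
      intro h; have := congrArg Fin.val h; simp at this; omega
    rw [← Finset.prod_pair (f := fun i : Fin m => q ^ m - q ^ (i : ℕ)) hne]
    exact Finset.prod_dvd_prod_of_subset _ _ _ (Finset.subset_univ _)
  have e1 : q ^ m - q ^ (m - 1) = q ^ (m - 1) * (q - 1) := by
    have := pow_add_sub_pow q (m - 1) 1
    rw [show m - 1 + 1 = m by omega, pow_one] at this
    exact this
  have e2 : q ^ m - q ^ (m - 2) = q ^ (m - 2) * (q ^ 2 - 1) := by
    have := pow_add_sub_pow q (m - 2) 2
    rw [show m - 2 + 2 = m by omega] at this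
    exact this
  have hq1 : 0 < q - 1 := by omega
  have h3 : q ^ (m - 1) * (q ^ (m - 2) * (q ^ 2 - 1)) ∣ S := by
    rw [e1, e2] at h2
    apply Nat.dvd_of_mul_dvd_mul_left hq1
    refine dvd_trans (dvd_of_eq ?_) h2
    ring
  have hqS : q ∣ S := by
    refine dvd_trans ?_ (dvd_trans (dvd_mul_right _ _) h3)
    exact dvd_pow_self q (by omega)
  have hq1S : q - 1 ∣ S := by
    refine dvd_trans ?_ (dvd_trans (dvd_mul_left _ _) (dvd_trans (dvd_mul_left _ _) h3))
    have := Nat.sub_dvd_pow_sub_pow q 1 2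
    rwa [one_pow] at this
  refine ⟨fun h => hnot (dvd_trans h hqS), ?_⟩
  intro i hi1 him h
  have e3 : q ^ m - q ^ (m - i) = q ^ (m - i) * (q ^ i - 1) := by
    have := pow_add_sub_pow q (m - i) i
    rw [show m - i + i = m by omega] at this
    exact this
  have h4 : q ^ i - 1 ∣ (q - 1) * S := by
    have := hfac ⟨m - i, by omega⟩
    rw [e3] at this
    exact dvd_trans (dvd_mul_left _ _) this
  rcases (Nat.Prime.dvd_mul hr).1 (dvd_trans h h4) with h5 | h5
  · exact hnot (dvd_trans h5 hq1S)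
  · exact hnot h5

lemma core {F : Type*} [Field F] [Fintype F] {n : ℕ} (hn : 4 ≤ n) (r : ℕ) [Fact r.Prime]
    (hrq : ¬ r ∣ Fintype.card F) (hri : ∀ i, 1 ≤ i → i ≤ n - 2 → ¬ r ∣ Fintype.card F ^ i - 1)
    (B M : Matrix (Fin n) (Fin n) F) (hB : B ^ r = 1) (hB1 : B ≠ 1) (hM : M ≠ 0) (hMM : M * M = 0)
    (hc : M * B = B * M) : False := by
  classical
  have hrp : r.Prime := Fact.out
  let V₀ : Submodule F (Fin n → F) := LinearMap.ker (Matrix.toLin' (B - 1))
  have hV₀ : ∀ v, v ∈ V₀ ↔ B.mulVec v = v := by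
    intro v
    show Matrix.toLin' (B - 1) v = 0 ↔ _
    rw [Matrix.toLin'_apply, Matrix.sub_mulVec, Matrix.one_mulVec, sub_eq_zero]
  have key : ∀ W : Submodule F (Fin n → F), (∀ w ∈ W, B.mulVec w ∈ W) →
      Module.finrank F ↥(W ⊓ V₀) = Module.finrank F ↥W ∨
      n - 1 + Module.finrank F ↥(W ⊓ V₀) ≤ Module.finrank F ↥W := by
    intro W hW
    let f : Function.End ↥W := fun w => ⟨B.mulVec w.1, hW w.1 w.2⟩
    have hfk : ∀ k : ℕ, ∀ w : ↥W, ((f ^ k) w).1 = (B ^ k).mulVec w.1 := by
      intro k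
      induction k with
      | zero => intro w; rw [pow_zero, pow_zero, Matrix.one_mulVec]; rfl
      | succ k ih =>
        intro w
        rw [pow_succ', pow_succ']
        show B.mulVec ((f ^ k) w).1 = _
        rw [ih, Matrix.mulVec_mulVec]
    have hf : f ^ r ^ 1 = 1 := by
      rw [pow_one]; funext w; apply Subtype.ext; rw [hfk, hB, Matrix.one_mulVec]; rfl
    have hmod := Equiv.Perm.card_fixedPoints_modEq (p := r) (n := 1) hf
    have hc1 : Fintype.card ↥W = Fintype.card F ^ Module.finrank F ↥W :=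
      Module.card_eq_pow_finrank
    have hc2 : Fintype.card ↥(Function.fixedPoints f) =
        Fintype.card F ^ Module.finrank F ↥(W ⊓ V₀) := by
      rw [← Module.card_eq_pow_finrank (K := F) (V := ↥(W ⊓ V₀))]
      apply Fintype.card_congr
      exact { toFun := fun x => ⟨x.1.1, x.1.2, (hV₀ _).2 (congrArg Subtype.val x.2)⟩
              invFun := fun y => ⟨⟨y.1, y.2.1⟩, Subtype.ext ((hV₀ _).1 y.2.2)⟩
              left_inv := fun x => rfl
              right_inv := fun y => rfl }
    rw [hc1, hc2] at hmod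
    have hle : Module.finrank F ↥(W ⊓ V₀) ≤ Module.finrank F ↥W :=
      Submodule.finrank_mono inf_le_left
    obtain ⟨d, hd⟩ := Nat.exists_eq_add_of_le hle
    by_cases hd0 : d = 0
    · left; omega
    · right
      by_contra hlt
      have hdn : d ≤ n - 2 := by omega
      apply hri d (by omega) hdn
      rw [hd, pow_add] at hmod
      have hcop : Nat.gcd r (Fintype.card F ^ Module.finrank F ↥(W ⊓ V₀)) = 1 :=
        Nat.Coprime.pow_right _ ((Nat.Prime.coprime_iff_not_dvd hrp).2 hrq)
      have hmod' : Fintype.card F ^ Module.finrank F ↥(W ⊓ V₀) * Fintype.card F ^ d ≡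
          Fintype.card F ^ Module.finrank F ↥(W ⊓ V₀) * 1 [MOD r] := by rwa [mul_one]
      have h1 : Fintype.card F ^ d ≡ 1 [MOD r] := Nat.ModEq.cancel_left_of_coprime hcop hmod'
      exact (Nat.modEq_iff_dvd' (Nat.one_le_pow _ _ Fintype.card_pos)).1 h1.symm
  have htop := key ⊤ (fun w _ => Submodule.mem_top)
  have hf1 : Module.finrank F ↥V₀ ≤ 1 := by
    rw [top_inf_eq, finrank_top, Module.finrank_fin_fun] at htop
    rcases htop with h | h
    · exfalso; apply hB1
      have h' : V₀ = ⊤ := Submodule.eq_top_of_finrank_eq (by rw [h, Module.finrank_fin_fun])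
      apply Matrix.toLin'.injective
      apply LinearMap.ext; intro v
      rw [Matrix.toLin'_apply, Matrix.toLin'_one]
      exact (hV₀ v).1 (h' ▸ Submodule.mem_top)
    · omega
  let L : Submodule F (Fin n → F) := LinearMap.range (Matrix.toLin' M)
  let W : Submodule F (Fin n → F) := LinearMap.ker (Matrix.toLin' M)
  have hLW : L ≤ W := by
    rintro _ ⟨v, rfl⟩
    show Matrix.toLin' M (Matrix.toLin' M v) = 0
    rw [Matrix.toLin'_apply, Matrix.toLin'_apply, Matrix.mulVec_mulVec, hMM, Matrix.zero_mulVec]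
  have hdim : Module.finrank F ↥L + Module.finrank F ↥W = n := by
    have := LinearMap.finrank_range_add_finrank_ker (Matrix.toLin' M)
    rwa [Module.finrank_fin_fun] at this
  have hL1 : 1 ≤ Module.finrank F ↥L := by
    by_contra h
    have h0 : Module.finrank F ↥L = 0 := by omega
    have hbot : L = ⊥ := Submodule.finrank_eq_zero.1 h0
    apply hM
    have h2 : Matrix.toLin' M = 0 := LinearMap.range_eq_bot.1 hbot
    exact (LinearEquiv.map_eq_zero_iff Matrix.toLin').1 h2
  have hLinv : ∀ w ∈ L, B.mulVec w ∈ L := by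
    rintro _ ⟨v, rfl⟩
    refine ⟨B.mulVec v, ?_⟩
    rw [Matrix.toLin'_apply, Matrix.toLin'_apply, Matrix.mulVec_mulVec, Matrix.mulVec_mulVec, hc]
  have hWinv : ∀ w ∈ W, B.mulVec w ∈ W := by
    intro w hw
    have hw' : M.mulVec w = 0 := by
      have : Matrix.toLin' M w = 0 := hw
      rwa [Matrix.toLin'_apply] at this
    show Matrix.toLin' M (B.mulVec w) = 0
    rw [Matrix.toLin'_apply, Matrix.mulVec_mulVec, hc, ← Matrix.mulVec_mulVec, hw',
      Matrix.mulVec_zero]
  have hLV : L ≤ V₀ := by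
    rcases key L hLinv with h | h
    · have h' : L ⊓ V₀ = L := Submodule.eq_of_le_of_finrank_eq inf_le_left h
      rw [← h']; exact inf_le_right
    · exfalso
      have := Submodule.finrank_mono hLW
      omega
  have hl1 : Module.finrank F ↥L ≤ 1 := (Submodule.finrank_mono hLV).trans hf1
  have hfW : Module.finrank F ↥L ≤ Module.finrank F ↥(W ⊓ V₀) :=
    Submodule.finrank_mono (le_inf hLW hLV)
  rcases key W hWinv with h | h
  · have h2 := Submodule.finrank_mono (inf_le_right : W ⊓ V₀ ≤ V₀)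
    omega
  · omega

lemma center_scalar {F : Type*} [Field F] {n : ℕ} (z : Matrix.SpecialLinearGroup (Fin n) F)
    (hz : z ∈ Subgroup.center (Matrix.SpecialLinearGroup (Fin n) F)) :
    ∃ c : F, c ^ n = 1 ∧ (z : Matrix (Fin n) (Fin n) F) = c • (1 : Matrix (Fin n) (Fin n) F) := by
  rw [Matrix.SpecialLinearGroup.mem_center_iff] at hz
  obtain ⟨c, hc, hcz⟩ := hz
  refine ⟨c, by simpa using hc, ?_⟩
  rw [← hcz, Matrix.scalar_apply, Matrix.smul_one_eq_diagonal]

lemma scalar_center {F : Type*} [Field F] {n : ℕ} (z : Matrix.SpecialLinearGroup (Fin n) F) (c : F)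
    (hz : (z : Matrix (Fin n) (Fin n) F) = c • (1 : Matrix (Fin n) (Fin n) F)) :
    z ∈ Subgroup.center (Matrix.SpecialLinearGroup (Fin n) F) := by
  rw [Matrix.SpecialLinearGroup.mem_center_iff]
  refine ⟨c, ?_, ?_⟩
  · have h := z.2
    rw [hz, Matrix.det_smul, Matrix.det_one, mul_one] at h
    exact h
  · rw [hz, Matrix.scalar_apply, Matrix.smul_one_eq_diagonal]

end s2364

/-- Let F be a finite field of characteristic p, n ≥ 4, and let a, b be commuting elements of PSL(n, F) with a of order p. Then every prime divisor of the order of b divides the order of SL(n − 2, F). -/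
theorem result {F : Type*} [Field F] [Fintype F] (p : ℕ) [Fact p.Prime] [CharP F p] (n : ℕ) (hn : 4 ≤ n)
    (a b : Matrix.ProjectiveSpecialLinearGroup (Fin n) F) (ha : orderOf a = p) (hab : Commute a b) :
    (orderOf b).primeFactors ⊆ (Nat.card (Matrix.SpecialLinearGroup (Fin (n - 2)) F)).primeFactors := by
  classical
  intro r hr
  have hrp : r.Prime := Nat.prime_of_mem_primeFactors hr
  have hrb : r ∣ orderOf b := Nat.dvd_of_mem_primeFactors hr
  have hob : orderOf b ≠ 0 := (Nat.mem_primeFactors.1 hr).2.2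
  by_contra hnot
  have hnd : ¬ r ∣ Nat.card (Matrix.SpecialLinearGroup (Fin (n - 2)) F) := by
    intro h; exact hnot (Nat.mem_primeFactors.2 ⟨hrp, h, Nat.card_pos.ne'⟩)
  obtain ⟨hrq, hri⟩ := sl_primes (n - 2) (by omega) r hrp hnd
  haveI : Fact r.Prime := ⟨hrp⟩
  haveI : Nonempty (Fin n) := ⟨⟨0, by omega⟩⟩
  have hq2 : 1 < Fintype.card F := Fintype.one_lt_card
  have hr1 : ¬ r ∣ Fintype.card F - 1 := by
    have := hri 1 le_rfl (by omega); rwa [pow_one] at this
  have hpp : p.Prime := Fact.out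
  -- lifts
  obtain ⟨A, rfl⟩ := QuotientGroup.mk_surjective a
  obtain ⟨B0, rfl⟩ := QuotientGroup.mk_surjective b
  set Z := Subgroup.center (Matrix.SpecialLinearGroup (Fin n) F) with hZ
  have hAp : A ^ p ∈ Z := by
    rw [← QuotientGroup.eq_one_iff, QuotientGroup.mk_pow, ← ha]; exact pow_orderOf_eq_one _
  have hAne : A ∉ Z := by
    intro h
    have h1 : (QuotientGroup.mk A : Matrix.SpecialLinearGroup (Fin n) F ⧸ Z) = 1 :=
      (QuotientGroup.eq_one_iff A).2 h
    rw [h1, orderOf_one] at ha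
    exact hpp.one_lt.ne ha
  set m := orderOf (QuotientGroup.mk B0 : Matrix.SpecialLinearGroup (Fin n) F ⧸ Z) with hm
  set B := B0 ^ ((m / r) * (Fintype.card F - 1)) with hBdef
  have hB0m : B0 ^ m ∈ Z := by
    rw [← QuotientGroup.eq_one_iff, QuotientGroup.mk_pow]; exact pow_orderOf_eq_one _
  -- B^r = 1 as matrices
  have hBr : (B : Matrix (Fin n) (Fin n) F) ^ r = 1 := by
    obtain ⟨β, hβ, hβz⟩ := center_scalar _ hB0m
    have hβ0 : β ≠ 0 := by
      rintro rfl
      rw [zero_pow (by omega)] at hβ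
      exact zero_ne_one hβ
    have e : B ^ r = (B0 ^ m) ^ (Fintype.card F - 1) := by
      rw [hBdef, ← pow_mul, ← pow_mul]
      congr 1
      rw [mul_right_comm, Nat.div_mul_cancel hrb]
    have e' := congrArg (fun x : Matrix.SpecialLinearGroup (Fin n) F =>
      (x : Matrix (Fin n) (Fin n) F)) e
    simp only [Matrix.SpecialLinearGroup.coe_pow] at e'
    rw [Matrix.SpecialLinearGroup.coe_pow] at hβz
    rw [e', hβz, smul_pow, one_pow, FiniteField.pow_card_sub_one_eq_one β hβ0, one_smul]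
  have hBne : B ∉ Z := by
    intro h
    have h1 : (QuotientGroup.mk B : Matrix.SpecialLinearGroup (Fin n) F ⧸ Z) = 1 :=
      (QuotientGroup.eq_one_iff B).2 h
    rw [hBdef, QuotientGroup.mk_pow, pow_mul] at h1
    have h2 := orderOf_dvd_of_pow_eq_one h1
    rw [orderOf_pow_orderOf_div hob hrb] at h2
    exact hr1 h2
  have hB1 : (B : Matrix (Fin n) (Fin n) F) ≠ 1 := by
    intro h
    apply hBne
    apply scalar_center B 1
    rw [h, one_smul]
  have hAm0 : (A : Matrix (Fin n) (Fin n) F) ≠ 0 := by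
    intro h
    have := A.2
    rw [h, Matrix.det_zero] at this
    exact zero_ne_one this
  -- commutation
  have hcomm : (A : Matrix (Fin n) (Fin n) F) * B = B * A := by
    have hcz : A * B * A⁻¹ * B⁻¹ ∈ Z := by
      rw [← QuotientGroup.eq_one_iff]
      have h1 : Commute (QuotientGroup.mk A : Matrix.SpecialLinearGroup (Fin n) F ⧸ Z)
          (QuotientGroup.mk B) := by
        rw [hBdef, QuotientGroup.mk_pow]; exact hab.pow_right _
      rw [QuotientGroup.mk_mul, QuotientGroup.mk_mul, QuotientGroup.mk_mul, QuotientGroup.mk_inv,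
        QuotientGroup.mk_inv, h1.eq, mul_inv_cancel_right, mul_inv_cancel]
    obtain ⟨l, hl, hlz⟩ := center_scalar _ hcz
    have hl0 : l ≠ 0 := by
      rintro rfl
      rw [zero_pow (by omega)] at hl
      exact zero_ne_one hl
    have e : A * B = (A * B * A⁻¹ * B⁻¹) * (B * A) := by group
    have e' := congrArg (fun x : Matrix.SpecialLinearGroup (Fin n) F =>
      (x : Matrix (Fin n) (Fin n) F)) e
    simp only [Matrix.SpecialLinearGroup.coe_mul] at e'
    have hlz' : (A : Matrix (Fin n) (Fin n) F) * (B : Matrix (Fin n) (Fin n) F) *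
        ((A⁻¹ : Matrix.SpecialLinearGroup (Fin n) F) : Matrix (Fin n) (Fin n) F) *
        ((B⁻¹ : Matrix.SpecialLinearGroup (Fin n) F) : Matrix (Fin n) (Fin n) F) = l • 1 := by
      rw [← hlz]; simp only [Matrix.SpecialLinearGroup.coe_mul]
    rw [hlz', Matrix.smul_mul, Matrix.one_mul] at e'
    have hpow : ∀ k : ℕ, (A : Matrix (Fin n) (Fin n) F) * (B : Matrix (Fin n) (Fin n) F) ^ k =
        l ^ k • ((B : Matrix (Fin n) (Fin n) F) ^ k * A) := by
      intro k
      induction k with
      | zero => simp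
      | succ k ih =>
        rw [pow_succ, ← mul_assoc, ih, Matrix.smul_mul, mul_assoc, e', Matrix.mul_smul,
          smul_smul, ← mul_assoc, ← pow_succ, ← pow_succ]
    have h3 := hpow r
    rw [hBr, mul_one, one_mul] at h3
    have h4 : (1 - l ^ r) • (A : Matrix (Fin n) (Fin n) F) = 0 := by
      rw [sub_smul, one_smul, ← h3, sub_self]
    have h5 : l ^ r = 1 := by
      rcases smul_eq_zero.1 h4 with h | h
      · exact (sub_eq_zero.1 h).symm
      · exact absurd h hAm0
    have h6 : l ^ (Fintype.card F - 1) = 1 := FiniteField.pow_card_sub_one_eq_one l hl0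
    have h7 : orderOf l ∣ Nat.gcd r (Fintype.card F - 1) :=
      Nat.dvd_gcd (orderOf_dvd_of_pow_eq_one h5) (orderOf_dvd_of_pow_eq_one h6)
    rw [(Nat.Prime.coprime_iff_not_dvd hrp).2 hr1, Nat.dvd_one, orderOf_eq_one_iff] at h7
    rw [e', h7, one_smul]
  -- nilpotent
  obtain ⟨α, hα, hαz⟩ := center_scalar _ hAp
  obtain ⟨γ, hγ⟩ := (Finite.injective_iff_surjective.1 (frobenius_inj F p)) α
  rw [frobenius_def] at hγ
  rw [Matrix.SpecialLinearGroup.coe_pow] at hαz
  set N : Matrix (Fin n) (Fin n) F := (A : Matrix (Fin n) (Fin n) F) - γ • 1 with hN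
  have hNp : N ^ p = 0 := by
    have hcm : Commute (A : Matrix (Fin n) (Fin n) F) (γ • (1 : Matrix (Fin n) (Fin n) F)) :=
      Commute.smul_right (Commute.one_right _) γ
    rw [hN, sub_pow_char_of_commute p hcm, hαz, smul_pow, one_pow, hγ, sub_self]
  have hN0 : N ≠ 0 := by
    intro h
    apply hAne
    exact scalar_center A γ (sub_eq_zero.1 h)
  have hNB : Commute N (B : Matrix (Fin n) (Fin n) F) := by
    show N * B = B * N
    rw [hN, sub_mul, mul_sub, hcomm, Matrix.smul_mul, Matrix.mul_smul, one_mul, mul_one]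
  have hex : ∃ k, N ^ k = 0 := ⟨p, hNp⟩
  have hk := Nat.find_spec hex
  have hk2 : 2 ≤ Nat.find hex := by
    by_contra hlt
    have : Nat.find hex = 0 ∨ Nat.find hex = 1 := by omega
    rcases this with h | h
    · rw [h, pow_zero] at hk; exact one_ne_zero hk
    · rw [h, pow_one] at hk; exact hN0 hk
  have hM : N ^ (Nat.find hex - 1) ≠ 0 := Nat.find_min hex (by omega)
  have hMM : N ^ (Nat.find hex - 1) * N ^ (Nat.find hex - 1) = 0 := by
    rw [← pow_add, show Nat.find hex - 1 + (Nat.find hex - 1) = Nat.find hex + (Nat.find hex - 2)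
      by omega, pow_add, hk, zero_mul]
  exact core hn r hrq hri (B : Matrix (Fin n) (Fin n) F) (N ^ (Nat.find hex - 1)) hBr hB1 hM hMM
    (hNB.pow_left _).eq

end Cfsg.Agent.S2364
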