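import Cfsg.Statements.S2367
import Mathlib

set_option autoImplicit false
open Cfsg

namespace Cfsg.Agent.S2367

theorem primes_ok : ∀ q ∈ ([2, 3, 5, 7, 11, 13, 17, 19, 23, 29, 31, 37, 41, 43, 47, 59, 67, 71] : List ℕ),
    Nat.Prime q := by
  intro q hq
  simp only [List.mem_cons, List.not_mem_nil, or_false] at hq
  rcases hq with rfl | rfl | rfl | rfl | rfl | rfl | rfl | rfl | rfl | rfl | rfl | rfl | rfl | rfl |
    rfl | rfl | rfl | rfl <;> norm_num

theorem fact_prod (l : List (ℕ × ℕ)) (hl : ∀ x ∈ l, x.1.Prime) (p : ℕ) :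
    ((l.map (fun x : ℕ × ℕ => x.1 ^ x.2)).prod).factorization p
      = (l.map (fun x : ℕ × ℕ => if x.1 = p then x.2 else 0)).sum ∧
      (l.map (fun x : ℕ × ℕ => x.1 ^ x.2)).prod ≠ 0 := by
  induction l with
  | nil => simp
  | cons a t ih =>
    have ha : a.1.Prime := hl a (by simp)
    have ht := ih (fun x hx => hl x (List.mem_cons_of_mem _ hx))
    have hne : a.1 ^ a.2 ≠ 0 := pow_ne_zero _ ha.ne_zero
    refine ⟨?_, ?_⟩
    · rw [List.map_cons, List.prod_cons, Nat.factorization_mul hne ht.2, Finsupp.add_apply, ht.1,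
        Nat.Prime.factorization_pow ha, Finsupp.single_apply, List.map_cons, List.sum_cons]
    · rw [List.map_cons, List.prod_cons]; exact mul_ne_zero hne ht.2

theorem key (l : List (ℕ × ℕ))
    (hl : ∀ x ∈ l, x.1 ∈ ([2, 3, 5, 7, 11, 13, 17, 19, 23, 29, 31, 37, 41, 43, 47, 59, 67, 71] : List ℕ))
    (N : ℕ)
    (hN : N = (l.map (fun x : ℕ × ℕ => x.1 ^ x.2)).prod) (p : ℕ) (hodd : p ≠ 2)
    (h3 : N.factorization p = 3)
    (hcheck : ∀ x ∈ l, x.1 = 2 ∨ (l.map (fun y : ℕ × ℕ => if y.1 = x.1 then y.2 else 0)).sum ≠ 3 ∨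
      x.1 ^ 3 < 2 ^ (l.map (fun y : ℕ × ℕ => if y.1 = 2 then y.2 else 0)).sum) :
    p ^ 3 < 2 ^ N.factorization 2 := by
  have hl' : ∀ x ∈ l, x.1.Prime := fun x hx => primes_ok _ (hl x hx)
  subst hN
  rw [(fact_prod l hl' p).1] at h3
  rw [(fact_prod l hl' 2).1]
  have hex : ∃ x ∈ l, x.1 = p := by
    by_contra hno
    have hno' : ∀ x ∈ l, x.1 ≠ p := fun x hx hxp => hno ⟨x, hx, hxp⟩
    have : (l.map (fun x : ℕ × ℕ => if x.1 = p then x.2 else 0)).sum = 0 := by
      apply List.sum_eq_zero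
      intro y hy
      rw [List.mem_map] at hy
      obtain ⟨x, hx, rfl⟩ := hy
      show (if x.1 = p then x.2 else 0) = 0
      exact if_neg (hno' x hx)
    omega
  obtain ⟨x, hx, rfl⟩ := hex
  rcases hcheck x hx with h | h | h
  · exact absurd h hodd
  · exact absurd h3 h
  · exact h

set_option maxRecDepth 100000 in
theorem spor {G : Type*} [Group G] (hG : Cfsg.IsSporadic G) (p : ℕ) (hodd : p ≠ 2)
    (h3 : (Nat.card G).factorization p = 3) : p ^ 3 < 2 ^ (Nat.card G).factorization 2 := by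
  rcases hG with ⟨-, hc⟩ | ⟨-, hc⟩ | ⟨-, hc⟩ | ⟨-, hc⟩ | ⟨-, hc⟩ | ⟨-, hc⟩ | ⟨-, hc⟩ | ⟨-, hc⟩ | ⟨-, hc⟩ | ⟨-, hc⟩ | ⟨-, hc⟩ | ⟨-, hc⟩ | ⟨-, hc⟩ | ⟨-, hc⟩ | ⟨-, hc⟩ | ⟨-, hc⟩ | ⟨-, hc⟩ | ⟨-, hc⟩ | ⟨-, hc⟩ | ⟨-, hc⟩ | ⟨-, hc⟩ | ⟨-, hc⟩ | ⟨-, hc⟩ | ⟨-, hc⟩ | ⟨-, hc⟩ | ⟨-, hc⟩
  · exact key [(2, 4), (3, 2), (5, 1), (11, 1)] (by decide) _ (hc.trans (by decide)) p hodd h3 (by decide)
  · exact key [(2, 6), (3, 3), (5, 1), (11, 1)] (by decide) _ (hc.trans (by decide)) p hodd h3 (by decide)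
  · exact key [(2, 7), (3, 2), (5, 1), (7, 1), (11, 1)] (by decide) _ (hc.trans (by decide)) p hodd h3 (by decide)
  · exact key [(2, 7), (3, 2), (5, 1), (7, 1), (11, 1), (23, 1)] (by decide) _ (hc.trans (by decide)) p hodd h3 (by decide)
  · exact key [(2, 10), (3, 3), (5, 1), (7, 1), (11, 1), (23, 1)] (by decide) _ (hc.trans (by decide)) p hodd h3 (by decide)
  · exact key [(2, 3), (3, 1), (5, 1), (7, 1), (11, 1), (19, 1)] (by decide) _ (hc.trans (by decide)) p hodd h3 (by decide)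
  · exact key [(2, 7), (3, 3), (5, 2), (7, 1)] (by decide) _ (hc.trans (by decide)) p hodd h3 (by decide)
  · exact key [(2, 7), (3, 5), (5, 1), (17, 1), (19, 1)] (by decide) _ (hc.trans (by decide)) p hodd h3 (by decide)
  · exact key [(2, 21), (3, 3), (5, 1), (7, 1), (11, 3), (23, 1), (29, 1), (31, 1), (37, 1), (43, 1)] (by decide) _ (hc.trans (by decide)) p hodd h3 (by decide)
  · exact key [(2, 21), (3, 9), (5, 4), (7, 2), (11, 1), (13, 1), (23, 1)] (by decide) _ (hc.trans (by decide)) p hodd h3 (by decide)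
  · exact key [(2, 18), (3, 6), (5, 3), (7, 1), (11, 1), (23, 1)] (by decide) _ (hc.trans (by decide)) p hodd h3 (by decide)
  · exact key [(2, 10), (3, 7), (5, 3), (7, 1), (11, 1), (23, 1)] (by decide) _ (hc.trans (by decide)) p hodd h3 (by decide)
  · exact key [(2, 17), (3, 9), (5, 2), (7, 1), (11, 1), (13, 1)] (by decide) _ (hc.trans (by decide)) p hodd h3 (by decide)
  · exact key [(2, 18), (3, 13), (5, 2), (7, 1), (11, 1), (13, 1), (17, 1), (23, 1)] (by decide) _ (hc.trans (by decide)) p hodd h3 (by decide)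
  · exact key [(2, 21), (3, 16), (5, 2), (7, 3), (11, 1), (13, 1), (17, 1), (23, 1), (29, 1)] (by decide) _ (hc.trans (by decide)) p hodd h3 (by decide)
  · exact key [(2, 9), (3, 2), (5, 3), (7, 1), (11, 1)] (by decide) _ (hc.trans (by decide)) p hodd h3 (by decide)
  · exact key [(2, 7), (3, 6), (5, 3), (7, 1), (11, 1)] (by decide) _ (hc.trans (by decide)) p hodd h3 (by decide)
  · exact key [(2, 10), (3, 3), (5, 2), (7, 3), (17, 1)] (by decide) _ (hc.trans (by decide)) p hodd h3 (by decide)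
  · exact key [(2, 14), (3, 3), (5, 3), (7, 1), (13, 1), (29, 1)] (by decide) _ (hc.trans (by decide)) p hodd h3 (by decide)
  · exact key [(2, 13), (3, 7), (5, 2), (7, 1), (11, 1), (13, 1)] (by decide) _ (hc.trans (by decide)) p hodd h3 (by decide)
  · exact key [(2, 9), (3, 4), (5, 1), (7, 3), (11, 1), (19, 1), (31, 1)] (by decide) _ (hc.trans (by decide)) p hodd h3 (by decide)
  · exact key [(2, 14), (3, 6), (5, 6), (7, 1), (11, 1), (19, 1)] (by decide) _ (hc.trans (by decide)) p hodd h3 (by decide)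
  · exact key [(2, 8), (3, 7), (5, 6), (7, 1), (11, 1), (31, 1), (37, 1), (67, 1)] (by decide) _ (hc.trans (by decide)) p hodd h3 (by decide)
  · exact key [(2, 15), (3, 10), (5, 3), (7, 2), (13, 1), (19, 1), (31, 1)] (by decide) _ (hc.trans (by decide)) p hodd h3 (by decide)
  · exact key [(2, 41), (3, 13), (5, 6), (7, 2), (11, 1), (13, 1), (17, 1), (19, 1), (23, 1), (31, 1), (47, 1)] (by decide) _ (hc.trans (by decide)) p hodd h3 (by decide)
  · exact key [(2, 46), (3, 20), (5, 9), (7, 6), (11, 2), (13, 3), (17, 1), (19, 1), (23, 1), (29, 1), (31, 1), (41, 1), (47, 1), (59, 1), (71, 1)] (by decide) _ (hc.trans (by decide)) p hodd h3 (by decide)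

theorem two_pow_fact (m : ℕ) : 2 ^ m * m.factorial ∣ (2 * m).factorial := by
  induction m with
  | zero => simp
  | succ k ih =>
    have h1 : (2 * (k + 1)).factorial = (2 * k + 2) * ((2 * k + 1) * (2 * k).factorial) := by
      have : 2 * (k + 1) = (2 * k + 1) + 1 := by ring
      rw [this, Nat.factorial_succ, Nat.factorial_succ]
    have h2 : 2 ^ (k + 1) * (k + 1).factorial = (2 * k + 2) * (2 ^ k * k.factorial) := by
      rw [Nat.factorial_succ, pow_succ]; ring
    rw [h1, h2]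
    exact Nat.mul_dvd_mul_left _ (Dvd.dvd.mul_left ih _)

theorem two_pow_dvd (n : ℕ) : 2 ^ (n / 2 + n / 2 / 2) ∣ n.factorial := by
  have h1 : 2 ^ (n / 2) * (n / 2).factorial ∣ n.factorial :=
    (two_pow_fact (n / 2)).trans (Nat.factorial_dvd_factorial (Nat.mul_div_le n 2))
  have h2 : 2 ^ (n / 2 / 2) ∣ (n / 2).factorial :=
    (dvd_mul_right _ _).trans ((two_pow_fact (n / 2 / 2)).trans
      (Nat.factorial_dvd_factorial (Nat.mul_div_le (n / 2) 2)))
  rw [pow_add]
  exact (Nat.mul_dvd_mul_left _ h2).trans h1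

theorem cube_lt (p : ℕ) : p ^ 3 < 2 ^ (p + 3) := by
  induction p with
  | zero => norm_num
  | succ k ih =>
    rcases Nat.lt_or_ge k 4 with h | h
    · interval_cases k <;> norm_num
    · obtain ⟨j, rfl⟩ := Nat.exists_eq_add_of_le h
      have h1 : (4 + j + 1) ^ 3 ≤ 2 * (4 + j) ^ 3 := by
        nlinarith [Nat.zero_le (j ^ 3), Nat.zero_le (j ^ 2), Nat.zero_le j]
      have h2 : 2 ^ (4 + j + 1 + 3) = 2 * 2 ^ (4 + j + 3) := by ring
      calc (4 + j + 1) ^ 3 ≤ 2 * (4 + j) ^ 3 := h1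
        _ < 2 * 2 ^ (4 + j + 3) := by linarith
        _ = 2 ^ (4 + j + 1 + 3) := h2.symm

theorem alt {G : Type*} [Group G] (n : ℕ) (hn : 5 ≤ n) (e : G ≃* alternatingGroup (Fin n))
    (p : ℕ) (hp : p.Prime) (hodd : p ≠ 2) (h3 : (Nat.card G).factorization p = 3) :
    p ^ 3 < 2 ^ (Nat.card G).factorization 2 := by
  haveI : Nontrivial (Fin n) := Fin.nontrivial_iff_two_le.mpr (by omega)
  have hcard : 2 * Nat.card G = n.factorial := by
    rw [Nat.card_congr e.toEquiv, two_mul_nat_card_alternatingGroup, Nat.card_eq_fintype_card,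
      Fintype.card_perm, Fintype.card_fin]
  have hfpos := Nat.factorial_pos n
  have hN0 : Nat.card G ≠ 0 := by omega
  have hp3 : p ^ 3 ∣ Nat.card G :=
    (Nat.Prime.pow_dvd_iff_le_factorization hp hN0).mpr (le_of_eq h3.symm)
  have hp3' : p ^ 3 ∣ n.factorial := by rw [← hcard]; exact Dvd.dvd.mul_left hp3 2
  have hf0 : n.factorial ≠ 0 := Nat.factorial_ne_zero n
  have hle3 : 3 ≤ n.factorial.factorization p :=
    (Nat.Prime.pow_dvd_iff_le_factorization hp hf0).mp hp3'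
  have hdiv := Nat.factorization_factorial_le_div_pred hp n
  have hp2 : 2 ≤ p := hp.two_le
  have hn3 : 3 * (p - 1) ≤ n := by
    have : 3 ≤ n / (p - 1) := hle3.trans hdiv
    exact (Nat.le_div_iff_mul_le (by omega)).mp this
  have hp_ne3 : p ≠ 3 := by
    rintro rfl
    rcases Nat.lt_or_ge n 9 with h9 | h9
    · have hnd : ¬ (3 ^ 3 ∣ n.factorial) := by
        interval_cases n <;> decide
      exact hnd hp3'
    · have h81 : 3 ^ 4 ∣ n.factorial :=
        (by decide : 3 ^ 4 ∣ Nat.factorial 9).trans (Nat.factorial_dvd_factorial h9)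
      rw [← hcard] at h81
      have h81' : 3 ^ 4 ∣ Nat.card G := Nat.Coprime.dvd_of_dvd_mul_left (by decide) h81
      have := (Nat.Prime.pow_dvd_iff_le_factorization hp hN0).mp h81'
      omega
  have hp5 : 5 ≤ p := by
    by_contra hlt
    have : p = 0 ∨ p = 1 ∨ p = 2 ∨ p = 3 ∨ p = 4 := by omega
    rcases this with rfl | rfl | rfl | rfl | rfl
    · exact absurd hp (by norm_num)
    · exact absurd hp (by norm_num)
    · exact hodd rfl
    · exact hp_ne3 rfl
    · exact absurd hp (by norm_num)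
  have hexp : p + 3 + 1 ≤ n / 2 + n / 2 / 2 := by omega
  have h2dvd : 2 ^ (p + 3 + 1) ∣ 2 * Nat.card G := by
    rw [hcard]; exact (pow_dvd_pow 2 hexp).trans (two_pow_dvd n)
  have h2dvd' : 2 ^ (p + 3) ∣ Nat.card G := by
    rw [pow_succ'] at h2dvd
    exact (Nat.mul_dvd_mul_iff_left (by norm_num)).mp h2dvd
  have hle : p + 3 ≤ (Nat.card G).factorization 2 :=
    (Nat.Prime.pow_dvd_iff_le_factorization Nat.prime_two hN0).mp h2dvd'
  calc p ^ 3 < 2 ^ (p + 3) := cube_lt p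
    _ ≤ 2 ^ (Nat.card G).factorization 2 := Nat.pow_le_pow_right (by norm_num) hle

/-- Let G be an alternating group of degree at least 5 or a simple group with the order of one of the 26 sporadic groups, and let p be an odd prime such that p³ is the exact power of p dividing the order of G. Then p³ is less than the 2-part of the order of G. -/
theorem result {G : Type*} [Group G] [Finite G] (hG : Cfsg.IsAlternating G ∨ Cfsg.IsSporadic G)
    (p : ℕ) (hp : p.Prime) (hodd : p ≠ 2) (h3 : (Nat.card G).factorization p = 3) :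
    p ^ 3 < 2 ^ (Nat.card G).factorization 2 := by
  rcases hG with ⟨n, hn, ⟨e⟩⟩ | hS
  · exact alt n hn e p hp hodd h3
  · exact spor hS p hodd h3

end Cfsg.Agent.S2367
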