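import Cfsg.Statements.S2391
import Mathlib

set_option autoImplicit false
open Cfsg

namespace Cfsg.Agent.S2391

/-- the action of `U` on the quotient by an invariant submodule -/
def qact {F : Type*} [Field F] {n : ℕ} (U : Subgroup (Matrix.SpecialLinearGroup (Fin n) F))
    (W : Submodule F (Fin n → F))
    (hW : ∀ u ∈ U, ∀ v ∈ W, (u : Matrix (Fin n) (Fin n) F).mulVec v ∈ W) :
    MulAction U ((Fin n → F) ⧸ W) where
  smul u x := W.mapQ W
      (Matrix.mulVecLin ((u : Matrix.SpecialLinearGroup (Fin n) F) : Matrix (Fin n) (Fin n) F))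
      (fun v hv => by
        rw [Submodule.mem_comap, Matrix.mulVecLin_apply]; exact hW u u.2 v hv) x
  one_smul x := by
    obtain ⟨v, rfl⟩ := Submodule.Quotient.mk_surjective (p := W) x
    show W.mapQ W _ _ (Submodule.Quotient.mk v) = Submodule.Quotient.mk v
    rw [Submodule.mapQ_apply]
    simp
  mul_smul u u' x := by
    obtain ⟨v, rfl⟩ := Submodule.Quotient.mk_surjective (p := W) x
    show W.mapQ W _ _ (Submodule.Quotient.mk v)
      = W.mapQ W _ _ (W.mapQ W _ _ (Submodule.Quotient.mk v))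
    rw [Submodule.mapQ_apply, Submodule.mapQ_apply, Submodule.mapQ_apply]
    simp [Matrix.mulVec_mulVec]

theorem exists_fix {F : Type*} [Field F] [Fintype F] {n : ℕ} (p : ℕ) [Fact p.Prime] [CharP F p]
    (U : Subgroup (Matrix.SpecialLinearGroup (Fin n) F)) (hU : IsPGroup p ↥U)
    (W : Submodule F (Fin n → F))
    (hW : ∀ u ∈ U, ∀ v ∈ W, (u : Matrix (Fin n) (Fin n) F).mulVec v ∈ W) (hne : W ≠ ⊤) :
    ∃ v, v ∉ W ∧ ∀ u ∈ U, (u : Matrix (Fin n) (Fin n) F).mulVec v - v ∈ W := by
  letI := qact U W hW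
  haveI : Finite ((Fin n → F) ⧸ W) :=
    Finite.of_surjective _ (Submodule.Quotient.mk_surjective (p := W))
  have hPQ : IsPGroup p (Multiplicative ((Fin n → F) ⧸ W)) := by
    intro g
    refine ⟨1, ?_⟩
    rw [pow_one]
    have h0 : p • (Multiplicative.toAdd g) = 0 := by
      have : ((p : F)) • (Multiplicative.toAdd g) = 0 := by
        rw [CharP.cast_eq_zero F p, zero_smul]
      rwa [Nat.cast_smul_eq_nsmul F] at this
    exact congrArg Multiplicative.ofAdd h0
  have hcard : p ∣ Nat.card ((Fin n → F) ⧸ W) := by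
    rcases hPQ.card_eq_or_dvd with h1 | h
    · exfalso
      obtain ⟨v, -, hv⟩ := SetLike.exists_of_lt (lt_top_iff_ne_top.mpr hne)
      have hsub : Subsingleton (Multiplicative ((Fin n → F) ⧸ W)) :=
        (Nat.card_eq_one_iff_unique.mp h1).1
      have h2 : (Submodule.Quotient.mk v : (Fin n → F) ⧸ W) = 0 :=
        congrArg Multiplicative.toAdd
          (Subsingleton.elim
            (Multiplicative.ofAdd (Submodule.Quotient.mk v : (Fin n → F) ⧸ W))
            (Multiplicative.ofAdd 0))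
      exact hv ((Submodule.Quotient.mk_eq_zero (p := W)).mp h2)
    · exact h
  have h0 : (0 : (Fin n → F) ⧸ W) ∈ MulAction.fixedPoints U ((Fin n → F) ⧸ W) := by
    rw [MulAction.mem_fixedPoints]
    intro u
    show W.mapQ W _ _ (0 : (Fin n → F) ⧸ W) = 0
    exact map_zero _
  obtain ⟨b, hb, hb0⟩ :=
    hU.exists_fixed_point_of_prime_dvd_card_of_fixed_point ((Fin n → F) ⧸ W) hcard h0
  obtain ⟨v, rfl⟩ := Submodule.Quotient.mk_surjective (p := W) b
  refine ⟨v, fun hv => hb0 ((Submodule.Quotient.mk_eq_zero (p := W)).mpr hv).symm,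
    fun u hu => ?_⟩
  have h1 := (MulAction.mem_fixedPoints.mp hb) ⟨u, hu⟩
  have h2 : W.mapQ W (Matrix.mulVecLin (u : Matrix (Fin n) (Fin n) F))
      (fun v hv => by rw [Submodule.mem_comap, Matrix.mulVecLin_apply]; exact hW u hu v hv)
      (Submodule.Quotient.mk v) = Submodule.Quotient.mk v := h1
  rw [Submodule.mapQ_apply] at h2
  exact (Submodule.Quotient.eq (p := W)).mp h2

/-- the ascending fixed-point series -/
def Wc {F : Type*} [Field F] {n : ℕ} (U : Subgroup (Matrix.SpecialLinearGroup (Fin n) F)) :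
    ℕ → Submodule F (Fin n → F)
  | 0 => ⊥
  | j + 1 =>
    { carrier := {v | ∀ u ∈ U, (u : Matrix (Fin n) (Fin n) F).mulVec v - v ∈ Wc U j}
      add_mem' := by
        intro a b ha hb
        simp only [Set.mem_setOf_eq] at ha hb ⊢
        intro u hu
        have : (u : Matrix (Fin n) (Fin n) F).mulVec (a + b) - (a + b)
            = ((u : Matrix (Fin n) (Fin n) F).mulVec a - a)
              + ((u : Matrix (Fin n) (Fin n) F).mulVec b - b) := by
          rw [Matrix.mulVec_add]; abel
        rw [this]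
        exact add_mem (ha u hu) (hb u hu)
      zero_mem' := by
        simp only [Set.mem_setOf_eq]
        intro u hu
        rw [Matrix.mulVec_zero, sub_zero]
        exact zero_mem _
      smul_mem' := by
        intro c a ha
        simp only [Set.mem_setOf_eq] at ha ⊢
        intro u hu
        have : (u : Matrix (Fin n) (Fin n) F).mulVec (c • a) - c • a
            = c • ((u : Matrix (Fin n) (Fin n) F).mulVec a - a) := by
          rw [Matrix.mulVec_smul, smul_sub]
        rw [this]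
        exact Submodule.smul_mem _ c (ha u hu) }

theorem mem_succ {F : Type*} [Field F] {n : ℕ}
    (U : Subgroup (Matrix.SpecialLinearGroup (Fin n) F)) (j : ℕ) (v : Fin n → F) :
    v ∈ Wc U (j + 1) ↔ ∀ u ∈ U, (u : Matrix (Fin n) (Fin n) F).mulVec v - v ∈ Wc U j :=
  Iff.rfl

theorem inv_U {F : Type*} [Field F] {n : ℕ}
    (U : Subgroup (Matrix.SpecialLinearGroup (Fin n) F)) (j : ℕ) :
    ∀ u ∈ U, ∀ v ∈ Wc U j, (u : Matrix (Fin n) (Fin n) F).mulVec v ∈ Wc U j := by
  cases j with
  | zero =>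
    intro u hu v hv
    have hW0 : Wc U 0 = ⊥ := rfl
    rw [hW0] at hv ⊢
    have hv0 : v = 0 := (Submodule.mem_bot F).mp hv
    rw [hv0, Matrix.mulVec_zero]
    exact zero_mem _
  | succ j =>
    intro u hu v hv
    rw [mem_succ] at hv ⊢
    intro u' hu'
    have h1 := hv (u' * u) (mul_mem hu' hu)
    have h2 := hv u hu
    have : (u' : Matrix (Fin n) (Fin n) F).mulVec ((u : Matrix (Fin n) (Fin n) F).mulVec v)
          - (u : Matrix (Fin n) (Fin n) F).mulVec v
        = (((u' * u : Matrix.SpecialLinearGroup (Fin n) F) : Matrix (Fin n) (Fin n) F).mulVec v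
            - v) - ((u : Matrix (Fin n) (Fin n) F).mulVec v - v) := by
      rw [Matrix.SpecialLinearGroup.coe_mul, ← Matrix.mulVec_mulVec]; abel
    rw [this]
    exact sub_mem h1 h2

theorem mono {F : Type*} [Field F] {n : ℕ}
    (U : Subgroup (Matrix.SpecialLinearGroup (Fin n) F)) (j : ℕ) : Wc U j ≤ Wc U (j + 1) := by
  intro v hv
  rw [mem_succ]
  intro u hu
  exact sub_mem (inv_U U j u hu v hv) hv

theorem strict {F : Type*} [Field F] [Fintype F] {n : ℕ} (p : ℕ) [Fact p.Prime] [CharP F p]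
    (U : Subgroup (Matrix.SpecialLinearGroup (Fin n) F)) (hU : IsPGroup p ↥U) (j : ℕ)
    (htop : Wc U j ≠ ⊤) : ∃ v, v ∈ Wc U (j + 1) ∧ v ∉ Wc U j := by
  obtain ⟨v, hv, h⟩ := exists_fix p U hU (Wc U j) (inv_U U j) htop
  exact ⟨v, (mem_succ U j v).mpr h, hv⟩

theorem inv_N {F : Type*} [Field F] {n : ℕ}
    (U : Subgroup (Matrix.SpecialLinearGroup (Fin n) F))
    (g : Matrix.SpecialLinearGroup (Fin n) F)
    (hg : g ∈ Subgroup.normalizer (U : Set (Matrix.SpecialLinearGroup (Fin n) F))) (j : ℕ) :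
    ∀ v ∈ Wc U j, (g : Matrix (Fin n) (Fin n) F).mulVec v ∈ Wc U j := by
  induction j with
  | zero =>
    intro v hv
    have hW0 : Wc U 0 = ⊥ := rfl
    rw [hW0] at hv ⊢
    have hv0 : v = 0 := (Submodule.mem_bot F).mp hv
    rw [hv0, Matrix.mulVec_zero]
    exact zero_mem _
  | succ j ih =>
    intro v hv
    rw [mem_succ] at hv ⊢
    intro u hu
    have hconj : g⁻¹ * u * g ∈ U := by
      have := (Subgroup.mem_normalizer_iff.mp (inv_mem hg)) u
      rw [inv_inv] at this
      exact this.mp hu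
    have h1 := ih _ (hv _ hconj)
    have e : g * (g⁻¹ * u * g) = u * g := by group
    have : (u : Matrix (Fin n) (Fin n) F).mulVec ((g : Matrix (Fin n) (Fin n) F).mulVec v)
          - (g : Matrix (Fin n) (Fin n) F).mulVec v
        = (g : Matrix (Fin n) (Fin n) F).mulVec
            (((g⁻¹ * u * g : Matrix.SpecialLinearGroup (Fin n) F) :
              Matrix (Fin n) (Fin n) F).mulVec v - v) := by
      rw [Matrix.mulVec_sub, Matrix.mulVec_mulVec, Matrix.mulVec_mulVec,
        ← Matrix.SpecialLinearGroup.coe_mul, ← Matrix.SpecialLinearGroup.coe_mul, e]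
    rw [this]
    exact h1

theorem map_N {F : Type*} [Field F] {n : ℕ}
    (U : Subgroup (Matrix.SpecialLinearGroup (Fin n) F))
    (g : Matrix.SpecialLinearGroup (Fin n) F)
    (hg : g ∈ Subgroup.normalizer (U : Set (Matrix.SpecialLinearGroup (Fin n) F))) (j : ℕ) :
    (Wc U j).map (Matrix.mulVecLin (g : Matrix (Fin n) (Fin n) F)) = Wc U j := by
  apply le_antisymm
  · intro w hw
    obtain ⟨v, hv, rfl⟩ := Submodule.mem_map.mp hw
    rw [Matrix.mulVecLin_apply]
    exact inv_N U g hg j v hv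
  · intro v hv
    refine Submodule.mem_map.mpr
      ⟨((g⁻¹ : Matrix.SpecialLinearGroup (Fin n) F) : Matrix (Fin n) (Fin n) F).mulVec v,
        inv_N U g⁻¹ (inv_mem hg) j v hv, ?_⟩
    rw [Matrix.mulVecLin_apply, Matrix.mulVec_mulVec, ← Matrix.SpecialLinearGroup.coe_mul,
      mul_inv_cancel, Matrix.SpecialLinearGroup.coe_one, Matrix.one_mulVec]

theorem W1_ne_top {F : Type*} [Field F] {n : ℕ}
    (U : Subgroup (Matrix.SpecialLinearGroup (Fin n) F)) (hne : U ≠ ⊥) : Wc U 1 ≠ ⊤ := by
  intro htop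
  apply hne
  rw [Subgroup.eq_bot_iff_forall]
  intro u hu
  have hmat : (u : Matrix (Fin n) (Fin n) F)
      = ((1 : Matrix.SpecialLinearGroup (Fin n) F) : Matrix (Fin n) (Fin n) F) := by
    rw [Matrix.SpecialLinearGroup.coe_one, Matrix.ext_iff_mulVec]
    intro v
    have hv : v ∈ Wc U 1 := by rw [htop]; exact Submodule.mem_top
    have h := (mem_succ U 0 v).mp hv u hu
    have hW0 : Wc U 0 = ⊥ := rfl
    rw [hW0] at h
    have h0 : (u : Matrix (Fin n) (Fin n) F).mulVec v - v = 0 := (Submodule.mem_bot F).mp h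
    rw [Matrix.one_mulVec]
    exact sub_eq_zero.mp h0
  exact Subtype.ext hmat

theorem reach_top {F : Type*} [Field F] [Fintype F] {n : ℕ} (p : ℕ) [Fact p.Prime] [CharP F p]
    (U : Subgroup (Matrix.SpecialLinearGroup (Fin n) F)) (hU : IsPGroup p ↥U) :
    ∃ j, Wc U j = ⊤ := by
  have key : ∀ j, Wc U j = ⊤ ∨ j ≤ Module.finrank F (Wc U j) := by
    intro j
    induction j with
    | zero => right; exact Nat.zero_le _
    | succ j ih =>
      by_cases htop : Wc U j = ⊤
      · left
        exact top_le_iff.mp (by rw [← htop]; exact mono U j)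
      · right
        rcases ih with h | h
        · exact absurd h htop
        · obtain ⟨v, hv1, hv0⟩ := strict p U hU j htop
          have hlt : Wc U j < Wc U (j + 1) :=
            lt_of_le_of_ne (mono U j) (fun heq => hv0 (by rw [heq]; exact hv1))
          have := Submodule.finrank_lt_finrank_of_lt hlt
          omega
  rcases key (n + 1) with h | h
  · exact ⟨_, h⟩
  · exfalso
    have h1 : Module.finrank F (Wc U (n + 1)) ≤ Module.finrank F (Fin n → F) :=
      Submodule.finrank_le _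
    rw [Module.finrank_fin_fun] at h1
    omega

/-- The Borel–Tits property of `SL_n(q)` in flag form: for a field `F` of characteristic `p` with finitely many elements and a non-trivial `p`-subgroup `U` of `SL_n(F)`, there is a flag `0 = V₀ < V₁ < ⋯ < V_{k+1} = F^n` with at least one proper non-zero member such that every element of the normaliser of `U` maps each `V_i` onto itself and every element of `U` acts trivially on each quotient `V_{i+1}/V_i` (so the normaliser lies in the parabolic subgroup of the flag and `U` in its unipotent radical). -/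
theorem result {F : Type*} [Field F] [Fintype F] (p : ℕ) [Fact p.Prime] [CharP F p] (n : ℕ)
    (U : Subgroup (Matrix.SpecialLinearGroup (Fin n) F)) (hU : IsPGroup p ↥U) (hne : U ≠ ⊥) :
    ∃ (k : ℕ) (V : Fin (k + 2) → Submodule F (Fin n → F)), 1 ≤ k ∧ StrictMono V ∧ V 0 = ⊥ ∧ V (Fin.last (k + 1)) = ⊤ ∧
      (∀ g ∈ Subgroup.normalizer (U : Set (Matrix.SpecialLinearGroup (Fin n) F)), ∀ i, (V i).map (Matrix.mulVecLin (g : Matrix (Fin n) (Fin n) F)) = V i) ∧
      (∀ u ∈ U, ∀ i : Fin (k + 1), ∀ v ∈ V i.succ, (u : Matrix (Fin n) (Fin n) F).mulVec v - v ∈ V (Fin.castSucc i)) := by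
  classical
  have hex : ∃ j, Wc U j = ⊤ := reach_top p U hU
  have hs_top : Wc U (Nat.find hex) = ⊤ := Nat.find_spec hex
  have hs_min : ∀ j, j < Nat.find hex → Wc U j ≠ ⊤ := fun j hj => Nat.find_min hex hj
  generalize Nat.find hex = s at hs_top hs_min
  have h1 : Wc U 1 ≠ ⊤ := W1_ne_top U hne
  have h0 : Wc U 0 ≠ ⊤ := by
    intro h
    apply h1
    exact top_le_iff.mp (by rw [← h]; exact mono U 0)
  have hs2 : 2 ≤ s := by
    by_contra hlt
    have : s = 0 ∨ s = 1 := by omega
    rcases this with h | h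
    · rw [h] at hs_top; exact h0 hs_top
    · rw [h] at hs_top; exact h1 hs_top
  obtain ⟨k, hk⟩ : ∃ k, s = k + 1 := ⟨s - 1, by omega⟩
  refine ⟨k, fun i => Wc U (i : ℕ), by omega, ?_, ?_, ?_, ?_, ?_⟩
  · rw [Fin.strictMono_iff_lt_succ]
    intro i
    show Wc U (i : ℕ) < Wc U ((i : ℕ) + 1)
    have hi : (i : ℕ) < s := by have := i.isLt; omega
    obtain ⟨v, hv1, hv0⟩ := strict p U hU (i : ℕ) (hs_min _ hi)
    exact lt_of_le_of_ne (mono U _) (fun heq => hv0 (by rw [heq]; exact hv1))
  · show Wc U ((0 : Fin (k + 2)) : ℕ) = ⊥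
    rw [Fin.val_zero]
    rfl
  · show Wc U ((Fin.last (k + 1) : Fin (k + 2)) : ℕ) = ⊤
    rw [Fin.val_last, ← hk]
    exact hs_top
  · intro g hg i
    exact map_N U g hg (i : ℕ)
  · intro u hu i v hv
    have hv' : v ∈ Wc U ((i : ℕ) + 1) := hv
    show (u : Matrix (Fin n) (Fin n) F).mulVec v - v ∈ Wc U (i : ℕ)
    exact (mem_succ U (i : ℕ) v).mp hv' u hu

end Cfsg.Agent.S2391
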