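import Cfsg.Statements.S2394
import Mathlib
import Cfsg.Agent.S0245
import Cfsg.Agent.Helper5.Zsig2

set_option autoImplicit false
open scoped MatrixGroups
open Cfsg

namespace Cfsg.Agent.S2394

theorem arith_main (q n d : ℕ) (hq2 : 2 ≤ q)
    (hdvd : q ^ (n ^ 2) * ∏ i ∈ Finset.range n, (q ^ (2 * (i + 1)) - 1) ∣
      ∏ i : Fin d, (q ^ d - q ^ (i : ℕ))) : 2 * n ≤ d := by
  classical
  by_contra hlt
  have hlt' : d < 2 * n := by omega
  have hn : 1 ≤ n := by omega
  have hGLpos : 0 < ∏ i : Fin d, (q ^ d - q ^ (i : ℕ)) := by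
    apply Finset.prod_pos
    intro i _
    have h1 : q ^ (i : ℕ) < q ^ d := Nat.pow_lt_pow_right (by omega) i.2
    omega
  by_cases h1 : n = 1
  · subst h1
    have hR : ∏ i : Fin d, (q ^ d - q ^ (i : ℕ)) ≤ q := by
      have hd : d < 2 := by omega
      interval_cases d
      · rw [Finset.univ_eq_empty, Finset.prod_empty]; omega
      · rw [Fin.prod_univ_one]
        calc q ^ 1 - q ^ ((0 : Fin 1) : ℕ) ≤ q ^ 1 := Nat.sub_le _ _
          _ = q := pow_one q
    have hle := Nat.le_of_dvd hGLpos hdvd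
    rw [Finset.prod_range_one] at hle
    have h4 : 2 ^ 2 ≤ q ^ 2 := Nat.pow_le_pow_left hq2 2
    have h5 : q * 3 ≤ q ^ (1 ^ 2) * (q ^ (2 * (0 + 1)) - 1) := by
      have e1 : q ^ (1 ^ 2) = q := by norm_num
      have e2 : 2 * (0 + 1) = 2 := by norm_num
      rw [e1, e2]
      exact Nat.mul_le_mul_left q (by omega)
    omega
  by_cases h6 : q = 2 ∧ n = 3
  · obtain ⟨rfl, rfl⟩ := h6
    have hd6 : d < 6 := by omega
    interval_cases d <;> revert hdvd <;> decide
  · obtain ⟨r, hr, hrdvd, hprim⟩ := Cfsg.Agent.Helper5.zsig_main q (2 * n) (by omega)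
      (by omega) (fun h => h6 ⟨h.1, by omega⟩) (fun h => absurd h.1 (by omega))
    have hfac : q ^ (2 * n) - 1 ∣ ∏ i ∈ Finset.range n, (q ^ (2 * (i + 1)) - 1) := by
      have h2 := Finset.dvd_prod_of_mem (fun i => q ^ (2 * (i + 1)) - 1)
        (Finset.mem_range.2 (by omega : n - 1 < n))
      have e : n - 1 + 1 = n := by omega
      simp only [e] at h2
      exact h2
    have hr1 : r ∣ q ^ (n ^ 2) * ∏ i ∈ Finset.range n, (q ^ (2 * (i + 1)) - 1) :=
      Dvd.dvd.mul_left (hrdvd.trans hfac) _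
    have hr2 : r ∣ ∏ i : Fin d, (q ^ d - q ^ (i : ℕ)) := hr1.trans hdvd
    obtain ⟨i, -, hi⟩ := (Nat.Prime.prime hr).exists_mem_finset_dvd hr2
    have e : q ^ d - q ^ (i : ℕ) = q ^ (i : ℕ) * (q ^ (d - (i : ℕ)) - 1) := by
      have h3 : (i : ℕ) + (d - (i : ℕ)) = d := by have := i.2; omega
      rw [Nat.mul_sub, mul_one, ← pow_add, h3]
    rw [e] at hi
    have hrq : ¬ r ∣ q := by
      intro h
      have h3 : r ∣ q ^ (2 * n) := dvd_pow h (by omega)
      have h4 : r ∣ (q ^ (2 * n) - 1) + 1 := by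
        rw [Nat.sub_add_cancel (Nat.one_le_pow _ _ (by omega))]; exact h3
      have h5 : r ∣ 1 := (Nat.dvd_add_right hrdvd).1 h4
      exact hr.one_lt.ne' (Nat.dvd_one.1 h5)
    rcases (Nat.Prime.dvd_mul hr).1 hi with h3 | h3
    · exact hrq (Nat.Prime.dvd_of_dvd_pow hr h3)
    · have hi2 := i.2
      exact hprim (d - (i : ℕ)) (by omega) (by omega) h3

/-- The smallest degree of a faithful representation of the symplectic group `Sp_{2n}(q)` over its own field `F_q` is `2n`: every injective homomorphism from `Sp_{2n}(F)` to `GL_d(F)`, `F` the field with `q` elements, has `d ≥ 2n`. -/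
theorem result {F : Type*} [Field F] [Fintype F] (n : ℕ) {d : ℕ}
    (ρ : ↥(Matrix.symplecticGroup (Fin n) F) →* GL (Fin d) F) (hρ : Function.Injective ρ) : 2 * n ≤ d := by
  classical
  obtain ⟨q, hq⟩ : ∃ q, Fintype.card F = q := ⟨_, rfl⟩
  have hq2 : 2 ≤ q := by rw [← hq]; exact Fintype.one_lt_card
  have hSp := Cfsg.Agent.S0245.result hq n
  have hGL := Matrix.card_GL_field (𝔽 := F) d
  rw [hq] at hGL
  have hdvd := Subgroup.card_dvd_of_injective ρ hρ
  rw [hSp, hGL] at hdvd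
  exact arith_main q n d hq2 hdvd

end Cfsg.Agent.S2394
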