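import Cfsg.Statements.S2437
import Mathlib
import Cfsg.Agent.S2308

set_option autoImplicit false
open Cfsg

namespace Cfsg.Agent.S2437

open Matrix

local notation "SL2" => Matrix.SpecialLinearGroup (Fin 2)

abbrev BS (F : Type*) [Field F] : Subgroup (SL2 F) :=
  (Cfsg.upperTriangularGL 2 F).comap Matrix.SpecialLinearGroup.toGL

theorem mem_BS {F : Type*} [Field F] (g : SL2 F) : g ∈ BS F ↔ g.1 1 0 = 0 := by
  show Matrix.SpecialLinearGroup.toGL g ∈ Cfsg.upperTriangularGL 2 F ↔ _
  rw [Cfsg.Agent.S2308.mem_B]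
  rfl

def M {F : Type*} [Field F] (a : Fˣ) (b : F) : SL2 F :=
  ⟨!![(a : F), b; 0, ((a⁻¹ : Fˣ) : F)], by simp [Matrix.det_fin_two_of]⟩

theorem M_mul {F : Type*} [Field F] (a c : Fˣ) (b d : F) :
    M a b * M c d = M (a * c) ((a : F) * d + b * ((c⁻¹ : Fˣ) : F)) := by
  apply Subtype.ext
  show (M a b).1 * (M c d).1 = (M (a * c) ((a : F) * d + b * ((c⁻¹ : Fˣ) : F))).1
  ext i j
  fin_cases i <;> fin_cases j <;> simp [M, Matrix.mul_apply, Fin.sum_univ_two, mul_comm]

theorem M_mem {F : Type*} [Field F] (a : Fˣ) (b : F) : M a b ∈ BS F :=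
  (mem_BS _).mpr (by simp [M])

theorem M_inj {F : Type*} [Field F] {a c : Fˣ} {b d : F} (h : M a b = M c d) :
    a = c ∧ b = d := by
  have h00 := congrArg (fun g : SL2 F => g.1 0 0) h
  have h01 := congrArg (fun g : SL2 F => g.1 0 1) h
  exact ⟨Units.ext (by simpa [M] using h00), by simpa [M] using h01⟩

theorem M_surj {F : Type*} [Field F] (g : SL2 F) (hg : g.1 1 0 = 0) :
    ∃ (a : Fˣ) (b : F), g = M a b := by
  have hdet : g.1 0 0 * g.1 1 1 = 1 := by
    have h := g.2
    rw [Matrix.det_fin_two, hg] at h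
    linear_combination h
  have h00 : g.1 0 0 ≠ 0 := by
    intro h0
    rw [h0, zero_mul] at hdet
    exact zero_ne_one hdet
  have h11 : g.1 1 1 = (g.1 0 0)⁻¹ := (inv_eq_of_mul_eq_one_right hdet).symm
  refine ⟨Units.mk0 (g.1 0 0) h00, g.1 0 1, ?_⟩
  ext i j
  fin_cases i <;> fin_cases j
  · simp [M]
  · simp [M]
  · simpa [M] using hg
  · simp [M, h11]

noncomputable def eqv (F : Type*) [Field F] : Fˣ × F ≃ ↥(BS F) :=
  Equiv.ofBijective (fun p => ⟨M p.1 p.2, M_mem p.1 p.2⟩) (by
    constructor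
    · intro p p' h
      have h' : M p.1 p.2 = M p'.1 p'.2 := congrArg Subtype.val h
      obtain ⟨h1, h2⟩ := M_inj h'
      exact Prod.ext h1 h2
    · rintro ⟨g, hg⟩
      obtain ⟨a, b, rfl⟩ := M_surj g ((mem_BS g).mp hg)
      exact ⟨(a, b), rfl⟩)

theorem comm_iff {F : Type*} [Field F] (a c : Fˣ) (b d : F) :
    Commute (M a b) (M c d) ↔
      d * ((a : F) - ((a⁻¹ : Fˣ) : F)) = b * ((c : F) - ((c⁻¹ : Fˣ) : F)) := by
  rw [commute_iff_eq, M_mul, M_mul]
  constructor
  · intro h
    obtain ⟨-, h2⟩ := M_inj h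
    linear_combination h2
  · intro h
    have e1 : a * c = c * a := mul_comm a c
    have e2 : (a : F) * d + b * ((c⁻¹ : Fˣ) : F) = (c : F) * b + d * ((a⁻¹ : Fˣ) : F) := by
      linear_combination h
    rw [e1, e2]

open Classical in
theorem line_count {F : Type*} [Field F] [Fintype F] (x y : F) :
    (∑ b : F, ∑ d : F, if d * x = b * y then 1 else 0)
      = if x = 0 ∧ y = 0 then Fintype.card F * Fintype.card F else Fintype.card F := by
  by_cases hx : x = 0
  · by_cases hy : y = 0
    · subst hx; subst hy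
      simp
    · subst hx
      have h : ∀ b d : F, (d * 0 = b * y) ↔ b = 0 := by
        intro b d
        rw [mul_zero]
        constructor
        · intro h
          rcases mul_eq_zero.mp h.symm with h | h
          · exact h
          · exact absurd h hy
        · intro h; rw [h, zero_mul]
      simp only [h]
      simp [hy]
  · have h : ∀ b d : F, (d * x = b * y) ↔ d = b * y / x := fun b d => (eq_div_iff hx).symm
    simp only [h]
    simp [hx]

open Classical in
theorem unit_count {F : Type*} [Field F] [Fintype F] (h2 : (2 : F) ≠ 0) :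
    (∑ u : Fˣ, if (u : F) - ((u⁻¹ : Fˣ) : F) = 0 then 1 else 0) = 2 := by
  rw [← Finset.card_filter]
  have hne : (1 : Fˣ) ≠ -1 := by
    intro h
    have h' : ((1 : Fˣ) : F) = ((-1 : Fˣ) : F) := congrArg Units.val h
    rw [Units.val_one, Units.val_neg, Units.val_one] at h'
    apply h2
    linear_combination h'
  have hinv : ((-1 : Fˣ))⁻¹ = -1 := inv_eq_of_mul_eq_one_right (by simp)
  have hset : (Finset.univ.filter (fun u : Fˣ => (u : F) - ((u⁻¹ : Fˣ) : F) = 0)) = {1, -1} := by
    ext u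
    simp only [Finset.mem_filter, Finset.mem_univ, true_and, Finset.mem_insert,
      Finset.mem_singleton]
    constructor
    · intro h
      have h1 : (u : F) * (u : F) = 1 := by
        have h3 : (u : F) * ((u⁻¹ : Fˣ) : F) = 1 := Units.mul_inv u
        rw [← sub_eq_zero.mp h] at h3
        exact h3
      rcases mul_self_eq_one_iff.mp h1 with h4 | h4
      · left; exact Units.ext (by rw [h4, Units.val_one])
      · right; exact Units.ext (by rw [h4, Units.val_neg, Units.val_one])
    · rintro (rfl | rfl)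
      · simp
      · simp [hinv]
  rw [hset]
  exact Finset.card_pair hne

open Classical in
theorem count_main {F : Type*} [Field F] [Fintype F] (h2 : (2 : F) ≠ 0) :
    Nat.card {p : (Fˣ × F) × (Fˣ × F) //
        p.2.2 * ((p.1.1 : F) - ((p.1.1⁻¹ : Fˣ) : F)) = p.1.2 * ((p.2.1 : F) - ((p.2.1⁻¹ : Fˣ) : F))}
      = Nat.card F * Nat.card Fˣ * (Nat.card Fˣ + 4) := by
  have hq : Fintype.card F = Fintype.card Fˣ + 1 := by
    have h1 : Nat.card Fˣ = Nat.card F - 1 := by rw [Nat.card_units]
    have h3 : 0 < Nat.card F := Nat.card_pos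
    rw [Nat.card_eq_fintype_card, Nat.card_eq_fintype_card] at h1
    rw [Nat.card_eq_fintype_card] at h3
    omega
  rw [Nat.card_eq_fintype_card, Nat.card_eq_fintype_card, Nat.card_eq_fintype_card,
    Fintype.card_subtype, Finset.card_filter]
  simp only [Fintype.sum_prod_type]
  refine (Finset.sum_congr rfl (fun a _ => Finset.sum_comm)).trans ?_
  simp only [line_count]
  have hsum : ∀ a c : Fˣ,
      (if (a : F) - ((a⁻¹ : Fˣ) : F) = 0 ∧ (c : F) - ((c⁻¹ : Fˣ) : F) = 0
        then Fintype.card F * Fintype.card F else Fintype.card F)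
      = Fintype.card F + (if (a : F) - ((a⁻¹ : Fˣ) : F) = 0 then 1 else 0)
          * (if (c : F) - ((c⁻¹ : Fˣ) : F) = 0 then 1 else 0)
          * (Fintype.card F * Fintype.card Fˣ) := by
    intro a c
    by_cases ha : (a : F) - ((a⁻¹ : Fˣ) : F) = 0
    · by_cases hc : (c : F) - ((c⁻¹ : Fˣ) : F) = 0
      · rw [if_pos ⟨ha, hc⟩, if_pos ha, if_pos hc, hq]; ring
      · rw [if_neg (fun h => hc h.2), if_neg hc]; ring
    · rw [if_neg (fun h => ha h.1), if_neg ha]; ring
  simp only [hsum]
  have hD : (∑ a : Fˣ, ∑ c : Fˣ, (if (a : F) - ((a⁻¹ : Fˣ) : F) = 0 then 1 else 0)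
          * (if (c : F) - ((c⁻¹ : Fˣ) : F) = 0 then 1 else 0)
          * (Fintype.card F * Fintype.card Fˣ))
      = (∑ a : Fˣ, if (a : F) - ((a⁻¹ : Fˣ) : F) = 0 then 1 else 0)
          * (∑ c : Fˣ, if (c : F) - ((c⁻¹ : Fˣ) : F) = 0 then 1 else 0)
          * (Fintype.card F * Fintype.card Fˣ) := by
    rw [Finset.sum_mul_sum, Finset.sum_mul]
    refine Finset.sum_congr rfl (fun a _ => ?_)
    rw [Finset.sum_mul]
  simp only [Finset.sum_add_distrib, hD, unit_count h2, Finset.sum_const, Finset.card_univ,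
    smul_eq_mul]
  ring

/-- Over a finite field F with q elements, q odd, the upper triangular subgroup of SL₂ (a Borel subgroup, of order q(q − 1)) has exactly q + 3 conjugacy classes. -/
theorem result {F : Type*} [Field F] [Fintype F] (hodd : Odd (Fintype.card F)) :
    Nat.card (ConjClasses ((Cfsg.upperTriangularGL 2 F).comap Matrix.SpecialLinearGroup.toGL)) = Fintype.card F + 3 := by
  show Nat.card (ConjClasses ↥(BS F)) = Fintype.card F + 3
  have h2 : (2 : F) ≠ 0 := Ring.two_ne_zero (fun h => by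
    have h1 := FiniteField.even_card_of_char_two h
    have h3 := Nat.odd_iff.mp hodd
    omega)
  have hcomm := card_comm_eq_card_conjClasses_mul_card ↥(BS F)
  have hE : Nat.card {p : (Fˣ × F) × (Fˣ × F) //
        p.2.2 * ((p.1.1 : F) - ((p.1.1⁻¹ : Fˣ) : F)) = p.1.2 * ((p.2.1 : F) - ((p.2.1⁻¹ : Fˣ) : F))}
      = Nat.card {p : ↥(BS F) × ↥(BS F) // Commute p.1 p.2} := by
    refine Nat.card_congr (Equiv.subtypeEquiv (Equiv.prodCongr (eqv F) (eqv F)) (fun p => ?_))
    rw [← comm_iff p.1.1 p.2.1 p.1.2 p.2.2]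
    constructor
    · intro h
      exact Subtype.ext h
    · intro h
      exact congrArg Subtype.val h
  rw [count_main h2, hcomm] at hE
  have hB : Nat.card ↥(BS F) = Nat.card Fˣ * Nat.card F := by
    rw [← Nat.card_congr (eqv F), Nat.card_prod]
  have hm : 0 < Nat.card Fˣ := Nat.card_pos
  have hqpos : 0 < Nat.card F := Nat.card_pos
  have hu : Nat.card Fˣ = Nat.card F - 1 := by rw [Nat.card_units]
  rw [hB] at hE
  have hk : Nat.card Fˣ + 4 = Nat.card (ConjClasses ↥(BS F)) := by
    apply Nat.eq_of_mul_eq_mul_right (Nat.mul_pos hm hqpos)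
    rw [← hE]; ring
  rw [← hk, ← Nat.card_eq_fintype_card]
  omega


end Cfsg.Agent.S2437
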