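import Cfsg.Statements.S2428
import Mathlib
import Cfsg.Agent.S2437

set_option autoImplicit false
open Cfsg

namespace Cfsg.Agent.S2428

open Matrix

local notation "SL2" => Matrix.SpecialLinearGroup (Fin 2)

theorem ext2 {F : Type*} [Field F] (A B : Matrix (Fin 2) (Fin 2) F) (h00 : A 0 0 = B 0 0)
    (h01 : A 0 1 = B 0 1) (h10 : A 1 0 = B 1 0) (h11 : A 1 1 = B 1 1) : A = B := by
  ext i j
  fin_cases i <;> fin_cases j
  · exact h00
  · exact h01
  · exact h10
  · exact h11

theorem mul2 {F : Type*} [Field F] (A B : Matrix (Fin 2) (Fin 2) F) (i j : Fin 2) :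
    (A * B) i j = A i 0 * B 0 j + A i 1 * B 1 j := by
  rw [Matrix.mul_apply, Fin.sum_univ_two]

theorem det2 {F : Type*} [Field F] (g : SL2 F) :
    g.1 0 0 * g.1 1 1 - g.1 0 1 * g.1 1 0 = 1 := by
  have h := g.2
  rw [Matrix.det_fin_two] at h
  exact h

theorem cent_iff {F : Type*} [Field F] (d : SL2 F) (hd01 : d.1 0 1 = 0) (hd10 : d.1 1 0 = 0)
    (hsub : d.1 0 0 - d.1 1 1 ≠ 0) (g : SL2 F) :
    g ∈ Subgroup.centralizer ({d} : Set (SL2 F)) ↔ (g.1 0 1 = 0 ∧ g.1 1 0 = 0) := by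
  rw [Subgroup.mem_centralizer_iff]
  constructor
  · intro h
    have hc := h d (Set.mem_singleton d)
    have hm : d.1 * g.1 = g.1 * d.1 := congrArg Subtype.val hc
    have h01 := congrFun (congrFun hm 0) 1
    have h10 := congrFun (congrFun hm 1) 0
    rw [mul2, mul2, hd01] at h01
    rw [mul2, mul2, hd10] at h10
    constructor
    · have h3 : (d.1 0 0 - d.1 1 1) * g.1 0 1 = 0 := by linear_combination h01
      exact (mul_eq_zero.mp h3).resolve_left hsub
    · have h3 : (d.1 0 0 - d.1 1 1) * g.1 1 0 = 0 := by linear_combination -h10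
      exact (mul_eq_zero.mp h3).resolve_left hsub
  · rintro ⟨h01, h10⟩ h hh
    rw [Set.mem_singleton_iff.mp hh]
    apply Subtype.ext
    show d.1 * g.1 = g.1 * d.1
    apply ext2 <;> rw [mul2, mul2] <;> simp only [hd01, hd10, h01, h10] <;> ring

def D {F : Type*} [Field F] (t : Fˣ) : SL2 F :=
  ⟨!![(t : F), 0; 0, ((t⁻¹ : Fˣ) : F)], by simp [Matrix.det_fin_two_of]⟩

def A {F : Type*} [Field F] (t : Fˣ) : SL2 F :=
  ⟨!![0, (t : F); -((t⁻¹ : Fˣ) : F), 0], by simp [Matrix.det_fin_two_of]⟩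

theorem diag_form {F : Type*} [Field F] (g : SL2 F) (h01 : g.1 0 1 = 0) (h10 : g.1 1 0 = 0) :
    ∃ t : Fˣ, g = D t := by
  have hdet : g.1 0 0 * g.1 1 1 = 1 := by
    have h := det2 g
    rw [h01] at h
    linear_combination h
  have h00 : g.1 0 0 ≠ 0 := by
    intro h0
    rw [h0, zero_mul] at hdet
    exact zero_ne_one hdet
  refine ⟨Units.mk0 (g.1 0 0) h00, Subtype.ext (ext2 _ _ ?_ ?_ ?_ ?_)⟩
  · rfl
  · exact h01
  · exact h10
  · show g.1 1 1 = (((Units.mk0 (g.1 0 0) h00)⁻¹ : Fˣ) : F)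
    rw [Units.val_inv_eq_inv_val, Units.val_mk0]
    exact (inv_eq_of_mul_eq_one_right hdet).symm

theorem anti_form {F : Type*} [Field F] (g : SL2 F) (h00 : g.1 0 0 = 0) (h11 : g.1 1 1 = 0) :
    ∃ t : Fˣ, g = A t := by
  have hdet : g.1 0 1 * g.1 1 0 = -1 := by
    have h := det2 g
    rw [h00] at h
    linear_combination -h
  have h01 : g.1 0 1 ≠ 0 := by
    intro h0
    rw [h0, zero_mul] at hdet
    have h1 : (1 : F) = 0 := by linear_combination hdet
    exact one_ne_zero h1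
  have h3 : g.1 0 1 * (-g.1 1 0) = 1 := by linear_combination -hdet
  refine ⟨Units.mk0 (g.1 0 1) h01, Subtype.ext (ext2 _ _ ?_ ?_ ?_ ?_)⟩
  · exact h00
  · rfl
  · show g.1 1 0 = -(((Units.mk0 (g.1 0 1) h01)⁻¹ : Fˣ) : F)
    rw [Units.val_inv_eq_inv_val, Units.val_mk0, inv_eq_of_mul_eq_one_right h3, neg_neg]
  · exact h11

theorem norm_iff {F : Type*} [Field F] (d : SL2 F) (hd01 : d.1 0 1 = 0) (hd10 : d.1 1 0 = 0)
    (hsub : d.1 0 0 - d.1 1 1 ≠ 0) (g : SL2 F) :
    g ∈ Subgroup.normalizer ((Subgroup.centralizer ({d} : Set (SL2 F))) : Set (SL2 F)) ↔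
      ((g.1 0 1 = 0 ∧ g.1 1 0 = 0) ∨ (g.1 0 0 = 0 ∧ g.1 1 1 = 0)) := by
  rw [Subgroup.mem_normalizer_iff]
  have hdet := det2 g
  constructor
  · intro h
    have hy : g * d * g⁻¹ ∈ Subgroup.centralizer ({d} : Set (SL2 F)) :=
      (h d).mp ((cent_iff d hd01 hd10 hsub d).mpr ⟨hd01, hd10⟩)
    obtain ⟨y01, y10⟩ := (cent_iff d hd01 hd10 hsub _).mp hy
    have hyg : g * d * g⁻¹ * g = g * d := by group
    have hm : (g * d * g⁻¹).1 * g.1 = g.1 * d.1 := congrArg Subtype.val hyg
    have e00 := congrFun (congrFun hm 0) 0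
    have e01 := congrFun (congrFun hm 0) 1
    have e10 := congrFun (congrFun hm 1) 0
    have e11 := congrFun (congrFun hm 1) 1
    rw [mul2, mul2, y01, hd10] at e00
    rw [mul2, mul2, y01, hd01] at e01
    rw [mul2, mul2, y10, hd10] at e10
    rw [mul2, mul2, y10, hd01] at e11
    by_cases h00 : g.1 0 0 = 0
    · right
      refine ⟨h00, ?_⟩
      have hd2 : g.1 0 1 * g.1 1 0 = -1 := by rw [h00] at hdet; linear_combination -hdet
      have h10 : g.1 1 0 ≠ 0 := by
        intro h0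
        rw [h0, mul_zero] at hd2
        exact one_ne_zero (by linear_combination hd2 : (1 : F) = 0)
      have hy11 : (g * d * g⁻¹).1 1 1 = d.1 0 0 := by
        have h3 : ((g * d * g⁻¹).1 1 1 - d.1 0 0) * g.1 1 0 = 0 := by linear_combination e10
        exact sub_eq_zero.mp ((mul_eq_zero.mp h3).resolve_right h10)
      rw [hy11] at e11
      have h4 : (d.1 0 0 - d.1 1 1) * g.1 1 1 = 0 := by linear_combination e11
      exact (mul_eq_zero.mp h4).resolve_left hsub
    · left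
      have hy00 : (g * d * g⁻¹).1 0 0 = d.1 0 0 := by
        have h3 : ((g * d * g⁻¹).1 0 0 - d.1 0 0) * g.1 0 0 = 0 := by linear_combination e00
        exact sub_eq_zero.mp ((mul_eq_zero.mp h3).resolve_right h00)
      rw [hy00] at e01
      have h4 : (d.1 0 0 - d.1 1 1) * g.1 0 1 = 0 := by linear_combination e01
      have h01 : g.1 0 1 = 0 := (mul_eq_zero.mp h4).resolve_left hsub
      refine ⟨h01, ?_⟩
      have hd2 : g.1 0 0 * g.1 1 1 = 1 := by rw [h01] at hdet; linear_combination hdet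
      have h11 : g.1 1 1 ≠ 0 := by
        intro h0
        rw [h0, mul_zero] at hd2
        exact zero_ne_one hd2
      have hy11 : (g * d * g⁻¹).1 1 1 = d.1 1 1 := by
        have h3 : ((g * d * g⁻¹).1 1 1 - d.1 1 1) * g.1 1 1 = 0 := by linear_combination e11
        exact sub_eq_zero.mp ((mul_eq_zero.mp h3).resolve_right h11)
      rw [hy11] at e10
      have h5 : (d.1 0 0 - d.1 1 1) * g.1 1 0 = 0 := by linear_combination -e10
      exact (mul_eq_zero.mp h5).resolve_left hsub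
  · intro h x
    show x ∈ Subgroup.centralizer ({d} : Set (SL2 F)) ↔
      g * x * g⁻¹ ∈ Subgroup.centralizer ({d} : Set (SL2 F))
    rw [cent_iff d hd01 hd10 hsub, cent_iff d hd01 hd10 hsub]
    have hyg : g * x * g⁻¹ * g = g * x := by group
    have hm : (g * x * g⁻¹).1 * g.1 = g.1 * x.1 := congrArg Subtype.val hyg
    have e00 := congrFun (congrFun hm 0) 0
    have e01 := congrFun (congrFun hm 0) 1
    have e10 := congrFun (congrFun hm 1) 0
    have e11 := congrFun (congrFun hm 1) 1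
    rw [mul2, mul2] at e00 e01 e10 e11
    rcases h with ⟨h01, h10⟩ | ⟨h00, h11⟩
    · have hd2 : g.1 0 0 * g.1 1 1 = 1 := by rw [h01] at hdet; linear_combination hdet
      have n00 : g.1 0 0 ≠ 0 := by
        intro h0
        rw [h0, zero_mul] at hd2
        exact zero_ne_one hd2
      have n11 : g.1 1 1 ≠ 0 := by
        intro h0
        rw [h0, mul_zero] at hd2
        exact zero_ne_one hd2
      rw [h01] at e01
      rw [h10] at e10
      constructor
      · rintro ⟨x01, x10⟩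
        rw [x01] at e01
        rw [x10] at e10
        constructor
        · have h3 : (g * x * g⁻¹).1 0 1 * g.1 1 1 = 0 := by linear_combination e01
          exact (mul_eq_zero.mp h3).resolve_right n11
        · have h3 : (g * x * g⁻¹).1 1 0 * g.1 0 0 = 0 := by linear_combination e10
          exact (mul_eq_zero.mp h3).resolve_right n00
      · rintro ⟨y01, y10⟩
        rw [y01] at e01
        rw [y10] at e10
        constructor
        · have h3 : g.1 0 0 * x.1 0 1 = 0 := by linear_combination -e01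
          exact (mul_eq_zero.mp h3).resolve_left n00
        · have h3 : g.1 1 1 * x.1 1 0 = 0 := by linear_combination -e10
          exact (mul_eq_zero.mp h3).resolve_left n11
    · have hd2 : g.1 0 1 * g.1 1 0 = -1 := by rw [h00] at hdet; linear_combination -hdet
      have n01 : g.1 0 1 ≠ 0 := by
        intro h0
        rw [h0, zero_mul] at hd2
        exact one_ne_zero (by linear_combination hd2 : (1 : F) = 0)
      have n10 : g.1 1 0 ≠ 0 := by
        intro h0
        rw [h0, mul_zero] at hd2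
        exact one_ne_zero (by linear_combination hd2 : (1 : F) = 0)
      rw [h00] at e00
      rw [h11] at e11
      constructor
      · rintro ⟨x01, x10⟩
        rw [x10] at e00
        rw [x01] at e11
        constructor
        · have h3 : (g * x * g⁻¹).1 0 1 * g.1 1 0 = 0 := by linear_combination e00
          exact (mul_eq_zero.mp h3).resolve_right n10
        · have h3 : (g * x * g⁻¹).1 1 0 * g.1 0 1 = 0 := by linear_combination e11
          exact (mul_eq_zero.mp h3).resolve_right n01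
      · rintro ⟨y01, y10⟩
        rw [y01] at e00
        rw [y10] at e11
        constructor
        · have h3 : g.1 1 0 * x.1 0 1 = 0 := by linear_combination -e11
          exact (mul_eq_zero.mp h3).resolve_left n10
        · have h3 : g.1 0 1 * x.1 1 0 = 0 := by linear_combination -e00
          exact (mul_eq_zero.mp h3).resolve_left n01

noncomputable def par {F : Type*} [Field F] (d : SL2 F) (hd01 : d.1 0 1 = 0)
    (hd10 : d.1 1 0 = 0) (hsub : d.1 0 0 - d.1 1 1 ≠ 0) :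
    Fˣ ⊕ Fˣ ≃ ↥(Subgroup.normalizer ((Subgroup.centralizer ({d} : Set (SL2 F))) : Set (SL2 F))) :=
  Equiv.ofBijective
    (Sum.elim (fun t => ⟨D t, (norm_iff d hd01 hd10 hsub _).mpr (Or.inl ⟨rfl, rfl⟩)⟩)
      (fun t => ⟨A t, (norm_iff d hd01 hd10 hsub _).mpr (Or.inr ⟨rfl, rfl⟩)⟩))
    (by
      constructor
      · rintro (s | s) (t | t) h
        · have h' : D s = D t := congrArg Subtype.val h
          have h00 : (D s).1 0 0 = (D t).1 0 0 := by rw [h']
          exact congrArg Sum.inl (Units.ext h00)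
        · exfalso
          have h' : D s = A t := congrArg Subtype.val h
          have h00 : (D s).1 0 0 = (A t).1 0 0 := by rw [h']
          exact s.ne_zero h00
        · exfalso
          have h' : A s = D t := congrArg Subtype.val h
          have h00 : (A s).1 0 0 = (D t).1 0 0 := by rw [h']
          exact t.ne_zero h00.symm
        · have h' : A s = A t := congrArg Subtype.val h
          have h01 : (A s).1 0 1 = (A t).1 0 1 := by rw [h']
          exact congrArg Sum.inr (Units.ext h01)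
      · rintro ⟨g, hg⟩
        rcases (norm_iff d hd01 hd10 hsub g).mp hg with ⟨h01, h10⟩ | ⟨h00, h11⟩
        · obtain ⟨t, rfl⟩ := diag_form g h01 h10
          exact ⟨Sum.inl t, rfl⟩
        · obtain ⟨t, rfl⟩ := anti_form g h00 h11
          exact ⟨Sum.inr t, rfl⟩)

theorem comm_DD {F : Type*} [Field F] (s t : Fˣ) : (D s : SL2 F) * D t = D t * D s := by
  apply Subtype.ext
  show (D s).1 * (D t).1 = (D t).1 * (D s).1
  apply ext2 <;> rw [mul2, mul2]
  · show (s : F) * (t : F) + 0 * 0 = (t : F) * (s : F) + 0 * 0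
    ring
  · show (s : F) * 0 + 0 * ((t⁻¹ : Fˣ) : F) = (t : F) * 0 + 0 * ((s⁻¹ : Fˣ) : F)
    ring
  · show 0 * (t : F) + ((s⁻¹ : Fˣ) : F) * 0 = 0 * (s : F) + ((t⁻¹ : Fˣ) : F) * 0
    ring
  · show 0 * 0 + ((s⁻¹ : Fˣ) : F) * ((t⁻¹ : Fˣ) : F) = 0 * 0 + ((t⁻¹ : Fˣ) : F) * ((s⁻¹ : Fˣ) : F)
    ring

theorem comm_DA {F : Type*} [Field F] (s t : Fˣ) :
    (D s : SL2 F) * A t = A t * D s ↔ (s : F) - ((s⁻¹ : Fˣ) : F) = 0 := by
  constructor
  · intro h
    have hm : (D s).1 * (A t).1 = (A t).1 * (D s).1 := congrArg Subtype.val h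
    have e := congrFun (congrFun hm 0) 1
    rw [mul2, mul2] at e
    have e' : (s : F) * (t : F) + 0 * 0 = 0 * 0 + (t : F) * ((s⁻¹ : Fˣ) : F) := e
    have h3 : ((s : F) - ((s⁻¹ : Fˣ) : F)) * (t : F) = 0 := by linear_combination e'
    exact (mul_eq_zero.mp h3).resolve_right t.ne_zero
  · intro h
    have hs : ((s⁻¹ : Fˣ) : F) = (s : F) := by linear_combination -h
    apply Subtype.ext
    show (D s).1 * (A t).1 = (A t).1 * (D s).1
    apply ext2 <;> rw [mul2, mul2]
    · show (s : F) * 0 + 0 * (-((t⁻¹ : Fˣ) : F)) = 0 * (s : F) + (t : F) * 0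
      ring
    · show (s : F) * (t : F) + 0 * 0 = 0 * 0 + (t : F) * ((s⁻¹ : Fˣ) : F)
      rw [hs]; ring
    · show 0 * 0 + ((s⁻¹ : Fˣ) : F) * (-((t⁻¹ : Fˣ) : F)) = -((t⁻¹ : Fˣ) : F) * (s : F) + 0 * 0
      rw [hs]; ring
    · show 0 * (t : F) + ((s⁻¹ : Fˣ) : F) * 0 = -((t⁻¹ : Fˣ) : F) * 0 + 0 * ((s⁻¹ : Fˣ) : F)
      ring

theorem comm_AA {F : Type*} [Field F] (s t : Fˣ) :
    (A s : SL2 F) * A t = A t * A s ↔
      ((s * t⁻¹ : Fˣ) : F) - (((s * t⁻¹)⁻¹ : Fˣ) : F) = 0 := by
  have hu : (((s * t⁻¹)⁻¹ : Fˣ) : F) = (t : F) * ((s⁻¹ : Fˣ) : F) := by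
    rw [_root_.mul_inv_rev, inv_inv, Units.val_mul]
  have hu0 : ((s * t⁻¹ : Fˣ) : F) = (s : F) * ((t⁻¹ : Fˣ) : F) := Units.val_mul _ _
  rw [hu, hu0]
  constructor
  · intro h
    have hm : (A s).1 * (A t).1 = (A t).1 * (A s).1 := congrArg Subtype.val h
    have e := congrFun (congrFun hm 0) 0
    rw [mul2, mul2] at e
    have e' : (0 : F) * 0 + (s : F) * (-((t⁻¹ : Fˣ) : F)) = 0 * 0 + (t : F) * (-((s⁻¹ : Fˣ) : F)) := e
    linear_combination -e'
  · intro h
    apply Subtype.ext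
    show (A s).1 * (A t).1 = (A t).1 * (A s).1
    apply ext2 <;> rw [mul2, mul2]
    · show (0 : F) * 0 + (s : F) * (-((t⁻¹ : Fˣ) : F)) = 0 * 0 + (t : F) * (-((s⁻¹ : Fˣ) : F))
      linear_combination -h
    · show (0 : F) * (t : F) + (s : F) * 0 = 0 * (s : F) + (t : F) * 0
      ring
    · show -((s⁻¹ : Fˣ) : F) * 0 + 0 * (-((t⁻¹ : Fˣ) : F)) = -((t⁻¹ : Fˣ) : F) * 0 + 0 * (-((s⁻¹ : Fˣ) : F))
      ring
    · show -((s⁻¹ : Fˣ) : F) * (t : F) + 0 * 0 = -((t⁻¹ : Fˣ) : F) * (s : F) + 0 * 0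
      linear_combination h

def Q {F : Type*} [Field F] (x y : Fˣ ⊕ Fˣ) : Prop :=
  Sum.elim
    (fun (s : Fˣ) => Sum.elim (fun (_ : Fˣ) => True)
      (fun (_ : Fˣ) => (s : F) - ((s⁻¹ : Fˣ) : F) = 0) y)
    (fun (s : Fˣ) => Sum.elim (fun (t : Fˣ) => (t : F) - ((t⁻¹ : Fˣ) : F) = 0)
      (fun (t : Fˣ) => ((s * t⁻¹ : Fˣ) : F) - (((s * t⁻¹)⁻¹ : Fˣ) : F) = 0) y) x

theorem Q_iff {F : Type*} [Field F] (d : SL2 F) (hd01 : d.1 0 1 = 0)
    (hd10 : d.1 1 0 = 0) (hsub : d.1 0 0 - d.1 1 1 ≠ 0) (x y : Fˣ ⊕ Fˣ) :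
    Commute (par d hd01 hd10 hsub x) (par d hd01 hd10 hsub y) ↔ Q x y := by
  rw [commute_iff_eq, Subtype.ext_iff]
  rcases x with s | s <;> rcases y with t | t
  · exact ⟨fun _ => trivial, fun _ => comm_DD s t⟩
  · exact comm_DA s t
  · exact eq_comm.trans (comm_DA t s)
  · exact comm_AA s t

open Classical in
theorem count2 {F : Type*} [Field F] [Fintype F] (h2 : (2 : F) ≠ 0) :
    Nat.card {p : (Fˣ ⊕ Fˣ) × (Fˣ ⊕ Fˣ) // Q p.1 p.2} = Nat.card Fˣ * (Nat.card Fˣ + 6) := by
  rw [Nat.card_eq_fintype_card, Nat.card_eq_fintype_card, Fintype.card_subtype,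
    Finset.card_filter]
  simp only [Fintype.sum_prod_type, Fintype.sum_sum_type]
  have h1 : ∀ s t : Fˣ, (if Q (Sum.inl s : Fˣ ⊕ Fˣ) (Sum.inl t) then 1 else 0) = 1 :=
    fun s t => if_pos trivial
  have hAA : (∑ s : Fˣ, ∑ t : Fˣ,
      if ((s * t⁻¹ : Fˣ) : F) - (((s * t⁻¹)⁻¹ : Fˣ) : F) = 0 then 1 else 0)
        = Fintype.card Fˣ * 2 := by
    rw [Finset.sum_comm]
    have h3 : ∀ t : Fˣ, (∑ s : Fˣ,
        if ((s * t⁻¹ : Fˣ) : F) - (((s * t⁻¹)⁻¹ : Fˣ) : F) = 0 then 1 else 0) = 2 := by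
      intro t
      exact (Fintype.sum_equiv (Equiv.mulRight t⁻¹) _ _ (fun s => rfl)).trans
        (Cfsg.Agent.S2437.unit_count h2)
    simp only [h3, Finset.sum_const, Finset.card_univ, smul_eq_mul]
  show (∑ s : Fˣ, ((∑ t : Fˣ, if Q (Sum.inl s : Fˣ ⊕ Fˣ) (Sum.inl t) then 1 else 0)
        + ∑ t : Fˣ, if (s : F) - ((s⁻¹ : Fˣ) : F) = 0 then 1 else 0))
      + ∑ s : Fˣ, ((∑ t : Fˣ, if (t : F) - ((t⁻¹ : Fˣ) : F) = 0 then 1 else 0)
        + ∑ t : Fˣ, if ((s * t⁻¹ : Fˣ) : F) - (((s * t⁻¹)⁻¹ : Fˣ) : F) = 0 then 1 else 0)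
      = Fintype.card Fˣ * (Fintype.card Fˣ + 6)
  simp only [h1, Finset.sum_add_distrib, Finset.sum_const, Finset.card_univ, smul_eq_mul, hAA,
    ← Finset.mul_sum, Cfsg.Agent.S2437.unit_count h2, mul_one]
  ring

/-- Let F be a finite field with q elements, q odd, and let d be a diagonal element of SL₂ over F whose diagonal entry a has a² ≠ 1 (such d exist exactly when q > 3). Then the centraliser of d is precisely the diagonal subgroup T; the normaliser of T has order 2(q − 1) and exactly (q + 5)/2 conjugacy classes; and every element of that normaliser outside T has square equal to −1. -/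
theorem result {F : Type*} [Field F] [Fintype F] (hodd : Odd (Fintype.card F))
    (d : Matrix.SpecialLinearGroup (Fin 2) F) (hd01 : (d : Matrix (Fin 2) (Fin 2) F) 0 1 = 0) (hd10 : (d : Matrix (Fin 2) (Fin 2) F) 1 0 = 0) (hda : (d : Matrix (Fin 2) (Fin 2) F) 0 0 ^ 2 ≠ 1) :
    (∀ g : Matrix.SpecialLinearGroup (Fin 2) F, g ∈ Subgroup.centralizer ({d} : Set (Matrix.SpecialLinearGroup (Fin 2) F)) ↔ ((g : Matrix (Fin 2) (Fin 2) F) 0 1 = 0 ∧ (g : Matrix (Fin 2) (Fin 2) F) 1 0 = 0)) ∧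
    Nat.card (Subgroup.normalizer ((Subgroup.centralizer ({d} : Set (Matrix.SpecialLinearGroup (Fin 2) F))) : Set (Matrix.SpecialLinearGroup (Fin 2) F))) = 2 * (Fintype.card F - 1) ∧
    Nat.card (ConjClasses (Subgroup.normalizer ((Subgroup.centralizer ({d} : Set (Matrix.SpecialLinearGroup (Fin 2) F))) : Set (Matrix.SpecialLinearGroup (Fin 2) F)))) = (Fintype.card F + 5) / 2 ∧
    ∀ g : Matrix.SpecialLinearGroup (Fin 2) F, g ∈ Subgroup.normalizer ((Subgroup.centralizer ({d} : Set (Matrix.SpecialLinearGroup (Fin 2) F))) : Set (Matrix.SpecialLinearGroup (Fin 2) F)) →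
      g ∉ Subgroup.centralizer ({d} : Set (Matrix.SpecialLinearGroup (Fin 2) F)) → ((g * g) : Matrix (Fin 2) (Fin 2) F) = -1 := by
  have h2 : (2 : F) ≠ 0 := Ring.two_ne_zero (fun h => by
    have h1 := FiniteField.even_card_of_char_two h
    have h3 := Nat.odd_iff.mp hodd
    omega)
  have haa : d.1 0 0 * d.1 1 1 = 1 := by
    have hdet := det2 d
    rw [hd01] at hdet
    linear_combination hdet
  have hsub : d.1 0 0 - d.1 1 1 ≠ 0 := by
    intro h
    apply hda
    have h3 : d.1 1 1 = d.1 0 0 := by linear_combination -h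
    rw [h3] at haa
    rw [sq]
    exact haa
  have hN := fun g => norm_iff d hd01 hd10 hsub g
  have hC := fun g => cent_iff d hd01 hd10 hsub g
  have hm : 0 < Nat.card Fˣ := Nat.card_pos
  have hu : Nat.card Fˣ = Nat.card F - 1 := by rw [Nat.card_units]
  have hqpos : 0 < Nat.card F := Nat.card_pos
  have hNcard : Nat.card ↥(Subgroup.normalizer ((Subgroup.centralizer
      ({d} : Set (Matrix.SpecialLinearGroup (Fin 2) F))) : Set (Matrix.SpecialLinearGroup (Fin 2) F)))
        = Nat.card Fˣ + Nat.card Fˣ := by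
    rw [← Nat.card_congr (par d hd01 hd10 hsub), Nat.card_sum]
  refine ⟨hC, ?_, ?_, ?_⟩
  · rw [hNcard, ← Nat.card_eq_fintype_card]
    omega
  · have hcomm := card_comm_eq_card_conjClasses_mul_card ↥(Subgroup.normalizer ((Subgroup.centralizer
      ({d} : Set (Matrix.SpecialLinearGroup (Fin 2) F))) : Set (Matrix.SpecialLinearGroup (Fin 2) F)))
    have hE : Nat.card {p : (Fˣ ⊕ Fˣ) × (Fˣ ⊕ Fˣ) // Q p.1 p.2}
        = Nat.card {p : ↥(Subgroup.normalizer ((Subgroup.centralizer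
            ({d} : Set (Matrix.SpecialLinearGroup (Fin 2) F))) : Set (Matrix.SpecialLinearGroup (Fin 2) F)))
          × ↥(Subgroup.normalizer ((Subgroup.centralizer
            ({d} : Set (Matrix.SpecialLinearGroup (Fin 2) F))) : Set (Matrix.SpecialLinearGroup (Fin 2) F)))
          // Commute p.1 p.2} := by
      refine Nat.card_congr (Equiv.subtypeEquiv (Equiv.prodCongr (par d hd01 hd10 hsub)
        (par d hd01 hd10 hsub)) (fun p => ?_))
      exact (Q_iff d hd01 hd10 hsub p.1 p.2).symm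
    rw [count2 h2, hcomm, hNcard] at hE
    have h5 : (Nat.card Fˣ + 6) * Nat.card Fˣ = 2 * Nat.card (ConjClasses ↥(Subgroup.normalizer ((Subgroup.centralizer
      ({d} : Set (Matrix.SpecialLinearGroup (Fin 2) F))) : Set (Matrix.SpecialLinearGroup (Fin 2) F)))) * Nat.card Fˣ := by
      rw [mul_comm (Nat.card Fˣ + 6), hE]
      ring
    have hk := Nat.eq_of_mul_eq_mul_right hm h5
    rw [← Nat.card_eq_fintype_card]
    omega
  · intro g hg hgC
    rcases (hN g).mp hg with h | ⟨h00, h11⟩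
    · exact absurd ((hC g).mpr h) hgC
    · have hdg := det2 g
      rw [h00] at hdg
      have r00 : (-1 : Matrix (Fin 2) (Fin 2) F) 0 0 = -1 := by simp
      have r01 : (-1 : Matrix (Fin 2) (Fin 2) F) 0 1 = 0 := by simp
      have r10 : (-1 : Matrix (Fin 2) (Fin 2) F) 1 0 = 0 := by simp
      have r11 : (-1 : Matrix (Fin 2) (Fin 2) F) 1 1 = -1 := by simp
      show g.1 * g.1 = -1
      apply ext2
      · rw [mul2, r00, h00]
        linear_combination -hdg
      · rw [mul2, r01, h00, h11]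
        ring
      · rw [mul2, r10, h00, h11]
        ring
      · rw [mul2, r11, h11]
        linear_combination -hdg


end Cfsg.Agent.S2428
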