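import Cfsg.Statements.S2433
import Mathlib
import Cfsg.Agent.S2428

set_option autoImplicit false
open Cfsg

namespace Cfsg.Agent.S2433

open Matrix

local notation "SL2" => Matrix.SpecialLinearGroup (Fin 2)
local notation "BS" => Cfsg.Agent.S2437.BS

def nS {F : Type*} [Field F] (t : F) : SL2 F :=
  ⟨!![t, -1; 1, 0], by simp [Matrix.det_fin_two_of]⟩

def rep {F : Type*} [Field F] (o : Option F) : SL2 F := o.elim 1 nS

theorem conj_B {F : Type*} [Field F] (b c : SL2 F) (hb : b.1 1 0 = 0) :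
    ((b⁻¹ * c * b).1 1 0 = 0 ↔ c.1 1 0 = 0) ∧
      (c.1 1 0 = 0 → (b⁻¹ * c * b).1 0 0 = c.1 0 0) := by
  have hz : b * (b⁻¹ * c * b) = c * b := by group
  have hm : b.1 * (b⁻¹ * c * b).1 = c.1 * b.1 := congrArg Subtype.val hz
  have e10 := congrFun (congrFun hm 1) 0
  have e00 := congrFun (congrFun hm 0) 0
  rw [Cfsg.Agent.S2428.mul2, Cfsg.Agent.S2428.mul2, hb] at e10 e00
  have hdet := Cfsg.Agent.S2428.det2 b
  rw [hb] at hdet
  have n00 : b.1 0 0 ≠ 0 := by
    intro h0
    rw [h0] at hdet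
    exact zero_ne_one (by linear_combination hdet : (0 : F) = 1)
  have n11 : b.1 1 1 ≠ 0 := by
    intro h0
    rw [h0] at hdet
    exact zero_ne_one (by linear_combination hdet : (0 : F) = 1)
  have key : (b⁻¹ * c * b).1 1 0 = 0 ↔ c.1 1 0 = 0 := by
    constructor
    · intro h
      rw [h] at e10
      have h3 : c.1 1 0 * b.1 0 0 = 0 := by linear_combination -e10
      exact (mul_eq_zero.mp h3).resolve_right n00
    · intro h
      rw [h] at e10
      have h3 : b.1 1 1 * (b⁻¹ * c * b).1 1 0 = 0 := by linear_combination e10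
      exact (mul_eq_zero.mp h3).resolve_left n11
  refine ⟨key, fun h => ?_⟩
  rw [key.mpr h] at e00
  have h3 : b.1 0 0 * ((b⁻¹ * c * b).1 0 0 - c.1 0 0) = 0 := by linear_combination e00
  exact sub_eq_zero.mp ((mul_eq_zero.mp h3).resolve_left n00)

theorem rep_conj {F : Type*} [Field F] (g : SL2 F) (t : F) :
    ((nS t)⁻¹ * g * nS t).1 0 0 = g.1 1 0 * t + g.1 1 1 ∧
      ((nS t)⁻¹ * g * nS t).1 1 0 = t * (g.1 1 0 * t + g.1 1 1) - (g.1 0 0 * t + g.1 0 1) := by
  have hz : nS t * ((nS t)⁻¹ * g * nS t) = g * nS t := by group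
  have hm : (nS t).1 * ((nS t)⁻¹ * g * nS t).1 = g.1 * (nS t).1 := congrArg Subtype.val hz
  have e10 := congrFun (congrFun hm 1) 0
  have e00 := congrFun (congrFun hm 0) 0
  rw [Cfsg.Agent.S2428.mul2, Cfsg.Agent.S2428.mul2] at e10 e00
  have e10' : 1 * ((nS t)⁻¹ * g * nS t).1 0 0 + 0 * ((nS t)⁻¹ * g * nS t).1 1 0
      = g.1 1 0 * t + g.1 1 1 * 1 := e10
  have e00' : t * ((nS t)⁻¹ * g * nS t).1 0 0 + (-1) * ((nS t)⁻¹ * g * nS t).1 1 0
      = g.1 0 0 * t + g.1 0 1 * 1 := e00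
  constructor
  · linear_combination e10'
  · linear_combination t * e10' - e00'

theorem Phi_bij {F : Type*} [Field F] :
    Function.Bijective (fun p : Option F × ↥(BS F) => rep p.1 * (p.2 : SL2 F)) := by
  have n00 : ∀ b : ↥(BS F), (b : SL2 F).1 0 0 ≠ 0 := by
    intro b h0
    have hdet := Cfsg.Agent.S2428.det2 (b : SL2 F)
    rw [(Cfsg.Agent.S2437.mem_BS _).mp b.2, h0] at hdet
    exact zero_ne_one (by linear_combination hdet : (0 : F) = 1)
  have hB : ∀ b : ↥(BS F), (b : SL2 F).1 1 0 = 0 := fun b => (Cfsg.Agent.S2437.mem_BS _).mp b.2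
  constructor
  · rintro ⟨o, b⟩ ⟨o', b'⟩ h
    have h0 : rep o * (b : SL2 F) = rep o' * (b' : SL2 F) := h
    cases o with
    | none =>
      cases o' with
      | none =>
        have h' : (1 : SL2 F) * (b : SL2 F) = 1 * (b' : SL2 F) := h0
        rw [one_mul, one_mul] at h'
        exact Prod.ext rfl (Subtype.ext h')
      | some t =>
        exfalso
        have h' : (1 : SL2 F) * (b : SL2 F) = nS t * (b' : SL2 F) := h0
        rw [one_mul] at h'
        have hm : (b : SL2 F).1 = (nS t).1 * (b' : SL2 F).1 := congrArg Subtype.val h'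
        have e := congrFun (congrFun hm 1) 0
        rw [Cfsg.Agent.S2428.mul2, hB b] at e
        have e' : (0 : F) = 1 * (b' : SL2 F).1 0 0 + 0 * (b' : SL2 F).1 1 0 := e
        exact n00 b' (by linear_combination -e')
    | some t =>
      cases o' with
      | none =>
        exfalso
        have h' : nS t * (b : SL2 F) = 1 * (b' : SL2 F) := h0
        rw [one_mul] at h'
        have hm : (nS t).1 * (b : SL2 F).1 = (b' : SL2 F).1 := congrArg Subtype.val h'
        have e := congrFun (congrFun hm 1) 0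
        rw [Cfsg.Agent.S2428.mul2, hB b'] at e
        have e' : 1 * (b : SL2 F).1 0 0 + 0 * (b : SL2 F).1 1 0 = (0 : F) := e
        exact n00 b (by linear_combination e')
      | some t' =>
        have h' : nS t * (b : SL2 F) = nS t' * (b' : SL2 F) := h0
        have hm : (nS t).1 * (b : SL2 F).1 = (nS t').1 * (b' : SL2 F).1 := congrArg Subtype.val h'
        have e10 := congrFun (congrFun hm 1) 0
        have e00 := congrFun (congrFun hm 0) 0
        rw [Cfsg.Agent.S2428.mul2, Cfsg.Agent.S2428.mul2, hB b, hB b'] at e10 e00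
        have e10' : 1 * (b : SL2 F).1 0 0 + 0 * 0 = 1 * (b' : SL2 F).1 0 0 + 0 * 0 := e10
        have e00' : t * (b : SL2 F).1 0 0 + (-1) * 0 = t' * (b' : SL2 F).1 0 0 + (-1) * 0 := e00
        have h3 : (t - t') * (b : SL2 F).1 0 0 = 0 := by linear_combination e00' - t' * e10'
        have ht : t = t' := sub_eq_zero.mp ((mul_eq_zero.mp h3).resolve_right (n00 b))
        subst ht
        exact Prod.ext rfl (Subtype.ext (mul_left_cancel h'))
  · intro x
    by_cases hx : x.1 1 0 = 0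
    · exact ⟨(none, ⟨x, (Cfsg.Agent.S2437.mem_BS x).mpr hx⟩), one_mul x⟩
    · have hz : nS (x.1 0 0 / x.1 1 0) * ((nS (x.1 0 0 / x.1 1 0))⁻¹ * x) = x :=
        mul_inv_cancel_left _ _
      have hm : (nS (x.1 0 0 / x.1 1 0)).1 * ((nS (x.1 0 0 / x.1 1 0))⁻¹ * x).1 = x.1 :=
        congrArg Subtype.val hz
      have e10 := congrFun (congrFun hm 1) 0
      have e00 := congrFun (congrFun hm 0) 0
      rw [Cfsg.Agent.S2428.mul2] at e10 e00
      have e10' : 1 * ((nS (x.1 0 0 / x.1 1 0))⁻¹ * x).1 0 0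
          + 0 * ((nS (x.1 0 0 / x.1 1 0))⁻¹ * x).1 1 0 = x.1 1 0 := e10
      have e00' : (x.1 0 0 / x.1 1 0) * ((nS (x.1 0 0 / x.1 1 0))⁻¹ * x).1 0 0
          + (-1) * ((nS (x.1 0 0 / x.1 1 0))⁻¹ * x).1 1 0 = x.1 0 0 := e00
      have ht : (x.1 0 0 / x.1 1 0) * x.1 1 0 = x.1 0 0 := by field_simp
      have hy : ((nS (x.1 0 0 / x.1 1 0))⁻¹ * x).1 1 0 = 0 := by
        linear_combination (x.1 0 0 / x.1 1 0) * e10' - e00' + ht
      exact ⟨(some (x.1 0 0 / x.1 1 0), ⟨_, (Cfsg.Agent.S2437.mem_BS _).mpr hy⟩), hz⟩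

theorem psi_val {F : Type*} [Field F] [DecidableEq F] (α : MulChar F ℂ) (y : SL2 F) :
    Cfsg.extendByZero (BS F) (fun b : ↥(BS F) => α ((b : SL2 F).1 0 0)) y
      = if y.1 1 0 = 0 then α (y.1 0 0) else 0 := by
  by_cases hy : y.1 1 0 = 0
  · rw [if_pos hy]
    exact Subtype.val_injective.extend_apply (fun b : ↥(BS F) => α ((b : SL2 F).1 0 0)) 0
      ⟨y, (Cfsg.Agent.S2437.mem_BS y).mpr hy⟩
  · rw [if_neg hy]
    have h : ¬ ∃ a : ↥(BS F), (a : SL2 F) = y := by
      rintro ⟨a, rfl⟩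
      exact hy ((Cfsg.Agent.S2437.mem_BS _).mp a.2)
    exact Function.extend_apply' _ _ _ h

theorem ind_formula {F : Type*} [Field F] [Fintype F] [DecidableEq F] (α : MulChar F ℂ)
    (g : SL2 F) :
    Cfsg.indFun (BS F) (fun b : ↥(BS F) => α ((b : SL2 F).1 0 0)) g
      = (if g.1 1 0 = 0 then α (g.1 0 0) else 0)
        + ∑ t : F, (if t * (g.1 1 0 * t + g.1 1 1) - (g.1 0 0 * t + g.1 0 1) = 0
            then α (g.1 1 0 * t + g.1 1 1) else 0) := by
  haveI : Fintype ↥(BS F) := Fintype.ofFinite _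
  have hne : (Nat.card ↥(BS F) : ℂ) ≠ 0 := Nat.cast_ne_zero.mpr Nat.card_pos.ne'
  have hW : ∀ (o : Option F) (b : ↥(BS F)),
      Cfsg.extendByZero (BS F) (fun b : ↥(BS F) => α ((b : SL2 F).1 0 0))
        ((rep o * (b : SL2 F))⁻¹ * g * (rep o * (b : SL2 F)))
      = if ((rep o)⁻¹ * g * rep o).1 1 0 = 0 then α (((rep o)⁻¹ * g * rep o).1 0 0) else 0 := by
    intro o b
    have hrw : (rep o * (b : SL2 F))⁻¹ * g * (rep o * (b : SL2 F))
        = (b : SL2 F)⁻¹ * ((rep o)⁻¹ * g * rep o) * (b : SL2 F) := by group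
    rw [hrw, psi_val]
    obtain ⟨k1, k2⟩ := conj_B (b : SL2 F) ((rep o)⁻¹ * g * rep o)
      ((Cfsg.Agent.S2437.mem_BS _).mp b.2)
    by_cases hc : ((rep o)⁻¹ * g * rep o).1 1 0 = 0
    · rw [if_pos (k1.mpr hc), if_pos hc, k2 hc]
    · rw [if_neg (fun h => hc (k1.mp h)), if_neg hc]
  have hsum : ∑ x : SL2 F, Cfsg.extendByZero (BS F) (fun b : ↥(BS F) => α ((b : SL2 F).1 0 0))
        (x⁻¹ * g * x)
      = ∑ p : Option F × ↥(BS F), Cfsg.extendByZero (BS F)
          (fun b : ↥(BS F) => α ((b : SL2 F).1 0 0))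
          ((rep p.1 * (p.2 : SL2 F))⁻¹ * g * (rep p.1 * (p.2 : SL2 F))) :=
    (Phi_bij.sum_comp (fun x : SL2 F => Cfsg.extendByZero (BS F)
      (fun b : ↥(BS F) => α ((b : SL2 F).1 0 0)) (x⁻¹ * g * x))).symm
  show (Nat.card ↥(BS F) : ℂ)⁻¹ * ∑ x : SL2 F, Cfsg.extendByZero (BS F)
      (fun b : ↥(BS F) => α ((b : SL2 F).1 0 0)) (x⁻¹ * g * x) = _
  rw [hsum, Fintype.sum_prod_type]
  simp only [hW, Finset.sum_const, Finset.card_univ, nsmul_eq_mul]
  rw [← Finset.mul_sum, ← Nat.card_eq_fintype_card, ← mul_assoc, inv_mul_cancel₀ hne, one_mul,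
    Fintype.sum_option]
  congr 1
  · show (if ((1 : SL2 F)⁻¹ * g * 1).1 1 0 = 0 then α (((1 : SL2 F)⁻¹ * g * 1).1 0 0) else 0) = _
    rw [show (1 : SL2 F)⁻¹ * g * 1 = g by group]
  · refine Finset.sum_congr rfl (fun t _ => ?_)
    show (if ((nS t)⁻¹ * g * nS t).1 1 0 = 0 then α (((nS t)⁻¹ * g * nS t).1 0 0) else 0) = _
    rw [(rep_conj g t).1, (rep_conj g t).2]

/-- Let F be a finite field with q elements, q odd, α a multiplicative character of F, and R(α) the function on SL₂ induced from the linear character b ↦ α(b₁₁) of the upper triangular subgroup. Then R(α) takes the value α(a) + α(a⁻¹) at a diagonal element with entries a, a⁻¹, a² ≠ 1; the value 0 at every element with no eigenvector in F²; the value α(ε) at an upper triangular element with both diagonal entries ε and non-zero upper right entry; and the value (q + 1)α(ε) at the scalar element ε (ε = ±1). -/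
theorem result {F : Type*} [Field F] [Fintype F] [DecidableEq F] (hodd : Odd (Fintype.card F)) (α : MulChar F ℂ) (g : Matrix.SpecialLinearGroup (Fin 2) F) :
    ((g : Matrix (Fin 2) (Fin 2) F) 0 1 = 0 → (g : Matrix (Fin 2) (Fin 2) F) 1 0 = 0 → (g : Matrix (Fin 2) (Fin 2) F) 0 0 ^ 2 ≠ 1 →
      (Cfsg.indFun ((Cfsg.upperTriangularGL 2 F).comap Matrix.SpecialLinearGroup.toGL) (fun b => α (((b : Matrix.SpecialLinearGroup (Fin 2) F) : Matrix (Fin 2) (Fin 2) F) 0 0))) g = α ((g : Matrix (Fin 2) (Fin 2) F) 0 0) + α ((g : Matrix (Fin 2) (Fin 2) F) 1 1)) ∧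
    ((∀ (c : F) (v : Fin 2 → F), v ≠ 0 → (g : Matrix (Fin 2) (Fin 2) F).mulVec v ≠ c • v) → (Cfsg.indFun ((Cfsg.upperTriangularGL 2 F).comap Matrix.SpecialLinearGroup.toGL) (fun b => α (((b : Matrix.SpecialLinearGroup (Fin 2) F) : Matrix (Fin 2) (Fin 2) F) 0 0))) g = 0) ∧
    ((g : Matrix (Fin 2) (Fin 2) F) 1 0 = 0 → (g : Matrix (Fin 2) (Fin 2) F) 0 0 = (g : Matrix (Fin 2) (Fin 2) F) 1 1 → (g : Matrix (Fin 2) (Fin 2) F) 0 1 ≠ 0 →
      (Cfsg.indFun ((Cfsg.upperTriangularGL 2 F).comap Matrix.SpecialLinearGroup.toGL) (fun b => α (((b : Matrix.SpecialLinearGroup (Fin 2) F) : Matrix (Fin 2) (Fin 2) F) 0 0))) g = α ((g : Matrix (Fin 2) (Fin 2) F) 0 0)) ∧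
    ((g : Matrix (Fin 2) (Fin 2) F) 0 1 = 0 → (g : Matrix (Fin 2) (Fin 2) F) 1 0 = 0 → (g : Matrix (Fin 2) (Fin 2) F) 0 0 = (g : Matrix (Fin 2) (Fin 2) F) 1 1 →
      (Cfsg.indFun ((Cfsg.upperTriangularGL 2 F).comap Matrix.SpecialLinearGroup.toGL) (fun b => α (((b : Matrix.SpecialLinearGroup (Fin 2) F) : Matrix (Fin 2) (Fin 2) F) 0 0))) g = ((Fintype.card F : ℂ) + 1) * α ((g : Matrix (Fin 2) (Fin 2) F) 0 0)) := by
  have key := ind_formula α g
  have hdet := Cfsg.Agent.S2428.det2 g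
  refine ⟨?_, ?_, ?_, ?_⟩
  · intro h01 h10 hsq
    have hd2 : g.1 0 0 * g.1 1 1 = 1 := by rw [h01] at hdet; linear_combination hdet
    have hne : g.1 0 0 ≠ g.1 1 1 := by
      intro h
      apply hsq
      rw [← h] at hd2
      rw [sq]
      exact hd2
    have hcond : ∀ t : F, (t * (g.1 1 0 * t + g.1 1 1) - (g.1 0 0 * t + g.1 0 1) = 0) ↔ t = 0 := by
      intro t
      rw [h10, h01]
      constructor
      · intro h
        have h3 : t * (g.1 1 1 - g.1 0 0) = 0 := by linear_combination h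
        rcases mul_eq_zero.mp h3 with h4 | h4
        · exact h4
        · exact absurd (sub_eq_zero.mp h4).symm hne
      · intro h
        rw [h]; ring
    rw [key, if_pos h10, Finset.sum_eq_single (0 : F)
      (fun t _ ht => if_neg (fun h => ht ((hcond t).mp h)))
      (fun h => absurd (Finset.mem_univ _) h), if_pos ((hcond 0).mpr rfl), mul_zero, zero_add]
  · intro hno
    have h10 : ¬ g.1 1 0 = 0 := by
      intro h10
      refine hno (g.1 0 0) ![1, 0] ?_ ?_
      · intro h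
        have := congrFun h 0
        simp at this
      · funext i
        fin_cases i
        · simp [Matrix.mulVec, dotProduct, Fin.sum_univ_two]
        · simp [Matrix.mulVec, dotProduct, Fin.sum_univ_two, h10]
    have hc : ∀ t : F, ¬ (t * (g.1 1 0 * t + g.1 1 1) - (g.1 0 0 * t + g.1 0 1) = 0) := by
      intro t ho'
      refine hno (g.1 1 0 * t + g.1 1 1) ![t, 1] ?_ ?_
      · intro h
        have := congrFun h 1
        simp at this
      · funext i
        fin_cases i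
        · simp [Matrix.mulVec, dotProduct, Fin.sum_univ_two]
          linear_combination -ho'
        · simp [Matrix.mulVec, dotProduct, Fin.sum_univ_two]
    rw [key, if_neg h10, Finset.sum_eq_zero (fun t _ => if_neg (hc t)), add_zero]
  · intro h10 heq hne01
    have hc : ∀ t : F, ¬ (t * (g.1 1 0 * t + g.1 1 1) - (g.1 0 0 * t + g.1 0 1) = 0) := by
      intro t h
      rw [h10, heq] at h
      apply hne01
      linear_combination -h
    rw [key, if_pos h10, Finset.sum_eq_zero (fun t _ => if_neg (hc t)), add_zero]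
  · intro h01 h10 heq
    have hc : ∀ t : F, (t * (g.1 1 0 * t + g.1 1 1) - (g.1 0 0 * t + g.1 0 1) = 0) := by
      intro t
      rw [h10, h01, heq]; ring
    have hval : ∀ t : F, α (g.1 1 0 * t + g.1 1 1) = α (g.1 0 0) := by
      intro t
      rw [h10, zero_mul, zero_add, heq]
    rw [key, if_pos h10, Finset.sum_congr rfl (fun t _ => (if_pos (hc t)).trans (hval t)),
      Finset.sum_const, Finset.card_univ, nsmul_eq_mul]
    ring


end Cfsg.Agent.S2433
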