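import Cfsg.Statements.S2540
import Mathlib
import Cfsg.Agent.Helper4.SLn

set_option autoImplicit false
open Cfsg

namespace Cfsg.Agent.S2540

open Matrix
open scoped commutatorElement

theorem normal_eq_top_of_not_le_center {G : Type*} [Group G] (hperf : commutator G = ⊤)
    (hsimple : IsSimpleGroup (G ⧸ Subgroup.center G)) (H : Subgroup G) (hH : H.Normal)
    (h : ¬ H ≤ Subgroup.center G) : H = ⊤ := by
  haveI := hsimple
  have hN : (H.map (QuotientGroup.mk' (Subgroup.center G))).Normal :=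
    Subgroup.Normal.map hH _ (QuotientGroup.mk'_surjective _)
  rcases hN.eq_bot_or_eq_top with h1 | h1
  · exfalso
    apply h
    intro x hx
    have h2 : (QuotientGroup.mk' (Subgroup.center G)) x ∈
        H.map (QuotientGroup.mk' (Subgroup.center G)) := Subgroup.mem_map_of_mem _ hx
    rw [h1, Subgroup.mem_bot] at h2
    exact (QuotientGroup.eq_one_iff x).1 h2
  · have hdec : ∀ s : G, ∃ h ∈ H, ∃ z ∈ Subgroup.center G, s = h * z := by
      intro s
      have h2 : (QuotientGroup.mk' (Subgroup.center G)) s ∈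
          H.map (QuotientGroup.mk' (Subgroup.center G)) := by rw [h1]; trivial
      obtain ⟨h, hh, hs⟩ := Subgroup.mem_map.1 h2
      refine ⟨h, hh, h⁻¹ * s, ?_, by group⟩
      exact QuotientGroup.eq.1 hs
    rw [eq_top_iff, ← hperf, commutator_eq_closure, Subgroup.closure_le]
    rintro _ ⟨s1, s2, rfl⟩
    obtain ⟨h1, hh1, z1, hz1, rfl⟩ := hdec s1
    obtain ⟨h2, hh2, z2, hz2, rfl⟩ := hdec s2
    have e1 : ∀ g : G, g * z1 = z1 * g := Subgroup.mem_center_iff.1 hz1
    have e2 : ∀ g : G, g * z2 = z2 * g := Subgroup.mem_center_iff.1 hz2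
    have key : ⁅h1 * z1, h2 * z2⁆ = ⁅h1, h2⁆ := by
      rw [commutatorElement_def, commutatorElement_def]
      have a1 : (h1 * z1)⁻¹ = z1⁻¹ * h1⁻¹ := mul_inv_rev _ _
      have a2 : (h2 * z2)⁻¹ = z2⁻¹ * h2⁻¹ := mul_inv_rev _ _
      rw [a1, a2]
      calc h1 * z1 * (h2 * z2) * (z1⁻¹ * h1⁻¹) * (z2⁻¹ * h2⁻¹)
          = h1 * (z1 * h2) * (z2 * z1⁻¹) * h1⁻¹ * z2⁻¹ * h2⁻¹ := by group
        _ = h1 * (h2 * z1) * (z1⁻¹ * z2) * h1⁻¹ * z2⁻¹ * h2⁻¹ := by rw [← e1 h2, ← e2 z1⁻¹]
        _ = h1 * h2 * (z2 * h1⁻¹) * z2⁻¹ * h2⁻¹ := by group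
        _ = h1 * h2 * (h1⁻¹ * z2) * z2⁻¹ * h2⁻¹ := by rw [← e2 h1⁻¹]
        _ = h1 * h2 * h1⁻¹ * h2⁻¹ := by group
    show ⁅h1 * z1, h2 * z2⁆ ∈ H
    rw [key, commutatorElement_def]
    exact H.mul_mem (H.mul_mem (H.mul_mem hh1 hh2) (H.inv_mem hh1)) (H.inv_mem hh2)

theorem exists_E {F : Type*} [Field F] {n : ℕ} (g : Matrix (Fin n) (Fin n) F)
    (hg : ¬ ∃ c : F, g = c • (1 : Matrix (Fin n) (Fin n) F)) (i₀ : Fin n) :
    ∃ i j : Fin n, i ≠ j ∧ Matrix.single i j (1 : F) * g ≠ g * Matrix.single i j (1 : F) := by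
  by_contra hcon
  push Not at hcon
  apply hg
  refine ⟨g i₀ i₀, ?_⟩
  have hoff : ∀ j l : Fin n, l ≠ j → g j l = 0 := by
    intro j l hlj
    have h1 := congrFun (congrFun (hcon l j hlj) l) l
    rw [Matrix.single_mul_apply_same, Matrix.mul_single_apply_of_ne (hbj := hlj), one_mul] at h1
    exact h1
  have hdiag : ∀ i j : Fin n, i ≠ j → g j j = g i i := by
    intro i j hij
    have h1 := congrFun (congrFun (hcon i j hij) i) j
    rw [Matrix.single_mul_apply_same, Matrix.mul_single_apply_same, one_mul, mul_one] at h1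
    exact h1
  ext a b
  rw [Matrix.smul_apply, Matrix.one_apply, smul_eq_mul]
  by_cases hab : a = b
  · subst hab
    rw [if_pos rfl, mul_one]
    by_cases ha : i₀ = a
    · rw [ha]
    · exact hdiag i₀ a ha
  · rw [if_neg hab, mul_zero]
    exact hoff a b (Ne.symm hab)

/-- Let F be a finite field and n ≥ 1, excluding the case n = 2 with #F ≤ 3. A subgroup of GL_n(F) that is normalized by every element of SL_n(F) either consists of scalar matrices or contains SL_n(F). -/
theorem result {F : Type*} [Field F] [Fintype F] (n : ℕ) (hn : 1 ≤ n) (hex : ¬ (n = 2 ∧ Fintype.card F ≤ 3)) (G : Subgroup (Matrix.GeneralLinearGroup (Fin n) F)) (hG : ∀ s : Matrix.SpecialLinearGroup (Fin n) F, ∀ g ∈ G, (Matrix.SpecialLinearGroup.toGL s) * g * (Matrix.SpecialLinearGroup.toGL s)⁻¹ ∈ G) : (∀ g ∈ G, ∃ c : F, (g : Matrix (Fin n) (Fin n) F) = c • (1 : Matrix (Fin n) (Fin n) F)) ∨ (Matrix.SpecialLinearGroup.toGL : Matrix.SpecialLinearGroup (Fin n) F →* _).range ≤ G := by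
  classical
  by_cases hsc : ∀ g ∈ G, ∃ c : F, (g : Matrix (Fin n) (Fin n) F) = c • (1 : Matrix (Fin n) (Fin n) F)
  · exact Or.inl hsc
  right
  push Not at hsc
  obtain ⟨g, hgG, hgns⟩ := hsc
  have hn2 : 2 ≤ n := by
    by_contra h1
    obtain rfl : n = 1 := by omega
    apply hgns (g.1 0 0)
    ext a b
    fin_cases a; fin_cases b
    simp
  have i₀ : Fin n := ⟨0, by omega⟩
  obtain ⟨i, j, hij, hE⟩ := exists_E g.1 (fun ⟨c, hc⟩ => hgns c hc) i₀
  have hPS : commutator (Matrix.SpecialLinearGroup (Fin n) F) = ⊤ ∧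
      IsSimpleGroup (Matrix.SpecialLinearGroup (Fin n) F ⧸
        Subgroup.center (Matrix.SpecialLinearGroup (Fin n) F)) := by
    rcases Nat.lt_or_ge 2 n with h3 | h2
    · haveI : Nontrivial (Fin n) := Fin.nontrivial_iff_two_le.2 hn2
      have h3' : ∀ i j : Fin n, i ≠ j → ∃ k, i ≠ k ∧ k ≠ j :=
        fun i j _ => Cfsg.Agent.Helper4.exists_third h3 i j
      exact ⟨Cfsg.Agent.Helper4.commutator_SL_eq_top h3',
        Cfsg.Agent.Helper4.psl_isSimpleGroup h3'⟩
    · obtain rfl : n = 2 := by omega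
      have hcard : 4 ≤ Fintype.card F := by
        by_contra hc
        exact hex ⟨rfl, by omega⟩
      have hcard' : 4 ≤ Nat.card F := by rw [Nat.card_eq_fintype_card]; exact hcard
      obtain ⟨a, ha0, ha2⟩ : ∃ a : F, a ≠ 0 ∧ a ^ 2 ≠ 1 := by
        by_contra hcon
        push Not at hcon
        have hsub : (Finset.univ : Finset F) ⊆ {0, 1, -1} := by
          intro a _
          by_cases ha : a = 0
          · simp [ha]
          · have h2 := hcon a ha
            have h3 : (a - 1) * (a + 1) = 0 := by linear_combination h2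
            rcases mul_eq_zero.1 h3 with h4 | h4
            · have h5 : a = 1 := sub_eq_zero.1 h4
              simp [h5]
            · have h5 : a = -1 := eq_neg_of_add_eq_zero_left h4
              simp [h5]
        have h1 := Finset.card_le_card hsub
        have h2 : ({0, 1, -1} : Finset F).card ≤ 3 := Finset.card_le_three
        rw [Finset.card_univ] at h1
        omega
      exact ⟨Matrix.SL2.commutator_eq_top ha0 ha2,
        Matrix.ProjectiveSpecialLinearGroup.rank_two_simple hcard'⟩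
  obtain ⟨hperf, hsimple⟩ := hPS
  obtain ⟨H, hHdef⟩ : ∃ H : Subgroup (Matrix.SpecialLinearGroup (Fin n) F),
      H = G.comap Matrix.SpecialLinearGroup.toGL := ⟨_, rfl⟩
  have hHmem : ∀ s : Matrix.SpecialLinearGroup (Fin n) F, s ∈ H ↔ Matrix.SpecialLinearGroup.toGL s ∈ G := by
    intro s; rw [hHdef]; exact Subgroup.mem_comap
  have hHn : H.Normal := by
    constructor
    intro h hh s
    rw [hHmem] at hh ⊢
    rw [map_mul, map_mul, map_inv]
    exact hG s _ hh
  obtain ⟨T, hTdef⟩ : ∃ T : GL (Fin n) F,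
      T = Matrix.SpecialLinearGroup.toGL (Matrix.SpecialLinearGroup.transvection hij (1 : F)) := ⟨_, rfl⟩
  have hT1 : T.1 = 1 + Matrix.single i j (1 : F) := by
    rw [hTdef]; rfl
  have hxG : g * (T * g⁻¹ * T⁻¹) ∈ G := by
    have h1 := hG (Matrix.SpecialLinearGroup.transvection hij (1 : F)) g⁻¹ (G.inv_mem hgG)
    rw [← hTdef] at h1
    exact G.mul_mem hgG h1
  have hxdet : (g * (T * g⁻¹ * T⁻¹)).1.det = 1 := by
    have h1 : Matrix.GeneralLinearGroup.det (g * (T * g⁻¹ * T⁻¹)) = 1 := by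
      rw [map_mul, map_mul, map_mul, map_inv, map_inv]
      rw [mul_comm (Matrix.GeneralLinearGroup.det T), mul_assoc, mul_inv_cancel, mul_one,
        mul_inv_cancel]
    have h2 := congrArg Units.val h1
    rw [Matrix.GeneralLinearGroup.val_det_apply] at h2
    exact h2
  obtain ⟨y, hy⟩ : ∃ y : Matrix.SpecialLinearGroup (Fin n) F, y.1 = (g * (T * g⁻¹ * T⁻¹)).1 :=
    ⟨⟨_, hxdet⟩, rfl⟩
  have hyH : y ∈ H := by
    rw [hHmem]
    have h1 : Matrix.SpecialLinearGroup.toGL y = g * (T * g⁻¹ * T⁻¹) := by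
      apply Units.ext
      exact hy
    rw [h1]; exact hxG
  have hyc : y ∉ Subgroup.center (Matrix.SpecialLinearGroup (Fin n) F) := by
    intro hc
    obtain ⟨r, _, hr⟩ := Matrix.SpecialLinearGroup.mem_center_iff.1 hc
    have hr1 : (g * (T * g⁻¹ * T⁻¹)).1 = r • (1 : Matrix (Fin n) (Fin n) F) := by
      rw [← hy, ← hr, Matrix.smul_one_eq_diagonal, Matrix.scalar_apply]
    have h2 : (g * (T * g⁻¹ * T⁻¹)).1 * (T.1 * g.1) = g.1 * T.1 := by
      have h1 : g * (T * g⁻¹ * T⁻¹) * (T * g) = g * T := by group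
      exact congrArg Units.val h1
    rw [hr1, Matrix.smul_mul, Matrix.one_mul] at h2
    set E : Matrix (Fin n) (Fin n) F := Matrix.single i j (1 : F) with hEdef
    have hdetE : E.det = 0 := by
      apply Matrix.det_eq_zero_of_row_eq_zero j
      intro k
      rw [hEdef, Matrix.single_apply, if_neg]
      rintro ⟨h1, _⟩; exact hij h1
    have h3 : g.1 * E = (r • T.1 - 1) * g.1 := by
      rw [Matrix.sub_mul, Matrix.smul_mul, Matrix.one_mul, h2, hT1, Matrix.mul_add,
        Matrix.mul_one]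
      abel
    have hgdet : g.1.det ≠ 0 := Matrix.GeneralLinearGroup.det_ne_zero g
    have h4 : (r • T.1 - 1).det = 0 := by
      have h5 := congrArg Matrix.det h3
      rw [Matrix.det_mul, Matrix.det_mul, hdetE, mul_zero] at h5
      exact (mul_eq_zero.1 h5.symm).resolve_right hgdet
    have hr1' : r = 1 := by
      by_contra hne
      have hne' : r - 1 ≠ 0 := sub_ne_zero.2 hne
      have h5 : r • T.1 - 1 = (r - 1) • Matrix.transvection i j (r / (r - 1)) := by
        rw [hT1, Matrix.transvection]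
        ext a b
        simp only [Matrix.sub_apply, Matrix.smul_apply, Matrix.add_apply, Matrix.one_apply,
          hEdef, Matrix.single_apply, smul_eq_mul]
        split_ifs <;> first | ring1 | (field_simp; ring1) | field_simp
      rw [h5, Matrix.det_smul, Matrix.det_transvection_of_ne i j hij, mul_one] at h4
      have h6 := pow_eq_zero_iff (M₀ := F) (a := r - 1) (n := Fintype.card (Fin n))
        (by rw [Fintype.card_fin]; omega)
      exact hne' (h6.1 h4)
    rw [hr1', one_smul, hT1, Matrix.add_mul, Matrix.mul_add, Matrix.one_mul, Matrix.mul_one] at h2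
    exact hE (add_left_cancel h2)
  have hHtop : H = ⊤ :=
    normal_eq_top_of_not_le_center hperf hsimple H hHn (fun hle => hyc (hle hyH))
  rintro _ ⟨s, rfl⟩
  have h1 : s ∈ H := by rw [hHtop]; trivial
  exact (hHmem s).1 h1

end Cfsg.Agent.S2540
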