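import Cfsg.Statements.S2541
-- import your own Cfsg.Agent.* helpers here

set_option autoImplicit false
open Cfsg

namespace Cfsg.Agent.S2541

theorem perm6_pow8 : ∀ σ : Equiv.Perm (Fin 6), σ ^ 8 = 1 → σ ^ 4 = 1 := by decide +kernel

noncomputable def diagHom (F : Type*) [Field F] : Fˣ →* GL (Fin 2) F :=
  (Units.map (Matrix.diagonalRingHom (Fin 2) F).toMonoidHom).comp
    ((MulEquiv.piUnits (ι := Fin 2) (M := fun _ => F)).symm.toMonoidHom.comp
      (MonoidHom.mulSingle (fun _ : Fin 2 => Fˣ) 0))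

theorem diagHom_coe (F : Type*) [Field F] (a : Fˣ) :
    ((diagHom F a : GL (Fin 2) F) : Matrix (Fin 2) (Fin 2) F) =
      Matrix.diagonal (fun i => ((Pi.mulSingle 0 a : Fin 2 → Fˣ) i : F)) := by
  rfl

/-- Let F be a field with 9 elements. The symmetric group S_6 is not isomorphic to PGL_2(F) (although both have index-2 subgroups isomorphic to A_6). -/
theorem result {F : Type*} [Field F] [Fintype F] (hF : Fintype.card F = 9) : ¬ Nonempty (Equiv.Perm (Fin 6) ≃* Matrix.ProjGenLinGroup (Fin 2) F) := by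
  rintro ⟨e⟩
  classical
  obtain ⟨a, ha⟩ := IsCyclic.exists_ofOrder_eq_natCard (α := Fˣ)
  have hcard : Nat.card Fˣ = 8 := by
    rw [Nat.card_eq_fintype_card, Fintype.card_units, hF]
  rw [hcard] at ha
  have ha8 : a ^ 8 = 1 := by rw [← ha]; exact pow_orderOf_eq_one a
  have ha4 : a ^ 4 ≠ 1 := by
    intro h
    have := orderOf_dvd_of_pow_eq_one h
    rw [ha] at this
    omega
  let t : GL (Fin 2) F := Matrix.GeneralLinearGroup.mkOfDetNeZero !![1, 1; 0, 1] (by simp [Matrix.det_fin_two])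
  have hcen : ∀ c : Fˣ, diagHom F c ∈ Subgroup.center (GL (Fin 2) F) → c = 1 := by
    intro c hc
    rw [Subgroup.mem_center_iff] at hc
    have h1 := hc t
    have h2 := congrArg (fun m : GL (Fin 2) F => (m : Matrix (Fin 2) (Fin 2) F) 0 1) h1
    simp only [Matrix.GeneralLinearGroup.coe_mul, diagHom_coe, Matrix.mul_apply, Fin.sum_univ_two] at h2
    simp [t, Matrix.GeneralLinearGroup.mkOfDetNeZero] at h2
    exact Units.ext h2.symm
  have hx8 : (Matrix.ProjGenLinGroup.mk (diagHom F a)) ^ 8 = 1 := by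
    rw [← map_pow, ← map_pow, ha8, map_one, map_one]
  have hx4 : (Matrix.ProjGenLinGroup.mk (diagHom F a)) ^ 4 ≠ 1 := by
    intro h
    rw [← map_pow, ← map_pow, Matrix.ProjGenLinGroup.mk_eq_one] at h
    exact ha4 (hcen _ h)
  have h8 : (e.symm (Matrix.ProjGenLinGroup.mk (diagHom F a))) ^ 8 = 1 := by
    rw [← map_pow, hx8, map_one]
  have h4 := perm6_pow8 _ h8
  apply hx4
  have := congrArg e h4
  rw [map_pow, map_one, MulEquiv.apply_symm_apply] at this
  exact this


end Cfsg.Agent.S2541
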