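import Cfsg.Statements.S2550
import Mathlib
import Cfsg.Agent.S0243
import Cfsg.Agent.S0819

set_option autoImplicit false
open Cfsg

namespace Cfsg.Agent.S2550

theorem ord15 {G : Type*} [Group G] (x : G) (h15 : x ^ 15 = 1) (h5 : x ^ 5 ≠ 1) (h3 : x ^ 3 ≠ 1) :
    orderOf x = 15 := by
  have hd := orderOf_dvd_of_pow_eq_one h15
  have hmem : orderOf x ∈ Nat.divisors 15 := Nat.mem_divisors.2 ⟨hd, by norm_num⟩
  have hdiv : Nat.divisors 15 = {1, 3, 5, 15} := by decide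
  rw [hdiv] at hmem
  simp only [Finset.mem_insert, Finset.mem_singleton] at hmem
  rcases hmem with h | h | h | h
  · exact absurd (by rw [orderOf_eq_one_iff.1 h, one_pow]) h3
  · exact absurd (by rw [← h]; exact pow_orderOf_eq_one x) h3
  · exact absurd (by rw [← h]; exact pow_orderOf_eq_one x) h5
  · exact h

set_option maxHeartbeats 2000000 in
theorem elt15 {F : Type*} [Field F] [Fintype F] (hF : Fintype.card F = 2) :
    ∃ x : Matrix.ProjectiveSpecialLinearGroup (Fin 4) F, x ^ 15 = 1 ∧ x ^ 5 ≠ 1 ∧ x ^ 3 ≠ 1 := by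
  classical
  have h2F : (2:F) = 0 := by
    have := FiniteField.cast_card_eq_zero F
    rw [hF] at this
    exact_mod_cast this
  have h3F : (3:F) = 1 := by linear_combination h2F
  have h4F : (4:F) = 0 := by linear_combination 2 * h2F
  have h11 : (1:F) + 1 = 0 := by linear_combination h2F
  have hall : ∀ y : F, y = 0 ∨ y = 1 := by
    have huniv : ({0, 1} : Finset F) = Finset.univ :=
      Finset.eq_univ_of_card _ (by rw [Finset.card_pair zero_ne_one, hF])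
    intro y
    have := Finset.mem_univ y
    rw [← huniv] at this
    simpa using this
  have p2 : (!![0, 0, 0, 1; 1, 0, 0, 1; 0, 1, 0, 0; 0, 0, 1, 0] : (Matrix (Fin 4) (Fin 4) F)) * !![0, 0, 0, 1; 1, 0, 0, 1; 0, 1, 0, 0; 0, 0, 1, 0] = !![0, 0, 1, 0; 0, 0, 1, 1; 1, 0, 0, 1; 0, 1, 0, 0] := by
    ext i j; fin_cases i <;> fin_cases j <;> simp [Matrix.mul_apply, Fin.sum_univ_four, h2F, h3F, h4F, h11]
  have p4 : (!![0, 0, 1, 0; 0, 0, 1, 1; 1, 0, 0, 1; 0, 1, 0, 0] : (Matrix (Fin 4) (Fin 4) F)) * !![0, 0, 1, 0; 0, 0, 1, 1; 1, 0, 0, 1; 0, 1, 0, 0] = !![1, 0, 0, 1; 1, 1, 0, 1; 0, 1, 1, 0; 0, 0, 1, 1] := by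
    ext i j; fin_cases i <;> fin_cases j <;> simp [Matrix.mul_apply, Fin.sum_univ_four, h2F, h3F, h4F, h11]
  have p8 : (!![1, 0, 0, 1; 1, 1, 0, 1; 0, 1, 1, 0; 0, 0, 1, 1] : (Matrix (Fin 4) (Fin 4) F)) * !![1, 0, 0, 1; 1, 1, 0, 1; 0, 1, 1, 0; 0, 0, 1, 1] = !![1, 0, 1, 0; 0, 1, 1, 1; 1, 0, 1, 1; 0, 1, 0, 1] := by
    ext i j; fin_cases i <;> fin_cases j <;> simp [Matrix.mul_apply, Fin.sum_univ_four, h2F, h3F, h4F, h11]
  have p3 : (!![0, 0, 1, 0; 0, 0, 1, 1; 1, 0, 0, 1; 0, 1, 0, 0] : (Matrix (Fin 4) (Fin 4) F)) * !![0, 0, 0, 1; 1, 0, 0, 1; 0, 1, 0, 0; 0, 0, 1, 0] = !![0, 1, 0, 0; 0, 1, 1, 0; 0, 0, 1, 1; 1, 0, 0, 1] := by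
    ext i j; fin_cases i <;> fin_cases j <;> simp [Matrix.mul_apply, Fin.sum_univ_four, h2F, h3F, h4F, h11]
  have p5 : (!![1, 0, 0, 1; 1, 1, 0, 1; 0, 1, 1, 0; 0, 0, 1, 1] : (Matrix (Fin 4) (Fin 4) F)) * !![0, 0, 0, 1; 1, 0, 0, 1; 0, 1, 0, 0; 0, 0, 1, 0] = !![0, 0, 1, 1; 1, 0, 1, 0; 1, 1, 0, 1; 0, 1, 1, 0] := by
    ext i j; fin_cases i <;> fin_cases j <;> simp [Matrix.mul_apply, Fin.sum_univ_four, h2F, h3F, h4F, h11]
  have p12 : (!![1, 0, 1, 0; 0, 1, 1, 1; 1, 0, 1, 1; 0, 1, 0, 1] : (Matrix (Fin 4) (Fin 4) F)) * !![1, 0, 0, 1; 1, 1, 0, 1; 0, 1, 1, 0; 0, 0, 1, 1] = !![1, 1, 1, 1; 1, 0, 0, 0; 1, 1, 0, 0; 1, 1, 1, 0] := by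
    ext i j; fin_cases i <;> fin_cases j <;> simp [Matrix.mul_apply, Fin.sum_univ_four, h2F, h3F, h4F, h11]
  have p14 : (!![1, 1, 1, 1; 1, 0, 0, 0; 1, 1, 0, 0; 1, 1, 1, 0] : (Matrix (Fin 4) (Fin 4) F)) * !![0, 0, 1, 0; 0, 0, 1, 1; 1, 0, 0, 1; 0, 1, 0, 0] = !![1, 1, 0, 0; 0, 0, 1, 0; 0, 0, 0, 1; 1, 0, 0, 0] := by
    ext i j; fin_cases i <;> fin_cases j <;> simp [Matrix.mul_apply, Fin.sum_univ_four, h2F, h3F, h4F, h11]
  have p15 : (!![1, 1, 0, 0; 0, 0, 1, 0; 0, 0, 0, 1; 1, 0, 0, 0] : (Matrix (Fin 4) (Fin 4) F)) * !![0, 0, 0, 1; 1, 0, 0, 1; 0, 1, 0, 0; 0, 0, 1, 0] = 1 := by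
    ext i j; fin_cases i <;> fin_cases j <;> simp [Matrix.mul_apply, Fin.sum_univ_four, h2F, h3F, h4F, h11]
  obtain ⟨Cm, hCm⟩ : ∃ Cm : Matrix (Fin 4) (Fin 4) F, Cm = !![0, 0, 0, 1; 1, 0, 0, 1; 0, 1, 0, 0; 0, 0, 1, 0] := ⟨_, rfl⟩
  have hC15 : Cm ^ 15 = 1 := by
    have e : Cm ^ 15 = ((Cm*Cm)*(Cm*Cm))*((Cm*Cm)*(Cm*Cm)) * ((Cm*Cm)*(Cm*Cm)) * (Cm*Cm) * Cm := by
      simp only [pow_succ, pow_zero, one_mul, mul_assoc]
    rw [e, hCm, p2, p4, p8, p12, p14, p15]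
  have hC5 : Cm ^ 5 = !![0, 0, 1, 1; 1, 0, 1, 0; 1, 1, 0, 1; 0, 1, 1, 0] := by
    have e : Cm ^ 5 = ((Cm*Cm)*(Cm*Cm)) * Cm := by
      simp only [pow_succ, pow_zero, one_mul, mul_assoc]
    rw [e, hCm, p2, p4, p5]
  have hC3 : Cm ^ 3 = !![0, 1, 0, 0; 0, 1, 1, 0; 0, 0, 1, 1; 1, 0, 0, 1] := by
    have e : Cm ^ 3 = (Cm*Cm) * Cm := by
      simp only [pow_succ, pow_zero, one_mul, mul_assoc]
    rw [e, hCm, p2, p3]
  have hdet : Cm.det = 1 := by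
    rcases hall Cm.det with h | h
    · exfalso
      have := congrArg Matrix.det hC15
      rw [Matrix.det_pow, h, Matrix.det_one] at this
      simp at this
    · exact h
  let A : Matrix.SpecialLinearGroup (Fin 4) F := ⟨Cm, hdet⟩
  have hA15 : A ^ 15 = 1 := by
    apply Subtype.ext
    rw [Matrix.SpecialLinearGroup.coe_pow, Matrix.SpecialLinearGroup.coe_one]
    exact hC15
  refine ⟨QuotientGroup.mk A, ?_, ?_, ?_⟩
  · rw [← QuotientGroup.mk_pow, hA15]; rfl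
  · intro h
    rw [← QuotientGroup.mk_pow] at h
    have hm := (QuotientGroup.eq_one_iff _).1 h
    rw [Matrix.SpecialLinearGroup.mem_center_iff] at hm
    obtain ⟨r, -, hr⟩ := hm
    rw [Matrix.SpecialLinearGroup.coe_pow] at hr
    change Matrix.scalar (Fin 4) r = Cm ^ 5 at hr
    rw [hC5] at hr
    have := congrFun (congrFun hr 1) 0
    simp [Matrix.scalar_apply] at this
  · intro h
    rw [← QuotientGroup.mk_pow] at h
    have hm := (QuotientGroup.eq_one_iff _).1 h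
    rw [Matrix.SpecialLinearGroup.mem_center_iff] at hm
    obtain ⟨r, -, hr⟩ := hm
    rw [Matrix.SpecialLinearGroup.coe_pow] at hr
    change Matrix.scalar (Fin 4) r = Cm ^ 3 at hr
    rw [hC3] at hr
    have := congrFun (congrFun hr 3) 0
    simp [Matrix.scalar_apply] at this

/-- Let F be a field with 2 elements and K a field with 4 elements. PSL_4(F) and PSL_3(K) have the same order (20160) but are not isomorphic. -/
theorem result {F K : Type*} [Field F] [Fintype F] [Field K] [Fintype K] (hF : Fintype.card F = 2) (hK : Fintype.card K = 4) : Nat.card (Matrix.ProjectiveSpecialLinearGroup (Fin 4) F) = Nat.card (Matrix.ProjectiveSpecialLinearGroup (Fin 3) K) ∧ ¬ Nonempty (Matrix.ProjectiveSpecialLinearGroup (Fin 4) F ≃* Matrix.ProjectiveSpecialLinearGroup (Fin 3) K) := by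
  have h1 := Cfsg.Agent.S0243.result hF 4 (by norm_num)
  have h2 := Cfsg.Agent.S0243.result hK 3 (by norm_num)
  rw [Fin.prod_univ_eq_prod_range (fun i => 2 ^ 4 - 2 ^ i) 4] at h1
  rw [Fin.prod_univ_eq_prod_range (fun i => 4 ^ 3 - 4 ^ i) 3] at h2
  norm_num [Finset.prod_range_succ] at h1 h2
  refine ⟨by omega, ?_⟩
  rintro ⟨e⟩
  obtain ⟨x, hx15, hx5, hx3⟩ := elt15 hF
  have ho := ord15 x hx15 hx5 hx3
  exact Cfsg.Agent.S0819.result hK (e x) (by rw [MulEquiv.orderOf_eq]; exact ho)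

end Cfsg.Agent.S2550
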