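import Mathlib

namespace Cfsg.Agent.S2552

open Module in
/-- Let F be a finite field and n ≥ 1. For every k, the special linear group SL_n(F) acts transitively on the set of k-dimensional subspaces of F^n: any two subspaces of the same dimension are carried onto each other by some matrix of determinant 1. -/
theorem result {F : Type*} [Field F] [Fintype F] (n : ℕ) (hn : 1 ≤ n) (U₁ U₂ : Submodule F (Fin n → F)) (h : Module.finrank F U₁ = Module.finrank F U₂) : ∃ g : Matrix.SpecialLinearGroup (Fin n) F, U₁.map ((Matrix.SpecialLinearGroup.toLin' g : (Fin n → F) ≃ₗ[F] (Fin n → F)) : (Fin n → F) →ₗ[F] (Fin n → F)) = U₂ := by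
  classical
  obtain ⟨W₁, hW₁⟩ := Submodule.exists_isCompl U₁
  obtain ⟨W₂, hW₂⟩ := Submodule.exists_isCompl U₂
  have hf₁ := Submodule.finrank_add_eq_of_isCompl hW₁
  have hf₂ := Submodule.finrank_add_eq_of_isCompl hW₂
  have hWW : Module.finrank F W₂ = Module.finrank F W₁ := by omega
  let bU₁ : Basis (Fin (Module.finrank F U₁)) F U₁ := Module.finBasisOfFinrankEq F U₁ rfl
  let bU₂ : Basis (Fin (Module.finrank F U₁)) F U₂ := Module.finBasisOfFinrankEq F U₂ h.symm
  let bW₁ : Basis (Fin (Module.finrank F W₁)) F W₁ := Module.finBasisOfFinrankEq F W₁ rfl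
  let bW₂ : Basis (Fin (Module.finrank F W₁)) F W₂ := Module.finBasisOfFinrankEq F W₂ hWW
  let b : Basis (Fin (Module.finrank F U₁) ⊕ Fin (Module.finrank F W₁)) F (Fin n → F) :=
    (bU₁.prod bW₁).map (U₁.prodEquivOfIsCompl W₁ hW₁)
  let c : Basis (Fin (Module.finrank F U₁) ⊕ Fin (Module.finrank F W₁)) F (Fin n → F) :=
    (bU₂.prod bW₂).map (U₂.prodEquivOfIsCompl W₂ hW₂)
  have hbi : ∀ i, b (Sum.inl i) = (bU₁ i : Fin n → F) := by
    intro i
    simp [b]
  have hci : ∀ i, c (Sum.inl i) = (bU₂ i : Fin n → F) := by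
    intro i
    simp [c]
  have hne : Nonempty (Fin (Module.finrank F U₁) ⊕ Fin (Module.finrank F W₁)) := by
    have h1 : Fintype.card (Fin (Module.finrank F U₁) ⊕ Fin (Module.finrank F W₁)) = n := by
      rw [← Module.finrank_eq_card_basis b]; simp
    exact Fintype.card_pos_iff.mp (by omega)
  obtain ⟨i₀⟩ := hne
  have hD : IsUnit (b.det c) := Basis.isUnit_det b c
  let w : Fin (Module.finrank F U₁) ⊕ Fin (Module.finrank F W₁) → Fˣ :=
    fun i => if i = i₀ then hD.unit⁻¹ else 1
  let c' := c.unitsSMul w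
  let g : (Fin n → F) ≃ₗ[F] (Fin n → F) := b.equiv c' (Equiv.refl _)
  have hg : ∀ i, g (b i) = (w i : F) • c i := by
    intro i
    simp [g, c', Basis.unitsSMul_apply, Units.smul_def]
  have hdet : LinearMap.det (g : (Fin n → F) →ₗ[F] (Fin n → F)) = 1 := by
    have h1 : b.det (⇑(g : (Fin n → F) →ₗ[F] (Fin n → F)) ∘ b) =
        LinearMap.det (g : (Fin n → F) →ₗ[F] (Fin n → F)) * b.det b := Basis.det_comp b _ _
    rw [Basis.det_self, mul_one] at h1
    rw [← h1]
    have h2 : (⇑(g : (Fin n → F) →ₗ[F] (Fin n → F)) ∘ b) = fun i => (w i : F) • c i := by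
      funext i
      simp [hg]
    rw [h2, AlternatingMap.map_smul_univ]
    have h3 : ∏ i, (w i : F) = ((hD.unit⁻¹ : Fˣ) : F) := by
      rw [Finset.prod_eq_single i₀]
      · simp [w]
      · intro j _ hj; simp [w, hj]
      · intro h; exact absurd (Finset.mem_univ _) h
    rw [h3]
    simp only [smul_eq_mul, Units.val_inv_eq_inv_val, IsUnit.unit_spec]
    exact inv_mul_cancel₀ hD.ne_zero
  obtain ⟨A, hA⟩ : ∃ A : Matrix.SpecialLinearGroup (Fin n) F,
      (A : Matrix (Fin n) (Fin n) F) = LinearMap.toMatrix' (g : (Fin n → F) →ₗ[F] (Fin n → F)) :=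
    ⟨⟨LinearMap.toMatrix' (g : (Fin n → F) →ₗ[F] (Fin n → F)), by
      rw [LinearMap.det_toMatrix']; exact hdet⟩, rfl⟩
  refine ⟨A, ?_⟩
  · have hlin : ((Matrix.SpecialLinearGroup.toLin' A : (Fin n → F) ≃ₗ[F] (Fin n → F)) :
          (Fin n → F) →ₗ[F] (Fin n → F)) = (g : (Fin n → F) →ₗ[F] (Fin n → F)) := by
      refine LinearMap.ext fun v => ?_
      show (Matrix.SpecialLinearGroup.toLin' A) v = g v
      rw [Matrix.SpecialLinearGroup.toLin'_apply, hA, Matrix.toLin'_toMatrix']
      rfl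
    rw [hlin]
    have hle : U₁.map (g : (Fin n → F) →ₗ[F] (Fin n → F)) ≤ U₂ := by
      have hU : U₁ = Submodule.span F (Set.range (fun i => (bU₁ i : Fin n → F))) := by
        have h1 := bU₁.span_eq
        have h2 := congrArg (Submodule.map U₁.subtype) h1
        rw [Submodule.map_span, Submodule.map_subtype_top, ← Set.range_comp] at h2
        exact h2.symm
      rw [hU, Submodule.map_span, Submodule.span_le]
      rintro _ ⟨_, ⟨i, rfl⟩, rfl⟩
      show g (bU₁ i : Fin n → F) ∈ U₂
      rw [← hbi, hg, hci]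
      exact U₂.smul_mem _ (bU₂ i).2
    refine Submodule.eq_of_le_of_finrank_eq hle ?_
    rw [← h]
    exact LinearEquiv.finrank_map_eq g U₁

end Cfsg.Agent.S2552
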