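import Cfsg.Statements.S2564
import Cfsg.Agent.Helper5.QFClass2

set_option autoImplicit false
open Cfsg

namespace Cfsg.Agent.S2564

/-- On the 2m-dimensional space over the field of two elements (m ≥ 1) let f be the alternating form obtained by polarizing the plus-type form Σ xᵢyᵢ, and let q be any quadratic form polarizing to f. For a vector w, the function q + f(·, w) again polarizes to f, and it is equivalent to q under an invertible linear map (that is, has the same type) if and only if q(w) = 0. -/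
theorem result (m : ℕ) (hm : 1 ≤ m) (q : (Fin m ⊕ Fin m → ZMod 2) → ZMod 2) (hq : (∀ u v : (Fin m ⊕ Fin m → ZMod 2), q (u + v) = q u + q v + (Cfsg.quadFormPlus m (ZMod 2) (u + v) - Cfsg.quadFormPlus m (ZMod 2) u - Cfsg.quadFormPlus m (ZMod 2) v))) (w : (Fin m ⊕ Fin m → ZMod 2)) :
    (∀ u v : (Fin m ⊕ Fin m → ZMod 2), (q (u + v) + (Cfsg.quadFormPlus m (ZMod 2) (u + v + w) - Cfsg.quadFormPlus m (ZMod 2) (u + v) - Cfsg.quadFormPlus m (ZMod 2) w)) =
        (q u + (Cfsg.quadFormPlus m (ZMod 2) (u + w) - Cfsg.quadFormPlus m (ZMod 2) u - Cfsg.quadFormPlus m (ZMod 2) w)) + (q v + (Cfsg.quadFormPlus m (ZMod 2) (v + w) - Cfsg.quadFormPlus m (ZMod 2) v - Cfsg.quadFormPlus m (ZMod 2) w)) +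
        (Cfsg.quadFormPlus m (ZMod 2) (u + v) - Cfsg.quadFormPlus m (ZMod 2) u - Cfsg.quadFormPlus m (ZMod 2) v)) ∧
    ((∃ g : (Fin m ⊕ Fin m → ZMod 2) ≃ₗ[ZMod 2] (Fin m ⊕ Fin m → ZMod 2), ∀ v, q v + (Cfsg.quadFormPlus m (ZMod 2) (v + w) - Cfsg.quadFormPlus m (ZMod 2) v - Cfsg.quadFormPlus m (ZMod 2) w) = q (g v)) ↔ q w = 0) := by
  classical
  have hB : ∀ x y : Fin m ⊕ Fin m → ZMod 2, Cfsg.quadFormPlus m (ZMod 2) (x + y)
      - Cfsg.quadFormPlus m (ZMod 2) x - Cfsg.quadFormPlus m (ZMod 2) y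
      = Cfsg.Agent.Helper5.qfPlusB (ZMod 2) m x y := Cfsg.Agent.Helper5.qfPlusB_polar (ZMod 2) m
  simp only [hB] at hq ⊢
  obtain ⟨B, hBd⟩ : ∃ B, B = Cfsg.Agent.Helper5.qfPlusB (ZMod 2) m := ⟨_, rfl⟩
  rw [← hBd] at hq ⊢
  have hBnd : B.Nondegenerate := by
    rw [hBd]; exact Cfsg.Agent.Helper5.qfPlusB_nondeg (ZMod 2) m
  have h0 : q 0 = 0 := by
    have := hq 0 0
    simpa using this
  have hsq : ∀ a : ZMod 2, a * a = a := by decide
  have h2 : ∀ a : ZMod 2, a + a = 0 := by decide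
  have hBww : B w w = 0 := by
    have h3 := hq w w
    have hw2 : w + w = 0 := by funext x; exact h2 (w x)
    rw [hw2, h0, h2, zero_add] at h3
    exact h3.symm
  constructor
  · intro u v
    rw [hq u v, map_add, LinearMap.add_apply]
    ring
  · constructor
    · rintro ⟨g, hg⟩
      by_contra hqw
      have hqw1 : q w = 1 := by
        have h3 : ∀ a : ZMod 2, a = 0 ∨ a = 1 := by decide
        rcases h3 (q w) with h | h
        · exact absurd h hqw
        · exact h
      obtain ⟨Q, hQq, hQB⟩ := Cfsg.Agent.Helper5.qf_of_fun₂ q B hq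
      have hQnd : (QuadraticMap.polarBilin Q).Nondegenerate := by rw [hQB]; exact hBnd
      have hV : Module.finrank (ZMod 2) (Fin m ⊕ Fin m → ZMod 2) = 2 * m := by
        rw [Module.finrank_fintype_fun_eq_card, Fintype.card_sum, Fintype.card_fin]; omega
      have hcount := Cfsg.Agent.Helper5.qf_zero_count Q hQnd hm hV
      have hZ : Nat.card {v : Fin m ⊕ Fin m → ZMod 2 // Q v = 0}
          = Nat.card {v : Fin m ⊕ Fin m → ZMod 2 // q v = 0} :=
        Nat.card_congr (Equiv.subtypeEquivRight (fun v => by rw [hQq]))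
      have e1 : Nat.card {v : Fin m ⊕ Fin m → ZMod 2 // q v + B v w = 0}
          = Nat.card {v : Fin m ⊕ Fin m → ZMod 2 // q v = 0} :=
        Nat.card_congr (Equiv.subtypeEquiv g.toEquiv (fun v => by rw [hg v]; rfl))
      have hdec : ∀ a b : ZMod 2, a + b = 0 ↔ ¬ a + 1 + b = 0 := by decide
      have e2 : Nat.card {v : Fin m ⊕ Fin m → ZMod 2 // q v + B v w = 0}
          = Nat.card {v : Fin m ⊕ Fin m → ZMod 2 // ¬ q v = 0} :=
        Nat.card_congr (Equiv.subtypeEquiv (Equiv.addRight w) (fun v => by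
          show q v + B v w = 0 ↔ ¬ q (v + w) = 0
          rw [hq v w, hqw1]
          exact hdec _ _))
      have e3 : Nat.card {v : Fin m ⊕ Fin m → ZMod 2 // q v = 0}
          + Nat.card {v : Fin m ⊕ Fin m → ZMod 2 // ¬ q v = 0}
          = Nat.card (Fin m ⊕ Fin m → ZMod 2) := by
        rw [← Nat.card_sum]
        exact Nat.card_congr (Equiv.sumCompl (fun v : Fin m ⊕ Fin m → ZMod 2 => q v = 0))
      have e4 : Nat.card (Fin m ⊕ Fin m → ZMod 2) = 2 ^ (2 * m) := by
        rw [Nat.card_eq_fintype_card, Fintype.card_fun, ZMod.card, Fintype.card_sum,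
          Fintype.card_fin]
        congr 1; omega
      have hc2 : Fintype.card (ZMod 2) = 2 := ZMod.card 2
      rw [hc2, hZ] at hcount
      have p1 : 2 ^ m = 2 * 2 ^ (m - 1) := by
        have h3 : m = (m - 1) + 1 := by omega
        conv_lhs => rw [h3, pow_succ]
        ring
      have p2 : 2 ^ (2 * m) = 2 * 2 ^ (2 * m - 1) := by
        have h3 : 2 * m = (2 * m - 1) + 1 := by omega
        conv_lhs => rw [h3, pow_succ]
        ring
      have p3 : 1 ≤ 2 ^ (m - 1) := Nat.one_le_two_pow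
      have p4 : 1 ≤ 2 ^ (2 * m - 1) := Nat.one_le_two_pow
      rcases hcount with hc | hc <;> omega
    · intro hqw
      obtain ⟨g₀, hg₀⟩ : ∃ g₀ : (Fin m ⊕ Fin m → ZMod 2) →ₗ[ZMod 2] (Fin m ⊕ Fin m → ZMod 2),
          ∀ v, g₀ v = v + B v w • w :=
        ⟨LinearMap.id + (B.flip w).smulRight w, fun v => by
          simp [LinearMap.smulRight_apply, LinearMap.flip_apply]⟩
      have hinv : Function.Involutive g₀ := by
        intro v
        rw [hg₀ (g₀ v), hg₀ v, map_add, LinearMap.add_apply, map_smul, LinearMap.smul_apply,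
          hBww, smul_zero, add_zero, add_assoc, ← add_smul, h2, zero_smul, add_zero]
      refine ⟨LinearEquiv.ofInvolutive g₀ hinv, ?_⟩
      intro v
      have hqa : ∀ a : ZMod 2, q (a • w) = 0 := by
        intro a
        have h3 : ∀ a : ZMod 2, a = 0 ∨ a = 1 := by decide
        rcases h3 a with rfl | rfl
        · rw [zero_smul]; exact h0
        · rw [one_smul]; exact hqw
      rw [LinearEquiv.coe_ofInvolutive, hg₀, hq, map_smul, smul_eq_mul, hqa, hsq, add_zero]

end Cfsg.Agent.S2564
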