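import Cfsg.Statements.S2617
import Cfsg.Agent.S0289
import Cfsg.Agent.S0290

set_option autoImplicit false
open Cfsg

namespace Cfsg.Agent.S2617

/-- The two standard quadratic forms of even dimension 2m over a finite field are not isometric: there is no linear isomorphism carrying the elliptic form Σ_(i<m−1) x_i y_i + z₁² + z₁z₂ + ζ z₂² (t² + t + ζ without roots) to the hyperbolic form Σ_(i<m) x_i y_i (they have different Witt index). -/
theorem result {F : Type*} [Field F] [Finite F] {m : ℕ} (hm : 1 ≤ m) (ζ : F) (hζ : ∀ t : F, t ^ 2 + t + ζ ≠ 0) (g : (Fin m ⊕ Fin m → F) ≃ₗ[F] ((Fin (m - 1) ⊕ Fin (m - 1)) ⊕ Fin 2 → F)) : ¬ (∀ v : Fin m ⊕ Fin m → F, Cfsg.quadFormMinus (m - 1) F 1 ζ (g v) = Cfsg.quadFormPlus m F v) := by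
  classical
  intro h
  haveI : Fintype F := Fintype.ofFinite F
  have hab : ∀ z₁ z₂ : F, z₁ ^ 2 + 1 * z₁ * z₂ + ζ * z₂ ^ 2 = 0 → z₁ = 0 ∧ z₂ = 0 := by
    intro z₁ z₂ hz
    by_cases h2 : z₂ = 0
    · subst h2
      simp at hz
      exact ⟨hz, rfl⟩
    · exfalso
      apply hζ (z₁ / z₂)
      field_simp
      linear_combination hz
  have hplus := Cfsg.Agent.S0289.result (F := F) (q := Fintype.card F) rfl m hm
  have hminus := Cfsg.Agent.S0290.result (F := F) (q := Fintype.card F) rfl m hm 1 ζ hab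
  have hcard : Nat.card {v : Fin m ⊕ Fin m → F // Cfsg.quadFormPlus m F v = 0} =
      Nat.card {v : (Fin (m - 1) ⊕ Fin (m - 1)) ⊕ Fin 2 → F // Cfsg.quadFormMinus (m - 1) F 1 ζ v = 0} := by
    refine Nat.card_congr (Equiv.subtypeEquiv g.toEquiv (fun v => ?_))
    show _ ↔ Cfsg.quadFormMinus (m - 1) F 1 ζ (g v) = 0
    rw [h v]
  rw [hplus, hminus] at hcard
  have hq : 2 ≤ Fintype.card F := Fintype.one_lt_card
  have h1 : (Fintype.card F) ^ (m - 1) < (Fintype.card F) ^ m :=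
    Nat.pow_lt_pow_right hq (by omega)
  have h2 : (Fintype.card F) ^ m ≤ (Fintype.card F) ^ (2 * m - 1) :=
    Nat.pow_le_pow_right (by omega) (by omega)
  omega

end Cfsg.Agent.S2617
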