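import Cfsg.Statements.S2561
import Cfsg.Agent.Helper5.QFClass2
import Cfsg.Agent.Helper5.QFClass3
import Cfsg.Agent.Helper5.QFOrth
import Cfsg.Agent.S2564
import Cfsg.Agent.S2617
import Cfsg.Agent.S0289

set_option autoImplicit false
open Cfsg

namespace Cfsg.Agent.S2561

/-- Fix the non-singular alternating form on the 2m-dimensional space over the field of two elements obtained by polarizing the plus-type form Σ xᵢyᵢ (m ≥ 1). The functions q on the space with q(u + v) = q(u) + q(v) + f(u, v) (the quadratic forms polarizing to f) number 2^(2m); each is equivalent under an invertible linear map either to the plus-type form or to the minus-type form Σ xᵢyᵢ + (z₁² + z₁z₂ + z₂²); and those of plus type number 2^(2m−1) + 2^(m−1), those of minus type 2^(2m−1) − 2^(m−1). -/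
theorem result (m : ℕ) (hm : 1 ≤ m) :
    Nat.card {q : (Fin m ⊕ Fin m → ZMod 2) → ZMod 2 // (∀ u v : (Fin m ⊕ Fin m → ZMod 2), q (u + v) = q u + q v + (Cfsg.quadFormPlus m (ZMod 2) (u + v) - Cfsg.quadFormPlus m (ZMod 2) u - Cfsg.quadFormPlus m (ZMod 2) v))} = 2 ^ (2 * m) ∧
    (∀ q : (Fin m ⊕ Fin m → ZMod 2) → ZMod 2, (∀ u v : (Fin m ⊕ Fin m → ZMod 2), q (u + v) = q u + q v + (Cfsg.quadFormPlus m (ZMod 2) (u + v) - Cfsg.quadFormPlus m (ZMod 2) u - Cfsg.quadFormPlus m (ZMod 2) v)) →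
      (∃ g : (Fin m ⊕ Fin m → ZMod 2) ≃ₗ[ZMod 2] (Fin m ⊕ Fin m → ZMod 2), ∀ v, q v = Cfsg.quadFormPlus m (ZMod 2) (g v)) ∨
      (∃ g : (Fin m ⊕ Fin m → ZMod 2) ≃ₗ[ZMod 2] ((Fin (m - 1) ⊕ Fin (m - 1)) ⊕ Fin 2 → ZMod 2), ∀ v, q v = Cfsg.quadFormMinus (m - 1) (ZMod 2) 1 1 (g v))) ∧
    Nat.card {q : (Fin m ⊕ Fin m → ZMod 2) → ZMod 2 // (∀ u v : (Fin m ⊕ Fin m → ZMod 2), q (u + v) = q u + q v + (Cfsg.quadFormPlus m (ZMod 2) (u + v) - Cfsg.quadFormPlus m (ZMod 2) u - Cfsg.quadFormPlus m (ZMod 2) v)) ∧ ∃ g : (Fin m ⊕ Fin m → ZMod 2) ≃ₗ[ZMod 2] (Fin m ⊕ Fin m → ZMod 2), ∀ v, q v = Cfsg.quadFormPlus m (ZMod 2) (g v)} = 2 ^ (2 * m - 1) + 2 ^ (m - 1) ∧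
    Nat.card {q : (Fin m ⊕ Fin m → ZMod 2) → ZMod 2 // (∀ u v : (Fin m ⊕ Fin m → ZMod 2), q (u + v) = q u + q v + (Cfsg.quadFormPlus m (ZMod 2) (u + v) - Cfsg.quadFormPlus m (ZMod 2) u - Cfsg.quadFormPlus m (ZMod 2) v)) ∧ ∃ g : (Fin m ⊕ Fin m → ZMod 2) ≃ₗ[ZMod 2] ((Fin (m - 1) ⊕ Fin (m - 1)) ⊕ Fin 2 → ZMod 2), ∀ v, q v = Cfsg.quadFormMinus (m - 1) (ZMod 2) 1 1 (g v)} = 2 ^ (2 * m - 1) - 2 ^ (m - 1) := by
  classical
  have hB : ∀ x y : Fin m ⊕ Fin m → ZMod 2, Cfsg.quadFormPlus m (ZMod 2) (x + y)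
      - Cfsg.quadFormPlus m (ZMod 2) x - Cfsg.quadFormPlus m (ZMod 2) y
      = Cfsg.Agent.Helper5.qfPlusB (ZMod 2) m x y := Cfsg.Agent.Helper5.qfPlusB_polar (ZMod 2) m
  simp only [hB]
  obtain ⟨B, hBd⟩ : ∃ B, B = Cfsg.Agent.Helper5.qfPlusB (ZMod 2) m := ⟨_, rfl⟩
  rw [← hBd]
  rw [← hBd] at hB
  have hBnd : B.Nondegenerate := by
    rw [hBd]; exact Cfsg.Agent.Helper5.qfPlusB_nondeg (ZMod 2) m
  have hQPadd : ∀ u v : Fin m ⊕ Fin m → ZMod 2, Cfsg.quadFormPlus m (ZMod 2) (u + v)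
      = Cfsg.quadFormPlus m (ZMod 2) u + Cfsg.quadFormPlus m (ZMod 2) v + B u v := by
    intro u v; rw [← hB]; ring
  have hV : Module.finrank (ZMod 2) (Fin m ⊕ Fin m → ZMod 2) = 2 * m := by
    rw [Module.finrank_fintype_fun_eq_card, Fintype.card_sum, Fintype.card_fin]; omega
  have hc2 : Fintype.card (ZMod 2) = 2 := ZMod.card 2
  have hΦmem : ∀ w u v : Fin m ⊕ Fin m → ZMod 2,
      (Cfsg.quadFormPlus m (ZMod 2) (u + v) + B (u + v) w)
      = (Cfsg.quadFormPlus m (ZMod 2) u + B u w) + (Cfsg.quadFormPlus m (ZMod 2) v + B v w)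
        + B u v := by
    intro w u v
    rw [hQPadd u v, map_add, LinearMap.add_apply]; ring
  obtain ⟨Φ, hΦ⟩ : ∃ Φ : (Fin m ⊕ Fin m → ZMod 2) →
      {q : (Fin m ⊕ Fin m → ZMod 2) → ZMod 2 // ∀ u v, q (u + v) = q u + q v + B u v},
      ∀ w, (Φ w).1 = fun v => Cfsg.quadFormPlus m (ZMod 2) v + B v w :=
    ⟨fun w => ⟨fun v => Cfsg.quadFormPlus m (ZMod 2) v + B v w, hΦmem w⟩, fun w => rfl⟩
  have hΦinj : Function.Injective Φ := by
    intro w w' h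
    have h1 : ∀ v, B v w = B v w' := by
      intro v
      have h3 := congrFun (congrArg Subtype.val h) v
      rw [hΦ, hΦ] at h3
      exact add_left_cancel h3
    have h2 : w - w' = 0 := hBnd.2 (w - w') (fun v => by rw [map_sub, h1 v, sub_self])
    exact sub_eq_zero.mp h2
  have hΨinj : Function.Injective
      (fun q : {q : (Fin m ⊕ Fin m → ZMod 2) → ZMod 2 //
          ∀ u v, q (u + v) = q u + q v + B u v} =>
        fun x : Fin m ⊕ Fin m => q.1 (Pi.single x 1)) := by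
    rintro ⟨q, hq⟩ ⟨q', hq'⟩ h
    apply Subtype.ext
    show q = q'
    obtain ⟨Q, hQq, hQB⟩ := Cfsg.Agent.Helper5.qf_of_fun₂ q B hq
    obtain ⟨Q', hQq', hQB'⟩ := Cfsg.Agent.Helper5.qf_of_fun₂ q' B hq'
    have hpol : ∀ (Q₀ : QuadraticForm (ZMod 2) (Fin m ⊕ Fin m → ZMod 2)),
        QuadraticMap.polarBilin Q₀ = B → ∀ x y, QuadraticMap.polar ⇑Q₀ x y = B x y := by
      intro Q₀ h0 x y
      rw [← QuadraticMap.polarBilin_apply_apply, h0]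
    have h4 := Cfsg.Agent.Helper5.qf_isom_of_basis Q Q'
      (Pi.basisFun (ZMod 2) (Fin m ⊕ Fin m)) LinearMap.id (by
        intro i
        rw [LinearMap.id_apply, Pi.basisFun_apply, hQq, hQq']
        exact (congrFun h i).symm) (by
        intro i j
        rw [LinearMap.id_apply, LinearMap.id_apply, hpol Q hQB, hpol Q' hQB'])
    funext v
    have h3 := h4 v
    rw [LinearMap.id_apply, hQq, hQq'] at h3
    exact h3.symm
  have hcardV : Nat.card (Fin m ⊕ Fin m → ZMod 2) = 2 ^ (2 * m) := by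
    rw [Nat.card_eq_fintype_card, Fintype.card_fun, ZMod.card, Fintype.card_sum,
      Fintype.card_fin]
    congr 1; omega
  have hcardS : Nat.card {q : (Fin m ⊕ Fin m → ZMod 2) → ZMod 2 //
      ∀ u v, q (u + v) = q u + q v + B u v} = 2 ^ (2 * m) := by
    apply le_antisymm
    · rw [← hcardV]; exact Nat.card_le_card_of_injective _ hΨinj
    · rw [← hcardV]; exact Nat.card_le_card_of_injective Φ hΦinj
  have hΦbij : Function.Bijective Φ :=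
    hΦinj.bijective_of_nat_card_le (by rw [hcardS, hcardV])
  have hcls : ∀ q : (Fin m ⊕ Fin m → ZMod 2) → ZMod 2,
      (∀ u v, q (u + v) = q u + q v + B u v) →
      (∃ g : (Fin m ⊕ Fin m → ZMod 2) ≃ₗ[ZMod 2] (Fin m ⊕ Fin m → ZMod 2),
        ∀ v, q v = Cfsg.quadFormPlus m (ZMod 2) (g v)) ∨
      (∃ g : (Fin m ⊕ Fin m → ZMod 2) ≃ₗ[ZMod 2]
          ((Fin (m - 1) ⊕ Fin (m - 1)) ⊕ Fin 2 → ZMod 2),
        ∀ v, q v = Cfsg.quadFormMinus (m - 1) (ZMod 2) 1 1 (g v)) := by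
    intro q hq
    obtain ⟨Q, hQq, hQB⟩ := Cfsg.Agent.Helper5.qf_of_fun₂ q B hq
    have hQnd : (QuadraticMap.polarBilin Q).Nondegenerate := by rw [hQB]; exact hBnd
    rcases Cfsg.Agent.Helper5.qf_classify Q hQnd hm hV with ⟨g, hg⟩ | ⟨ζ, g, hζ, hg⟩
    · exact Or.inl ⟨g, fun v => by rw [← hQq, hg]⟩
    · have hζ1 : ζ = 1 := by
        have h3 : ∀ a : ZMod 2, a ≠ 0 → a = 1 := by decide
        apply h3
        intro h0
        apply hζ 0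
        rw [h0]; decide
      subst hζ1
      exact Or.inr ⟨g, fun v => by rw [← hQq, hg]⟩
  have hexcl : ∀ q : (Fin m ⊕ Fin m → ZMod 2) → ZMod 2,
      (∃ g : (Fin m ⊕ Fin m → ZMod 2) ≃ₗ[ZMod 2] (Fin m ⊕ Fin m → ZMod 2),
        ∀ v, q v = Cfsg.quadFormPlus m (ZMod 2) (g v)) →
      ¬ (∃ g : (Fin m ⊕ Fin m → ZMod 2) ≃ₗ[ZMod 2]
          ((Fin (m - 1) ⊕ Fin (m - 1)) ⊕ Fin 2 → ZMod 2),
        ∀ v, q v = Cfsg.quadFormMinus (m - 1) (ZMod 2) 1 1 (g v)) := by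
    rintro q ⟨g₁, h1⟩ ⟨g₂, h2⟩
    apply Cfsg.Agent.S2617.result hm (1 : ZMod 2) (by decide) (g₁.symm.trans g₂)
    intro v
    rw [LinearEquiv.trans_apply, ← h2, h1, LinearEquiv.apply_symm_apply]
  have p1 : 2 ^ m = 2 * 2 ^ (m - 1) := by
    have h3 : m = (m - 1) + 1 := by omega
    conv_lhs => rw [h3, pow_succ]
    ring
  have p2 : 2 ^ (2 * m) = 2 * 2 ^ (2 * m - 1) := by
    have h3 : 2 * m = (2 * m - 1) + 1 := by omega
    conv_lhs => rw [h3, pow_succ]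
    ring
  have p3 : 1 ≤ 2 ^ (m - 1) := Nat.one_le_two_pow
  have p5 : 2 ^ (m - 1) ≤ 2 ^ (2 * m - 1) := Nat.pow_le_pow_right (by norm_num) (by omega)
  have hplus : Nat.card {q : (Fin m ⊕ Fin m → ZMod 2) → ZMod 2 //
      (∀ u v, q (u + v) = q u + q v + B u v) ∧
      ∃ g : (Fin m ⊕ Fin m → ZMod 2) ≃ₗ[ZMod 2] (Fin m ⊕ Fin m → ZMod 2),
        ∀ v, q v = Cfsg.quadFormPlus m (ZMod 2) (g v)} = 2 ^ (2 * m - 1) + 2 ^ (m - 1) := by
    rw [Cfsg.Agent.Helper5.qf_abs_transfer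
      (fun q : (Fin m ⊕ Fin m → ZMod 2) → ZMod 2 => ∀ u v, q (u + v) = q u + q v + B u v)
      (fun q => ∃ g : (Fin m ⊕ Fin m → ZMod 2) ≃ₗ[ZMod 2] (Fin m ⊕ Fin m → ZMod 2),
        ∀ v, q v = Cfsg.quadFormPlus m (ZMod 2) (g v)) Φ hΦbij]
    have e3 : Nat.card {w : Fin m ⊕ Fin m → ZMod 2 //
        ∃ g : (Fin m ⊕ Fin m → ZMod 2) ≃ₗ[ZMod 2] (Fin m ⊕ Fin m → ZMod 2),
          ∀ v, (Φ w).1 v = Cfsg.quadFormPlus m (ZMod 2) (g v)}
        = Nat.card {w : Fin m ⊕ Fin m → ZMod 2 // Cfsg.quadFormPlus m (ZMod 2) w = 0} :=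
      Nat.card_congr (Equiv.subtypeEquivRight (fun w => by
        have h4 := (Cfsg.Agent.S2564.result m hm (Cfsg.quadFormPlus m (ZMod 2))
          (fun u v => by ring) w).2
        simp only [hB] at h4
        rw [hΦ]
        exact h4))
    rw [e3, Cfsg.Agent.S0289.result (F := ZMod 2) rfl m hm, hc2]
    omega
  refine ⟨hcardS, hcls, hplus, ?_⟩
  refine (Cfsg.Agent.Helper5.qf_abs_count _ _ _ hcls hexcl _ _ hcardS hplus).trans ?_
  omega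

end Cfsg.Agent.S2561
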