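import Cfsg.Statements.S2562
import Cfsg.Agent.Helper5.QFClass2
import Cfsg.Agent.Helper5.QFClass4
import Cfsg.Agent.S2617

set_option autoImplicit false
open Cfsg

namespace Cfsg.Agent.S2562

/-- Witt indices over the field of two elements, m ≥ 1: for the plus-type form Σ xᵢyᵢ in dimension 2m some m-dimensional subspace is totally singular and no totally singular subspace has larger dimension; for the minus-type form Σ xᵢyᵢ + (z₁² + z₁z₂ + z₂²) in dimension 2m the maximal dimension of a totally singular subspace is m − 1. -/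
theorem result (m : ℕ) (hm : 1 ≤ m) :
    (∃ U : Submodule (ZMod 2) (Fin m ⊕ Fin m → ZMod 2), (∀ u ∈ U, Cfsg.quadFormPlus m (ZMod 2) u = 0) ∧ Module.finrank (ZMod 2) ↥U = m) ∧
    (∀ U : Submodule (ZMod 2) (Fin m ⊕ Fin m → ZMod 2), (∀ u ∈ U, Cfsg.quadFormPlus m (ZMod 2) u = 0) → Module.finrank (ZMod 2) ↥U ≤ m) ∧
    (∃ U : Submodule (ZMod 2) ((Fin (m - 1) ⊕ Fin (m - 1)) ⊕ Fin 2 → ZMod 2), (∀ u ∈ U, Cfsg.quadFormMinus (m - 1) (ZMod 2) 1 1 u = 0) ∧ Module.finrank (ZMod 2) ↥U = m - 1) ∧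
    (∀ U : Submodule (ZMod 2) ((Fin (m - 1) ⊕ Fin (m - 1)) ⊕ Fin 2 → ZMod 2), (∀ u ∈ U, Cfsg.quadFormMinus (m - 1) (ZMod 2) 1 1 u = 0) → Module.finrank (ZMod 2) ↥U ≤ m - 1) := by
  classical
  have hBp : ∀ x y : Fin m ⊕ Fin m → ZMod 2, Cfsg.quadFormPlus m (ZMod 2) (x + y)
      - Cfsg.quadFormPlus m (ZMod 2) x - Cfsg.quadFormPlus m (ZMod 2) y
      = Cfsg.Agent.Helper5.qfPlusB (ZMod 2) m x y := Cfsg.Agent.Helper5.qfPlusB_polar (ZMod 2) m
  have hVp : Module.finrank (ZMod 2) (Fin m ⊕ Fin m → ZMod 2) = 2 * m := by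
    rw [Module.finrank_fintype_fun_eq_card, Fintype.card_sum, Fintype.card_fin]; omega
  have hVm : Module.finrank (ZMod 2) ((Fin (m - 1) ⊕ Fin (m - 1)) ⊕ Fin 2 → ZMod 2) = 2 * m := by
    rw [Module.finrank_fintype_fun_eq_card, Fintype.card_sum, Fintype.card_sum,
      Fintype.card_fin, Fintype.card_fin]
    omega
  refine ⟨?_, ?_, ?_, ?_⟩
  · obtain ⟨L, hL1, hL2⟩ : ∃ L : (Fin m → ZMod 2) →ₗ[ZMod 2] (Fin m ⊕ Fin m → ZMod 2),
        (∀ x i, L x (Sum.inl i) = x i) ∧ ∀ x i, L x (Sum.inr i) = 0 :=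
      ⟨LinearMap.pi (fun y : Fin m ⊕ Fin m =>
        Sum.elim (fun i => LinearMap.proj i) (fun _ => 0) y), fun x i => rfl, fun x i => rfl⟩
    have hinj : Function.Injective L := by
      intro x x' h
      funext i
      have h3 := congrFun h (Sum.inl i)
      rwa [hL1, hL1] at h3
    refine ⟨LinearMap.range L, ?_, ?_⟩
    · rintro u ⟨x, rfl⟩
      unfold Cfsg.quadFormPlus
      apply Finset.sum_eq_zero
      intro i _
      rw [hL2, mul_zero]
    · rw [LinearMap.finrank_range_of_inj hinj, Module.finrank_fin_fun]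
  · intro U hU
    have h3 := Cfsg.Agent.Helper5.qf_ts_finrank_le (Cfsg.Agent.Helper5.qfPlusB (ZMod 2) m)
      (Cfsg.Agent.Helper5.qfPlusB_nondeg (ZMod 2) m) U (by
        intro u hu u' hu'
        rw [← hBp, hU _ (U.add_mem hu hu'), hU u hu, hU u' hu']; simp)
    omega
  · obtain ⟨L, hL1, hL2, hL3⟩ : ∃ L : (Fin (m - 1) → ZMod 2) →ₗ[ZMod 2]
          ((Fin (m - 1) ⊕ Fin (m - 1)) ⊕ Fin 2 → ZMod 2),
        (∀ x i, L x (Sum.inl (Sum.inl i)) = x i) ∧ (∀ x i, L x (Sum.inl (Sum.inr i)) = 0) ∧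
          ∀ x j, L x (Sum.inr j) = 0 :=
      ⟨LinearMap.pi (fun y : (Fin (m - 1) ⊕ Fin (m - 1)) ⊕ Fin 2 =>
        Sum.elim (Sum.elim (fun i => LinearMap.proj i) (fun _ => 0)) (fun _ => 0) y),
        fun x i => rfl, fun x i => rfl, fun x j => rfl⟩
    have hinj : Function.Injective L := by
      intro x x' h
      funext i
      have h3 := congrFun h (Sum.inl (Sum.inl i))
      rwa [hL1, hL1] at h3
    refine ⟨LinearMap.range L, ?_, ?_⟩
    · rintro u ⟨x, rfl⟩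
      unfold Cfsg.quadFormMinus
      have hs : ∑ i : Fin (m - 1), L x (Sum.inl (Sum.inl i)) * L x (Sum.inl (Sum.inr i)) = 0 :=
        Finset.sum_eq_zero (fun i _ => by rw [hL2, mul_zero])
      rw [hs, hL3, hL3]
      simp
    · rw [LinearMap.finrank_range_of_inj hinj, Module.finrank_fin_fun]
  · intro U hU
    have hle := Cfsg.Agent.Helper5.qf_ts_finrank_le (Cfsg.Agent.Helper5.qfMinusB (m - 1))
      (Cfsg.Agent.Helper5.qfMinusB_nondeg (m - 1)) U (by
        intro u hu u' hu'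
        have h3 := Cfsg.Agent.Helper5.qfMinusB_polar (m - 1) u u'
        rw [hU _ (U.add_mem hu hu'), hU u hu, hU u' hu'] at h3
        simpa using h3.symm)
    have hne : Module.finrank (ZMod 2) U ≠ m := by
      intro hfin
      obtain ⟨Q, hQq, hQB⟩ := Cfsg.Agent.Helper5.qf_of_fun₂
        (Cfsg.quadFormMinus (m - 1) (ZMod 2) 1 1) (Cfsg.Agent.Helper5.qfMinusB (m - 1))
        (Cfsg.Agent.Helper5.qfMinusB_polar (m - 1))
      have hQnd : (QuadraticMap.polarBilin Q).Nondegenerate := by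
        rw [hQB]; exact Cfsg.Agent.Helper5.qfMinusB_nondeg (m - 1)
      obtain ⟨e, f, hH, -⟩ := Cfsg.Agent.Helper5.qf_ts_hyp Q hQnd U
        (fun u hu => by rw [hQq]; exact hU u hu) m hfin.ge
      obtain ⟨b, P1, P2, P3⟩ := Cfsg.Agent.Helper5.qf_basis_of_hyp hm hVm Q e f hH
      have hcl := Cfsg.Agent.Helper5.qf_cl_plus Q b P1 P2 P3
      apply Cfsg.Agent.S2617.result hm (1 : ZMod 2) (by decide) b.equivFun.symm
      intro v
      rw [← hQq, hcl, LinearEquiv.apply_symm_apply]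
    omega

end Cfsg.Agent.S2562
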