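import Cfsg.Statements.S2565
import Cfsg.Agent.Helper5.OrthOrd3
import Cfsg.Agent.Helper5.SymOrth2

set_option autoImplicit false
open Cfsg

namespace Cfsg.Agent.S2565

/-- The commutator subgroup of the full orthogonal group of the plus-type form Σ xᵢyᵢ in dimension 6 over the field of two elements (the group Ω⁺₆(2), of index 2) is isomorphic to the alternating group of degree 8. -/
theorem result :
    (Cfsg.Omega (ZMod 2) (Cfsg.quadFormPlus 3 (ZMod 2))).index = 2 ∧
    Nonempty (↥(Cfsg.Omega (ZMod 2) (Cfsg.quadFormPlus 3 (ZMod 2))) ≃* alternatingGroup (Fin 8)) := by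
  classical
  obtain ⟨φ, hφ⟩ : ∃ φ : Equiv.Perm (Fin 8) →*
      ↥(Cfsg.isometryGroup (ZMod 2) (Cfsg.quadFormPlus 3 (ZMod 2))), Function.Injective φ :=
    (Cfsg.Agent.Helper5.sym_orth 1 le_rfl).1 odd_one
  have hcard : Nat.card ↥(Cfsg.isometryGroup (ZMod 2) (Cfsg.quadFormPlus 3 (ZMod 2))) = 40320 := by
    rw [Cfsg.Agent.Helper5.go_plus_order (F := ZMod 2) (q := 2) (ZMod.card 2) 2]
    simp [Finset.prod_range_succ]
  haveI hfin : Finite ↥(Cfsg.isometryGroup (ZMod 2) (Cfsg.quadFormPlus 3 (ZMod 2))) :=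
    Nat.finite_of_card_ne_zero (by rw [hcard]; norm_num)
  have hbij : Function.Bijective φ := by
    rw [Nat.bijective_iff_injective_and_card]
    refine ⟨hφ, ?_⟩
    rw [hcard, Nat.card_perm]
    simp [Nat.factorial]
  obtain ⟨e, he⟩ : ∃ e : Equiv.Perm (Fin 8) ≃*
      ↥(Cfsg.isometryGroup (ZMod 2) (Cfsg.quadFormPlus 3 (ZMod 2))), True :=
    ⟨MulEquiv.ofBijective φ hbij, trivial⟩
  have hmap : Subgroup.map (e : Equiv.Perm (Fin 8) →* _) (commutator (Equiv.Perm (Fin 8)))
      = commutator ↥(Cfsg.isometryGroup (ZMod 2) (Cfsg.quadFormPlus 3 (ZMod 2))) := by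
    rw [commutator_def, Subgroup.map_commutator, Subgroup.map_top_of_surjective _ e.surjective,
      ← commutator_def]
  have hA : commutator (Equiv.Perm (Fin 8)) = alternatingGroup (Fin 8) :=
    alternatingGroup.commutator_perm_eq (by simp)
  constructor
  · show (commutator ↥(Cfsg.isometryGroup (ZMod 2) (Cfsg.quadFormPlus 3 (ZMod 2)))).index = 2
    rw [← hmap, Subgroup.index_map_equiv, hA, alternatingGroup.index_eq_two]
  · exact ⟨((e.subgroupMap (commutator _)).trans (MulEquiv.subgroupCongr hmap)).symm.trans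
      (MulEquiv.subgroupCongr hA)⟩

end Cfsg.Agent.S2565
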