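import Mathlib

namespace Cfsg.Agent.S2567

theorem unique_lift_prime_order {G : Type*} [Group G] [Finite G] (Z : Subgroup G) [Z.Normal]
    (hZ : Z ≤ Subgroup.center G) {r : ℕ} (hr : r.Prime) (hcop : ¬ r ∣ Nat.card Z) (x : G ⧸ Z)
    (hx : orderOf x = r) : ∃! g : G, (QuotientGroup.mk g : G ⧸ Z) = x ∧ orderOf g = r := by
  have hc : (Nat.card Z).Coprime r := (hr.coprime_iff_not_dvd.2 hcop).symm
  have hcomm : ∀ z ∈ Z, ∀ g : G, Commute g z := by
    intro z hz g
    exact (Subgroup.mem_center_iff.1 (hZ hz) g)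
  obtain ⟨g₀, rfl⟩ := QuotientGroup.mk_surjective x
  have hz : g₀ ^ r ∈ Z := by
    rw [← QuotientGroup.eq_one_iff, QuotientGroup.mk_pow, ← hx, pow_orderOf_eq_one]
  obtain ⟨w, hw⟩ := (powCoprime hc).surjective ⟨g₀ ^ r, hz⟩
  have hw' : (w : G) ^ r = g₀ ^ r := by
    have := congrArg Subtype.val hw
    simpa using this
  have hgr : (g₀ * (w : G)⁻¹) ^ r = 1 := by
    rw [(hcomm _ (Z.inv_mem w.2) g₀).mul_pow, inv_pow, hw', mul_inv_cancel]
  have hmk : (QuotientGroup.mk (g₀ * (w : G)⁻¹) : G ⧸ Z) = QuotientGroup.mk g₀ := by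
    rw [QuotientGroup.mk_mul, (QuotientGroup.eq_one_iff _).2 (Z.inv_mem w.2), mul_one]
  have hord : orderOf (g₀ * (w : G)⁻¹) = r := by
    rcases (Nat.dvd_prime hr).1 (orderOf_dvd_of_pow_eq_one hgr) with h | h
    · exfalso
      rw [orderOf_eq_one_iff] at h
      rw [h, QuotientGroup.mk_one] at hmk
      rw [← hmk, orderOf_one] at hx
      exact hr.one_lt.ne hx
    · exact h
  refine ⟨g₀ * (w : G)⁻¹, ⟨hmk, hord⟩, ?_⟩
  rintro g' ⟨hg'1, hg'2⟩
  have hz' : (g₀ * (w : G)⁻¹)⁻¹ * g' ∈ Z := by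
    rw [← QuotientGroup.eq, hmk, hg'1]
  have h1 : g' = (g₀ * (w : G)⁻¹) * ((g₀ * (w : G)⁻¹)⁻¹ * g') := by group
  have h2 : ((g₀ * (w : G)⁻¹)⁻¹ * g') ^ r = 1 := by
    have h3 : g' ^ r = 1 := by rw [← hg'2]; exact pow_orderOf_eq_one _
    rw [h1, (hcomm _ hz' _).mul_pow, hgr, one_mul] at h3
    exact h3
  have h4 : ((g₀ * (w : G)⁻¹)⁻¹ * g') ^ Nat.card Z = 1 := by
    have h6 : (⟨_, hz'⟩ : Z) ^ Nat.card Z = 1 := pow_card_eq_one'
    have h7 := congrArg Subtype.val h6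
    rw [Subgroup.coe_pow] at h7
    exact h7
  have h5 : orderOf ((g₀ * (w : G)⁻¹)⁻¹ * g') = 1 :=
    Nat.eq_one_of_dvd_coprimes hc (orderOf_dvd_of_pow_eq_one h4) (orderOf_dvd_of_pow_eq_one h2)
  rw [orderOf_eq_one_iff] at h5
  rw [h1, h5, mul_one]

/-- Lifting elements of prime order from PGL to GL: let F be a finite field with q elements, r a prime not dividing q − 1, and x an element of order r in GL_n(F) modulo its centre (the scalar matrices). Then x has exactly one preimage in GL_n(F) of order r. -/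
theorem result {F : Type*} [Field F] [Fintype F] {q n r : ℕ} (hF : Fintype.card F = q) (hr : r.Prime) (hdiv : ¬ r ∣ q - 1) (x : GL (Fin n) F ⧸ Subgroup.center (GL (Fin n) F)) (hx : orderOf x = r) : ∃! g : GL (Fin n) F, (QuotientGroup.mk g : GL (Fin n) F ⧸ Subgroup.center (GL (Fin n) F)) = x ∧ orderOf g = r := by
  classical
  apply unique_lift_prime_order _ le_rfl hr _ x hx
  intro h
  apply hdiv
  have h1 : Nat.card (Subgroup.center (GL (Fin n) F)) ∣ Nat.card Fˣ := by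
    rw [Matrix.GeneralLinearGroup.center_eq_range_scalar]
    exact Subgroup.card_range_dvd _
  have h2 : Nat.card Fˣ = q - 1 := by
    rw [Nat.card_eq_fintype_card, Fintype.card_units, hF]
  rw [h2] at h1
  exact dvd_trans h h1

end Cfsg.Agent.S2567
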