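import Cfsg.Statements.S2572
import Mathlib
import Cfsg.Agent.S2579

set_option autoImplicit false
open Cfsg

namespace Cfsg.Agent.S2572

open Matrix

variable {F : Type*} [Field F]

/-- index splitting -/
def eT (m : ℕ) : Fin 1 ⊕ (Fin m ⊕ Fin 1) ≃ Fin (m + 2) :=
  (Equiv.sumCongr (Equiv.refl (Fin 1)) finSumFinEquiv).trans
    (finSumFinEquiv.trans (finCongr (by omega)))

/-- first index -/
def i0 (m : ℕ) : Fin (m + 2) := eT m (Sum.inl 0)

/-- last index -/
def i1 (m : ℕ) : Fin (m + 2) := eT m (Sum.inr (Sum.inr 0))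

theorem i0_ne_i1 (m : ℕ) : i0 m ≠ i1 m := by
  intro h
  have h' : (Sum.inl 0 : Fin 1 ⊕ (Fin m ⊕ Fin 1)) = Sum.inr (Sum.inr 0) := (eT m).injective h
  exact Sum.inl_ne_inr h'

/-- shape of the centraliser of the standard transvection -/
def Cen (m : ℕ) (M : Matrix (Fin (m + 2)) (Fin (m + 2)) F) : Prop :=
  (∀ c, c ≠ i0 m → M (i0 m) c = 0) ∧ (∀ r, r ≠ i1 m → M r (i1 m) = 0) ∧
    M (i1 m) (i1 m) = M (i0 m) (i0 m)

theorem comm_iff (m : ℕ) (M : Matrix (Fin (m + 2)) (Fin (m + 2)) F) :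
    M * Matrix.vecMulVec (Pi.single (i1 m) 1) (Pi.single (i0 m) 1) =
      Matrix.vecMulVec (Pi.single (i1 m) 1) (Pi.single (i0 m) 1) * M ↔ Cen m M := by
  have key1 : ∀ r c, (M * Matrix.vecMulVec (Pi.single (i1 m) 1) (Pi.single (i0 m) 1) :
      Matrix (Fin (m + 2)) (Fin (m + 2)) F) r c =
      M r (i1 m) * (if c = i0 m then 1 else 0) := by
    intro r c
    rw [Matrix.mul_vecMulVec, Matrix.vecMulVec_apply, Matrix.mulVec_single_one, Matrix.col_apply,
      Pi.single_apply]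
  have key2 : ∀ r c, (Matrix.vecMulVec (Pi.single (i1 m) 1) (Pi.single (i0 m) 1) * M :
      Matrix (Fin (m + 2)) (Fin (m + 2)) F) r c =
      (if r = i1 m then 1 else 0) * M (i0 m) c := by
    intro r c
    rw [Matrix.vecMulVec_mul, Matrix.vecMulVec_apply, Matrix.single_one_vecMul, Matrix.row_apply,
      Pi.single_apply]
  constructor
  · intro h
    have h' : ∀ r c, M r (i1 m) * (if c = i0 m then 1 else 0) =
        (if r = i1 m then 1 else 0) * M (i0 m) c := by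
      intro r c; rw [← key1, ← key2, h]
    refine ⟨?_, ?_, ?_⟩
    · intro c hc
      have := h' (i1 m) c
      rw [if_neg hc, if_pos rfl, mul_zero, one_mul] at this
      exact this.symm
    · intro r hr
      have := h' r (i0 m)
      rw [if_pos rfl, if_neg hr, mul_one, zero_mul] at this
      exact this
    · have := h' (i1 m) (i0 m)
      rw [if_pos rfl, if_pos rfl, mul_one, one_mul] at this
      exact this
  · rintro ⟨h1, h2, h3⟩
    ext r c
    rw [key1, key2]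
    by_cases hr : r = i1 m
    · by_cases hc : c = i0 m
      · rw [hr, hc, if_pos rfl, if_pos rfl, mul_one, one_mul, h3]
      · rw [if_neg hc, if_pos hr, mul_zero, one_mul, h1 c hc]
    · rw [if_neg hr, zero_mul, h2 r hr, zero_mul]

theorem b11 (m : ℕ) (M : Matrix (Fin (m + 2)) (Fin (m + 2)) F) :
    (M.submatrix (eT m) (eT m)).toBlocks₁₁ = of fun _ _ => M (i0 m) (i0 m) := by
  ext i j
  show M (eT m (Sum.inl i)) (eT m (Sum.inl j)) = M (i0 m) (i0 m)
  rw [Subsingleton.elim i 0, Subsingleton.elim j 0]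
  rfl

theorem b12 (m : ℕ) (M : Matrix (Fin (m + 2)) (Fin (m + 2)) F) (h : Cen m M) :
    (M.submatrix (eT m) (eT m)).toBlocks₁₂ = 0 := by
  ext i j
  show M (eT m (Sum.inl i)) (eT m (Sum.inr j)) = 0
  rw [Subsingleton.elim i 0]
  refine h.1 _ (fun hc => ?_)
  have h' : (Sum.inr j : Fin 1 ⊕ (Fin m ⊕ Fin 1)) = Sum.inl 0 := (eT m).injective hc
  exact Sum.inr_ne_inl h'

theorem w12 (m : ℕ) (M : Matrix (Fin (m + 2)) (Fin (m + 2)) F) (h : Cen m M) :
    (M.submatrix (eT m) (eT m)).toBlocks₂₂.toBlocks₁₂ = 0 := by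
  ext i j
  show M (eT m (Sum.inr (Sum.inl i))) (eT m (Sum.inr (Sum.inr j))) = 0
  rw [Subsingleton.elim j 0]
  refine h.2.1 _ (fun hc => ?_)
  have h' : (Sum.inr (Sum.inl i) : Fin 1 ⊕ (Fin m ⊕ Fin 1)) = Sum.inr (Sum.inr 0) :=
    (eT m).injective hc
  exact Sum.inl_ne_inr (Sum.inr_injective h')

theorem w22 (m : ℕ) (M : Matrix (Fin (m + 2)) (Fin (m + 2)) F) (h : Cen m M) :
    (M.submatrix (eT m) (eT m)).toBlocks₂₂.toBlocks₂₂ = of fun _ _ => M (i0 m) (i0 m) := by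
  ext i j
  show M (eT m (Sum.inr (Sum.inr i))) (eT m (Sum.inr (Sum.inr j))) = M (i0 m) (i0 m)
  rw [Subsingleton.elim i 0, Subsingleton.elim j 0]
  exact h.2.2

/-- block shape -/
def blk (m : ℕ) (a : F) (Y : Matrix (Fin m) (Fin m) F) (c : Matrix (Fin m ⊕ Fin 1) (Fin 1) F)
    (y : Matrix (Fin 1) (Fin m) F) : Matrix (Fin 1 ⊕ (Fin m ⊕ Fin 1)) (Fin 1 ⊕ (Fin m ⊕ Fin 1)) F :=
  fromBlocks (of fun _ _ => a) 0 c (fromBlocks Y 0 y (of fun _ _ => a))

theorem cen_form (m : ℕ) (M : Matrix (Fin (m + 2)) (Fin (m + 2)) F) (h : Cen m M) :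
    M.submatrix (eT m) (eT m) = blk m (M (i0 m) (i0 m))
      (M.submatrix (eT m) (eT m)).toBlocks₂₂.toBlocks₁₁ (M.submatrix (eT m) (eT m)).toBlocks₂₁
      (M.submatrix (eT m) (eT m)).toBlocks₂₂.toBlocks₂₁ := by
  have hW := (Matrix.fromBlocks_toBlocks (M.submatrix (eT m) (eT m)).toBlocks₂₂).symm
  rw [w12 m M h, w22 m M h] at hW
  have hX := (Matrix.fromBlocks_toBlocks (M.submatrix (eT m) (eT m))).symm
  rw [b11 m M, b12 m M h] at hX
  unfold blk
  rw [← hW]
  exact hX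

theorem det_cen (m : ℕ) (M : Matrix (Fin (m + 2)) (Fin (m + 2)) F) (h : Cen m M) :
    M.det = M (i0 m) (i0 m) *
      ((M.submatrix (eT m) (eT m)).toBlocks₂₂.toBlocks₁₁.det * M (i0 m) (i0 m)) := by
  have h1 : M.det = (M.submatrix (eT m) (eT m)).det :=
    (Matrix.det_submatrix_equiv_self (eT m) M).symm
  rw [h1]
  conv_lhs => rw [cen_form m M h]
  unfold blk
  rw [Matrix.det_fromBlocks_zero₁₂, Matrix.det_fromBlocks_zero₁₂, Matrix.det_fin_one]
  rfl

theorem cen_build (m : ℕ) (a : F) (Y : Matrix (Fin m) (Fin m) F)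
    (c : Matrix (Fin m ⊕ Fin 1) (Fin 1) F) (y : Matrix (Fin 1) (Fin m) F) :
    Cen m ((blk m a Y c y).submatrix (eT m).symm (eT m).symm) := by
  have e0 : (eT m).symm (i0 m) = Sum.inl 0 := Equiv.symm_apply_apply (eT m) (Sum.inl 0)
  have e1 : (eT m).symm (i1 m) = Sum.inr (Sum.inr 0) :=
    Equiv.symm_apply_apply (eT m) (Sum.inr (Sum.inr 0))
  refine ⟨?_, ?_, ?_⟩
  · intro j hj
    show blk m a Y c y ((eT m).symm (i0 m)) ((eT m).symm j) = 0
    rw [e0]
    rcases hj' : (eT m).symm j with j' | j'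
    · exfalso
      apply hj
      rw [← Equiv.apply_symm_apply (eT m) j, hj', Subsingleton.elim j' 0]
      rfl
    · rfl
  · intro r hr
    show blk m a Y c y ((eT m).symm r) ((eT m).symm (i1 m)) = 0
    rw [e1]
    rcases hr' : (eT m).symm r with r' | r' | r'
    · rfl
    · rfl
    · exfalso
      apply hr
      rw [← Equiv.apply_symm_apply (eT m) r, hr', Subsingleton.elim r' 0]
      rfl
  · show blk m a Y c y ((eT m).symm (i1 m)) ((eT m).symm (i1 m)) =
      blk m a Y c y ((eT m).symm (i0 m)) ((eT m).symm (i0 m))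
    rw [e0, e1]
    rfl

theorem a_ne (m : ℕ) (X : GL (Fin (m + 2)) F) (h : Cen m X.1) : X.1 (i0 m) (i0 m) ≠ 0 := by
  have h1 := Matrix.GeneralLinearGroup.det_ne_zero X
  rw [det_cen m X.1 h] at h1
  exact left_ne_zero_of_mul h1

theorem Y_ne (m : ℕ) (X : GL (Fin (m + 2)) F) (h : Cen m X.1) :
    (X.1.submatrix (eT m) (eT m)).toBlocks₂₂.toBlocks₁₁.det ≠ 0 := by
  have h1 := Matrix.GeneralLinearGroup.det_ne_zero X
  rw [det_cen m X.1 h] at h1
  exact left_ne_zero_of_mul (right_ne_zero_of_mul h1)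

theorem det_build (m : ℕ) (a : Fˣ) (Y : GL (Fin m) F) (c : Matrix (Fin m ⊕ Fin 1) (Fin 1) F)
    (y : Matrix (Fin 1) (Fin m) F) :
    ((blk m a.1 Y.1 c y).submatrix (eT m).symm (eT m).symm).det ≠ 0 := by
  rw [Matrix.det_submatrix_equiv_self]
  unfold blk
  rw [Matrix.det_fromBlocks_zero₁₂, Matrix.det_fromBlocks_zero₁₂, Matrix.det_fin_one]
  exact mul_ne_zero a.ne_zero
    (mul_ne_zero (Matrix.GeneralLinearGroup.det_ne_zero Y) a.ne_zero)

/-- parametrisation of the centraliser -/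
noncomputable def cenEquiv (m : ℕ) :
    {X : GL (Fin (m + 2)) F // Cen m X.1} ≃
      Fˣ × GL (Fin m) F × Matrix (Fin m ⊕ Fin 1) (Fin 1) F × Matrix (Fin 1) (Fin m) F where
  toFun X := (Units.mk0 (X.1.1 (i0 m) (i0 m)) (a_ne m X.1 X.2),
     Matrix.GeneralLinearGroup.mkOfDetNeZero
      (X.1.1.submatrix (eT m) (eT m)).toBlocks₂₂.toBlocks₁₁ (Y_ne m X.1 X.2),
     (X.1.1.submatrix (eT m) (eT m)).toBlocks₂₁,
     (X.1.1.submatrix (eT m) (eT m)).toBlocks₂₂.toBlocks₂₁)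
  invFun x := ⟨Matrix.GeneralLinearGroup.mkOfDetNeZero
      ((blk m x.1.1 x.2.1.1 x.2.2.1 x.2.2.2).submatrix (eT m).symm (eT m).symm)
      (det_build m x.1 x.2.1 x.2.2.1 x.2.2.2), cen_build m _ _ _ _⟩
  left_inv X := by
    apply Subtype.ext
    apply Units.ext
    show (blk m (X.1.1 (i0 m) (i0 m)) (X.1.1.submatrix (eT m) (eT m)).toBlocks₂₂.toBlocks₁₁
      (X.1.1.submatrix (eT m) (eT m)).toBlocks₂₁
      (X.1.1.submatrix (eT m) (eT m)).toBlocks₂₂.toBlocks₂₁).submatrix (eT m).symm (eT m).symm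
        = X.1.1
    rw [← cen_form m X.1.1 X.2, Matrix.submatrix_submatrix]
    simp
  right_inv x := by
    obtain ⟨a, Y, c, y⟩ := x
    have hN : ((blk m a.1 Y.1 c y).submatrix (eT m).symm (eT m).symm).submatrix (eT m) (eT m) =
        blk m a.1 Y.1 c y := by
      rw [Matrix.submatrix_submatrix]; simp
    have ha : ((blk m a.1 Y.1 c y).submatrix (eT m).symm (eT m).symm) (i0 m) (i0 m) = a.1 := by
      have e0 : (eT m).symm (i0 m) = Sum.inl 0 := Equiv.symm_apply_apply (eT m) (Sum.inl 0)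
      rw [Matrix.submatrix_apply, e0]
      rfl
    refine Prod.ext (Units.ext ?_) (Prod.ext (Units.ext ?_) (Prod.ext ?_ ?_))
    · exact ha
    · show (((blk m a.1 Y.1 c y).submatrix (eT m).symm (eT m).symm).submatrix
        (eT m) (eT m)).toBlocks₂₂.toBlocks₁₁ = Y.1
      rw [hN]; rfl
    · show (((blk m a.1 Y.1 c y).submatrix (eT m).symm (eT m).symm).submatrix
        (eT m) (eT m)).toBlocks₂₁ = c
      rw [hN]; rfl
    · show (((blk m a.1 Y.1 c y).submatrix (eT m).symm (eT m).symm).submatrix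
        (eT m) (eT m)).toBlocks₂₂.toBlocks₂₁ = y
      rw [hN]; rfl

theorem card_centralizer_conj {G : Type*} [Group G] (P t : G) :
    Nat.card (Subgroup.centralizer ({t} : Set G)) =
      Nat.card (Subgroup.centralizer ({P⁻¹ * t * P} : Set G)) := by
  refine Nat.card_congr ⟨fun X => ⟨P⁻¹ * X.1 * P, ?_⟩, fun Y => ⟨P * Y.1 * P⁻¹, ?_⟩, ?_, ?_⟩
  · have hX : t * X.1 = X.1 * t := Subgroup.mem_centralizer_iff.1 X.2 t (Set.mem_singleton t)
    rw [Subgroup.mem_centralizer_iff]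
    intro h hh
    rw [Set.mem_singleton_iff] at hh
    rw [hh]
    calc P⁻¹ * t * P * (P⁻¹ * X.1 * P) = P⁻¹ * (t * X.1) * P := by group
      _ = P⁻¹ * (X.1 * t) * P := by rw [hX]
      _ = P⁻¹ * X.1 * P * (P⁻¹ * t * P) := by group
  · have hY : P⁻¹ * t * P * Y.1 = Y.1 * (P⁻¹ * t * P) :=
      Subgroup.mem_centralizer_iff.1 Y.2 _ (Set.mem_singleton _)
    rw [Subgroup.mem_centralizer_iff]
    intro h hh
    rw [Set.mem_singleton_iff] at hh
    rw [hh]
    calc t * (P * Y.1 * P⁻¹) = P * (P⁻¹ * t * P * Y.1) * P⁻¹ := by group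
      _ = P * (Y.1 * (P⁻¹ * t * P)) * P⁻¹ := by rw [hY]
      _ = P * Y.1 * P⁻¹ * t := by group
  · intro X
    apply Subtype.ext
    show P * (P⁻¹ * X.1 * P) * P⁻¹ = X.1
    group
  · intro Y
    apply Subtype.ext
    show P⁻¹ * (P * Y.1 * P⁻¹) * P = Y.1
    group

/-- Centraliser of a transvection in GL_n(q), n ≥ 2: if t − 1 has rank one and square zero, the centraliser of t in GL_n(q) has order q^(2n−3) (q − 1) |GL_(n−2)(q)| (a group of order q^(2n−3) extended by GL_1(q) × GL_(n−2)(q)). -/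
theorem result {F : Type*} [Field F] [Fintype F] {q n : ℕ} (hF : Fintype.card F = q) (hn : 2 ≤ n) (t : GL (Fin n) F) (ht : Cfsg.IsTransvection (t : Matrix (Fin n) (Fin n) F)) : Nat.card ↥(Subgroup.centralizer ({t} : Set (GL (Fin n) F))) = q ^ (2 * n - 3) * (q - 1) * ∏ i : Fin (n - 2), (q ^ (n - 2) - q ^ (i : ℕ)) := by
  classical
  subst hF
  obtain ⟨m, rfl⟩ : ∃ m, n = m + 2 := ⟨n - 2, by omega⟩
  obtain ⟨P, hP⟩ := Cfsg.Agent.S2579.exists_conj_std (t.1 - 1) ht.1 ht.2 (i0 m) (i1 m)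
    (i0_ne_i1 m)
  rw [card_centralizer_conj P t]
  have htP : t.1 * P.1 = P.1 * (1 + Matrix.vecMulVec (Pi.single (i1 m) 1) (Pi.single (i0 m) 1)) := by
    have h0 : t.1 * P.1 = (t.1 - 1) * P.1 + P.1 := by
      rw [Matrix.sub_mul, Matrix.one_mul, sub_add_cancel]
    rw [h0, hP, Matrix.mul_add, Matrix.mul_one]
    exact add_comm _ _
  obtain ⟨T, hTdef⟩ : ∃ T : GL (Fin (m + 2)) F, T = P⁻¹ * t * P := ⟨_, rfl⟩
  have hT : T.1 = 1 + Matrix.vecMulVec (Pi.single (i1 m) 1) (Pi.single (i0 m) 1) := by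
    rw [hTdef, Units.val_mul, Units.val_mul, Matrix.mul_assoc, htP, ← Matrix.mul_assoc,
      Units.inv_mul, Matrix.one_mul]
  rw [← hTdef]
  have h1 : Nat.card ↥(Subgroup.centralizer ({T} : Set (GL (Fin (m + 2)) F))) =
      Nat.card {X : GL (Fin (m + 2)) F // Cen m X.1} := by
    apply Nat.card_congr
    apply Equiv.subtypeEquivRight
    intro X
    rw [Subgroup.mem_centralizer_iff, ← comm_iff m X.1]
    constructor
    · intro h
      have h2 := congrArg Units.val (h T (Set.mem_singleton T))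
      rw [Units.val_mul, Units.val_mul, hT, Matrix.add_mul, Matrix.mul_add, Matrix.one_mul,
        Matrix.mul_one] at h2
      exact (add_left_cancel h2).symm
    · intro h T' hT'
      rw [Set.mem_singleton_iff] at hT'
      rw [hT']
      apply Units.ext
      rw [Units.val_mul, Units.val_mul, hT, Matrix.add_mul, Matrix.mul_add, Matrix.one_mul,
        Matrix.mul_one, h]
  have hu : Nat.card Fˣ = Fintype.card F - 1 := by
    rw [Nat.card_units, Nat.card_eq_fintype_card]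
  have hc1 : Nat.card (Matrix (Fin m ⊕ Fin 1) (Fin 1) F) = Fintype.card F ^ (m + 1) := by
    show Nat.card (Fin m ⊕ Fin 1 → Fin 1 → F) = _
    rw [Nat.card_fun, Nat.card_fun, Nat.card_sum, Nat.card_fin, Nat.card_fin,
      Nat.card_eq_fintype_card, pow_one]
  have hc2 : Nat.card (Matrix (Fin 1) (Fin m) F) = Fintype.card F ^ m := by
    show Nat.card (Fin 1 → Fin m → F) = _
    rw [Nat.card_fun, Nat.card_fun, Nat.card_fin, Nat.card_fin, Nat.card_eq_fintype_card,
      pow_one]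
  rw [h1, Nat.card_congr (cenEquiv m), Nat.card_prod, Nat.card_prod, Nat.card_prod,
    Matrix.card_GL_field, hu, hc1, hc2]
  have e1 : 2 * (m + 2) - 3 = (m + 1) + m := by omega
  have e2 : m + 2 - 2 = m := by omega
  rw [e1, e2, pow_add]
  ring

end Cfsg.Agent.S2572
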