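import Cfsg.Statements.S2571
import Mathlib
import Cfsg.Agent.S2572

set_option autoImplicit false
open Cfsg

namespace Cfsg.Agent.S2571

open Matrix

variable {F : Type*} [Field F]

theorem kerdim {V : Type*} [AddCommGroup V] [Module F V] [FiniteDimensional F V]
    (f g : V →ₗ[F] V) :
    Module.finrank F (LinearMap.ker (f ∘ₗ g)) ≤
      Module.finrank F (LinearMap.ker f) + Module.finrank F (LinearMap.ker g) := by
  let φ : LinearMap.ker (f ∘ₗ g) →ₗ[F] LinearMap.ker f :=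
    LinearMap.codRestrict (LinearMap.ker f) (g ∘ₗ (LinearMap.ker (f ∘ₗ g)).subtype) (by
      intro x
      exact LinearMap.mem_ker.2 (LinearMap.mem_ker.1 x.2))
  have h1 := LinearMap.finrank_range_add_finrank_ker φ
  have h2 : Module.finrank F (LinearMap.range φ) ≤ Module.finrank F (LinearMap.ker f) :=
    Submodule.finrank_le _
  let ψ : LinearMap.ker φ →ₗ[F] LinearMap.ker g :=
    LinearMap.codRestrict (LinearMap.ker g)
      ((LinearMap.ker (f ∘ₗ g)).subtype ∘ₗ (LinearMap.ker φ).subtype) (by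
      intro x
      have hx : φ x.1 = 0 := LinearMap.mem_ker.1 x.2
      have h3 := congrArg Subtype.val hx
      exact LinearMap.mem_ker.2 h3)
  have hψ : Function.Injective ψ := by
    intro x y hxy
    have h3 := congrArg Subtype.val hxy
    exact Subtype.ext (Subtype.ext h3)
  have h3 := LinearMap.finrank_le_finrank_of_injective hψ
  omega

theorem ker_pow_le {ι : Type} [Fintype ι] [DecidableEq ι] (N : Matrix ι ι F)
    (hk : Module.finrank F (LinearMap.ker N.mulVecLin) ≤ 1) (j : ℕ) :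
    Module.finrank F (LinearMap.ker (N ^ j).mulVecLin) ≤ j := by
  induction j with
  | zero =>
    rw [pow_zero, Matrix.mulVecLin_one, LinearMap.ker_id, finrank_bot]
  | succ j ih =>
    rw [pow_succ, Matrix.mulVecLin_mul]
    have := kerdim (N ^ j).mulVecLin N.mulVecLin
    omega

theorem pow_ne_zero_of_rank (m : ℕ) (N : Matrix (Fin (m + 1)) (Fin (m + 1)) F)
    (hreg : N.rank = m) : N ^ m ≠ 0 := by
  intro h0
  have h1 := LinearMap.finrank_range_add_finrank_ker N.mulVecLin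
  have h2 : Module.finrank F (LinearMap.range N.mulVecLin) = m := hreg
  rw [h2, Module.finrank_fintype_fun_eq_card, Fintype.card_fin] at h1
  have h3 := ker_pow_le N (by omega) m
  rw [h0, Matrix.mulVecLin_zero, LinearMap.ker_zero, finrank_top,
    Module.finrank_fintype_fun_eq_card, Fintype.card_fin] at h3
  omega

/-- standard nilpotent block -/
def Jm (m : ℕ) : Matrix (Fin (m + 1)) (Fin (m + 1)) F :=
  Matrix.of fun r c => if (r : ℕ) = (c : ℕ) + 1 then 1 else 0

/-- extension of a vector to natural indices -/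
def exv (m : ℕ) (a : Fin (m + 1) → F) : ℕ → F :=
  fun j => if h : j < m + 1 then a ⟨j, h⟩ else 0

/-- extension of a matrix to natural indices -/
def ex (m : ℕ) (X : Matrix (Fin (m + 1)) (Fin (m + 1)) F) : ℕ → ℕ → F :=
  fun i j => if h : i < m + 1 ∧ j < m + 1 then X ⟨i, h.1⟩ ⟨j, h.2⟩ else 0

theorem ex_of_lt (m : ℕ) (X : Matrix (Fin (m + 1)) (Fin (m + 1)) F) (i j : ℕ)
    (hi : i < m + 1) (hj : j < m + 1) : ex m X i j = X ⟨i, hi⟩ ⟨j, hj⟩ := dif_pos ⟨hi, hj⟩

theorem ex_of_not (m : ℕ) (X : Matrix (Fin (m + 1)) (Fin (m + 1)) F) (i j : ℕ)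
    (h : ¬ (i < m + 1 ∧ j < m + 1)) : ex m X i j = 0 := dif_neg h

theorem ex_fin (m : ℕ) (X : Matrix (Fin (m + 1)) (Fin (m + 1)) F) (r c : Fin (m + 1)) :
    ex m X r c = X r c := ex_of_lt m X r c r.2 c.2

theorem exv_fin (m : ℕ) (a : Fin (m + 1) → F) (r : Fin (m + 1)) : exv m a r = a r :=
  dif_pos r.2

theorem mul_Jm (m : ℕ) (X : Matrix (Fin (m + 1)) (Fin (m + 1)) F) (r c : Fin (m + 1)) :
    (X * Jm m : Matrix (Fin (m + 1)) (Fin (m + 1)) F) r c = ex m X r ((c : ℕ) + 1) := by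
  rw [Matrix.mul_apply]
  by_cases h : (c : ℕ) + 1 < m + 1
  · rw [ex_of_lt m X r ((c : ℕ) + 1) r.2 h,
      Finset.sum_eq_single (⟨(c : ℕ) + 1, h⟩ : Fin (m + 1))]
    · show X r ⟨(c : ℕ) + 1, h⟩ * (if (c : ℕ) + 1 = (c : ℕ) + 1 then 1 else 0) =
        X r ⟨(c : ℕ) + 1, h⟩
      rw [if_pos rfl, mul_one]
    · intro k _ hk
      show X r k * (if (k : ℕ) = (c : ℕ) + 1 then 1 else 0) = 0
      rw [if_neg (fun e => hk (Fin.ext e)), mul_zero]
    · intro hh; exact absurd (Finset.mem_univ _) hh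
  · rw [ex_of_not m X r ((c : ℕ) + 1) (fun hh => h hh.2)]
    apply Finset.sum_eq_zero
    intro k _
    show X r k * (if (k : ℕ) = (c : ℕ) + 1 then 1 else 0) = 0
    rw [if_neg (by have := k.2; omega), mul_zero]

theorem Jm_mul (m : ℕ) (X : Matrix (Fin (m + 1)) (Fin (m + 1)) F) (r c : Fin (m + 1)) :
    (Jm m * X : Matrix (Fin (m + 1)) (Fin (m + 1)) F) r c =
      if 0 < (r : ℕ) then ex m X ((r : ℕ) - 1) c else 0 := by
  rw [Matrix.mul_apply]
  by_cases h : 0 < (r : ℕ)
  · have hr : (r : ℕ) - 1 < m + 1 := by have := r.2; omega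
    rw [if_pos h, ex_of_lt m X ((r : ℕ) - 1) c hr c.2,
      Finset.sum_eq_single (⟨(r : ℕ) - 1, hr⟩ : Fin (m + 1))]
    · show (if (r : ℕ) = (r : ℕ) - 1 + 1 then (1 : F) else 0) * X ⟨(r : ℕ) - 1, hr⟩ c =
        X ⟨(r : ℕ) - 1, hr⟩ c
      rw [if_pos (by omega), one_mul]
    · intro k _ hk
      show (if (r : ℕ) = (k : ℕ) + 1 then (1 : F) else 0) * X k c = 0
      rw [if_neg (fun e => hk (Fin.ext (by show (k : ℕ) = (r : ℕ) - 1; omega))), zero_mul]
    · intro hh; exact absurd (Finset.mem_univ _) hh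
  · rw [if_neg h]
    apply Finset.sum_eq_zero
    intro k _
    show (if (r : ℕ) = (k : ℕ) + 1 then (1 : F) else 0) * X k c = 0
    rw [if_neg (by omega), zero_mul]

/-- Krylov matrix -/
def Kry (m : ℕ) (N : Matrix (Fin (m + 1)) (Fin (m + 1)) F) (v : Fin (m + 1) → F) :
    Matrix (Fin (m + 1)) (Fin (m + 1)) F :=
  Matrix.of fun r c => (N ^ (c : ℕ) *ᵥ v) r

theorem N_mul_Kry (m : ℕ) (N : Matrix (Fin (m + 1)) (Fin (m + 1)) F) (v : Fin (m + 1) → F)
    (hnil : N ^ (m + 1) = 0) : N * Kry m N v = Kry m N v * Jm m := by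
  ext r c
  rw [mul_Jm]
  have h1 : (N * Kry m N v) r c = (N ^ ((c : ℕ) + 1) *ᵥ v) r := by
    rw [pow_succ', ← Matrix.mulVec_mulVec]
    rfl
  rw [h1]
  by_cases h : (c : ℕ) + 1 < m + 1
  · rw [ex_of_lt m _ r ((c : ℕ) + 1) r.2 h]; rfl
  · rw [ex_of_not m _ r ((c : ℕ) + 1) (fun hh => h hh.2)]
    have hc : (c : ℕ) + 1 = m + 1 := by have := c.2; omega
    rw [hc, hnil, Matrix.zero_mulVec]; rfl

theorem Kry_det (m : ℕ) (N : Matrix (Fin (m + 1)) (Fin (m + 1)) F) (v : Fin (m + 1) → F)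
    (hnil : N ^ (m + 1) = 0) (hv : N ^ m *ᵥ v ≠ 0) : (Kry m N v).det ≠ 0 := by
  intro hdet
  obtain ⟨x, hx0, hx⟩ := Matrix.exists_mulVec_eq_zero_iff.2 hdet
  have hPx : Kry m N v *ᵥ x = ∑ c, x c • (N ^ (c : ℕ) *ᵥ v) := by
    ext r
    rw [Finset.sum_apply]
    show ∑ c, Kry m N v r c * x c = ∑ c, (x c • (N ^ (c : ℕ) *ᵥ v)) r
    apply Finset.sum_congr rfl
    intro c _
    show (N ^ (c : ℕ) *ᵥ v) r * x c = x c * (N ^ (c : ℕ) *ᵥ v) r
    ring
  rw [hPx] at hx
  have hall : ∀ (j : ℕ) (c : Fin (m + 1)), (c : ℕ) = j → x c = 0 := by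
    intro j
    induction j using Nat.strong_induction_on with
    | _ j ih =>
      intro c hc
      have h1 := congrArg (fun w => N ^ (m - (c : ℕ)) *ᵥ w) hx
      simp only [Matrix.mulVec_sum, Matrix.mulVec_smul, Matrix.mulVec_mulVec,
        Matrix.mulVec_zero] at h1
      rw [Finset.sum_eq_single c] at h1
      · rw [← pow_add, show m - (c : ℕ) + (c : ℕ) = m from by have := c.2; omega] at h1
        rcases smul_eq_zero.1 h1 with h | h
        · exact h
        · exact absurd h hv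
      · intro c' _ hc'
        by_cases hlt : (c' : ℕ) < (c : ℕ)
        · rw [ih c' (by omega) c' rfl, zero_smul]
        · have hgt : (c : ℕ) < (c' : ℕ) := by
            have hne : (c' : ℕ) ≠ (c : ℕ) := fun e => hc' (Fin.ext e)
            omega
          rw [← pow_add, show m - (c : ℕ) + (c' : ℕ) = (m + 1) + ((c' : ℕ) - (c : ℕ) - 1) from by
            have := c.2; omega, pow_add, hnil, Matrix.zero_mul, Matrix.zero_mulVec, smul_zero]
      · intro hh; exact absurd (Finset.mem_univ _) hh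
  exact hx0 (funext fun c => hall c c rfl)

/-- Toeplitz lower triangular matrix -/
def Toe (m : ℕ) (a : ℕ → F) : Matrix (Fin (m + 1)) (Fin (m + 1)) F :=
  Matrix.of fun r c => if (c : ℕ) ≤ (r : ℕ) then a ((r : ℕ) - (c : ℕ)) else 0

theorem ex_Toe (m : ℕ) (a : ℕ → F) (i j : ℕ) :
    ex m (Toe m a) i j =
      if i < m + 1 ∧ j < m + 1 then (if j ≤ i then a (i - j) else 0) else 0 := by
  by_cases h : i < m + 1 ∧ j < m + 1
  · rw [if_pos h, ex_of_lt m _ i j h.1 h.2]; rfl
  · rw [if_neg h, ex_of_not m _ i j h]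

theorem Toe_comm (m : ℕ) (a : ℕ → F) : Toe m a * Jm m = Jm m * Toe m a := by
  ext r c
  rw [mul_Jm, Jm_mul, ex_Toe, ex_Toe]
  have := r.2
  have := c.2
  split_ifs <;> first | rfl | (congr 1; omega) | (exfalso; omega)

theorem eq_Toe (m : ℕ) (X : Matrix (Fin (m + 1)) (Fin (m + 1)) F)
    (h : X * Jm m = Jm m * X) : X = Toe m (fun j => ex m X j 0) := by
  have hcomm : ∀ r c : Fin (m + 1), ex m X r ((c : ℕ) + 1) =
      if 0 < (r : ℕ) then ex m X ((r : ℕ) - 1) c else 0 := by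
    intro r c
    rw [← mul_Jm, ← Jm_mul, h]
  have key : ∀ (c r : ℕ), r < m + 1 → c < m + 1 →
      ex m X r c = if c ≤ r then ex m X (r - c) 0 else 0 := by
    intro c
    induction c with
    | zero => intro r hr _; rw [if_pos (Nat.zero_le r), Nat.sub_zero]
    | succ c ih =>
      intro r hr hc
      have h1 : ex m X r (c + 1) = if 0 < r then ex m X (r - 1) c else 0 :=
        hcomm ⟨r, hr⟩ ⟨c, by omega⟩
      rw [h1]
      by_cases hr0 : 0 < r
      · rw [if_pos hr0, ih (r - 1) (by omega) (by omega)]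
        by_cases hcr : c + 1 ≤ r
        · rw [if_pos hcr, if_pos (by omega), show r - 1 - c = r - (c + 1) from by omega]
        · rw [if_neg hcr, if_neg (by omega)]
      · rw [if_neg hr0, if_neg (by omega)]
  ext r c
  rw [← ex_fin m X r c, key c r r.2 c.2]
  rfl

theorem Toe_det (m : ℕ) (a : ℕ → F) : (Toe m a).det = a 0 ^ (m + 1) := by
  rw [Matrix.det_of_isLowerTriangular (Toe m a) (by
    intro i j hij
    have h : i < j := OrderDual.toDual_lt_toDual.1 hij
    have h' : (i : ℕ) < (j : ℕ) := h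
    show (if (j : ℕ) ≤ (i : ℕ) then a ((i : ℕ) - (j : ℕ)) else 0) = 0
    rw [if_neg (by omega)])]
  have hd : ∀ i : Fin (m + 1), Toe m a i i = a 0 := by
    intro i
    show (if (i : ℕ) ≤ (i : ℕ) then a ((i : ℕ) - (i : ℕ)) else 0) = a 0
    rw [if_pos le_rfl, Nat.sub_self]
  simp only [hd, Finset.prod_const, Finset.card_univ, Fintype.card_fin]

theorem exv_zero (m : ℕ) (a : Fin (m + 1) → F) : exv m a 0 = a 0 := by
  have h := exv_fin m a 0
  simpa using h

theorem exv_col (m : ℕ) (X : Matrix (Fin (m + 1)) (Fin (m + 1)) F) :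
    exv m (fun r => X r 0) = fun j => ex m X j 0 := by
  funext j
  by_cases h : j < m + 1
  · have h1 : exv m (fun r => X r 0) j = X ⟨j, h⟩ 0 := dif_pos h
    have h2 : ex m X j 0 = X ⟨j, h⟩ ⟨0, Nat.succ_pos m⟩ :=
      ex_of_lt m X j 0 h (Nat.succ_pos m)
    rw [h1, h2]
    first | rfl | exact congrArg (X ⟨j, h⟩) (Fin.ext (by simp))
  · have h1 : exv m (fun r => X r 0) j = 0 := dif_neg h
    rw [h1, ex_of_not m X j 0 (fun hh => h hh.1)]

theorem Toe_col (m : ℕ) (a : Fin (m + 1) → F) (r : Fin (m + 1)) :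
    Toe m (exv m a) r 0 = a r := by
  have h0 : ((0 : Fin (m + 1)) : ℕ) = 0 := by simp
  show (if ((0 : Fin (m + 1)) : ℕ) ≤ (r : ℕ) then
    exv m a ((r : ℕ) - ((0 : Fin (m + 1)) : ℕ)) else 0) = a r
  rw [h0, if_pos (Nat.zero_le _), Nat.sub_zero, exv_fin]

theorem col_ne (m : ℕ) (X : GL (Fin (m + 1)) F) (h : X.1 * Jm m = Jm m * X.1) :
    X.1 0 0 ≠ 0 := by
  have h1 := Matrix.GeneralLinearGroup.det_ne_zero X
  rw [eq_Toe m X.1 h, Toe_det] at h1
  have h2 : ex m X.1 0 0 ≠ 0 := fun e => h1 (by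
    show ex m X.1 0 0 ^ (m + 1) = 0
    rw [e]; exact zero_pow (Nat.succ_ne_zero m))
  have h3 : ex m X.1 0 0 = X.1 0 0 := by
    have h4 := ex_fin m X.1 0 0
    simpa using h4
  rwa [h3] at h2

/-- the centraliser of the standard regular unipotent -/
noncomputable def toeEquiv (m : ℕ) :
    {X : GL (Fin (m + 1)) F // X.1 * Jm m = Jm m * X.1} ≃
      {a : Fin (m + 1) → F // a 0 ≠ 0} where
  toFun X := ⟨fun r => X.1.1 r 0, col_ne m X.1 X.2⟩
  invFun a := ⟨Matrix.GeneralLinearGroup.mkOfDetNeZero (Toe m (exv m a.1)) (by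
      rw [Toe_det, exv_zero m a.1]
      exact pow_ne_zero _ a.2), Toe_comm m _⟩
  left_inv X := by
    apply Subtype.ext
    apply Units.ext
    show Toe m (exv m (fun r => X.1.1 r 0)) = X.1.1
    rw [exv_col m X.1.1]
    exact (eq_Toe m X.1.1 X.2).symm
  right_inv a := by
    apply Subtype.ext
    funext r
    show Toe m (exv m a.1) r 0 = a.1 r
    exact Toe_col m a.1 r

/-- counting first columns -/
noncomputable def subEquiv (m : ℕ) : {a : Fin (m + 1) → F // a 0 ≠ 0} ≃ Fˣ × (Fin m → F) where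
  toFun a := (Units.mk0 (a.1 0) a.2, Fin.tail a.1)
  invFun p := ⟨(Fin.cons p.1.1 p.2 : Fin (m + 1) → F), by
    rw [Fin.cons_zero]; exact p.1.ne_zero⟩
  left_inv a := Subtype.ext (Fin.cons_self_tail a.1)
  right_inv p := by
    refine Prod.ext (Units.ext ?_) ?_
    · show (Fin.cons p.1.1 p.2 : Fin (m + 1) → F) 0 = p.1.1
      exact Fin.cons_zero _ _
    · show Fin.tail (Fin.cons p.1.1 p.2 : Fin (m + 1) → F) = p.2
      exact Fin.tail_cons _ _

/-- Centraliser of a regular unipotent element in GL_n(q): if u is an invertible n × n matrix over the field with q elements, n ≥ 1, with (u − 1)^n = 0 and rank(u − 1) = n − 1 (a single unipotent Jordan block), then its centraliser in GL_n(q) has order (q − 1) q^(n−1). -/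
theorem result {F : Type*} [Field F] [Fintype F] {q n : ℕ} (hF : Fintype.card F = q) (hn : 1 ≤ n) (u : GL (Fin n) F) (hnil : ((u : Matrix (Fin n) (Fin n) F) - 1) ^ n = 0) (hreg : ((u : Matrix (Fin n) (Fin n) F) - 1).rank = n - 1) : Nat.card ↥(Subgroup.centralizer ({u} : Set (GL (Fin n) F))) = (q - 1) * q ^ (n - 1) := by
  classical
  subst hF
  obtain ⟨m, rfl⟩ : ∃ m, n = m + 1 := ⟨n - 1, by omega⟩
  rw [Nat.add_sub_cancel] at hreg
  have hNm := pow_ne_zero_of_rank m _ hreg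
  obtain ⟨v, hv⟩ : ∃ v, (u.1 - 1) ^ m *ᵥ v ≠ 0 := by
    by_contra hcon
    push Not at hcon
    apply hNm
    ext r c
    have h1 := congrFun (hcon (Pi.single c 1)) r
    rw [Matrix.mulVec_single_one] at h1
    exact h1
  obtain ⟨P, hP1⟩ : ∃ P : GL (Fin (m + 1)) F, P.1 = Kry m (u.1 - 1) v :=
    ⟨Matrix.GeneralLinearGroup.mkOfDetNeZero _ (Kry_det m _ v hnil hv), rfl⟩
  have hP : (u.1 - 1) * P.1 = P.1 * Jm m := by
    rw [hP1]; exact N_mul_Kry m _ v hnil
  rw [Cfsg.Agent.S2572.card_centralizer_conj P u]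
  have htP : u.1 * P.1 = P.1 * (1 + Jm m) := by
    have h0 : u.1 * P.1 = (u.1 - 1) * P.1 + P.1 := by
      rw [Matrix.sub_mul, Matrix.one_mul, sub_add_cancel]
    rw [h0, hP, Matrix.mul_add, Matrix.mul_one]
    exact add_comm _ _
  obtain ⟨T, hTdef⟩ : ∃ T : GL (Fin (m + 1)) F, T = P⁻¹ * u * P := ⟨_, rfl⟩
  have hT : T.1 = 1 + Jm m := by
    rw [hTdef, Units.val_mul, Units.val_mul, Matrix.mul_assoc, htP, ← Matrix.mul_assoc,
      Units.inv_mul, Matrix.one_mul]
  rw [← hTdef]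
  have h1 : Nat.card ↥(Subgroup.centralizer ({T} : Set (GL (Fin (m + 1)) F))) =
      Nat.card {X : GL (Fin (m + 1)) F // X.1 * Jm m = Jm m * X.1} := by
    apply Nat.card_congr
    apply Equiv.subtypeEquivRight
    intro X
    rw [Subgroup.mem_centralizer_iff]
    constructor
    · intro h
      have h2 := congrArg Units.val (h T (Set.mem_singleton T))
      rw [Units.val_mul, Units.val_mul, hT, Matrix.add_mul, Matrix.mul_add, Matrix.one_mul,
        Matrix.mul_one] at h2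
      exact (add_left_cancel h2).symm
    · intro h T' hT'
      rw [Set.mem_singleton_iff] at hT'
      rw [hT']
      apply Units.ext
      rw [Units.val_mul, Units.val_mul, hT, Matrix.add_mul, Matrix.mul_add, Matrix.one_mul,
        Matrix.mul_one, h]
  rw [h1, Nat.card_congr (toeEquiv m), Nat.card_congr (subEquiv m), Nat.card_prod,
    Nat.card_units, Nat.card_fun, Nat.card_fin, Nat.card_eq_fintype_card, Nat.add_sub_cancel]

end Cfsg.Agent.S2571
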