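import Mathlib
import Cfsg.Agent.Helper5.FieldPow

namespace Cfsg.Agent.S2575

/-- Which diagonal involutions of PGL_n(q) lie in PSL_n(q), q odd: for the diagonal matrix t with i entries −1 and n − i entries 1, some non-zero scalar multiple of t has determinant one if and only if i is even or the 2-part of q − 1 exceeds the 2-part of n (that is, −1 is an n-th power in the field exactly in the latter case). -/
theorem result {F : Type*} [Field F] [Fintype F] {q : ℕ} (hF : Fintype.card F = q) (hq : Odd q) {n : ℕ} (hn : 1 ≤ n) (i : ℕ) (hi : i ≤ n) : (∃ c : F, c ≠ 0 ∧ (c • Matrix.diagonal (fun j : Fin n => if (j : ℕ) < i then (-1 : F) else 1)).det = 1) ↔ (Even i ∨ padicValNat 2 n < padicValNat 2 (q - 1)) := by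
  have hdet : ∀ c : F, (c • Matrix.diagonal (fun j : Fin n => if (j : ℕ) < i then (-1 : F) else 1)).det
      = c ^ n * (-1) ^ i := by
    intro c
    rw [Matrix.det_smul, Matrix.det_diagonal, Fintype.card_fin, Finset.prod_ite, Finset.prod_const,
      Finset.prod_const_one, mul_one]
    congr 2
    have := Fin.card_filter_val_lt (n := n) (m := i)
    rw [min_eq_right hi] at this
    convert this
  constructor
  · rintro ⟨c, hc, hcd⟩
    rw [hdet] at hcd
    rcases Nat.even_or_odd i with he | ho
    · exact Or.inl he
    · right
      rw [ho.neg_one_pow] at hcd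
      apply (Helper5.exists_pow_eq_neg_one_iff hF hq hn).1
      exact ⟨c, hc, by linear_combination (-1 : F) * hcd⟩
  · intro h
    rcases Nat.even_or_odd i with he | ho
    · refine ⟨1, one_ne_zero, ?_⟩
      rw [hdet, he.neg_one_pow]; simp
    · have h2 : padicValNat 2 n < padicValNat 2 (q - 1) := by
        rcases h with h | h
        · exact absurd h (Nat.not_even_iff_odd.2 ho)
        · exact h
      obtain ⟨c, hc, hcn⟩ := (Helper5.exists_pow_eq_neg_one_iff hF hq hn).2 h2
      refine ⟨c, hc, ?_⟩
      rw [hdet, ho.neg_one_pow, hcn]; norm_num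

end Cfsg.Agent.S2575
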