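import Mathlib
import Cfsg.Agent.Helper5.FieldPow

namespace Cfsg.Agent.S2576

/-- Which involutions of PGL_2m(q) coming from a scalar of the quadratic extension field lie in PSL_2m(q), q odd: let μ generate the Sylow 2-subgroup of the multiplicative group of the field with q elements (μ has order the 2-part of q − 1) and let t be the block-diagonal matrix with m diagonal blocks [[0, 1], [μ, 0]] (so t² is the scalar μ and t is an involution modulo scalars). Then some non-zero scalar multiple of t has determinant one if and only if q ≡ 3 (mod 4) or the 2-part of q − 1 is less than the 2-part of 2m. -/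
theorem result {F : Type*} [Field F] [Fintype F] {q : ℕ} (hF : Fintype.card F = q) (hq : Odd q) {m : ℕ} (hm : 1 ≤ m) (μ : F) (hμ : orderOf μ = 2 ^ padicValNat 2 (q - 1)) : (∃ c : F, c ≠ 0 ∧ (c • Matrix.blockDiagonal (fun _ : Fin m => !![(0 : F), 1; μ, 0])).det = 1) ↔ (q % 4 = 3 ∨ padicValNat 2 (q - 1) < padicValNat 2 (2 * m)) := by
  classical
  have h2 : (2 : F) ≠ 0 := by
    apply Ring.two_ne_zero
    intro h
    have := FiniteField.even_card_of_char_two h
    rw [hF] at this
    obtain ⟨t, ht⟩ := hq
    omega
  have hneg : (-1 : F) ≠ 1 := by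
    intro h
    apply h2
    linear_combination (-1 : F) * h
  have hq1 : q - 1 ≠ 0 := by
    have : 1 < Fintype.card F := Fintype.one_lt_card
    rw [hF] at this
    omega
  have hdet : ∀ c : F, (c • Matrix.blockDiagonal (fun _ : Fin m => !![(0 : F), 1; μ, 0])).det
      = c ^ (2 * m) * (-μ) ^ m := by
    intro c
    rw [Matrix.det_smul, Matrix.det_blockDiagonal, Fintype.card_prod, Fintype.card_fin,
      Fintype.card_fin, Finset.prod_const, Finset.card_univ, Fintype.card_fin, Matrix.det_fin_two_of]
    congr 2
    ring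
  have hv2m : padicValNat 2 (2 * m) = padicValNat 2 m + 1 := by
    rw [padicValNat.mul (by norm_num) (by omega), padicValNat.self (by norm_num), add_comm]
  have hμ0 : μ ≠ 0 := by
    rintro rfl
    rw [orderOf_zero] at hμ    -- orderOf (0 : F) = 0
    exact (pow_ne_zero _ (by norm_num)) hμ.symm
  have hμN : μ ^ (q - 1) = 1 := by
    rw [← hF]
    exact FiniteField.pow_card_sub_one_eq_one μ hμ0
  have ha1 : 1 ≤ padicValNat 2 (q - 1) := by
    apply one_le_padicValNat_of_dvd hq1
    obtain ⟨t, ht⟩ := hq
    exact ⟨t, by omega⟩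
  constructor
  · rintro ⟨c, hc, hcd⟩
    rw [hdet] at hcd
    obtain ⟨t, ht⟩ := hq
    by_cases h4 : q % 4 = 3
    · exact Or.inl h4
    · right
      rw [hv2m]
      by_contra hcon
      have hlt : padicValNat 2 m < padicValNat 2 (q - 1) := by omega
      -- 4 ∣ q - 1
      have h4' : 4 ∣ q - 1 := by omega
      obtain ⟨N2, hN2⟩ : 2 ∣ q - 1 := dvd_trans (by norm_num) h4'
      have hN2even : Even N2 := by
        obtain ⟨j, hj⟩ := h4'
        exact ⟨j, by omega⟩
      have hN2ne : N2 ≠ 0 := by omega
      -- μ ^ N2 = -1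
      have hμN2 : μ ^ N2 = -1 := by
        have h5 : μ ^ N2 * μ ^ N2 = 1 := by rw [← pow_add, ← two_mul, ← hN2]; exact hμN
        rcases mul_self_eq_one_iff.1 h5 with h6 | h6
        · exfalso
          have h7 := orderOf_dvd_of_pow_eq_one h6
          rw [hμ] at h7
          have h8 := (padicValNat_dvd_iff_le hN2ne).1 h7
          have h9 : padicValNat 2 (q - 1) = padicValNat 2 N2 + 1 := by
            rw [hN2, padicValNat.mul (by norm_num) hN2ne, padicValNat.self (by norm_num), add_comm]
          omega
        · exact h6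
      -- w = c^2 * (-μ)
      have hwm : (c ^ 2 * (-μ)) ^ m = 1 := by
        rw [mul_pow, ← pow_mul]; exact hcd
      have hcN : c ^ (q - 1) = 1 := by
        rw [← hF]
        exact FiniteField.pow_card_sub_one_eq_one c hc
      have hwN : (c ^ 2 * (-μ)) ^ (2 * N2) = 1 := by
        rw [← hN2, mul_pow, ← pow_mul, mul_comm 2 (q - 1), pow_mul, hcN, one_pow, one_mul, neg_pow,
          hμN, mul_one]
        have : Even (q - 1) := ⟨N2, by omega⟩
        exact this.neg_one_pow
      have hwN2 : (c ^ 2 * (-μ)) ^ N2 = 1 := by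
        by_contra hne
        have h5 := Helper5.padicValNat_lt_of_dvd_two_mul (orderOf (c ^ 2 * (-μ))) N2 hN2ne
          (orderOf_dvd_of_pow_eq_one hwN) (fun h => hne (orderOf_dvd_iff_pow_eq_one.1 h))
        have h6 : padicValNat 2 (orderOf (c ^ 2 * (-μ))) ≤ padicValNat 2 m :=
          (padicValNat_dvd_iff_le (by omega)).1
            (dvd_trans pow_padicValNat_dvd (orderOf_dvd_of_pow_eq_one hwm))
        have h9 : padicValNat 2 (q - 1) = padicValNat 2 N2 + 1 := by
          rw [hN2, padicValNat.mul (by norm_num) hN2ne, padicValNat.self (by norm_num), add_comm]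
        omega
      have hwN2' : (c ^ 2 * (-μ)) ^ N2 = -1 := by
        rw [mul_pow, ← pow_mul, ← hN2, hcN, one_mul, neg_pow, hμN2, hN2even.neg_one_pow, one_mul]
      rw [hwN2] at hwN2'
      exact hneg hwN2'.symm
  · intro h
    refine ⟨1, one_ne_zero, ?_⟩
    rw [hdet, one_pow, one_mul]
    rcases h with h | h
    · -- a = 1
      have ha : padicValNat 2 (q - 1) = 1 := by
        have h5 : ¬ (2 ^ 2 ∣ q - 1) := by
          norm_num
          omega
        rw [padicValNat_dvd_iff_le hq1] at h5
        omega
      rw [ha, pow_one] at hμ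
      have h6 : μ * μ = 1 := by
        have := pow_orderOf_eq_one μ
        rw [hμ, sq] at this
        exact this
      rcases mul_self_eq_one_iff.1 h6 with h7 | h7
      · exfalso
        rw [h7, orderOf_one] at hμ
        omega
      · rw [h7, neg_neg, one_pow]
    · rw [hv2m] at h
      have h5 : 2 ^ padicValNat 2 (q - 1) ∣ m :=
        (padicValNat_dvd_iff_le (by omega)).2 (by omega)
      have h6 : μ ^ m = 1 := by
        rw [← hμ] at h5
        exact orderOf_dvd_iff_pow_eq_one.1 h5
      have h7 : Even m := by
        have : 2 ∣ m := dvd_trans (dvd_pow_self 2 (by omega)) h5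
        exact even_iff_two_dvd.2 this
      rw [neg_pow, h6, h7.neg_one_pow, one_mul]

end Cfsg.Agent.S2576
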