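import Cfsg.Statements.S2578
import Mathlib
import Cfsg.Agent.S2571
import Cfsg.Agent.S0783

set_option autoImplicit false
open Cfsg

namespace Cfsg.Agent.S2578

open Matrix Cfsg.Agent.S2571

variable {F : Type*} [Field F]

theorem Jm_pow (m k : ℕ) : (Jm m : Matrix (Fin (m + 1)) (Fin (m + 1)) F) ^ k =
    Matrix.of fun r c : Fin (m + 1) => if (r : ℕ) = (c : ℕ) + k then 1 else 0 := by
  induction k with
  | zero =>
    ext r c
    rw [pow_zero, Matrix.one_apply]
    show (if r = c then (1 : F) else 0) = if (r : ℕ) = (c : ℕ) + 0 then 1 else 0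
    by_cases h : r = c
    · rw [if_pos h, if_pos (by have := congrArg Fin.val h; omega)]
    · rw [if_neg h, if_neg (fun e => h (Fin.ext (by omega)))]
  | succ k ih =>
    ext r c
    rw [pow_succ, mul_Jm, ih]
    show ex m (Matrix.of fun r c : Fin (m + 1) => if (r : ℕ) = (c : ℕ) + k then (1 : F) else 0)
      r ((c : ℕ) + 1) = if (r : ℕ) = (c : ℕ) + (k + 1) then 1 else 0
    by_cases h : (c : ℕ) + 1 < m + 1
    · rw [ex_of_lt m _ r ((c : ℕ) + 1) r.2 h]
      show (if (r : ℕ) = (c : ℕ) + 1 + k then (1 : F) else 0) = _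
      by_cases h2 : (r : ℕ) = (c : ℕ) + 1 + k
      · rw [if_pos h2, if_pos (by omega)]
      · rw [if_neg h2, if_neg (by omega)]
    · rw [ex_of_not m _ r ((c : ℕ) + 1) (fun hh => h hh.2), if_neg (by have := r.2; omega)]

theorem Jm_mulVec (m : ℕ) (x : Fin (m + 1) → F) (r : Fin (m + 1)) :
    (Jm m *ᵥ x) r = if 0 < (r : ℕ) then exv m x ((r : ℕ) - 1) else 0 := by
  show ∑ c, Jm m r c * x c = _
  by_cases h : 0 < (r : ℕ)
  · have hr : (r : ℕ) - 1 < m + 1 := by have := r.2; omega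
    rw [if_pos h, Finset.sum_eq_single (⟨(r : ℕ) - 1, hr⟩ : Fin (m + 1))]
    · show (if (r : ℕ) = (r : ℕ) - 1 + 1 then (1 : F) else 0) * x ⟨(r : ℕ) - 1, hr⟩ =
        exv m x ((r : ℕ) - 1)
      rw [if_pos (by omega), one_mul]
      exact (show exv m x ((r : ℕ) - 1) = x ⟨(r : ℕ) - 1, hr⟩ from dif_pos hr).symm
    · intro k _ hk
      show (if (r : ℕ) = (k : ℕ) + 1 then (1 : F) else 0) * x k = 0
      rw [if_neg (fun e => hk (Fin.ext (by show (k : ℕ) = (r : ℕ) - 1; omega))), zero_mul]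
    · intro hh; exact absurd (Finset.mem_univ _) hh
  · rw [if_neg h]
    apply Finset.sum_eq_zero
    intro k _
    show (if (r : ℕ) = (k : ℕ) + 1 then (1 : F) else 0) * x k = 0
    rw [if_neg (by omega), zero_mul]

theorem Jm_rank (m : ℕ) : (Jm m : Matrix (Fin (m + 1)) (Fin (m + 1)) F).rank = m := by
  classical
  have h1 := LinearMap.finrank_range_add_finrank_ker
    (Jm m : Matrix (Fin (m + 1)) (Fin (m + 1)) F).mulVecLin
  rw [Module.finrank_fintype_fun_eq_card, Fintype.card_fin] at h1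
  have hker : LinearMap.ker (Jm m : Matrix (Fin (m + 1)) (Fin (m + 1)) F).mulVecLin =
      Submodule.span F {(Pi.single (Fin.last m) 1 : Fin (m + 1) → F)} := by
    ext x
    rw [LinearMap.mem_ker, Matrix.mulVecLin_apply, Submodule.mem_span_singleton]
    constructor
    · intro hx
      refine ⟨x (Fin.last m), ?_⟩
      ext c
      rw [Pi.smul_apply, Pi.single_apply, smul_eq_mul]
      by_cases hc : c = Fin.last m
      · rw [if_pos hc, mul_one, hc]
      · rw [if_neg hc, mul_zero]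
        have hcm : (c : ℕ) < m := by
          have h5 := c.2
          have h6 : (c : ℕ) ≠ m := fun e => hc (Fin.ext e)
          omega
        have h2 := congrFun hx ⟨(c : ℕ) + 1, by omega⟩
        rw [Jm_mulVec] at h2
        have h3 : exv m x (c : ℕ) = 0 := by
          have h4 : (if 0 < (c : ℕ) + 1 then exv m x ((c : ℕ) + 1 - 1) else 0) = (0 : F) := h2
          rwa [if_pos (Nat.succ_pos _), Nat.add_sub_cancel] at h4
        rw [exv_fin] at h3
        exact h3.symm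
    · rintro ⟨a, rfl⟩
      ext r
      rw [Jm_mulVec]
      by_cases h : 0 < (r : ℕ)
      · rw [if_pos h]
        have hr : (r : ℕ) - 1 < m + 1 := by have := r.2; omega
        have hne : (⟨(r : ℕ) - 1, hr⟩ : Fin (m + 1)) ≠ Fin.last m := by
          intro e
          have h5 := congrArg Fin.val e
          simp at h5
          have h6 := r.2
          omega
        have h7 : exv m (a • (Pi.single (Fin.last m) 1 : Fin (m + 1) → F)) ((r : ℕ) - 1) =
            (a • (Pi.single (Fin.last m) 1 : Fin (m + 1) → F)) ⟨(r : ℕ) - 1, hr⟩ := dif_pos hr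
        rw [h7, Pi.smul_apply, Pi.single_apply, if_neg hne, smul_zero] <;> rfl
      · rw [if_neg h] <;> rfl
  have hne0 : (Pi.single (Fin.last m) 1 : Fin (m + 1) → F) ≠ 0 := by
    intro h0
    have h5 := congrFun h0 (Fin.last m)
    simp at h5
  rw [hker, finrank_span_singleton hne0] at h1
  have h2 : Module.finrank F (LinearMap.range
      (Jm m : Matrix (Fin (m + 1)) (Fin (m + 1)) F).mulVecLin) =
      (Jm m : Matrix (Fin (m + 1)) (Fin (m + 1)) F).rank := rfl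
  omega

theorem det_one_add_Jm (m : ℕ) :
    (1 + Jm m : Matrix (Fin (m + 1)) (Fin (m + 1)) F).det = 1 := by
  rw [Matrix.det_of_isLowerTriangular _ (by
    intro i j hij
    have h : i < j := OrderDual.toDual_lt_toDual.1 hij
    have h' : (i : ℕ) < (j : ℕ) := h
    rw [Matrix.add_apply, Matrix.one_apply_ne (Fin.ne_of_lt h)]
    show (0 : F) + (if (i : ℕ) = (j : ℕ) + 1 then 1 else 0) = 0
    rw [if_neg (by omega), add_zero])]
  apply Finset.prod_eq_one
  intro i _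
  rw [Matrix.add_apply, Matrix.one_apply_eq]
  show (1 : F) + (if (i : ℕ) = (i : ℕ) + 1 then 1 else 0) = 1
  rw [if_neg (by omega), add_zero]

theorem exists_norm (m : ℕ) (u : Matrix (Fin (m + 1)) (Fin (m + 1)) F)
    (hnil : (u - 1) ^ (m + 1) = 0) (hreg : (u - 1).rank = m) :
    ∃ P : GL (Fin (m + 1)) F, u * P.1 = P.1 * (1 + Jm m) := by
  have hNm := pow_ne_zero_of_rank m _ hreg
  obtain ⟨v, hv⟩ : ∃ v, (u - 1) ^ m *ᵥ v ≠ 0 := by
    by_contra hcon
    push Not at hcon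
    apply hNm
    ext r c
    have h1 := congrFun (hcon (Pi.single c 1)) r
    rw [Matrix.mulVec_single_one] at h1
    exact h1
  obtain ⟨P, hP1⟩ : ∃ P : GL (Fin (m + 1)) F, P.1 = Kry m (u - 1) v :=
    ⟨Matrix.GeneralLinearGroup.mkOfDetNeZero _ (Kry_det m _ v hnil hv), rfl⟩
  refine ⟨P, ?_⟩
  have hP : (u - 1) * P.1 = P.1 * Jm m := by
    rw [hP1]; exact N_mul_Kry m _ v hnil
  have h0 : u * P.1 = (u - 1) * P.1 + P.1 := by
    rw [Matrix.sub_mul, Matrix.one_mul, sub_add_cancel]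
  rw [h0, hP, Matrix.mul_add, Matrix.mul_one]
  exact add_comm _ _

theorem det_comm (m : ℕ) (c : GL (Fin (m + 1)) F)
    (h : c.1 * (1 + Jm m) = (1 + Jm m) * c.1) :
    ∃ a : Fˣ, Matrix.GeneralLinearGroup.det c = a ^ (m + 1) := by
  have h' : c.1 * Jm m = Jm m * c.1 := by
    rw [Matrix.mul_add, Matrix.add_mul, Matrix.mul_one, Matrix.one_mul] at h
    exact add_left_cancel h
  have hne := col_ne m c h'
  refine ⟨Units.mk0 _ hne, ?_⟩
  apply Units.ext
  rw [Matrix.GeneralLinearGroup.val_det_apply, Units.val_pow_eq_pow_val, Units.val_mk0]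
  have h1 := eq_Toe m c.1 h'
  have h2 : c.1.det = (Toe m (fun j => ex m c.1 j 0)).det := by rw [← h1]
  rw [h2, Toe_det]
  have h3 : ex m c.1 0 0 = c.1 0 0 := by
    have h4 := ex_fin m c.1 0 0
    simpa using h4
  show ex m c.1 0 0 ^ (m + 1) = _
  rw [h3]

theorem conj_inv {ι : Type} [Fintype ι] [DecidableEq ι] (P : GL ι F) (u U : Matrix ι ι F)
    (h : u * P.1 = P.1 * U) : (P⁻¹).1 * u = U * (P⁻¹).1 := by
  calc (P⁻¹).1 * u = (P⁻¹).1 * u * (P.1 * (P⁻¹).1) := by rw [Units.mul_inv, Matrix.mul_one]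
    _ = (P⁻¹).1 * (u * P.1) * (P⁻¹).1 := by simp only [Matrix.mul_assoc]
    _ = (P⁻¹).1 * (P.1 * U) * (P⁻¹).1 := by rw [h]
    _ = U * (P⁻¹).1 := by rw [← Matrix.mul_assoc, Units.inv_mul, Matrix.one_mul]

theorem lemD (m : ℕ) (u₁ u₂ : SpecialLinearGroup (Fin (m + 1)) F) (P₁ P₂ : GL (Fin (m + 1)) F)
    (h1 : u₁.1 * P₁.1 = P₁.1 * (1 + Jm m)) (h2 : u₂.1 * P₂.1 = P₂.1 * (1 + Jm m))
    (hc : IsConj u₁ u₂) :
    ∃ a : Fˣ, Matrix.GeneralLinearGroup.det P₂ =
      Matrix.GeneralLinearGroup.det P₁ * a ^ (m + 1) := by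
  obtain ⟨g, hg⟩ := isConj_iff.1 hc
  have hg' : g.1 * u₁.1 = u₂.1 * g.1 := by
    have h3 : g * u₁ = u₂ * g := by rw [← hg]; group
    exact congrArg Subtype.val h3
  obtain ⟨G, hG1⟩ : ∃ G : GL (Fin (m + 1)) F, G.1 = g.1 :=
    ⟨Matrix.GeneralLinearGroup.mkOfDetNeZero g.1 (by rw [g.2]; exact one_ne_zero), rfl⟩
  have hGdet : Matrix.GeneralLinearGroup.det G = 1 := by
    apply Units.ext
    rw [Matrix.GeneralLinearGroup.val_det_apply, hG1, g.2]; rfl
  have hQ : u₂.1 * (G * P₁).1 = (G * P₁).1 * (1 + Jm m) := by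
    calc u₂.1 * (G * P₁).1 = (u₂.1 * g.1) * P₁.1 := by rw [Units.val_mul, hG1, Matrix.mul_assoc]
      _ = g.1 * (u₁.1 * P₁.1) := by rw [← hg', Matrix.mul_assoc]
      _ = (G * P₁).1 * (1 + Jm m) := by rw [h1, Units.val_mul, hG1, Matrix.mul_assoc]
  have hQ' := conj_inv (G * P₁) u₂.1 _ hQ
  have hcomm : ((G * P₁)⁻¹ * P₂).1 * (1 + Jm m) = (1 + Jm m) * ((G * P₁)⁻¹ * P₂).1 := by
    calc ((G * P₁)⁻¹ * P₂).1 * (1 + Jm m) = ((G * P₁)⁻¹).1 * (P₂.1 * (1 + Jm m)) := by
          rw [Units.val_mul, Matrix.mul_assoc]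
      _ = (((G * P₁)⁻¹).1 * u₂.1) * P₂.1 := by rw [← h2, Matrix.mul_assoc]
      _ = (1 + Jm m) * ((G * P₁)⁻¹ * P₂).1 := by rw [hQ', Units.val_mul, Matrix.mul_assoc]
  obtain ⟨a, ha⟩ := det_comm m _ hcomm
  refine ⟨a, ?_⟩
  rw [← ha, map_mul, map_inv, map_mul, hGdet, one_mul, mul_inv_cancel_left]

theorem lemB (m : ℕ) (u₁ u₂ : SpecialLinearGroup (Fin (m + 1)) F) (P₁ P₂ : GL (Fin (m + 1)) F)
    (h1 : u₁.1 * P₁.1 = P₁.1 * (1 + Jm m)) (h2 : u₂.1 * P₂.1 = P₂.1 * (1 + Jm m)) (y : Fˣ)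
    (hy : Matrix.GeneralLinearGroup.det P₁ * (Matrix.GeneralLinearGroup.det P₂)⁻¹ =
      y ^ (m + 1)) : IsConj u₁ u₂ := by
  have hy' : P₁.1.det * (P₂.1.det)⁻¹ = y.1 ^ (m + 1) := by
    have h3 := congrArg Units.val hy
    rw [Units.val_mul, Units.val_inv_eq_inv_val, Matrix.GeneralLinearGroup.val_det_apply,
      Matrix.GeneralLinearGroup.val_det_apply, Units.val_pow_eq_pow_val] at h3
    exact h3
  have hd1 : P₁.1.det ≠ 0 := Matrix.GeneralLinearGroup.det_ne_zero P₁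
  have hd2 : P₂.1.det ≠ 0 := Matrix.GeneralLinearGroup.det_ne_zero P₂
  have hinvdet : (P₁⁻¹).1.det = (P₁.1.det)⁻¹ := by
    have h3 : (P₁⁻¹).1.det * P₁.1.det = 1 := by
      rw [← Matrix.det_mul, Units.inv_mul, Matrix.det_one]
    exact eq_inv_of_mul_eq_one_left h3
  have hdet : (y.1 • (P₂.1 * (P₁⁻¹).1)).det = 1 := by
    rw [Matrix.det_smul, Matrix.det_mul, hinvdet, Fintype.card_fin, ← hy']
    field_simp
  rw [isConj_iff]
  obtain ⟨g, hg1⟩ : ∃ g : SpecialLinearGroup (Fin (m + 1)) F,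
      g.1 = y.1 • (P₂.1 * (P₁⁻¹).1) := ⟨⟨_, hdet⟩, rfl⟩
  refine ⟨g, ?_⟩
  rw [mul_inv_eq_iff_eq_mul]
  apply Subtype.ext
  show g.1 * u₁.1 = u₂.1 * g.1
  have h3 := conj_inv P₁ u₁.1 _ h1
  rw [hg1, Matrix.smul_mul, Matrix.mul_smul, Matrix.mul_assoc, h3, ← Matrix.mul_assoc,
    ← Matrix.mul_assoc, h2]

theorem exists_det (m : ℕ) (d : Fˣ) :
    ∃ P : GL (Fin (m + 1)) F, Matrix.GeneralLinearGroup.det P = d := by
  classical
  have hdet : (Matrix.diagonal (Function.update (fun _ : Fin (m + 1) => (1 : F)) 0 d.1)).det =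
      d.1 := by
    rw [Matrix.det_diagonal, Finset.prod_update_of_mem (Finset.mem_univ _)]
    simp
  refine ⟨Matrix.GeneralLinearGroup.mkOfDetNeZero _ (by rw [hdet]; exact d.ne_zero), ?_⟩
  apply Units.ext
  rw [Matrix.GeneralLinearGroup.val_det_apply]
  exact hdet

/-- Regular unipotent classes of SL_n(q): for n ≥ 2 over the field with q elements, the matrices u of determinant one with (u − 1)^n = 0 and rank(u − 1) = n − 1 form a single GL_n(q)-class which splits into exactly gcd(n, q − 1) conjugacy classes of SL_n(q). -/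
theorem result {F : Type*} [Field F] [Fintype F] {q : ℕ} (hF : Fintype.card F = q) {n : ℕ} (hn : 2 ≤ n) : Nat.card {C : ConjClasses (Matrix.SpecialLinearGroup (Fin n) F) // ∃ u : Matrix.SpecialLinearGroup (Fin n) F, ConjClasses.mk u = C ∧ ((u : Matrix (Fin n) (Fin n) F) - 1) ^ n = 0 ∧ ((u : Matrix (Fin n) (Fin n) F) - 1).rank = n - 1} = Nat.gcd n (q - 1) := by
  classical
  subst hF
  obtain ⟨m, rfl⟩ : ∃ m, n = m + 1 := ⟨n - 1, by omega⟩
  obtain ⟨χ, hχs, hχ⟩ := Cfsg.Agent.S0783.cyc_hom (C := Fˣ) (inferInstance : IsCyclic Fˣ)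
    (m + 1) (Fintype.card F - 1) (by rw [Nat.card_units, Nat.card_eq_fintype_card])
  have hex : ∀ C : {C : ConjClasses (Matrix.SpecialLinearGroup (Fin (m + 1)) F) //
      ∃ u : Matrix.SpecialLinearGroup (Fin (m + 1)) F, ConjClasses.mk u = C ∧
        ((u : Matrix (Fin (m + 1)) (Fin (m + 1)) F) - 1) ^ (m + 1) = 0 ∧
        ((u : Matrix (Fin (m + 1)) (Fin (m + 1)) F) - 1).rank = m + 1 - 1},
      ∃ z : Multiplicative (ZMod (Nat.gcd (m + 1) (Fintype.card F - 1))),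
      ∃ (u : Matrix.SpecialLinearGroup (Fin (m + 1)) F) (P : GL (Fin (m + 1)) F),
        ConjClasses.mk u = C.1 ∧ u.1 * P.1 = P.1 * (1 + Jm m) ∧
        z = χ (Matrix.GeneralLinearGroup.det P) := by
    intro C
    obtain ⟨u, hu, hnil, hreg⟩ := C.2
    rw [Nat.add_sub_cancel] at hreg
    obtain ⟨P, hP⟩ := exists_norm m u.1 hnil hreg
    exact ⟨_, u, P, hu, hP, rfl⟩
  choose f hf using hex
  have hbij : Function.Bijective f := by
    constructor
    · intro C₁ C₂ h12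
      obtain ⟨u₁, P₁, hu₁, hP₁, hz₁⟩ := hf C₁
      obtain ⟨u₂, P₂, hu₂, hP₂, hz₂⟩ := hf C₂
      apply Subtype.ext
      rw [← hu₁, ← hu₂, ConjClasses.mk_eq_mk_iff_isConj]
      have h3 : χ (Matrix.GeneralLinearGroup.det P₁ * (Matrix.GeneralLinearGroup.det P₂)⁻¹)
          = 1 := by
        rw [map_mul, map_inv, ← hz₁, ← hz₂, h12, mul_inv_cancel]
      obtain ⟨y, hy⟩ := (hχ _).1 h3
      exact lemB m u₁ u₂ P₁ P₂ hP₁ hP₂ y hy
    · intro z
      obtain ⟨d, hd⟩ := hχs z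
      obtain ⟨P, hPdet⟩ := exists_det m d
      obtain ⟨u, hu⟩ : ∃ u : Matrix.SpecialLinearGroup (Fin (m + 1)) F,
          u.1 = P.1 * (1 + Jm m) * (P⁻¹).1 :=
        ⟨⟨P.1 * (1 + Jm m) * (P⁻¹).1, by
          rw [Matrix.det_mul, Matrix.det_mul, det_one_add_Jm, mul_one, ← Matrix.det_mul,
            Units.mul_inv, Matrix.det_one]⟩, rfl⟩
      have huP : u.1 * P.1 = P.1 * (1 + Jm m) := by
        rw [hu, Matrix.mul_assoc, Units.inv_mul, Matrix.mul_one]
      have hN : (u.1 - 1) * P.1 = P.1 * Jm m := by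
        rw [Matrix.sub_mul, huP, Matrix.mul_add, Matrix.mul_one, Matrix.one_mul,
          add_sub_cancel_left]
      have hpow : ∀ k : ℕ, (u.1 - 1) ^ k * P.1 = P.1 * Jm m ^ k := by
        intro k
        induction k with
        | zero => rw [pow_zero, pow_zero, Matrix.one_mul, Matrix.mul_one]
        | succ k ih =>
          rw [pow_succ, Matrix.mul_assoc, hN, ← Matrix.mul_assoc, ih, Matrix.mul_assoc,
            ← pow_succ]
      have hJ0 : (Jm m : Matrix (Fin (m + 1)) (Fin (m + 1)) F) ^ (m + 1) = 0 := by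
        rw [Jm_pow]
        ext r c
        show (if (r : ℕ) = (c : ℕ) + (m + 1) then (1 : F) else 0) = 0
        rw [if_neg (by have := r.2; omega)]
      have hnil : (u.1 - 1) ^ (m + 1) = 0 := by
        have h1 := hpow (m + 1)
        rw [hJ0, Matrix.mul_zero] at h1
        have h2 : (u.1 - 1) ^ (m + 1) = (u.1 - 1) ^ (m + 1) * P.1 * (P⁻¹).1 := by
          rw [Matrix.mul_assoc, Units.mul_inv, Matrix.mul_one]
        rw [h2, h1, Matrix.zero_mul]
      have hreg : (u.1 - 1).rank = m + 1 - 1 := by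
        have h2 : u.1 - 1 = P.1 * Jm m * (P⁻¹).1 := by
          rw [← hN, Matrix.mul_assoc, Units.mul_inv, Matrix.mul_one]
        have hdP : IsUnit P.1.det :=
          isUnit_iff_ne_zero.2 (Matrix.GeneralLinearGroup.det_ne_zero P)
        have hdP' : IsUnit (P⁻¹).1.det :=
          isUnit_iff_ne_zero.2 (Matrix.GeneralLinearGroup.det_ne_zero P⁻¹)
        rw [h2, Matrix.rank_mul_eq_left_of_isUnit_det _ _ hdP',
          Matrix.rank_mul_eq_right_of_isUnit_det _ _ hdP, Jm_rank, Nat.add_sub_cancel]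
      refine ⟨⟨ConjClasses.mk u, u, rfl, hnil, hreg⟩, ?_⟩
      obtain ⟨u', P', hu', hP', hz'⟩ := hf ⟨ConjClasses.mk u, u, rfl, hnil, hreg⟩
      have hc : IsConj u' u := ConjClasses.mk_eq_mk_iff_isConj.1 hu'
      obtain ⟨a, ha⟩ := lemD m u' u P' P hP' huP hc
      rw [hz', ← hd, ← hPdet, ha, map_mul, (hχ (a ^ (m + 1))).2 ⟨a, rfl⟩, mul_one]
  exact (Nat.card_congr (Equiv.ofBijective f hbij)).trans
    (by rw [Nat.card_congr Multiplicative.toAdd, Nat.card_zmod])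

end Cfsg.Agent.S2578
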