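import Cfsg.Statements.S2594
import Mathlib
import Cfsg.Agent.Helper7.SympStab

set_option autoImplicit false
open Cfsg

namespace Cfsg.Agent.S2594

/-- Over a finite field with q elements, q even, an element t of Sp_2m(F) with rank(t − 1) = 1 (a symplectic transvection) has centraliser in Sp_2m(F) of order q^(2m−1) · |Sp_(2m−2)(q)| = q^(2m−1) · q^((m−1)²) · Π_(i=1)^(m−1) (q^(2i) − 1). -/
theorem result {F : Type*} [Field F] [Fintype F] [CharP F 2] {q : ℕ} (hF : Fintype.card F = q) {m : ℕ} (hm : 1 ≤ m) (t : Matrix.symplecticGroup (Fin m) F) (ht : ((t : Matrix (Fin m ⊕ Fin m) (Fin m ⊕ Fin m) F) - 1).rank = 1) : Nat.card ↥(Subgroup.centralizer ({t} : Set ↥(Matrix.symplecticGroup (Fin m) F))) = q ^ (2 * m - 1) * (q ^ ((m - 1) ^ 2) * ∏ i : Fin (m - 1), (q ^ (2 * ((i : ℕ) + 1)) - 1)) := by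
  classical
  subst hF
  obtain ⟨a, c, ha, hc, htT⟩ := Cfsg.Agent.Helper7.SympStab.symp_rank_one m t.1 t.2 ht
  rw [Cfsg.Agent.Helper7.SympStab.centralizer_eq_StabV m a c ha hc t htT]
  have h1 := Cfsg.Agent.Helper7.SympStab.card_StabV m a ha
  have h2 := Cfsg.Agent.Helper7.SympCard.card_symplectic (F := F) m
  obtain ⟨k, rfl⟩ : ∃ k, m = k + 1 := ⟨m - 1, by omega⟩
  rw [h2, Finset.prod_range_succ] at h1
  have hq : 1 < Fintype.card F := Fintype.one_lt_card
  have hpos : 0 < Fintype.card F ^ (2 * (k + 1)) - 1 := by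
    have : 1 < Fintype.card F ^ (2 * (k + 1)) := Nat.one_lt_pow (by omega) hq
    omega
  have h3 : Nat.card ↥(Cfsg.Agent.Helper7.SympStab.StabV (k + 1) a) =
      Fintype.card F ^ ((k + 1) ^ 2) * ∏ i ∈ Finset.range k, (Fintype.card F ^ (2 * (i + 1)) - 1) := by
    apply Nat.eq_of_mul_eq_mul_left hpos
    rw [← h1]
    ring
  have h6 : ∏ i : Fin (k + 1 - 1), (Fintype.card F ^ (2 * ((i : ℕ) + 1)) - 1) =
      ∏ i ∈ Finset.range k, (Fintype.card F ^ (2 * (i + 1)) - 1) :=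
    (Finset.prod_range (fun i => Fintype.card F ^ (2 * (i + 1)) - 1)).symm
  have h4 : 2 * (k + 1) - 1 = 2 * k + 1 := by omega
  have h5 : (k + 1) ^ 2 = (2 * k + 1) + k ^ 2 := by ring
  have h7 : k + 1 - 1 = k := rfl
  rw [h3, h6, h4, h5, pow_add, h7]
  ring

end Cfsg.Agent.S2594
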