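import Cfsg.Statements.S2618
import Cfsg.Agent.Helper5.QFStd

set_option autoImplicit false
open Cfsg

namespace Cfsg.Agent.S2618

/-- Standard (parabolic) basis of a non-degenerate quadratic space of odd dimension 2m + 1 over a finite field (the non-degeneracy of the polar form forces the characteristic to be odd): there is a basis e_i, f_i (i < m), x with Q(e_i) = Q(f_i) = 0, B(e_i, f_j) = δ_ij (B the polar form), the e's pairwise orthogonal and the f's pairwise orthogonal, x orthogonal to all of them and Q(x) ≠ 0. -/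
theorem result {F V : Type*} [Field F] [Finite F] [AddCommGroup V] [Module F V] [FiniteDimensional F V] {m : ℕ} (hV : Module.finrank F V = 2 * m + 1) (Q : QuadraticForm F V) (hQ : (QuadraticMap.polarBilin Q).Nondegenerate) : ∃ b : Module.Basis (Unit ⊕ (Fin m ⊕ Fin m)) F V, Q (b (Sum.inl ())) ≠ 0 ∧ (∀ i, QuadraticMap.polar ⇑Q (b (Sum.inl ())) (b (Sum.inr (Sum.inl i))) = 0 ∧ QuadraticMap.polar ⇑Q (b (Sum.inl ())) (b (Sum.inr (Sum.inr i))) = 0) ∧ (∀ i, Q (b (Sum.inr (Sum.inl i))) = 0 ∧ Q (b (Sum.inr (Sum.inr i))) = 0) ∧ (∀ i j, QuadraticMap.polar ⇑Q (b (Sum.inr (Sum.inl i))) (b (Sum.inr (Sum.inr j))) = if i = j then 1 else 0) ∧ (∀ i j, QuadraticMap.polar ⇑Q (b (Sum.inr (Sum.inl i))) (b (Sum.inr (Sum.inl j))) = 0 ∧ QuadraticMap.polar ⇑Q (b (Sum.inr (Sum.inr i))) (b (Sum.inr (Sum.inr j))) = 0) := by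
  classical
  obtain ⟨e, f, hH⟩ := Cfsg.Agent.Helper5.qf_hyp_exists Q hQ m (by rw [hV])
  obtain ⟨x, hx0, hxp, -⟩ := Cfsg.Agent.Helper5.qf_exists_perp Q m e f []
    (by rw [hV]; simp only [List.length_nil]; omega)
  obtain ⟨v, hv⟩ : ∃ v : Unit ⊕ (Fin m ⊕ Fin m) → V, v = Sum.elim (fun _ => x)
      (Sum.elim (fun i : Fin m => e i) (fun i : Fin m => f i)) := ⟨_, rfl⟩
  have hli : LinearIndependent F v := by
    rw [Fintype.linearIndependent_iff]
    intro g hg
    rw [hv] at hg
    simp only [Fintype.sum_sum_type, Fintype.sum_unique, Sum.elim_inl, Sum.elim_inr] at hg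
    have ha : ∀ j : Fin m, g (Sum.inr (Sum.inl j)) = 0 := by
      intro j
      have h1 := congrArg (QuadraticMap.polar ⇑Q (f j)) hg
      rw [QuadraticMap.polar_add_right, QuadraticMap.polar_smul_right, (hxp j j.2).2, smul_zero,
        zero_add, (Cfsg.Agent.Helper5.qf_pair Q m e f hH _ _ j).1,
        QuadraticMap.polar_zero_right] at h1
      exact h1
    have hb : ∀ j : Fin m, g (Sum.inr (Sum.inr j)) = 0 := by
      intro j
      have h1 := congrArg (QuadraticMap.polar ⇑Q (e j)) hg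
      rw [QuadraticMap.polar_add_right, QuadraticMap.polar_smul_right, (hxp j j.2).1, smul_zero,
        zero_add, (Cfsg.Agent.Helper5.qf_pair Q m e f hH _ _ j).2,
        QuadraticMap.polar_zero_right] at h1
      exact h1
    have hc : g (Sum.inl ()) = 0 := by
      simp only [ha, hb, zero_smul, Finset.sum_const_zero, add_zero] at hg
      rcases smul_eq_zero.mp hg with h | h
      · exact h
      · exact absurd h hx0
    rintro (⟨⟩ | i | i)
    · exact hc
    · exact ha i
    · exact hb i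
  haveI : Nonempty (Unit ⊕ (Fin m ⊕ Fin m)) := ⟨Sum.inl ()⟩
  obtain ⟨b, hb⟩ : ∃ b : Module.Basis (Unit ⊕ (Fin m ⊕ Fin m)) F V, ⇑b = v :=
    ⟨basisOfLinearIndependentOfCardEqFinrank hli
      (by simp only [Fintype.card_sum, Fintype.card_unit, Fintype.card_fin, hV]; omega),
      coe_basisOfLinearIndependentOfCardEqFinrank _ _⟩
  refine ⟨b, ?_, ?_, ?_, ?_, ?_⟩
  · rw [hb, hv]
    simp only [Sum.elim_inl]
    intro hQx
    apply hx0
    apply hQ.1 x
    intro y
    have hzero : QuadraticMap.polarBilin Q x = 0 := by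
      apply b.ext
      intro i
      rw [hb, hv, QuadraticMap.polarBilin_apply_apply, LinearMap.zero_apply]
      rcases i with ⟨⟩ | i | i
      · simp only [Sum.elim_inl]
        rw [Cfsg.Agent.Helper5.qf_polar_self, hQx, mul_zero]
      · simp only [Sum.elim_inr, Sum.elim_inl]
        rw [QuadraticMap.polar_comm]; exact (hxp i i.2).1
      · simp only [Sum.elim_inr]
        rw [QuadraticMap.polar_comm]; exact (hxp i i.2).2
    rw [hzero, LinearMap.zero_apply]
  · intro i
    rw [hb, hv]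
    simp only [Sum.elim_inl, Sum.elim_inr]
    exact ⟨by rw [QuadraticMap.polar_comm]; exact (hxp i i.2).1,
      by rw [QuadraticMap.polar_comm]; exact (hxp i i.2).2⟩
  · intro i
    rw [hb, hv]
    simp only [Sum.elim_inl, Sum.elim_inr]
    exact ⟨(hH i i.2).1, (hH i i.2).2.1⟩
  · intro i j
    rw [hb, hv]
    simp only [Sum.elim_inl, Sum.elim_inr]
    rw [((hH i i.2).2.2 j j.2).1]
    simp [Fin.ext_iff]
  · intro i j
    rw [hb, hv]
    simp only [Sum.elim_inl, Sum.elim_inr]
    exact ⟨((hH i i.2).2.2 j j.2).2.1, ((hH i i.2).2.2 j j.2).2.2⟩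

end Cfsg.Agent.S2618
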