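import Mathlib

namespace Cfsg.Agent.S2619

/-- Over a finite field of characteristic two, given an alternating bilinear form B on a finite-dimensional space, a basis (v_i) and scalars (λ_i), there is exactly one quadratic form whose polar form is B and whose value at each v_i is λ_i. -/
theorem result {F V ι : Type*} [Field F] [Finite F] [CharP F 2] [AddCommGroup V] [Module F V] [Fintype ι] (b : Module.Basis ι F V) (B : LinearMap.BilinForm F V) (hB : B.IsAlt) (c : ι → F) : ∃! Q : QuadraticForm F V, QuadraticMap.polarBilin Q = B ∧ ∀ i, Q (b i) = c i := by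
  classical
  letI : LinearOrder ι := IsWellOrder.linearOrder WellOrderingRel
  let M : Matrix ι ι F := fun i j => if i = j then c i else if i < j then B (b i) (b j) else 0
  have hB' : ∀ i j, (Matrix.toBilin b M) (b i) (b j) = M i j := by
    intro i j
    rw [← LinearMap.BilinForm.toMatrix_apply b (Matrix.toBilin b M) i j,
      LinearMap.BilinForm.toMatrix_toBilin]
  have h1 : QuadraticMap.polarBilin (LinearMap.BilinMap.toQuadraticMap (Matrix.toBilin b M)) = B := by
    apply LinearMap.BilinForm.ext_basis b
    intro i j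
    rw [QuadraticMap.polarBilin_apply_apply, LinearMap.BilinMap.polar_toQuadraticMap, hB', hB']
    show (if i = j then c i else if i < j then B (b i) (b j) else 0) +
      (if j = i then c j else if j < i then B (b j) (b i) else 0) = B (b i) (b j)
    rcases lt_trichotomy i j with h | h | h
    · simp [h.ne, h.ne', h, not_lt.2 h.le]
    · subst h
      simp only [if_true]
      rw [hB (b i)]
      exact CharTwo.add_self_eq_zero _
    · simp only [h.ne, h.ne', h, not_lt.2 h.le, if_false, if_true, zero_add]
      have h2 := hB.neg_eq (b i) (b j)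
      rw [← h2, CharTwo.neg_eq]
  have h2 : ∀ i, (LinearMap.BilinMap.toQuadraticMap (Matrix.toBilin b M)) (b i) = c i := by
    intro i
    rw [LinearMap.BilinMap.toQuadraticMap_apply, hB']
    simp [M]
  have key : ∀ (Q₁ Q₂ : QuadraticForm F V), QuadraticMap.polarBilin Q₁ = QuadraticMap.polarBilin Q₂ →
      (∀ i, Q₁ (b i) = Q₂ (b i)) → ∀ x, Q₁ x = Q₂ x := by
    intro Q₁ Q₂ hp hb x
    have hadd : ∀ x y, Q₁ x = Q₂ x → Q₁ y = Q₂ y → Q₁ (x + y) = Q₂ (x + y) := by
      intro x y hx hy
      rw [QuadraticMap.map_add (⇑Q₁) x y, QuadraticMap.map_add (⇑Q₂) x y, hx, hy]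
      congr 1
      have h3 := congrArg (fun f => f x y) hp
      simpa using h3
    have hsm : ∀ (a : F) (i : ι), Q₁ (a • b i) = Q₂ (a • b i) := by
      intro a i
      rw [QuadraticMap.map_smul, QuadraticMap.map_smul, hb]
    rw [← b.sum_repr x]
    exact Finset.sum_induction _ (fun y => Q₁ y = Q₂ y) hadd (by simp) (fun i _ => hsm _ i)
  refine ⟨LinearMap.BilinMap.toQuadraticMap (Matrix.toBilin b M), ⟨h1, h2⟩, ?_⟩
  rintro Q ⟨hQ1, hQ2⟩
  ext x
  exact key Q _ (hQ1.trans h1.symm) (fun i => (hQ2 i).trans (h2 i).symm) x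

end Cfsg.Agent.S2619
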