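import Mathlib
import Cfsg.Prelude.Def_Classical
import Cfsg.Agent.Helper5.QuadDisc

namespace Cfsg.Agent.S2621

/-- Discriminant of an elliptic quadratic form Σ_(i<m−1) x_i y_i + z₁² + a z₁z₂ + c z₂² (binary part anisotropic) in dimension 2m over a field with q elements, q odd, m ≥ 1: the determinant of the Gram matrix of its polar form in any basis is a square if and only if m(q − 1)/2 is odd (equivalently q^m ≡ 3 (mod 4)). -/
theorem result {F : Type*} [Field F] [Fintype F] {q : ℕ} (hF : Fintype.card F = q) (hq : Odd q) {m : ℕ} (hm : 1 ≤ m) (a c : F) (hac : ∀ z₁ z₂ : F, z₁ ^ 2 + a * z₁ * z₂ + c * z₂ ^ 2 = 0 → z₁ = 0 ∧ z₂ = 0) {ι : Type*} [Fintype ι] [DecidableEq ι] (b : Module.Basis ι F ((Fin (m - 1) ⊕ Fin (m - 1)) ⊕ Fin 2 → F)) : IsSquare (Matrix.of (fun i j : ι => QuadraticMap.polar (Cfsg.quadFormMinus (m - 1) F a c) (b i) (b j))).det ↔ ¬ Even (m * (q - 1) / 2) := by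
  have h2 : (2 : F) ≠ 0 := by
    apply Ring.two_ne_zero
    intro h
    have := FiniteField.even_card_of_char_two h
    rw [hF] at this
    obtain ⟨t, ht⟩ := hq
    omega
  have hD : ¬ IsSquare (a * a - 4 * c) := by
    rintro ⟨s, hs⟩
    have h3 : ((s - a) / 2) ^ 2 + a * ((s - a) / 2) * 1 + c * 1 ^ 2 = 0 := by
      field_simp
      linear_combination (-1 : F) * hs
    exact one_ne_zero (hac _ _ h3).2
  have hG : Matrix.of (fun i j : ι => QuadraticMap.polar (Cfsg.quadFormMinus (m - 1) F a c) (b i) (b j)) =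
      Matrix.of (fun i j : ι => Matrix.toBilin'
        (Matrix.fromBlocks (Matrix.fromBlocks 0 1 1 0) 0 0 !![2, a; a, 2 * c] :
          Matrix ((Fin (m - 1) ⊕ Fin (m - 1)) ⊕ Fin 2) ((Fin (m - 1) ⊕ Fin (m - 1)) ⊕ Fin 2) F)
        (b i) (b j)) := by
    ext i j
    exact Helper5.polar_quadFormMinus a c (b i) (b j)
  obtain ⟨d, hd, hdet⟩ := Helper5.gram_det
    (Matrix.fromBlocks (Matrix.fromBlocks 0 1 1 0) 0 0 !![2, a; a, 2 * c] :
      Matrix ((Fin (m - 1) ⊕ Fin (m - 1)) ⊕ Fin 2) ((Fin (m - 1) ⊕ Fin (m - 1)) ⊕ Fin 2) F) b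
  rw [hG, hdet, Helper5.det_elliptic, Helper5.isSquare_mul_self_mul _ _ hd]
  have h3 : (-1 : F) ^ (m - 1) * (4 * c - a * a) = (-1) ^ m * (a * a - 4 * c) := by
    obtain ⟨k, rfl⟩ : ∃ k, m = k + 1 := ⟨m - 1, by omega⟩
    simp only [Nat.add_sub_cancel, pow_succ]
    ring
  rw [h3, Helper5.isSquare_mul_nonsquare _ _ (pow_ne_zero _ (by simp)) hD,
    Helper5.isSquare_neg_one_pow hF hq m]

end Cfsg.Agent.S2621
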