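import Cfsg.Statements.S2622

set_option autoImplicit false
open Cfsg

namespace Cfsg.Agent.S2622

/-- Over a finite field of characteristic two, a non-degenerate symmetric bilinear form that is not alternating (some vector v has B(v, v) ≠ 0) admits an orthonormal basis. -/
theorem result {F V : Type*} [Field F] [Finite F] [CharP F 2] [AddCommGroup V] [Module F V] [FiniteDimensional F V] {n : ℕ} (hV : Module.finrank F V = n) (B : LinearMap.BilinForm F V) (hS : B.IsSymm) (hB : B.Nondegenerate) (hna : ∃ v : V, B v v ≠ 0) : ∃ b : Module.Basis (Fin n) F V, ∀ i j, B (b i) (b j) = if i = j then 1 else 0 := by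
  classical
  haveI : Fact (Nat.Prime 2) := ⟨Nat.prime_two⟩
  have hsq : ∀ a : F, ∃ c : F, c ^ 2 = a := fun a => by
    obtain ⟨c, hc⟩ := surjective_frobenius F 2 a
    exact ⟨c, by simpa [frobenius_def] using hc⟩
  have h2 : ∀ a : F, a + a = 0 := fun a => CharTwo.add_self_eq_zero a
  have hadd : ∀ u v : V, B (u + v) (u + v) = B u u + B v v := by
    intro u v
    simp only [map_add, LinearMap.add_apply]
    rw [hS.eq v u]
    linear_combination h2 (B u v)
  have hn : 0 < n := by
    rcases Nat.eq_zero_or_pos n with h | h
    · exfalso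
      subst h
      haveI := Module.finrank_zero_iff.mp hV
      obtain ⟨v, hv⟩ := hna
      exact hv (by rw [Subsingleton.elim v 0, map_zero])
    · exact h
  have hupd : ∀ (e : ℕ → V) (k : ℕ) (x : V),
      (∀ i < k, ∀ j < k, B (e i) (e j) = if i = j then 1 else 0) → (∀ i < k, B (e i) x = 0) →
      B x x = 1 → ∀ i < k + 1, ∀ j < k + 1,
        B (Function.update e k x i) (Function.update e k x j) = if i = j then 1 else 0 := by
    intro e k x he hx hxx i hi j hj
    rcases Nat.lt_succ_iff_lt_or_eq.mp hi with hi' | rfl
    · rcases Nat.lt_succ_iff_lt_or_eq.mp hj with hj' | rfl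
      · rw [Function.update_of_ne (ne_of_lt hi'), Function.update_of_ne (ne_of_lt hj')]
        exact he i hi' j hj'
      · rw [Function.update_of_ne (ne_of_lt hi'), Function.update_self, hx i hi',
          if_neg (ne_of_lt hi')]
    · rcases Nat.lt_succ_iff_lt_or_eq.mp hj with hj' | rfl
      · rw [Function.update_of_ne (ne_of_lt hj'), Function.update_self, hS.eq, hx j hj',
          if_neg (ne_of_gt hj')]
      · rw [Function.update_self, hxx, if_pos rfl]
  have hupd2 : ∀ (e : ℕ → V) (k : ℕ) (x y : V), (∀ i < k, B (e i) y = 0) → B x y = 0 →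
      ∀ i < k + 1, B (Function.update e k x i) y = 0 := by
    intro e k x y hy hxy i hi
    rcases Nat.lt_succ_iff_lt_or_eq.mp hi with hi' | rfl
    · rw [Function.update_of_ne (ne_of_lt hi')]; exact hy i hi'
    · rw [Function.update_self]; exact hxy
  have key : ∀ k, k ≤ n → ∃ e : ℕ → V,
      (∀ i < k, ∀ j < k, B (e i) (e j) = if i = j then 1 else 0) ∧
      (k < n → ∃ x, (∀ i < k, B (e i) x = 0) ∧ B x x ≠ 0) := by
    intro k
    induction k with
    | zero =>
      intro _
      refine ⟨fun _ => 0, fun i hi => absurd hi (Nat.not_lt_zero _), fun _ => ?_⟩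
      obtain ⟨v, hv⟩ := hna
      exact ⟨v, fun i hi => absurd hi (Nat.not_lt_zero _), hv⟩
    | succ k ih =>
      intro hk
      obtain ⟨e, he, hx⟩ := ih (Nat.le_of_succ_le hk)
      obtain ⟨x, hxe, hxx⟩ := hx hk
      obtain ⟨c, hc⟩ := hsq (B x x)⁻¹
      obtain ⟨x₁, hx₁⟩ : ∃ x₁, x₁ = c • x := ⟨_, rfl⟩
      have hx₁e : ∀ i < k, B (e i) x₁ = 0 := by
        intro i hi; rw [hx₁, map_smul, hxe i hi, smul_zero]
      have hx₁x : B x₁ x₁ = 1 := by
        rw [hx₁]
        simp only [map_smul, LinearMap.smul_apply, smul_eq_mul]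
        rw [← mul_assoc, ← sq, hc, inv_mul_cancel₀ hxx]
      by_cases hex : ∃ y, (∀ i < k, B (e i) y = 0) ∧ B x₁ y = 0 ∧ B y y ≠ 0
      · obtain ⟨y, hy1, hy2, hy3⟩ := hex
        exact ⟨Function.update e k x₁, hupd e k x₁ he hx₁e hx₁x,
          fun _ => ⟨y, hupd2 e k x₁ y hy1 hy2, hy3⟩⟩
      · by_cases hkn : k + 1 < n
        · have halt : ∀ y, (∀ i < k, B (e i) y = 0) → B x₁ y = 0 → B y y = 0 := by
            intro y h1 h2'
            by_contra h3
            exact hex ⟨y, h1, h2', h3⟩
          obtain ⟨w, hw, hw0⟩ : ∃ w ∈ LinearMap.ker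
              (LinearMap.pi (fun i : Fin (k + 1) => B (Function.update e k x₁ i))), w ≠ 0 := by
            rw [← Submodule.ne_bot_iff]
            apply LinearMap.ker_ne_bot_of_finrank_lt
            rw [Module.finrank_fin_fun, hV]
            exact hkn
          have hw' : ∀ i < k + 1, B (Function.update e k x₁ i) w = 0 := by
            intro i hi
            have := congrFun (LinearMap.mem_ker.mp hw) ⟨i, hi⟩
            simpa [LinearMap.pi_apply] using this
          have hw1 : ∀ i < k, B (e i) w = 0 := by
            intro i hi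
            have := hw' i (Nat.lt_succ_of_lt hi)
            rwa [Function.update_of_ne (ne_of_lt hi)] at this
          have hw2 : B x₁ w = 0 := by
            have := hw' k (Nat.lt_succ_self k)
            rwa [Function.update_self] at this
          have hww : B w w = 0 := halt w hw1 hw2
          obtain ⟨z, hz⟩ : ∃ z, B w z ≠ 0 := by
            by_contra hne
            push Not at hne
            exact hw0 (hB.1 w hne)
          have hsum1 : ∀ j < k, B (e j) (Finset.sum (Finset.range k) fun i => B (e i) z • e i)
              = B (e j) z := by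
            intro j hj
            rw [map_sum, Finset.sum_eq_single j]
            · rw [map_smul, he j hj j hj, if_pos rfl, smul_eq_mul, mul_one]
            · intro i hi hij
              rw [map_smul, he j hj i (Finset.mem_range.mp hi), if_neg (Ne.symm hij), smul_zero]
            · intro h; exact absurd (Finset.mem_range.mpr hj) h
          have hsum2 : ∀ u, (∀ i < k, B u (e i) = 0) →
              B u (Finset.sum (Finset.range k) fun i => B (e i) z • e i) = 0 := by
            intro u hu
            rw [map_sum]
            apply Finset.sum_eq_zero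
            intro i hi
            rw [map_smul, hu i (Finset.mem_range.mp hi), smul_zero]
          obtain ⟨z', hz'⟩ : ∃ z', z' = z - (Finset.sum (Finset.range k) fun i => B (e i) z • e i)
              - B x₁ z • x₁ := ⟨_, rfl⟩
          have hz1 : ∀ j < k, B (e j) z' = 0 := by
            intro j hj
            rw [hz', map_sub, map_sub, hsum1 j hj, map_smul, hx₁e j hj, smul_zero, sub_self,
              sub_zero]
          have hz2 : B x₁ z' = 0 := by
            rw [hz', map_sub, map_sub, hsum2 x₁ (fun i hi => by rw [hS.eq]; exact hx₁e i hi),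
              map_smul, hx₁x, smul_eq_mul, mul_one, sub_zero, sub_self]
          have hz3 : B w z' = B w z := by
            rw [hz', map_sub, map_sub, hsum2 w (fun i hi => by rw [hS.eq]; exact hw1 i hi),
              map_smul, hS.eq w x₁, hw2, smul_zero, sub_zero, sub_zero]
          have hzz : B z' z' = 0 := halt z' hz1 hz2
          obtain ⟨w', hw'd⟩ : ∃ w', w' = (B w z')⁻¹ • z' := ⟨_, rfl⟩
          have hne' : B w z' ≠ 0 := by rw [hz3]; exact hz
          have hww' : B w w' = 1 := by
            rw [hw'd, map_smul, smul_eq_mul, inv_mul_cancel₀ hne']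
          have hw'1 : ∀ i < k, B (e i) w' = 0 := by
            intro i hi; rw [hw'd, map_smul, hz1 i hi, smul_zero]
          have hw'2 : B x₁ w' = 0 := by rw [hw'd, map_smul, hz2, smul_zero]
          have hw'w' : B w' w' = 0 := halt w' hw'1 hw'2
          have hx₂e : ∀ i < k, B (e i) (x₁ + w) = 0 := by
            intro i hi; rw [map_add, hx₁e i hi, hw1 i hi, add_zero]
          have hx₂x : B (x₁ + w) (x₁ + w) = 1 := by rw [hadd, hx₁x, hww, add_zero]
          refine ⟨Function.update e k (x₁ + w), hupd e k (x₁ + w) he hx₂e hx₂x,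
            fun _ => ⟨w' + x₁, hupd2 e k (x₁ + w) (w' + x₁) ?_ ?_, ?_⟩⟩
          · intro i hi; rw [map_add, hw'1 i hi, hx₁e i hi, add_zero]
          · rw [map_add, map_add, LinearMap.add_apply, LinearMap.add_apply, hw'2, hx₁x, hww',
              hS.eq w x₁, hw2, zero_add, add_zero]
            exact h2 1
          · rw [hadd, hw'w', hx₁x, zero_add]; exact one_ne_zero
        · exact ⟨Function.update e k x₁, hupd e k x₁ he hx₁e hx₁x, fun h => absurd h hkn⟩
  obtain ⟨e, he, _⟩ := key n le_rfl
  haveI : Nonempty (Fin n) := ⟨⟨0, hn⟩⟩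
  have hli : LinearIndependent F (fun i : Fin n => e i) := by
    rw [linearIndependent_iff']
    intro s g hg i hi
    have := congrArg (B (e i)) hg
    rw [map_sum, map_zero, Finset.sum_eq_single i] at this
    · simpa [he i i.2 i i.2] using this
    · intro j _ hji
      rw [map_smul, he i i.2 j j.2, if_neg (fun h => hji (Fin.ext h.symm)), smul_zero]
    · intro h; exact absurd hi h
  refine ⟨basisOfLinearIndependentOfCardEqFinrank hli (by simp [hV]), ?_⟩
  intro i j
  simp only [coe_basisOfLinearIndependentOfCardEqFinrank]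
  rw [he i i.2 j j.2]
  simp [Fin.ext_iff]

end Cfsg.Agent.S2622
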