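import Cfsg.Statements.S2623
import Cfsg.Agent.Helper5.QFOrth

set_option autoImplicit false
open Cfsg

namespace Cfsg.Agent.S2623

/-- Over a finite field of odd order, two quadratic forms on F^n with non-degenerate polar forms are isometric (related by an invertible linear change of variables) if and only if their discriminants (determinants of the Gram matrices of their polar forms) lie in the same square class. -/
theorem result {F : Type*} [Field F] [Fintype F] (h2 : (2 : F) ≠ 0) {n : ℕ} (Q₁ Q₂ : QuadraticForm F (Fin n → F)) (h₁ : (QuadraticMap.polarBilin Q₁).Nondegenerate) (h₂ : (QuadraticMap.polarBilin Q₂).Nondegenerate) : (∃ g : (Fin n → F) ≃ₗ[F] (Fin n → F), ∀ v, Q₂ (g v) = Q₁ v) ↔ IsSquare ((Matrix.of (fun i j : Fin n => QuadraticMap.polar ⇑Q₁ (Pi.single i 1) (Pi.single j 1))).det * (Matrix.of (fun i j : Fin n => QuadraticMap.polar ⇑Q₂ (Pi.single i 1) (Pi.single j 1))).det) := by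
  classical
  constructor
  · rintro ⟨g, hg⟩
    have hpol : ∀ u v, QuadraticMap.polar ⇑Q₂ (g u) (g v) = QuadraticMap.polar ⇑Q₁ u v := by
      intro u v
      rw [QuadraticMap.polar, QuadraticMap.polar, ← map_add, hg, hg, hg]
    have hG : Matrix.of (fun i j : Fin n =>
        QuadraticMap.polar ⇑Q₁ (Pi.single i 1) (Pi.single j 1))
        = Matrix.of (fun i j : Fin n => QuadraticMap.polar ⇑Q₂
          ((fun i : Fin n => g (Pi.single i 1)) i) ((fun i : Fin n => g (Pi.single i 1)) j)) := by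
      ext i j
      simp only [Matrix.of_apply]
      rw [hpol]
    rw [hG, Cfsg.Agent.Helper5.qf_gram_det Q₂ (fun i : Fin n => g (Pi.single i 1))]
    exact ⟨(Matrix.of (fun i : Fin n => g (Pi.single i 1))).det * (Matrix.of (fun k l : Fin n =>
      QuadraticMap.polar ⇑Q₂ (Pi.single k 1) (Pi.single l 1))).det, by ring⟩
  · rintro ⟨r, hr⟩
    rcases Nat.eq_zero_or_pos n with hn0 | hn1
    · subst hn0
      exact ⟨LinearEquiv.refl F _, fun v => by
        have hv : v = 0 := Subsingleton.elim v 0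
        subst hv
        rw [map_zero, QuadraticMap.map_zero, QuadraticMap.map_zero]⟩
    · have hfr : Module.finrank F (Fin n → F) = n := Module.finrank_fin_fun F
      obtain ⟨e₁, d₁, hd₁, he₁, hed₁, ho₁⟩ := Cfsg.Agent.Helper5.qo_normal h2 Q₁ h₁ n hfr hn1
      obtain ⟨e₂, d₂, hd₂, he₂, hed₂, ho₂⟩ := Cfsg.Agent.Helper5.qo_normal h2 Q₂ h₂ n hfr hn1
      have key : ∀ (Q : QuadraticForm F (Fin n → F)) (e : ℕ → Fin n → F) (d : F),
          (∀ i < n - 1, Q (e i) = 1) → Q (e (n - 1)) = d →
          (∀ i < n, ∀ j < n, i ≠ j → QuadraticMap.polar ⇑Q (e i) (e j) = 0) →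
          2 ^ n * d = (Matrix.of (fun i : Fin n => e i)).det ^ 2 * (Matrix.of (fun k l : Fin n =>
            QuadraticMap.polar ⇑Q (Pi.single k 1) (Pi.single l 1))).det := by
        intro Q e d he hed ho
        rw [← Cfsg.Agent.Helper5.qf_gram_det Q (fun i : Fin n => e i)]
        have hdiag : Matrix.of (fun i j : Fin n => QuadraticMap.polar ⇑Q (e i) (e j))
            = Matrix.diagonal (fun i : Fin n => 2 * Q (e i)) := by
          ext i j
          by_cases hij : i = j
          · subst hij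
            simp only [Matrix.of_apply, Matrix.diagonal_apply_eq]
            exact Cfsg.Agent.Helper5.qf_polar_self Q _
          · rw [Matrix.diagonal_apply_ne _ hij]
            exact ho i i.2 j j.2 (fun h => hij (Fin.ext h))
        rw [hdiag, Matrix.det_diagonal, Finset.prod_mul_distrib, Finset.prod_const,
          Finset.card_univ, Fintype.card_fin]
        congr 1
        rw [Finset.prod_eq_single (⟨n - 1, by omega⟩ : Fin n)]
        · exact hed.symm
        · intro i _ hi
          have h1 := i.2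
          have h3 : (i : ℕ) ≠ n - 1 := fun h => hi (Fin.ext h)
          exact he i (by omega)
        · intro h; exact absurd (Finset.mem_univ _) h
      have k1 := key Q₁ e₁ d₁ he₁ hed₁ ho₁
      have k2 := key Q₂ e₂ d₂ he₂ hed₂ ho₂
      obtain ⟨D₁, hD₁⟩ : ∃ D₁, D₁ = (Matrix.of (fun k l : Fin n =>
          QuadraticMap.polar ⇑Q₁ (Pi.single k 1) (Pi.single l 1))).det := ⟨_, rfl⟩
      obtain ⟨D₂, hD₂⟩ : ∃ D₂, D₂ = (Matrix.of (fun k l : Fin n =>
          QuadraticMap.polar ⇑Q₂ (Pi.single k 1) (Pi.single l 1))).det := ⟨_, rfl⟩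
      obtain ⟨w₁, hw₁⟩ : ∃ w₁, w₁ = (Matrix.of (fun i : Fin n => e₁ i)).det := ⟨_, rfl⟩
      obtain ⟨w₂, hw₂⟩ : ∃ w₂, w₂ = (Matrix.of (fun i : Fin n => e₂ i)).det := ⟨_, rfl⟩
      rw [← hD₁, ← hD₂] at hr
      rw [← hD₁, ← hw₁] at k1
      rw [← hD₂, ← hw₂] at k2
      have h2n : (2 : F) ^ n ≠ 0 := pow_ne_zero n h2
      have hs : d₁ * d₂ = (w₁ * w₂ * r / 2 ^ n) ^ 2 := by
        rw [div_pow, eq_div_iff (pow_ne_zero 2 h2n)]
        linear_combination (2 ^ n * d₂) * k1 + (w₁ ^ 2 * D₁) * k2 + (w₁ ^ 2 * w₂ ^ 2) * hr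
      obtain ⟨s, hsd⟩ : ∃ s, s = w₁ * w₂ * r / 2 ^ n := ⟨_, rfl⟩
      rw [← hsd] at hs
      obtain ⟨t, htd⟩ : ∃ t, t = s / d₂ := ⟨_, rfl⟩
      have ht : t * t * d₂ = d₁ := by
        rw [htd]
        field_simp
        linear_combination -hs
      -- basis from e₁
      have hli : LinearIndependent F (fun i : Fin n => e₁ i) := by
        rw [Fintype.linearIndependent_iff]
        intro c hc j
        have h3 := congrArg (QuadraticMap.polar ⇑Q₁ (e₁ j)) hc
        have h4 := map_sum (QuadraticMap.polarBilin Q₁ (e₁ j)) (fun i : Fin n => c i • e₁ i)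
          Finset.univ
        simp only [QuadraticMap.polarBilin_apply_apply] at h4
        rw [h4, QuadraticMap.polar_zero_right, Finset.sum_eq_single j] at h3
        · rw [QuadraticMap.polar_smul_right, Cfsg.Agent.Helper5.qf_polar_self, smul_eq_mul] at h3
          have hQj : Q₁ (e₁ j) ≠ 0 := by
            by_cases hj : (j : ℕ) = n - 1
            · rw [hj, hed₁]; exact hd₁
            · have := j.2
              rw [he₁ j (by omega)]; exact one_ne_zero
          rcases mul_eq_zero.mp h3 with h5 | h5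
          · exact h5
          · exact absurd h5 (mul_ne_zero h2 hQj)
        · intro i _ hij
          rw [QuadraticMap.polar_smul_right, ho₁ j j.2 i i.2 (fun h => hij (Fin.ext h.symm)),
            smul_zero]
        · intro h; exact absurd (Finset.mem_univ j) h
      haveI : Nonempty (Fin n) := ⟨⟨0, hn1⟩⟩
      obtain ⟨b₁, hb₁⟩ : ∃ b₁ : Module.Basis (Fin n) F (Fin n → F),
          ⇑b₁ = fun i : Fin n => e₁ i :=
        ⟨basisOfLinearIndependentOfCardEqFinrank hli (by rw [Fintype.card_fin, hfr]),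
          coe_basisOfLinearIndependentOfCardEqFinrank _ _⟩
      obtain ⟨g₀, hg₀d⟩ : ∃ g₀ : (Fin n → F) →ₗ[F] (Fin n → F), g₀ = b₁.constr F
          (fun i : Fin n => (if (i : ℕ) = n - 1 then t else 1) • e₂ i) := ⟨_, rfl⟩
      have hg₀ : ∀ i : Fin n, g₀ (b₁ i) = (if (i : ℕ) = n - 1 then t else 1) • e₂ i := by
        intro i; rw [hg₀d]; exact b₁.constr_basis F _ i
      have hb₁' : ∀ i : Fin n, b₁ i = e₁ i := fun i => by rw [hb₁]
      have h1 : ∀ i, Q₂ (g₀ (b₁ i)) = Q₁ (b₁ i) := by
        intro i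
        rw [hg₀, hb₁', Cfsg.Agent.Helper5.qf_smul]
        by_cases hi : (i : ℕ) = n - 1
        · rw [if_pos hi, hi, hed₂, hed₁]; exact ht
        · have := i.2
          rw [if_neg hi, he₂ i (by omega), he₁ i (by omega)]; ring
      have hiso := Cfsg.Agent.Helper5.qf_isom_of_basis Q₁ Q₂ b₁ g₀ h1 (by
        intro i j
        by_cases hij : i = j
        · subst hij
          rw [Cfsg.Agent.Helper5.qf_polar_self, Cfsg.Agent.Helper5.qf_polar_self, h1]
        · rw [hg₀, hg₀, hb₁', hb₁', QuadraticMap.polar_smul_left, QuadraticMap.polar_smul_right,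
            ho₂ i i.2 j j.2 (fun h => hij (Fin.ext h)), ho₁ i i.2 j j.2 (fun h => hij (Fin.ext h)),
            smul_zero, smul_zero])
      exact Cfsg.Agent.Helper5.qf_isom_equiv Q₁ Q₂ h₁ g₀ hiso

end Cfsg.Agent.S2623
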