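import Cfsg.Statements.S2624
import Cfsg.Agent.Helper5.QFStd2
import Cfsg.Agent.S2616

set_option autoImplicit false
open Cfsg

namespace Cfsg.Agent.S2624

/-- For a quadratic form Q on F^n with non-degenerate polar form, F finite and n ≥ 2 even, every non-zero scalar c is the multiplier of some similarity: there is an invertible linear map g with Q(g v) = c·Q(v) for all v. -/
theorem result {F : Type*} [Field F] [Fintype F] {n : ℕ} (hn : 2 ≤ n) (he : Even n) (Q : QuadraticForm F (Fin n → F)) (hQ : (QuadraticMap.polarBilin Q).Nondegenerate) (c : F) (hc : c ≠ 0) : ∃ g : (Fin n → F) ≃ₗ[F] (Fin n → F), ∀ v, Q (g v) = c * Q v := by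
  classical
  obtain ⟨m, hm2⟩ := he
  have hm : 1 ≤ m := by omega
  have hV : Module.finrank F (Fin n → F) = 2 * m := by
    rw [Module.finrank_fin_fun]; omega
  suffices hmain : ∃ g : (Fin n → F) →ₗ[F] (Fin n → F), ∀ v, Q (g v) = c * Q v by
    obtain ⟨g, hg⟩ := hmain
    exact Cfsg.Agent.Helper5.qf_sim_equiv Q hQ g c hc hg
  rcases Cfsg.Agent.S2616.result hm hV Q hQ with ⟨b, P1, P2, P3⟩ | ⟨b, ζ, hζ, P1, P2, P3, P4, P5, P6, P7⟩
  · obtain ⟨g, hgd⟩ : ∃ g : (Fin n → F) →ₗ[F] (Fin n → F),
        g = b.constr F (Sum.elim (fun i => c • b (Sum.inl i)) (fun i => b (Sum.inr i))) :=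
      ⟨_, rfl⟩
    have hg : ∀ i, g (b i)
        = Sum.elim (fun i => c • b (Sum.inl i)) (fun i => b (Sum.inr i)) i := by
      intro i; rw [hgd]; exact b.constr_basis F _ i
    refine ⟨g, Cfsg.Agent.Helper5.qf_sim_of_basis Q b g c ?_ ?_⟩
    · rintro (i | i)
      · rw [hg]
        simp only [Sum.elim_inl]
        rw [Cfsg.Agent.Helper5.qf_smul, (P1 i).1]; ring
      · rw [hg]
        simp only [Sum.elim_inr]
        rw [(P1 i).2]; ring
    · rintro (i | i) (j | j)
      · rw [hg, hg]
        simp only [Sum.elim_inl, QuadraticMap.polar_smul_left, QuadraticMap.polar_smul_right,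
          smul_eq_mul]
        rw [(P3 i j).1]; ring
      · rw [hg, hg]
        simp only [Sum.elim_inl, Sum.elim_inr, QuadraticMap.polar_smul_left, smul_eq_mul]
      · rw [hg, hg]
        simp only [Sum.elim_inl, Sum.elim_inr, QuadraticMap.polar_smul_right, smul_eq_mul]
      · rw [hg, hg]
        simp only [Sum.elim_inr]
        rw [(P3 i j).2]; ring
  · obtain ⟨x, hx⟩ : ∃ x, x = b (Sum.inr 0) := ⟨_, rfl⟩
    obtain ⟨y, hy⟩ : ∃ y, y = b (Sum.inr 1) := ⟨_, rfl⟩
    rw [← hx] at P5 P6
    rw [← hy] at P6 P7
    have hxx : QuadraticMap.polar ⇑Q x x = 2 := by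
      rw [Cfsg.Agent.Helper5.qf_polar_self, P5, mul_one]
    have hyy : QuadraticMap.polar ⇑Q y y = 2 * ζ := by
      rw [Cfsg.Agent.Helper5.qf_polar_self, P7]
    have hyx : QuadraticMap.polar ⇑Q y x = 1 := by rw [QuadraticMap.polar_comm]; exact P6
    obtain ⟨α, β, w, hne, heq⟩ := Cfsg.Agent.Helper5.qf_cw3 (1 : F) ζ (-c) 1 0 0
    have hw : w ≠ 0 := by
      intro hw0
      rw [hw0] at heq
      by_cases hβ : β = 0
      · rw [hβ] at heq
        have hα : α = 0 := by
          have : α ^ 2 = 0 := by linear_combination heq
          exact pow_eq_zero_iff (two_ne_zero) |>.mp this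
        exact hne ⟨hα, hβ, hw0⟩
      · apply hζ (α / β)
        field_simp
        linear_combination heq
    obtain ⟨α₀, hα₀⟩ : ∃ α₀, α₀ = α / w := ⟨_, rfl⟩
    obtain ⟨β₀, hβ₀⟩ : ∃ β₀, β₀ = β / w := ⟨_, rfl⟩
    have hαβ : α₀ ^ 2 + α₀ * β₀ + ζ * β₀ ^ 2 = c := by
      rw [hα₀, hβ₀]
      field_simp
      linear_combination heq
    obtain ⟨g, hgd⟩ : ∃ g : (Fin n → F) →ₗ[F] (Fin n → F),
        g = b.constr F (Sum.elim (Sum.elim (fun i => c • b (Sum.inl (Sum.inl i)))
          (fun i => b (Sum.inl (Sum.inr i))))
          ![α₀ • x + β₀ • y, (-β₀ * ζ) • x + (α₀ + β₀) • y]) := ⟨_, rfl⟩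
    have hg : ∀ i, g (b i)
        = Sum.elim (Sum.elim (fun i => c • b (Sum.inl (Sum.inl i)))
          (fun i => b (Sum.inl (Sum.inr i))))
          ![α₀ • x + β₀ • y, (-β₀ * ζ) • x + (α₀ + β₀) • y] i := by
      intro i; rw [hgd]; exact b.constr_basis F _ i
    have hga : ∀ i, g (b (Sum.inl (Sum.inl i))) = c • b (Sum.inl (Sum.inl i)) := by
      intro i; rw [hg]; rfl
    have hgb : ∀ i, g (b (Sum.inl (Sum.inr i))) = b (Sum.inl (Sum.inr i)) := by
      intro i; rw [hg]; rfl
    have hg0 : g x = α₀ • x + β₀ • y := by
      have h := hg (Sum.inr 0)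
      rw [← hx] at h
      exact h
    have hg1 : g y = (-β₀ * ζ) • x + (α₀ + β₀) • y := by
      have h := hg (Sum.inr 1)
      rw [← hy] at h
      exact h
    have hex : ∀ i, QuadraticMap.polar ⇑Q (b (Sum.inl (Sum.inl i))) x = 0 := by
      intro i; rw [hx]; exact (P4 i 0).1
    have hey : ∀ i, QuadraticMap.polar ⇑Q (b (Sum.inl (Sum.inl i))) y = 0 := by
      intro i; rw [hy]; exact (P4 i 1).1
    have hfx : ∀ i, QuadraticMap.polar ⇑Q (b (Sum.inl (Sum.inr i))) x = 0 := by
      intro i; rw [hx]; exact (P4 i 0).2
    have hfy : ∀ i, QuadraticMap.polar ⇑Q (b (Sum.inl (Sum.inr i))) y = 0 := by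
      intro i; rw [hy]; exact (P4 i 1).2
    have hxe : ∀ i, QuadraticMap.polar ⇑Q x (b (Sum.inl (Sum.inl i))) = 0 := by
      intro i; rw [QuadraticMap.polar_comm]; exact hex i
    have hye : ∀ i, QuadraticMap.polar ⇑Q y (b (Sum.inl (Sum.inl i))) = 0 := by
      intro i; rw [QuadraticMap.polar_comm]; exact hey i
    have hxf : ∀ i, QuadraticMap.polar ⇑Q x (b (Sum.inl (Sum.inr i))) = 0 := by
      intro i; rw [QuadraticMap.polar_comm]; exact hfx i
    have hyf : ∀ i, QuadraticMap.polar ⇑Q y (b (Sum.inl (Sum.inr i))) = 0 := by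
      intro i; rw [QuadraticMap.polar_comm]; exact hfy i
    refine ⟨g, Cfsg.Agent.Helper5.qf_sim_of_basis Q b g c ?_ ?_⟩
    · rintro ((i | i) | k)
      · rw [hga, Cfsg.Agent.Helper5.qf_smul, (P1 i).1]; ring
      · rw [hgb, (P1 i).2]; ring
      · revert k
        rw [Fin.forall_fin_two]
        constructor
        · rw [← hx, hg0, Cfsg.Agent.Helper5.qf_add, Cfsg.Agent.Helper5.qf_smul,
            Cfsg.Agent.Helper5.qf_smul, P5, P7]
          simp only [QuadraticMap.polar_smul_left, QuadraticMap.polar_smul_right, smul_eq_mul,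
            P6]
          linear_combination hαβ
        · rw [← hy, hg1, Cfsg.Agent.Helper5.qf_add, Cfsg.Agent.Helper5.qf_smul,
            Cfsg.Agent.Helper5.qf_smul, P5, P7]
          simp only [QuadraticMap.polar_smul_left, QuadraticMap.polar_smul_right, smul_eq_mul,
            P6]
          linear_combination ζ * hαβ
    · rintro ((i | i) | k) ((j | j) | k')
      · rw [hga, hga]
        simp only [QuadraticMap.polar_smul_left, QuadraticMap.polar_smul_right, smul_eq_mul]
        rw [(P3 i j).1]; ring
      · rw [hga, hgb]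
        simp only [QuadraticMap.polar_smul_left, smul_eq_mul]
      · rw [hga, (P4 i k').1]
        revert k'
        rw [Fin.forall_fin_two]
        constructor
        · rw [← hx, hg0]
          simp only [QuadraticMap.polar_smul_left, QuadraticMap.polar_smul_right,
            QuadraticMap.polar_add_right, smul_eq_mul, hex, hey]
          ring
        · rw [← hy, hg1]
          simp only [QuadraticMap.polar_smul_left, QuadraticMap.polar_smul_right,
            QuadraticMap.polar_add_right, smul_eq_mul, hex, hey]
          ring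
      · rw [hgb, hga]
        simp only [QuadraticMap.polar_smul_right, smul_eq_mul]
      · rw [hgb, hgb, (P3 i j).2]; ring
      · rw [hgb, (P4 i k').2]
        revert k'
        rw [Fin.forall_fin_two]
        constructor
        · rw [← hx, hg0]
          simp only [QuadraticMap.polar_smul_right, QuadraticMap.polar_add_right, smul_eq_mul,
            hfx, hfy]
          ring
        · rw [← hy, hg1]
          simp only [QuadraticMap.polar_smul_right, QuadraticMap.polar_add_right, smul_eq_mul,
            hfx, hfy]
          ring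
      · have h0 : QuadraticMap.polar ⇑Q (b (Sum.inr k)) (b (Sum.inl (Sum.inl j))) = 0 := by
          rw [QuadraticMap.polar_comm]; exact (P4 j k).1
        rw [hga, h0]
        revert k
        rw [Fin.forall_fin_two]
        constructor
        · intro _
          rw [← hx, hg0]
          simp only [QuadraticMap.polar_smul_left, QuadraticMap.polar_smul_right,
            QuadraticMap.polar_add_left, smul_eq_mul, hxe, hye]
          ring
        · intro _
          rw [← hy, hg1]
          simp only [QuadraticMap.polar_smul_left, QuadraticMap.polar_smul_right,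
            QuadraticMap.polar_add_left, smul_eq_mul, hxe, hye]
          ring
      · have h0 : QuadraticMap.polar ⇑Q (b (Sum.inr k)) (b (Sum.inl (Sum.inr j))) = 0 := by
          rw [QuadraticMap.polar_comm]; exact (P4 j k).2
        rw [hgb, h0]
        revert k
        rw [Fin.forall_fin_two]
        constructor
        · intro _
          rw [← hx, hg0]
          simp only [QuadraticMap.polar_smul_left, QuadraticMap.polar_add_left, smul_eq_mul,
            hxf, hyf]
          ring
        · intro _
          rw [← hy, hg1]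
          simp only [QuadraticMap.polar_smul_left, QuadraticMap.polar_add_left, smul_eq_mul,
            hxf, hyf]
          ring
      · revert k k'
        rw [Fin.forall_fin_two]
        constructor
        · rw [Fin.forall_fin_two]
          constructor
          · rw [← hx, hg0]
            simp only [QuadraticMap.polar_smul_left, QuadraticMap.polar_smul_right,
              QuadraticMap.polar_add_left, QuadraticMap.polar_add_right, smul_eq_mul, hxx, hyy,
              P6, hyx]
            linear_combination 2 * hαβ
          · rw [← hx, ← hy, hg0, hg1]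
            simp only [QuadraticMap.polar_smul_left, QuadraticMap.polar_smul_right,
              QuadraticMap.polar_add_left, QuadraticMap.polar_add_right, smul_eq_mul, hxx, hyy,
              P6, hyx]
            linear_combination hαβ
        · rw [Fin.forall_fin_two]
          constructor
          · rw [← hx, ← hy, hg0, hg1]
            simp only [QuadraticMap.polar_smul_left, QuadraticMap.polar_smul_right,
              QuadraticMap.polar_add_left, QuadraticMap.polar_add_right, smul_eq_mul, hxx, hyy,
              P6, hyx]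
            linear_combination hαβ
          · rw [← hy, hg1]
            simp only [QuadraticMap.polar_smul_left, QuadraticMap.polar_smul_right,
              QuadraticMap.polar_add_left, QuadraticMap.polar_add_right, smul_eq_mul, hxx, hyy,
              P6, hyx]
            linear_combination (2 * ζ) * hαβ

end Cfsg.Agent.S2624
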