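import Mathlib

namespace Cfsg.Agent.S2625

/-- For a quadratic form Q on F^n with non-degenerate polar form, F finite and n odd (so |F| is odd), the multiplier of any similarity is a square: if g is an invertible linear map with Q(g v) = c·Q(v) for all v then c is a square. -/
theorem result {F : Type*} [Field F] [Fintype F] {n : ℕ} (hn : Odd n) (Q : QuadraticForm F (Fin n → F)) (hQ : (QuadraticMap.polarBilin Q).Nondegenerate) (g : (Fin n → F) ≃ₗ[F] (Fin n → F)) (c : F) (hg : ∀ v, Q (g v) = c * Q v) : IsSquare c := by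
  classical
  have hcomp : LinearMap.BilinForm.comp (QuadraticMap.polarBilin Q)
      (g : (Fin n → F) →ₗ[F] (Fin n → F)) (g : (Fin n → F) →ₗ[F] (Fin n → F))
      = c • QuadraticMap.polarBilin Q := by
    refine LinearMap.ext fun v => LinearMap.ext fun w => ?_
    simp only [LinearMap.BilinForm.comp_apply, LinearEquiv.coe_coe, QuadraticMap.polarBilin_apply_apply,
      LinearMap.smul_apply, smul_eq_mul, QuadraticMap.polar]
    rw [← map_add, hg, hg, hg]
    ring
  have hM := congrArg LinearMap.BilinForm.toMatrix' hcomp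
  rw [LinearMap.BilinForm.toMatrix'_comp, map_smul] at hM
  have hdet := congrArg Matrix.det hM
  rw [Matrix.det_mul, Matrix.det_mul, Matrix.det_transpose, Matrix.det_smul, Fintype.card_fin] at hdet
  have hne : (LinearMap.BilinForm.toMatrix' (QuadraticMap.polarBilin Q)).det ≠ 0 :=
    Matrix.nondegenerate_iff_det_ne_zero.1 ((LinearMap.BilinForm.nondegenerate_toMatrix'_iff).2 hQ)
  have h1 : (LinearMap.toMatrix' (g : (Fin n → F) →ₗ[F] (Fin n → F))).det *
      (LinearMap.toMatrix' (g : (Fin n → F) →ₗ[F] (Fin n → F))).det = c ^ n := by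
    apply mul_right_cancel₀ hne
    rw [← hdet]
    ring
  obtain ⟨k, hk⟩ := hn
  have hc : c ≠ 0 := by
    rintro rfl
    have hd : (LinearMap.toMatrix' (g : (Fin n → F) →ₗ[F] (Fin n → F))).det ≠ 0 := by
      rw [LinearMap.det_toMatrix']
      exact (LinearEquiv.isUnit_det' g).ne_zero
    have hn0 : n ≠ 0 := by omega
    rw [zero_pow hn0] at h1
    exact hd (mul_self_eq_zero.1 h1)
  refine ⟨(LinearMap.toMatrix' (g : (Fin n → F) →ₗ[F] (Fin n → F))).det / c ^ k, ?_⟩
  have h2 : c ^ n = c * (c ^ k * c ^ k) := by rw [hk]; ring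
  rw [div_mul_div_comm, h1, h2]
  field_simp

end Cfsg.Agent.S2625
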