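import Cfsg.Statements.S2666

set_option autoImplicit false
open Cfsg

namespace Cfsg.Agent.S2666

theorem fixed_pow'' {X : Type*} [Group X] (τ : MulAut X) (x : X) (hx : τ x = x) (d : ℕ) :
    (τ ^ d) x = x := by
  induction d with
  | zero => simp
  | succ n ih => rw [pow_succ, MulAut.mul_apply, hx, ih]

theorem comm_pow_apply' {X : Type*} [Group X] (σ : MulAut X) (e : ℕ) (x : X) :
    (σ ^ e) (σ x) = σ ((σ ^ e) x) := by
  have : (σ ^ e) ((σ ^ 1) x) = (σ ^ 1) ((σ ^ e) x) := by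
    rw [← MulAut.mul_apply, ← MulAut.mul_apply, ← pow_add, ← pow_add, add_comm]
  simpa using this

theorem prod_eq' {X : Type*} [Group X] (σ : MulAut X) (g a : X) (ha : g = a * (σ a)⁻¹) (d : ℕ) :
    ((List.range d).map (fun i => (σ ^ i) g)).prod = a * ((σ ^ d) a)⁻¹ := by
  induction d with
  | zero => simp
  | succ n ih =>
    rw [List.range_succ, List.map_append, List.prod_append, ih]
    simp only [List.map_cons, List.map_nil, List.prod_cons, List.prod_nil, mul_one]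
    rw [ha, map_mul, map_inv, pow_succ, MulAut.mul_apply]
    group

theorem x_fixed {X : Type*} [Group X] (σ : MulAut X) (e : ℕ) (g a : X) (hg' : (σ ^ e) g = g)
    (ha : g = a * (σ a)⁻¹) : σ (((σ ^ e) a)⁻¹ * a) = ((σ ^ e) a)⁻¹ * a := by
  have h1 : (σ ^ e) a * ((σ ^ e) (σ a))⁻¹ = a * (σ a)⁻¹ := by
    have := hg'
    rw [ha, map_mul, map_inv] at this
    exact this
  rw [comm_pow_apply'] at h1
  rw [map_mul, map_inv]
  have h3 : (σ ((σ ^ e) a))⁻¹ = ((σ ^ e) a)⁻¹ * (a * (σ a)⁻¹) := by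
    rw [← h1]; group
  rw [h3]; group

/-- Shintani descent, in an abstract form. Let `σ` be an automorphism of a group `X` such that the maps `a ↦ a·σ(a)⁻¹` and `a ↦ a·σᵉ(a)⁻¹` are surjective on `X` (the Lang–Steinberg property, which holds when `X` is a connected algebraic group and `σ` a Steinberg endomorphism), where `e ≥ 1`. Write `G` for the subgroup of fixed points of `σᵉ` and `H` for the subgroup of fixed points of `σ`. The `G`-conjugacy classes in the coset `G σ` of the semidirect product of `G` by `σ` correspond to the orbits of `G` on itself under twisted conjugation `g ↦ k g σ(k)⁻¹`, and the `e`-th power of `g σ` has `G`-part the norm `g σ(g) ⋯ σ^(e-1)(g)`. For `g` in `G` and any `a` with `g = a σ(a)⁻¹`, put `x = σᵉ(a)⁻¹ a`. Then: (1) `x` lies in `H`, and `a⁻¹ · (g σ(g) ⋯ σ^(e-1)(g)) · a = x`; (2) for `g, g'` in `G` with such elements `a, b` and `x, x'`, the elements `g, g'` are twisted-conjugate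 under `G` if and only if `x, x'` are conjugate in `H`; (3) every element of `H` arises as such an `x`. So `g ↦ x` induces a well-defined bijection from the twisted `G`-classes of `G` onto the conjugacy classes of `H` (the Shintani map). -/
theorem result {X : Type*} [Group X] (σ : MulAut X) (e : ℕ) (he : 1 ≤ e)
    (hL : ∀ g : X, ∃ a : X, g = a * (σ a)⁻¹) (hLe : ∀ g : X, ∃ a : X, g = a * ((σ ^ e) a)⁻¹) :
    (∀ g ∈ (MulEquiv.toMonoidHom (σ ^ e)).eqLocus (MonoidHom.id X), ∀ a : X, g = a * (σ a)⁻¹ →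
        ((σ ^ e) a)⁻¹ * a ∈ (MulEquiv.toMonoidHom σ).eqLocus (MonoidHom.id X) ∧
          a⁻¹ * ((List.range e).map (fun i => (σ ^ i) g)).prod * a = ((σ ^ e) a)⁻¹ * a) ∧
    (∀ g ∈ (MulEquiv.toMonoidHom (σ ^ e)).eqLocus (MonoidHom.id X), ∀ g' ∈ (MulEquiv.toMonoidHom (σ ^ e)).eqLocus (MonoidHom.id X), ∀ a b : X,
        g = a * (σ a)⁻¹ → g' = b * (σ b)⁻¹ →
          ((∃ k ∈ (MulEquiv.toMonoidHom (σ ^ e)).eqLocus (MonoidHom.id X), g' = k * g * (σ k)⁻¹) ↔
            (∃ h ∈ (MulEquiv.toMonoidHom σ).eqLocus (MonoidHom.id X), ((σ ^ e) b)⁻¹ * b = h * (((σ ^ e) a)⁻¹ * a) * h⁻¹))) ∧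
    (∀ x ∈ (MulEquiv.toMonoidHom σ).eqLocus (MonoidHom.id X), ∃ g ∈ (MulEquiv.toMonoidHom (σ ^ e)).eqLocus (MonoidHom.id X), ∃ a : X,
        g = a * (σ a)⁻¹ ∧ ((σ ^ e) a)⁻¹ * a = x) := by
  refine ⟨?_, ?_, ?_⟩
  · intro g hg a ha
    refine ⟨x_fixed σ e g a hg ha, ?_⟩
    rw [prod_eq' σ g a ha e]; group
  · intro g hg g' hg' a b ha hb
    constructor
    · rintro ⟨k, hk, hkg⟩
      have hk' : (σ ^ e) k = k := hk
      -- h = b⁻¹ k a
      have hh : σ (b⁻¹ * k * a) = b⁻¹ * k * a := by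
        have h1 : b * (σ b)⁻¹ = k * (a * (σ a)⁻¹) * (σ k)⁻¹ := by rw [← hb, ← ha]; exact hkg
        rw [map_mul, map_mul, map_inv]
        have h2 : (σ b)⁻¹ = b⁻¹ * (k * (a * (σ a)⁻¹) * (σ k)⁻¹) := by rw [← h1]; group
        rw [h2]; group
      refine ⟨b⁻¹ * k * a, hh, ?_⟩
      have hhe : (σ ^ e) (b⁻¹ * k * a) = b⁻¹ * k * a := fixed_pow'' σ _ hh e
      rw [map_mul, map_mul, map_inv, hk'] at hhe
      have h3 : ((σ ^ e) b)⁻¹ = b⁻¹ * k * a * ((σ ^ e) a)⁻¹ * k⁻¹ := by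
        calc ((σ ^ e) b)⁻¹ = (((σ ^ e) b)⁻¹ * k * (σ ^ e) a) * ((σ ^ e) a)⁻¹ * k⁻¹ := by group
          _ = b⁻¹ * k * a * ((σ ^ e) a)⁻¹ * k⁻¹ := by rw [hhe]
      rw [h3]; group
    · rintro ⟨h, hh, hx⟩
      have hh' : σ h = h := hh
      have hhe : (σ ^ e) h = h := fixed_pow'' σ h hh' e
      refine ⟨b * h * a⁻¹, ?_, ?_⟩
      · show (σ ^ e) (b * h * a⁻¹) = b * h * a⁻¹
        rw [map_mul, map_mul, map_inv, hhe]
        have h1 : (σ ^ e) b = b * (((σ ^ e) b)⁻¹ * b)⁻¹ := by group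
        rw [h1, hx]; group
      · rw [map_mul, map_mul, map_inv, hh', ha, hb]; group
  · intro x hx
    have hx' : σ x = x := hx
    obtain ⟨c, hc⟩ := hLe x⁻¹
    have hxe : ((σ ^ e) c⁻¹)⁻¹ * c⁻¹ = x := by
      have : x = (c * ((σ ^ e) c)⁻¹)⁻¹ := by rw [← hc]; group
      rw [this, map_inv]; group
    have key : ∀ a : X, ((σ ^ e) a)⁻¹ * a = x → (σ ^ e) (a * (σ a)⁻¹) = a * (σ a)⁻¹ := by
      intro a hxa
      rw [map_mul, map_inv, comm_pow_apply']
      have h1 : (σ ^ e) a = a * x⁻¹ := by rw [← hxa]; group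
      rw [h1, map_mul, map_inv, hx']; group
    exact ⟨c⁻¹ * (σ c⁻¹)⁻¹, key _ hxe, c⁻¹, rfl, hxe⟩

end Cfsg.Agent.S2666
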