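import Cfsg.Statements.S2667

set_option autoImplicit false
open Cfsg

namespace Cfsg.Agent.S2667

theorem fixed_pow' {X : Type*} [Group X] (τ : MulAut X) (x : X) (hx : τ x = x) (d : ℕ) :
    (τ ^ d) x = x := by
  induction d with
  | zero => simp
  | succ n ih => rw [pow_succ, MulAut.mul_apply, hx, ih]

theorem twisted_iff {X : Type*} [Group X] (σ : MulAut X) (g a k : X) (ha : g = a * (σ a)⁻¹) :
    k * g * (σ k)⁻¹ = g ↔ σ (a⁻¹ * k * a) = a⁻¹ * k * a := by
  rw [map_mul, map_mul, map_inv]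
  constructor
  · intro h
    have hσk : σ k = g⁻¹ * k * g :=
      calc σ k = g⁻¹ * (k * g * (σ k)⁻¹) * σ k := by rw [h]; group
        _ = g⁻¹ * k * g := by group
    rw [hσk, ha]; group
  · intro h
    have hσk : σ k = σ a * (a⁻¹ * k * a) * (σ a)⁻¹ :=
      calc σ k = σ a * ((σ a)⁻¹ * σ k * σ a) * (σ a)⁻¹ := by group
        _ = σ a * (a⁻¹ * k * a) * (σ a)⁻¹ := by rw [h]
    rw [hσk, ha]; group

/-- Shintani descent, in an abstract form. Let `σ` be an automorphism of a group `X` and `e ≥ 1` (no surjectivity of the Lang maps is needed for this part; in the classical setting `X` is a connected algebraic group and `σ` a Steinberg endomorphism). Write `G` for the subgroup of fixed points of `σᵉ` and `H` for the subgroup of fixed points of `σ`. The `G`-conjugacy classes in the coset `G σ` of the semidirect product of `G` by `σ` correspond to the orbits of `G` on itself under twisted conjugation `g ↦ k g σ(k)⁻¹`, and the `e`-th power of `g σ` has `G`-part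 the norm `g σ(g) ⋯ σ^(e-1)(g)`. For `g` in `G` and any `a` with `g = a σ(a)⁻¹`, put `x = σᵉ(a)⁻¹ a`. Then conjugation by `a⁻¹` carries the twisted centralizer `{k ∈ G : k g σ(k)⁻¹ = g}` (the centralizer of `g σ` in `G`) exactly onto the centralizer of `x` in `H`: an element `k` of `X` lies in `G` and satisfies `k g σ(k)⁻¹ = g` if and only if `a⁻¹ k a` lies in `H` and commutes with `x`. In particular the two centralizers are conjugate in `X` and have the same order. -/
theorem result {X : Type*} [Group X] (σ : MulAut X) (e : ℕ) (he : 1 ≤ e)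
    (g : X) (hg : g ∈ (MulEquiv.toMonoidHom (σ ^ e)).eqLocus (MonoidHom.id X)) (a : X) (ha : g = a * (σ a)⁻¹) (k : X) :
    (k ∈ (MulEquiv.toMonoidHom (σ ^ e)).eqLocus (MonoidHom.id X) ∧ k * g * (σ k)⁻¹ = g) ↔
      (a⁻¹ * k * a ∈ (MulEquiv.toMonoidHom σ).eqLocus (MonoidHom.id X) ∧
        (a⁻¹ * k * a) * (((σ ^ e) a)⁻¹ * a) = (((σ ^ e) a)⁻¹ * a) * (a⁻¹ * k * a)) := by
  have key : ∀ m : X, σ m = m →
      ((σ ^ e) (a * m * a⁻¹) = a * m * a⁻¹ ↔ m * (((σ ^ e) a)⁻¹ * a) = (((σ ^ e) a)⁻¹ * a) * m) := by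
    intro m hm
    have hme : (σ ^ e) m = m := fixed_pow' σ m hm e
    rw [map_mul, map_mul, map_inv, hme]
    constructor
    · intro h
      have : m = ((σ ^ e) a)⁻¹ * (a * m * a⁻¹) * (σ ^ e) a := by rw [← h]; group
      calc m * (((σ ^ e) a)⁻¹ * a) = (((σ ^ e) a)⁻¹ * (a * m * a⁻¹) * (σ ^ e) a) * (((σ ^ e) a)⁻¹ * a) := by rw [← this]
        _ = (((σ ^ e) a)⁻¹ * a) * m := by group
    · intro h
      calc (σ ^ e) a * m * ((σ ^ e) a)⁻¹ = (σ ^ e) a * (m * (((σ ^ e) a)⁻¹ * a)) * a⁻¹ := by group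
        _ = (σ ^ e) a * ((((σ ^ e) a)⁻¹ * a) * m) * a⁻¹ := by rw [h]
        _ = a * m * a⁻¹ := by group
  have hk : a * (a⁻¹ * k * a) * a⁻¹ = k := by group
  constructor
  · rintro ⟨hke, hkg⟩
    have hm : σ (a⁻¹ * k * a) = a⁻¹ * k * a := (twisted_iff σ g a k ha).1 hkg
    refine ⟨hm, (key _ hm).1 ?_⟩
    rw [hk]; exact hke
  · rintro ⟨hm, hc⟩
    refine ⟨?_, (twisted_iff σ g a k ha).2 hm⟩
    have := (key _ hm).2 hc
    rw [hk] at this
    exact this

end Cfsg.Agent.S2667
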