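import Cfsg.Statements.S2668

set_option autoImplicit false
open Cfsg

namespace Cfsg.Agent.S2668

theorem fixed_pow {X : Type*} [Group X] (τ : MulAut X) (x : X) (hx : τ x = x) (d : ℕ) :
    (τ ^ d) x = x := by
  induction d with
  | zero => simp
  | succ n ih => rw [pow_succ, MulAut.mul_apply, hx, ih]

theorem comm_pow_apply {X : Type*} [Group X] (σ : MulAut X) (i j : ℕ) (x : X) :
    (σ ^ i) ((σ ^ j) x) = (σ ^ j) ((σ ^ i) x) := by
  rw [← MulAut.mul_apply, ← MulAut.mul_apply, ← pow_add, ← pow_add, add_comm]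

theorem prod_eq {X : Type*} [Group X] (σ : MulAut X) (g a : X) (ha : g = a * (σ a)⁻¹) (d : ℕ) :
    ((List.range d).map (fun i => (σ ^ i) g)).prod = a * ((σ ^ d) a)⁻¹ := by
  induction d with
  | zero => simp
  | succ n ih =>
    rw [List.range_succ, List.map_append, List.prod_append, ih]
    simp only [List.map_cons, List.map_nil, List.prod_cons, List.prod_nil, mul_one]
    rw [ha, map_mul, map_inv, pow_succ, MulAut.mul_apply]
    group

/-- Shintani descent and powers (abstract form). Let `σ` be an automorphism of a group `X`, `e ≥ 1` and `d ≥ 1`, let `g` be fixed by `σᵉ` and let `a` satisfy `g = a σ(a)⁻¹`, so that the Shintani map of `(X, σ, e)` sends the class of `g σ` to the class of `x = σᵉ(a)⁻¹ a`. Put `h = g σ(g) ⋯ σ^(d-1)(g)`, the part in `X` of the `d`-th power `(g σ)^d = h σ^d`. Then `h = a σ^d(a)⁻¹` (so `a` also serves for `h` with respect to `σ^d`), `h` is fixed by `(σ^d)ᵉ`, and `(σ^d)ᵉ(a)⁻¹ a = x^d`: the Shintani map of `(X, σ^d, e)` sends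 the class of `(g σ)^d` to the class of `x^d`. (When `d` divides `e`, the Shintani map of `(X, σ^d, e/d)` sends it to the class of `x` itself, since `(σ^d)^(e/d) = σᵉ`.) -/
theorem result {X : Type*} [Group X] (σ : MulAut X) (e d : ℕ) (he : 1 ≤ e) (hd : 1 ≤ d)
    (g : X) (hg : g ∈ (MulEquiv.toMonoidHom (σ ^ e)).eqLocus (MonoidHom.id X)) (a : X) (ha : g = a * (σ a)⁻¹) :
    ((List.range d).map (fun i => (σ ^ i) g)).prod = a * ((σ ^ d) a)⁻¹ ∧
      ((List.range d).map (fun i => (σ ^ i) g)).prod ∈ (MulEquiv.toMonoidHom ((σ ^ d) ^ e)).eqLocus (MonoidHom.id X) ∧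
      (((σ ^ d) ^ e) a)⁻¹ * a = (((σ ^ e) a)⁻¹ * a) ^ d := by
  have hg' : (σ ^ e) g = g := hg
  -- x = (σ^e a)⁻¹ a is fixed by σ
  have hx : σ (((σ ^ e) a)⁻¹ * a) = ((σ ^ e) a)⁻¹ * a := by
    have h1 : (σ ^ e) a * ((σ ^ e) (σ a))⁻¹ = a * (σ a)⁻¹ := by
      have := hg'
      rw [ha, map_mul, map_inv] at this
      exact this
    have h2 : (σ ^ e) (σ a) = σ ((σ ^ e) a) := by
      have := comm_pow_apply σ e 1 a
      simpa using this
    rw [h2] at h1
    rw [map_mul, map_inv]
    have h3 : (σ ((σ ^ e) a))⁻¹ = ((σ ^ e) a)⁻¹ * (a * (σ a)⁻¹) := by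
      rw [← h1]; group
    rw [h3]; group
  have hxe : (σ ^ e) (((σ ^ e) a)⁻¹ * a) = ((σ ^ e) a)⁻¹ * a := fixed_pow σ _ hx e
  refine ⟨prod_eq σ g a ha d, ?_, ?_⟩
  · show ((σ ^ d) ^ e) _ = _
    rw [← pow_mul, mul_comm, pow_mul]
    have : ∀ (l : List ℕ), ((σ ^ e) ^ d) ((l.map (fun i => (σ ^ i) g)).prod) = (l.map (fun i => (σ ^ i) g)).prod := by
      intro l
      induction l with
      | nil => simp
      | cons i l ih =>
        simp only [List.map_cons, List.prod_cons, map_mul]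
        rw [ih]
        congr 1
        apply fixed_pow
        rw [comm_pow_apply, hg']
    exact this _
  · rw [← pow_mul, mul_comm, pow_mul]
    have key : ∀ n : ℕ, (((σ ^ e) ^ n) a)⁻¹ * a = (((σ ^ e) a)⁻¹ * a) ^ n := by
      intro n
      induction n with
      | zero => simp
      | succ n ih =>
        have h4 : (σ ^ e) a = a * (((σ ^ e) a)⁻¹ * a)⁻¹ := by group
        have h5 : ((σ ^ e) ^ (n + 1)) a = ((σ ^ e) ^ n) ((σ ^ e) a) := by
          rw [pow_succ, MulAut.mul_apply]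
        rw [h5]
        conv_lhs => rw [h4]
        rw [map_mul, map_inv, fixed_pow (σ ^ e) _ hxe n, pow_succ', ← ih]
        group
    exact key d

end Cfsg.Agent.S2668
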