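import Mathlib

namespace Cfsg.Agent.S2738

theorem central_commutator_eq_one {G : Type*} [Group G] (K : Subgroup G)
    (hK : Subgroup.IsComplement' (Subgroup.center G) K) (g h z : G) (hz : z ∈ Subgroup.center G)
    (hgh : g * h = z * (h * g)) : z = 1 := by
  obtain ⟨⟨⟨a, ha⟩, ⟨k, hk⟩⟩, hg, -⟩ := (Subgroup.isComplement_iff_existsUnique.1 hK) g
  obtain ⟨⟨⟨b, hb⟩, ⟨l, hl⟩⟩, hh, -⟩ := (Subgroup.isComplement_iff_existsUnique.1 hK) h
  simp only at hg hh
  have ca : ∀ x : G, x * a = a * x := fun x => Subgroup.mem_center_iff.1 ha x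
  have cb : ∀ x : G, x * b = b * x := fun x => Subgroup.mem_center_iff.1 hb x
  have cz : ∀ x : G, x * z = z * x := fun x => Subgroup.mem_center_iff.1 hz x
  have e1 : g * h = (a * b) * (k * l) := by
    rw [← hg, ← hh]
    calc a * k * (b * l) = a * (k * b) * l := by group
      _ = a * (b * k) * l := by rw [cb k]
      _ = a * b * (k * l) := by group
  have e2 : z * (h * g) = (a * b) * (z * (l * k)) := by
    rw [← hg, ← hh]
    calc z * (b * l * (a * k)) = z * (b * (l * a) * k) := by group
      _ = z * (b * (a * l) * k) := by rw [ca l]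
      _ = z * ((b * a) * (l * k)) := by group
      _ = z * ((a * b) * (l * k)) := by rw [ca b]
      _ = ((a * b) * z) * (l * k) := by rw [cz (a * b)]; group
      _ = (a * b) * (z * (l * k)) := by group
  have e3 : k * l = z * (l * k) := by
    apply mul_left_cancel (a := a * b)
    rw [← e1, ← e2]; exact hgh
  have hzK : z ∈ K := by
    have : z = k * l * (l * k)⁻¹ := by rw [e3]; group
    rw [this]
    exact K.mul_mem (K.mul_mem hk hl) (K.inv_mem (K.mul_mem hl hk))
  have hdisj := hK.disjoint
  have : z ∈ Subgroup.center G ⊓ K := Subgroup.mem_inf.2 ⟨hz, hzK⟩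
  rw [hdisj.eq_bot, Subgroup.mem_bot] at this
  exact this

/-- The special linear group SL(3, 4) has centre of order 3 and does not split over it: no subgroup is a complement to the centre (so SL(3, 4) is a non-split central extension of PSL(3, 4) by a group of order 3). -/
theorem result (F : Type*) [Field F] [Fintype F] (hF : Fintype.card F = 4) : Nat.card ↥(Subgroup.center (Matrix.SpecialLinearGroup (Fin 3) F)) = 3 ∧ ¬ ∃ K : Subgroup (Matrix.SpecialLinearGroup (Fin 3) F), Subgroup.IsComplement' (Subgroup.center (Matrix.SpecialLinearGroup (Fin 3) F)) K := by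
  classical
  have hU : Fintype.card Fˣ = 3 := by rw [Fintype.card_units, hF]
  have hpow : ∀ u : Fˣ, u ^ 3 = 1 := by
    intro u
    rw [← hU]; exact pow_card_eq_one
  constructor
  · have e := Matrix.SpecialLinearGroup.center_equiv_rootsOfUnity' (n := Fin 3) (R := F) 0
    rw [Nat.card_congr e.toEquiv]
    have htop : rootsOfUnity (Fintype.card (Fin 3)) F = ⊤ := by
      rw [eq_top_iff]
      intro u _
      rw [mem_rootsOfUnity, Fintype.card_fin]
      exact hpow u
    rw [htop, Subgroup.card_top, Nat.card_eq_fintype_card, hU]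
  · rintro ⟨K, hK⟩
    haveI : Nontrivial Fˣ := Fintype.one_lt_card_iff_nontrivial.1 (by rw [hU]; norm_num)
    obtain ⟨u, hu⟩ := exists_ne (1 : Fˣ)
    have hω3 : (u : F) ^ 3 = 1 := by
      have := congrArg Units.val (hpow u)
      simpa using this
    have hω1 : (u : F) ≠ 1 := by
      intro h
      exact hu (Units.ext h)
    let A : Matrix.SpecialLinearGroup (Fin 3) F :=
      ⟨!![1, 0, 0; 0, (u : F), 0; 0, 0, (u : F) ^ 2], by
        rw [Matrix.det_fin_three]
        simp
        linear_combination hω3⟩
    let B : Matrix.SpecialLinearGroup (Fin 3) F :=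
      ⟨!![0, 0, 1; 1, 0, 0; 0, 1, 0], by
        rw [Matrix.det_fin_three]
        simp⟩
    let Z : Matrix.SpecialLinearGroup (Fin 3) F :=
      ⟨!![(u : F), 0, 0; 0, (u : F), 0; 0, 0, (u : F)], by
        rw [Matrix.det_fin_three]
        simp
        linear_combination hω3⟩
    have hZc : Z ∈ Subgroup.center (Matrix.SpecialLinearGroup (Fin 3) F) := by
      rw [Matrix.SpecialLinearGroup.mem_center_iff]
      refine ⟨(u : F), by rw [Fintype.card_fin]; exact hω3, ?_⟩
      ext i j
      fin_cases i <;> fin_cases j <;> simp [Z, Matrix.scalar, Matrix.diagonal]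
    have hABm : (!![1, 0, 0; 0, (u : F), 0; 0, 0, (u : F) ^ 2] : Matrix (Fin 3) (Fin 3) F) *
        !![0, 0, 1; 1, 0, 0; 0, 1, 0] =
        !![(u : F), 0, 0; 0, (u : F), 0; 0, 0, (u : F)] *
          (!![0, 0, 1; 1, 0, 0; 0, 1, 0] * !![1, 0, 0; 0, (u : F), 0; 0, 0, (u : F) ^ 2]) := by
      ext i j
      fin_cases i <;> fin_cases j <;>
        simp [Matrix.mul_apply, Fin.sum_univ_three]
      all_goals first | ring1 | linear_combination (-1 : F) * hω3 | linear_combination hω3
    have hAB : A * B = Z * (B * A) := by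
      apply Subtype.ext
      exact hABm
    have hZ1 := central_commutator_eq_one K hK A B Z hZc hAB
    apply hω1
    have h00 := congrArg (fun M : Matrix.SpecialLinearGroup (Fin 3) F => (M : Matrix (Fin 3) (Fin 3) F) 0 0) hZ1
    simpa [Z] using h00

end Cfsg.Agent.S2738
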