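import Cfsg.Statements.S2739
import Mathlib
import Cfsg.Agent.S0819

set_option autoImplicit false
open scoped Pointwise
open Cfsg

namespace Cfsg.Agent.S2739

set_option maxHeartbeats 4000000 in
theorem core3 {R : Type*} [CommRing R] (w x : R) (h2 : (2:R) = 0) (hw : w^2 + w + 1 = 0)
    (a b c : R) (ha : 0 = a ∨ 1 = a ∨ w = a ∨ w + 1 = a)
    (hb : 0 = b ∨ 1 = b ∨ w = b ∨ w + 1 = b)
    (hc : 1 = c ∨ w = c ∨ w + 1 = c)
    (h1 : x^3 + a * x^2 + b * x + 1 = 0) (h3 : x^3 = c) :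
    (1:R) = 0 ∨ x = 1 ∨ x = w ∨ x = w + 1 ∨ (0 = a ∧ 0 = b ∧ 1 = c) := by
  rcases ha with rfl | rfl | rfl | rfl <;> rcases hb with rfl | rfl | rfl | rfl <;>
    rcases hc with rfl | rfl | rfl
  · exact Or.inr (Or.inr (Or.inr (Or.inr ⟨rfl, rfl, rfl⟩)))
  · left; linear_combination (w) * h1 + (w) * h3 + ((-1) * w^1 + (-1) * x^3 * w^1) * h2 + (1) * hw
  · left; linear_combination ((w+1)) * h1 + ((w+1)) * h3 + ((-1) * x^3 + (-1) * x^3 * w^1) * h2 + (1) * hw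
  · left; linear_combination (x^2) * h1 + (1 + x^2) * h3 + (1 + (-1) * x^3 + (-1) * x^5) * h2 + (0) * hw
  · left; linear_combination ((w+1) + x^1 + w * x^2) * h1 + (1 + x^1 + w * x^2) * h3 + ((-1) * x^1 + (-1) * x^2 + (-1) * x^2 * w^1 + (-1) * x^3 + (-1) * x^3 * w^1 + (-1) * x^4 + (-1) * x^5 * w^1) * h2 + (1 * x^2) * hw
  · left; linear_combination (w + x^1 + (w+1) * x^2) * h1 + (1 + x^1 + (w+1) * x^2) * h3 + (1 + (-1) * x^2 + (-1) * x^3 + (-1) * x^3 * w^1 + (-1) * x^4 + (-1) * x^5 + (-1) * x^5 * w^1) * h2 + (1 * x^2) * hw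
  · left; linear_combination ((w+1) * x^2) * h1 + (1 + (w+1) * x^2) * h3 + (1 + (-1) * x^5 + (-1) * x^5 * w^1) * h2 + ((-1) * x^3) * hw
  · left; linear_combination ((w+1) + w * x^1 + x^2) * h1 + (1 + w * x^1 + x^2) * h3 + ((-1) * x^1 * w^1 + 1 * x^2 * w^1 + (-1) * x^3 + (-1) * x^3 * w^1 + (-1) * x^4 * w^1 + (-1) * x^5) * h2 + ((-1) * x^2) * hw
  · left; linear_combination (w + w * x^1 + w * x^2) * h1 + (1 + w * x^1 + w * x^2) * h3 + (1 + (-1) * x^4 * w^1 + (-1) * x^5 * w^1) * h2 + ((-1) * x^3) * hw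
  · left; linear_combination (w * x^2) * h1 + (1 + w * x^2) * h3 + (1 + (-1) * x^5 * w^1) * h2 + ((-1) * x^3) * hw
  · left; linear_combination ((w+1) + (w+1) * x^1 + (w+1) * x^2) * h1 + (1 + (w+1) * x^1 + (w+1) * x^2) * h3 + ((-1) * x^1 + (-1) * x^1 * w^1 + (-1) * x^2 + (-1) * x^2 * w^1 + (-1) * x^3 + (-1) * x^3 * w^1 + (-1) * x^4 + (-1) * x^4 * w^1 + (-1) * x^5 + (-1) * x^5 * w^1) * h2 + ((-1) * x^3) * hw
  · left; linear_combination (w + (w+1) * x^1 + x^2) * h1 + (1 + (w+1) * x^1 + x^2) * h3 + (1 + (-1) * x^3 + (-1) * x^3 * w^1 + (-1) * x^4 + (-1) * x^4 * w^1 + (-1) * x^5) * h2 + ((-1) * x^2) * hw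
  · left; linear_combination (x^1) * h1 + (1 + x^1) * h3 + (1 + (-1) * x^3 + (-1) * x^4) * h2 + (0) * hw
  · left; linear_combination (1 + x^1 + w * x^2) * h1 + ((w+1) * x^1 + w * x^2) * h3 + ((-1) * x^1 + (-1) * x^2 + (-1) * x^2 * w^1 + (-1) * x^3 + (-1) * x^4 + (-1) * x^4 * w^1 + (-1) * x^5 * w^1) * h2 + (1 * x^1 + 1 * x^2) * hw
  · left; linear_combination (1 + x^1 + (w+1) * x^2) * h1 + (w * x^1 + (w+1) * x^2) * h3 + ((-1) * x^1 + (-1) * x^2 + (-1) * x^3 + (-1) * x^4 + (-1) * x^4 * w^1 + (-1) * x^5 + (-1) * x^5 * w^1) * h2 + (1 * x^1 + 1 * x^2) * hw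
  · right; left; linear_combination (1 + x^1) * h1 + (x^1) * h3 + ((-1) + (-1) * x^2 + (-1) * x^3 + (-1) * x^4) * h2 + (0) * hw
  · left; linear_combination (x^1 + w * x^2) * h1 + ((w+1) + (w+1) * x^1 + w * x^2) * h3 + ((-1) * x^1 + (-1) * x^2 + (-1) * x^2 * w^1 + (-1) * x^3 + (-1) * x^3 * w^1 + (-1) * x^4 + (-1) * x^4 * w^1 + (-1) * x^5 * w^1) * h2 + (1 + 1 * x^1 + 1 * x^2) * hw
  · left; linear_combination (x^1 + (w+1) * x^2) * h1 + (w + w * x^1 + (w+1) * x^2) * h3 + ((-1) * x^1 + (-1) * x^2 + (-1) * x^3 + (-1) * x^3 * w^1 + (-1) * x^4 + (-1) * x^4 * w^1 + (-1) * x^5 + (-1) * x^5 * w^1) * h2 + (1 + 1 * x^1 + 1 * x^2) * hw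
  · right; right; left; linear_combination ((w+1) + w * x^1) * h1 + (1 + w * x^1) * h3 + ((-1) * w^1 + 1 * x^1 + (-1) * x^3 + (-1) * x^3 * w^1 + (-1) * x^4 * w^1) * h2 + ((-1) * x^1 + (-1) * x^2) * hw
  · left; linear_combination ((w+1) + w * x^1) * h1 + (1 + w * x^1) * h3 + ((-1) * x^1 * w^1 + (-1) * x^3 + (-1) * x^3 * w^1 + (-1) * x^4 * w^1) * h2 + ((-1) * x^2) * hw
  · left; linear_combination (1 + (w+1) * x^2) * h1 + ((w+1) * x^1 + (w+1) * x^2) * h3 + ((-1) * x^2 + (-1) * x^4 + (-1) * x^4 * w^1 + (-1) * x^5 + (-1) * x^5 * w^1) * h2 + (1 * x^1 + 1 * x^2 + (-1) * x^3) * hw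
  · right; right; right; left; linear_combination (w + (w+1) * x^1) * h1 + (1 + (w+1) * x^1) * h3 + ((-1) * w^1 + 1 * x^1 + (-1) * x^2 * w^1 + (-1) * x^3 + (-1) * x^3 * w^1 + (-1) * x^4 + (-1) * x^4 * w^1) * h2 + ((-1) * x^1 + (-1) * x^2) * hw
  · left; linear_combination (1 + w * x^2) * h1 + (w * x^1 + w * x^2) * h3 + ((-1) * x^1 + (-1) * x^1 * w^1 + (-1) * x^2 + (-1) * x^2 * w^1 + (-1) * x^4 * w^1 + (-1) * x^5 * w^1) * h2 + (1 * x^1 + 1 * x^2 + (-1) * x^3) * hw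
  · left; linear_combination (w + (w+1) * x^1) * h1 + (1 + (w+1) * x^1) * h3 + (1 + (-1) * x^2 * w^1 + (-1) * x^3 + (-1) * x^3 * w^1 + (-1) * x^4 + (-1) * x^4 * w^1) * h2 + ((-1) * x^2) * hw
  · left; linear_combination ((w+1) * x^1) * h1 + (1 + (w+1) * x^1) * h3 + (1 + (-1) * x^4 + (-1) * x^4 * w^1) * h2 + ((-1) * x^3) * hw
  · left; linear_combination (1 + (w+1) * x^1 + (w+1) * x^2) * h1 + (w * x^1 + (w+1) * x^2) * h3 + ((-1) * x^1 + (-1) * x^1 * w^1 + (-1) * x^2 + (-1) * x^2 * w^1 + (-1) * x^4 * w^1 + (-1) * x^5 + (-1) * x^5 * w^1) * h2 + (1 * x^1 + 1 * x^2 + (-1) * x^3 + (-1) * x^4) * hw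
  · left; linear_combination (1 + (w+1) * x^1 + x^2) * h1 + (x^1 + x^2) * h3 + ((-1) * x^4 + (-1) * x^4 * w^1 + (-1) * x^5) * h2 + ((-1) * x^3) * hw
  · right; right; right; left; linear_combination (1 + w * x^1) * h1 + (w + w * x^1) * h3 + ((-1) + (-1) * x^2 * w^1 + (-1) * x^4 * w^1) * h2 + ((-1) * x^3) * hw
  · left; linear_combination ((w+1) + x^1) * h1 + (1 + x^1) * h3 + ((-1) * x^1 + (-1) * x^3 + (-1) * x^3 * w^1 + (-1) * x^4) * h2 + ((-1) * x^2) * hw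
  · left; linear_combination (1 + x^2) * h1 + (w * x^1 + x^2) * h3 + ((-1) * x^1 + (-1) * x^3 + (-1) * x^4 * w^1 + (-1) * x^5) * h2 + (1 * x^1) * hw
  · right; left; linear_combination ((w+1) + (w+1) * x^1) * h1 + (w + (w+1) * x^1) * h3 + ((-1) + 1 * x^1 + 1 * x^2 + (-1) * x^3 * w^1 + (-1) * x^4 + (-1) * x^4 * w^1) * h2 + ((-1) * x^1 + (-2) * x^2 + (-1) * x^3) * hw
  · left; linear_combination (1 + (w+1) * x^2) * h1 + (x^1 + (w+1) * x^2) * h3 + ((-1) * x^2 + (-1) * x^2 * w^1 + (-1) * x^5 + (-1) * x^5 * w^1) * h2 + (1 * x^2 + (-1) * x^3 + (-1) * x^4) * hw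
  · left; linear_combination (w + w * x^1) * h1 + (1 + w * x^1) * h3 + (1 + 1 * x^2 + 1 * x^2 * w^1 + (-1) * x^4 * w^1) * h2 + ((-2) * x^2 + (-1) * x^3) * hw
  · right; right; left; linear_combination (w + x^1) * h1 + (x^1) * h3 + ((-1) * w^1 + 1 * x^1 + (-1) * x^3 * w^1 + (-1) * x^4) * h2 + ((-1) * x^1 + (-1) * x^2) * hw
  · left; linear_combination ((w+1) * x^1 + (w+1) * x^2) * h1 + ((w+1) + w * x^1 + (w+1) * x^2) * h3 + ((-1) * x^1 + (-1) * x^1 * w^1 + (-1) * x^2 + (-1) * x^2 * w^1 + (-1) * x^3 * w^1 + (-1) * x^4 * w^1 + (-1) * x^5 + (-1) * x^5 * w^1) * h2 + (1 + 1 * x^1 + (-2) * x^3 + (-1) * x^4) * hw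
  · left; linear_combination ((w+1) * x^1 + x^2) * h1 + (w + x^1 + x^2) * h3 + ((-1) * x^3 * w^1 + (-1) * x^4 + (-1) * x^4 * w^1 + (-1) * x^5) * h2 + (1 + (-1) * x^2 + (-1) * x^3) * hw
  · left; linear_combination (w * x^1) * h1 + (1 + w * x^1) * h3 + (1 + (-1) * x^4 * w^1) * h2 + ((-1) * x^3) * hw
  · left; linear_combination (1 + w * x^1 + x^2) * h1 + (x^1 + x^2) * h3 + ((-1) * x^2 + (-1) * x^4 + (-1) * x^4 * w^1 + (-1) * x^5) * h2 + ((-1) * x^3) * hw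
  · left; linear_combination (1 + w * x^1 + w * x^2) * h1 + ((w+1) * x^1 + w * x^2) * h3 + ((-1) * x^2 + (-1) * x^2 * w^1 + (-1) * x^4 * w^1 + (-1) * x^5 * w^1) * h2 + (1 * x^1 + 1 * x^2 + (-1) * x^3 + (-1) * x^4) * hw
  · right; right; left; linear_combination (1 + (w+1) * x^1) * h1 + ((w+1) + (w+1) * x^1) * h3 + ((-1) * x^2 + (-1) * x^2 * w^1 + (-1) * x^3 + (-1) * x^3 * w^1 + (-1) * x^4 + (-1) * x^4 * w^1) * h2 + ((-1) * x^3) * hw
  · left; linear_combination (1 + x^2) * h1 + ((w+1) * x^1 + x^2) * h3 + ((-1) * x^1 + (-1) * x^2 + (-1) * x^3 + (-1) * x^4 + (-1) * x^4 * w^1 + (-1) * x^5) * h2 + (1 * x^1) * hw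
  · left; linear_combination (w + x^1) * h1 + (1 + x^1) * h3 + (1 + (-1) * x^3 + (-1) * x^3 * w^1 + (-1) * x^4) * h2 + ((-1) * x^2) * hw
  · right; right; right; left; linear_combination ((w+1) + x^1) * h1 + (x^1) * h3 + ((-1) + (-1) * w^1 + 1 * x^1 + (-1) * x^2 * w^1 + (-1) * x^3 + (-1) * x^3 * w^1 + (-1) * x^4) * h2 + ((-1) * x^1 + (-1) * x^2) * hw
  · left; linear_combination (w * x^1 + x^2) * h1 + ((w+1) + x^1 + x^2) * h3 + (1 * x^2 * w^1 + (-1) * x^3 * w^1 + (-1) * x^4 + (-1) * x^4 * w^1 + (-1) * x^5) * h2 + (1 + (-1) * x^2 + (-1) * x^3) * hw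
  · left; linear_combination (w * x^1 + w * x^2) * h1 + (w + (w+1) * x^1 + w * x^2) * h3 + (1 * x^3 + (-1) * x^4 * w^1 + (-1) * x^5 * w^1) * h2 + (1 + 1 * x^1 + (-2) * x^3 + (-1) * x^4) * hw
  · right; left; linear_combination (w + w * x^1) * h1 + ((w+1) + w * x^1) * h3 + (1 * x^1 + 1 * x^2 + (-1) * x^3 * w^1 + (-1) * x^4 * w^1) * h2 + ((-1) * x^1 + (-2) * x^2 + (-1) * x^3) * hw
  · left; linear_combination ((w+1) + (w+1) * x^1) * h1 + (1 + (w+1) * x^1) * h3 + ((-1) * x^1 + (-1) * x^1 * w^1 + (-1) * x^2 * w^1 + (-1) * x^3 + (-1) * x^3 * w^1 + (-1) * x^4 + (-1) * x^4 * w^1) * h2 + ((-2) * x^2 + (-1) * x^3) * hw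
  · left; linear_combination (1 + w * x^2) * h1 + (x^1 + w * x^2) * h3 + ((-1) * x^2 + (-1) * x^2 * w^1 + (-1) * x^5 * w^1) * h2 + (1 * x^2 + (-1) * x^3 + (-1) * x^4) * hw

open Polynomial in
theorem keyM3 {F : Type*} [Field F] [Fintype F] (hF : Fintype.card F = 4)
    (M : Matrix (Fin 3) (Fin 3) F) (hdet : M.det = 1) (c : F)
    (hc : M ^ 3 = algebraMap F (Matrix (Fin 3) (Fin 3) F) c)
    (hns : ∀ d : F, M ≠ algebraMap F (Matrix (Fin 3) (Fin 3) F) d) :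
    M.charpoly = X^3 + 1 ∧ M ^ 3 = 1 := by
  classical
  obtain ⟨h2F, ω, hω, hall⟩ := Cfsg.Agent.S0819.f4 hF
  have hmon := Matrix.charpoly_monic M
  have hdeg : M.charpoly.natDegree = 3 := by
    rw [Matrix.charpoly_natDegree_eq_dim]; simp
  have hc3 : M.charpoly.coeff 3 = 1 := by
    have := hmon.coeff_natDegree; rwa [hdeg] at this
  have hc0' : M.charpoly.coeff 0 = 1 := by
    have := Matrix.det_eq_sign_charpoly_coeff M
    rw [hdet, Fintype.card_fin] at this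
    linear_combination this - h2F
  obtain ⟨a, ha⟩ : ∃ a : F, a = M.charpoly.coeff 2 := ⟨_, rfl⟩
  obtain ⟨b, hb⟩ : ∃ b : F, b = M.charpoly.coeff 1 := ⟨_, rfl⟩
  have hχ : M.charpoly = X^3 + C a * X^2 + C b * X + 1 := by
    ext n
    rcases Nat.lt_or_ge n 4 with hn | hn
    · interval_cases n <;>
        simp [Polynomial.coeff_X, Polynomial.coeff_one, Polynomial.coeff_X_pow, hc0', hc3, ha, hb]
    · rw [Polynomial.coeff_eq_zero_of_natDegree_lt (by rw [hdeg]; omega)]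
      have e3 : n ≠ 3 := by omega
      have e2 : n ≠ 2 := by omega
      have e1 : n ≠ 1 := by omega
      have e0 : n ≠ 0 := by omega
      simp [Polynomial.coeff_X, Polynomial.coeff_one, Polynomial.coeff_X_pow, e3, e2, e0,
        Ne.symm e1]
  have hc0 : c ≠ 0 := by
    rintro rfl
    have h := congrArg Matrix.det hc
    rw [Matrix.det_pow, hdet, map_zero, Matrix.det_zero, one_pow] at h
    exact one_ne_zero h
  by_cases hsp : a = 0 ∧ b = 0 ∧ c = 1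
  · obtain ⟨ha0, hb0, hc1⟩ := hsp
    refine ⟨?_, ?_⟩
    · rw [hχ, ha0, hb0]; simp
    · rw [hc, hc1, map_one]
  exfalso
  have hχM : aeval M (X^3 + C a * X^2 + C b * X + 1) = 0 := by
    rw [← hχ]; exact Matrix.aeval_self_charpoly M
  have hψM : aeval M (X^3 - C c) = 0 := by
    rw [map_sub, map_pow, aeval_X, aeval_C, hc, sub_self]
  let I : Ideal F[X] := Ideal.span {X^3 + C a * X^2 + C b * X + 1, X^3 - C c}
  let φ : F[X] →+* F[X] ⧸ I := Ideal.Quotient.mk I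
  have hh1 : φ X ^ 3 + φ (C a) * φ X ^ 2 + φ (C b) * φ X + 1 = 0 := by
    have h : φ (X^3 + C a * X^2 + C b * X + 1) = 0 :=
      Ideal.Quotient.eq_zero_iff_mem.2 (Ideal.subset_span (by simp))
    rw [map_add, map_add, map_add, map_mul, map_mul, map_pow, map_pow, map_one] at h
    exact h
  have hh3 : φ X ^ 3 = φ (C c) := by
    have h : φ (X^3 - C c) = 0 :=
      Ideal.Quotient.eq_zero_iff_mem.2 (Ideal.subset_span (by simp))
    rw [map_sub, map_pow, sub_eq_zero] at h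
    exact h
  have hh2 : (2 : F[X] ⧸ I) = 0 := by
    have h : φ (C ((1:F) + 1)) = 0 := by
      rw [one_add_one_eq_two, h2F, map_zero, map_zero]
    rw [map_add, map_add, map_one, map_one, one_add_one_eq_two] at h
    exact h
  have hhw : φ (C ω) ^ 2 + φ (C ω) + 1 = 0 := by
    have h := congrArg (fun y => φ (C y)) hω
    simp only [map_add, map_pow, map_one, map_zero] at h
    exact h
  have hcc : 1 = φ (C c) ∨ φ (C ω) = φ (C c) ∨ φ (C ω) + 1 = φ (C c) := by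
    rcases hall c with h | h | h | h
    · exact absurd h hc0
    · left; rw [h, map_one, map_one]
    · right; left; rw [h]
    · right; right; rw [h, map_add, map_add, map_one, map_one]
  have hcore := core3 (φ (C ω)) (φ X) hh2 hhw (φ (C a)) (φ (C b)) (φ (C c))
    (Cfsg.Agent.S0819.lift4 (φ.comp C) ω hall a) (Cfsg.Agent.S0819.lift4 (φ.comp C) ω hall b)
    hcc hh1 hh3
  have hT : ∃ T : F[X], T ∈ I ∧ (T = 1 ∨ ∃ d : F, T = X - C d) := by
    rcases hcore with h | h | h | h | ⟨h1, h2, h3⟩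
    · exact ⟨1, Ideal.Quotient.eq_zero_iff_mem.1 (by rw [map_one]; exact h), Or.inl rfl⟩
    · exact ⟨X - C 1, Ideal.Quotient.eq_zero_iff_mem.1 (by
        show φ (X - C 1) = 0
        rw [map_sub, h, map_one, map_one, sub_self]), Or.inr ⟨1, rfl⟩⟩
    · exact ⟨X - C ω, Ideal.Quotient.eq_zero_iff_mem.1 (by
        show φ (X - C ω) = 0
        rw [map_sub, h, sub_self]), Or.inr ⟨ω, rfl⟩⟩
    · exact ⟨X - C (ω + 1), Ideal.Quotient.eq_zero_iff_mem.1 (by
        show φ (X - C (ω + 1)) = 0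
        rw [map_sub, h, map_add, map_add, map_one, map_one, sub_self]), Or.inr ⟨ω + 1, rfl⟩⟩
    · have h10 : (1 : F[X] ⧸ I) = 0 := by
        by_cases ha0 : a = 0
        · by_cases hb0 : b = 0
          · have hc1 : c ≠ 1 := fun h => hsp ⟨ha0, hb0, h⟩
            have e : φ (C (c - 1)) = 0 := by
              rw [map_sub, map_sub, ← h3, map_one, map_one, sub_self]
            have e2 : φ (C ((c - 1)⁻¹ * (c - 1))) = 0 := by rw [map_mul, map_mul, e, mul_zero]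
            rw [inv_mul_cancel₀ (sub_ne_zero.2 hc1), map_one, map_one] at e2
            exact e2
          · have e2 : φ (C (b⁻¹ * b)) = 0 := by rw [map_mul, map_mul, ← h2, mul_zero]
            rw [inv_mul_cancel₀ hb0, map_one, map_one] at e2
            exact e2
        · have e2 : φ (C (a⁻¹ * a)) = 0 := by rw [map_mul, map_mul, ← h1, mul_zero]
          rw [inv_mul_cancel₀ ha0, map_one, map_one] at e2
          exact e2
      exact ⟨1, Ideal.Quotient.eq_zero_iff_mem.1 (by rw [map_one]; exact h10), Or.inl rfl⟩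
  obtain ⟨T, hTI, hTT⟩ := hT
  obtain ⟨p, q, hpq⟩ := Ideal.mem_span_pair.1 hTI
  have h0 := congrArg (aeval M) hpq
  rw [map_add, map_mul, map_mul, hχM, hψM, mul_zero, mul_zero, add_zero] at h0
  rcases hTT with rfl | ⟨d, rfl⟩
  · rw [map_one] at h0
    exact zero_ne_one h0
  · rw [map_sub, aeval_X, aeval_C] at h0
    exact hns d (sub_eq_zero.1 h0.symm)

theorem eig {F : Type*} [Field F] (M : Matrix (Fin 3) (Fin 3) F)
    (hχ : M.charpoly = Polynomial.X^3 + 1) (l : F) (hl : l^3 + 1 = 0) :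
    ∃ v : Fin 3 → F, v ≠ 0 ∧ M.mulVec v = l • v := by
  classical
  have hd : (Matrix.scalar (Fin 3) l - M).det = 0 := by
    rw [← Matrix.eval_charpoly, hχ]; simp [hl]
  obtain ⟨v, hv, hv0⟩ := Matrix.exists_mulVec_eq_zero_iff.2 hd
  refine ⟨v, hv, ?_⟩
  rw [Matrix.sub_mulVec] at hv0
  have hs : (Matrix.scalar (Fin 3) l).mulVec v = l • v := by
    ext i; simp [Matrix.scalar_apply, Matrix.mulVec_diagonal]
  rw [hs] at hv0
  exact (sub_eq_zero.1 hv0).symm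

theorem diagSL {F : Type*} [Field F] (h2F : (2:F) = 0) (ω : F) (hω : ω^2 + ω + 1 = 0)
    (A : Matrix.SpecialLinearGroup (Fin 3) F)
    (hχ : (A : Matrix (Fin 3) (Fin 3) F).charpoly = Polynomial.X^3 + 1) :
    ∃ Q : Matrix.SpecialLinearGroup (Fin 3) F,
      (A : Matrix (Fin 3) (Fin 3) F) * (Q : Matrix (Fin 3) (Fin 3) F) =
        (Q : Matrix (Fin 3) (Fin 3) F) * Matrix.diagonal ![1, ω, ω + 1] := by
  classical
  obtain ⟨M, hM⟩ : ∃ M : Matrix (Fin 3) (Fin 3) F, M = (A : Matrix (Fin 3) (Fin 3) F) := ⟨_, rfl⟩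
  rw [← hM] at hχ ⊢
  obtain ⟨v0, hv0, e0⟩ := eig M hχ 1 (by linear_combination h2F)
  obtain ⟨v1, hv1, e1⟩ := eig M hχ ω (by linear_combination (ω - 1) * hω + h2F)
  obtain ⟨v2, hv2, e2⟩ := eig M hχ (ω + 1) (by linear_combination (ω + 2) * hω)
  obtain ⟨P, hP⟩ : ∃ P : Matrix (Fin 3) (Fin 3) F, P = Matrix.of (fun i j => ![v0, v1, v2] j i) :=
    ⟨_, rfl⟩
  have hMP : M * P = P * Matrix.diagonal ![1, ω, ω + 1] := by
    ext i j
    rw [Matrix.mul_diagonal]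
    have hcol : (M * P) i j = (M.mulVec (![v0, v1, v2] j)) i := by
      simp [Matrix.mul_apply, Matrix.mulVec, dotProduct, hP]
    rw [hcol]
    fin_cases j
    · simp [e0, hP]
    · simp [e1, hP, mul_comm]
    · simp [e2, hP, mul_comm]
  have hPD : ∀ u : Fin 3 → F, P.mulVec u = 0 →
      P.mulVec ((Matrix.diagonal ![1, ω, ω + 1]).mulVec u) = 0 := by
    intro u hu
    rw [Matrix.mulVec_mulVec, ← hMP, ← Matrix.mulVec_mulVec, hu, Matrix.mulVec_zero]
  have hdetP : P.det ≠ 0 := by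
    intro hd
    obtain ⟨cv, hcv, hPc⟩ := Matrix.exists_mulVec_eq_zero_iff.2 hd
    have hPc1 := hPD cv hPc
    have hPc2 := hPD _ hPc1
    have s0 : ∀ i, cv 0 * v0 i + cv 1 * v1 i + cv 2 * v2 i = 0 := by
      intro i
      have := congrFun hPc i
      simp [Matrix.mulVec, dotProduct, Fin.sum_univ_three, hP] at this
      linear_combination this
    have s1 : ∀ i, cv 0 * v0 i + cv 1 * (ω * v1 i) + cv 2 * ((ω + 1) * v2 i) = 0 := by
      intro i
      have := congrFun hPc1 i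
      simp [Matrix.mulVec, dotProduct, Fin.sum_univ_three, hP, Matrix.diagonal_apply] at this
      linear_combination this
    have s2 : ∀ i, cv 0 * v0 i + cv 1 * (ω * (ω * v1 i)) + cv 2 * ((ω + 1) * ((ω + 1) * v2 i)) = 0 := by
      intro i
      have := congrFun hPc2 i
      simp [Matrix.mulVec, dotProduct, Fin.sum_univ_three, hP, Matrix.diagonal_apply] at this
      linear_combination this
    have hA : ∀ i, cv 0 * v0 i = 0 := by
      intro i
      linear_combination s0 i + s1 i + s2 i - (cv 0 * v0 i + (ω+1) * cv 2 * v2 i) * h2F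
        - (cv 1 * v1 i + cv 2 * v2 i) * hω
    have hB : ∀ i, cv 1 * v1 i = 0 := by
      intro i
      linear_combination s0 i + (ω+1) * s1 i + ω * s2 i - ((1+ω) * cv 0 * v0 i) * h2F
        - (ω * cv 1 * v1 i + (ω+2) * cv 2 * v2 i) * hω
    have hC : ∀ i, cv 2 * v2 i = 0 := by
      intro i
      linear_combination -(s0 i + ω * s1 i + (ω+1) * s2 i)
        + ((1+ω) * cv 0 * v0 i + (ω^2 + 1) * cv 1 * v1 i) * h2F
        + ((ω-1) * cv 1 * v1 i + (ω+3) * cv 2 * v2 i) * hω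
    have z0 : cv 0 = 0 := by
      by_contra hne
      exact hv0 (funext fun i => (mul_eq_zero.1 (hA i)).resolve_left hne)
    have z1 : cv 1 = 0 := by
      by_contra hne
      exact hv1 (funext fun i => (mul_eq_zero.1 (hB i)).resolve_left hne)
    have z2 : cv 2 = 0 := by
      by_contra hne
      exact hv2 (funext fun i => (mul_eq_zero.1 (hC i)).resolve_left hne)
    apply hcv
    ext j
    fin_cases j <;> simp [z0, z1, z2]
  have hcomm : Matrix.diagonal ![1, ω, ω + 1] * Matrix.diagonal ![(P.det)⁻¹, 1, 1] =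
      Matrix.diagonal ![(P.det)⁻¹, 1, 1] * Matrix.diagonal ![1, ω, ω + 1] := by
    rw [Matrix.diagonal_mul_diagonal, Matrix.diagonal_mul_diagonal]
    congr 1
    ext i
    exact mul_comm _ _
  have hdet' : (P * Matrix.diagonal ![(P.det)⁻¹, 1, 1]).det = 1 := by
    rw [Matrix.det_mul, Matrix.det_diagonal, Fin.prod_univ_three]
    simp [mul_inv_cancel₀ hdetP]
  refine ⟨⟨P * Matrix.diagonal ![(P.det)⁻¹, 1, 1], hdet'⟩, ?_⟩
  show M * (P * Matrix.diagonal ![(P.det)⁻¹, 1, 1]) =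
    (P * Matrix.diagonal ![(P.det)⁻¹, 1, 1]) * Matrix.diagonal ![1, ω, ω + 1]
  rw [← Matrix.mul_assoc, hMP, Matrix.mul_assoc, Matrix.mul_assoc, hcomm]

theorem exD {F : Type*} [Field F] (h2F : (2:F) = 0) (ω : F) (hω : ω^2 + ω + 1 = 0) :
    ∃ Dm : Matrix.SpecialLinearGroup (Fin 3) F,
      (Dm : Matrix (Fin 3) (Fin 3) F) = Matrix.diagonal ![1, ω, ω + 1] := by
  refine ⟨⟨Matrix.diagonal ![1, ω, ω + 1], ?_⟩, rfl⟩
  rw [Matrix.det_diagonal, Fin.prod_univ_three]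
  simp
  linear_combination hω - h2F

theorem nf {F : Type*} [Field F] [Fintype F] (hF : Fintype.card F = 4)
    (h2F : (2:F) = 0) (ω : F) (hω : ω^2 + ω + 1 = 0)
    (Dm : Matrix.SpecialLinearGroup (Fin 3) F)
    (hDm : (Dm : Matrix (Fin 3) (Fin 3) F) = Matrix.diagonal ![1, ω, ω + 1])
    (x : Matrix.ProjectiveSpecialLinearGroup (Fin 3) F) (hx1 : x ≠ 1) (hx3 : x ^ 3 = 1) :
    ∃ Q : Matrix.SpecialLinearGroup (Fin 3) F,
      x = (QuotientGroup.mk (Q * Dm * Q⁻¹) : Matrix.ProjectiveSpecialLinearGroup (Fin 3) F) := by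
  obtain ⟨A, rfl⟩ := QuotientGroup.mk_surjective x
  have h3 : A ^ 3 ∈ Subgroup.center (Matrix.SpecialLinearGroup (Fin 3) F) := by
    rw [← QuotientGroup.mk_pow] at hx3
    exact (QuotientGroup.eq_one_iff _).1 hx3
  rw [Matrix.SpecialLinearGroup.mem_center_iff] at h3
  obtain ⟨c, -, hc⟩ := h3
  have hc' : (A : Matrix (Fin 3) (Fin 3) F) ^ 3 = algebraMap F (Matrix (Fin 3) (Fin 3) F) c := by
    rw [Cfsg.Agent.S0819.scal, hc, Matrix.SpecialLinearGroup.coe_pow]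
  have hns : ∀ d : F, (A : Matrix (Fin 3) (Fin 3) F) ≠ algebraMap F (Matrix (Fin 3) (Fin 3) F) d := by
    intro d hd
    apply hx1
    have h := Cfsg.Agent.S0819.cen A 1 d (by rw [pow_one]; exact hd)
    rw [pow_one] at h
    exact (QuotientGroup.eq_one_iff _).2 h
  obtain ⟨hχ, -⟩ := keyM3 hF (A : Matrix (Fin 3) (Fin 3) F) A.det_coe c hc' hns
  obtain ⟨Q, hQ⟩ := diagSL h2F ω hω A hχ
  refine ⟨Q, ?_⟩
  have hAQ : A * Q = Q * Dm := by
    apply Subtype.ext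
    rw [Matrix.SpecialLinearGroup.coe_mul, Matrix.SpecialLinearGroup.coe_mul, hDm]
    exact hQ
  have hA : A = Q * Dm * Q⁻¹ := by
    rw [← hAQ]; group
  exact congrArg _ hA

theorem gen3 {G : Type*} [Group G] (X : Subgroup G) (hX : Nat.card X = 3) :
    ∃ x : G, x ≠ 1 ∧ x ^ 3 = 1 ∧ X = Subgroup.zpowers x := by
  haveI : Finite X := Nat.finite_of_card_ne_zero (by rw [hX]; norm_num)
  have hne : X ≠ ⊥ := by
    rintro rfl
    rw [Subgroup.card_bot] at hX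
    omega
  obtain ⟨⟨x, hxX⟩, hx1⟩ := Subgroup.ne_bot_iff_exists_ne_one.1 hne
  have hx1' : x ≠ 1 := fun h => hx1 (Subtype.ext h)
  have hx3 : x ^ 3 = 1 := by
    have h := pow_card_eq_one' (G := X) (x := ⟨x, hxX⟩)
    rw [hX] at h
    simpa using congrArg Subtype.val h
  have ho : orderOf x = 3 := by
    rcases (Nat.dvd_prime Nat.prime_three).1 (orderOf_dvd_of_pow_eq_one hx3) with h | h
    · exact absurd (orderOf_eq_one_iff.1 h) hx1'
    · exact h
  refine ⟨x, hx1', hx3, ?_⟩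
  exact (Subgroup.eq_of_le_of_card_ge (Subgroup.zpowers_le.2 hxX)
    (by rw [hX, Nat.card_zpowers, ho])).symm

/-- In the projective special linear group PSL(3, 4) all subgroups of order 3 are conjugate. -/
theorem result (F : Type*) [Field F] [Fintype F] (hF : Fintype.card F = 4) (X Y : Subgroup (Matrix.ProjectiveSpecialLinearGroup (Fin 3) F)) (hX : Nat.card ↥X = 3) (hY : Nat.card ↥Y = 3) : ∃ g : Matrix.ProjectiveSpecialLinearGroup (Fin 3) F, MulAut.conj g • X = Y := by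
  classical
  obtain ⟨h2F, ω, hω, hall⟩ := Cfsg.Agent.S0819.f4 hF
  obtain ⟨Dm, hDm⟩ := exD h2F ω hω
  obtain ⟨x, hx1, hx3, rfl⟩ := gen3 X hX
  obtain ⟨y, hy1, hy3, rfl⟩ := gen3 Y hY
  obtain ⟨Q1, h1⟩ := nf hF h2F ω hω Dm hDm x hx1 hx3
  obtain ⟨Q2, h2⟩ := nf hF h2F ω hω Dm hDm y hy1 hy3
  refine ⟨QuotientGroup.mk (Q2 * Q1⁻¹), ?_⟩
  rw [Subgroup.pointwise_smul_def]
  have hmap : ∀ (f : Matrix.ProjectiveSpecialLinearGroup (Fin 3) F →*
      Matrix.ProjectiveSpecialLinearGroup (Fin 3) F),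
      Subgroup.map f (Subgroup.zpowers x) = Subgroup.zpowers (f x) :=
    fun f => MonoidHom.map_zpowers f x
  refine (hmap _).trans ?_
  congr 1
  show (QuotientGroup.mk (Q2 * Q1⁻¹) : Matrix.ProjectiveSpecialLinearGroup (Fin 3) F) * x *
    (QuotientGroup.mk (Q2 * Q1⁻¹) : Matrix.ProjectiveSpecialLinearGroup (Fin 3) F)⁻¹ = y
  rw [h1, h2, ← QuotientGroup.mk_inv, ← QuotientGroup.mk_mul, ← QuotientGroup.mk_mul]
  congr 1
  group

end Cfsg.Agent.S2739
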