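import Cfsg.Prelude.Def_PLocal
import Cfsg.Agent.Helper5.CharP

namespace Cfsg.Agent.S2760

/-- Let G be a finite group with C_G(O₂(G)) ≤ O₂(G) and H a subgroup of G such that H is normal in G, or the subgroup O²(H) generated by the elements of H of odd order is normal in G. Then C_H(O₂(H)) ≤ O₂(H). -/
theorem result {G : Type*} [Group G] [Finite G] (hchar : Subgroup.centralizer (Cfsg.pCore 2 G : Set G) ≤ Cfsg.pCore 2 G) (H : Subgroup G) (hH : H.Normal ∨ ((Cfsg.pResidual 2 ↥H).map H.subtype).Normal) : Subgroup.centralizer (Cfsg.pCore 2 ↥H : Set ↥H) ≤ Cfsg.pCore 2 ↥H := by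
  haveI : Fact (Nat.Prime 2) := ⟨Nat.prime_two⟩
  apply (Cfsg.Agent.Helper5.charP_iff H).2
  have htop := Cfsg.Agent.Helper5.charP_top hchar
  rcases hH with hH | hK
  · apply Cfsg.Agent.Helper5.charP_of_normal ⊤ H htop le_top
    rw [Subgroup.normalizer_eq_top_iff.2 hH]
  · have hKc := Cfsg.Agent.Helper5.charP_of_normal ⊤ _ htop le_top
      (by rw [Subgroup.normalizer_eq_top_iff.2 hK])
    apply Cfsg.Agent.Helper5.charP_of_residual H _ _ _ hKc
    · intro y hy hcop
      refine ⟨⟨y, hy⟩, Subgroup.subset_closure ?_, rfl⟩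
      show Nat.Coprime (orderOf (⟨y, hy⟩ : ↥H)) 2
      rw [← Subgroup.orderOf_coe]
      exact hcop
    · rintro _ ⟨x, -, rfl⟩; exact x.2
    · rw [Subgroup.normalizer_eq_top_iff.2 hK]; exact le_top

end Cfsg.Agent.S2760
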