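import Cfsg.Statements.S2761
import Mathlib

set_option autoImplicit false
open Cfsg

namespace Cfsg.Agent.S2761

/-- affine action of a `3 × 3` matrix (with last row `(0,0,1)`) on a point of the plane over `ZMod 2` -/
def act (M : Matrix (Fin 3) (Fin 3) (ZMod 2)) (v : ZMod 2 × ZMod 2) : ZMod 2 × ZMod 2 :=
  (M 0 0 * v.1 + M 0 1 * v.2 + M 0 2, M 1 0 * v.1 + M 1 1 * v.2 + M 1 2)

def lastRow (M : Matrix (Fin 3) (Fin 3) (ZMod 2)) : Prop := M 2 0 = 0 ∧ M 2 1 = 0 ∧ M 2 2 = 1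

lemma lastRow_one : lastRow 1 := by
  refine ⟨?_, ?_, ?_⟩ <;> simp

lemma lastRow_mul {M N : Matrix (Fin 3) (Fin 3) (ZMod 2)} (hM : lastRow M) (hN : lastRow N) :
    lastRow (M * N) := by
  obtain ⟨h1, h2, h3⟩ := hM
  obtain ⟨h4, h5, h6⟩ := hN
  refine ⟨?_, ?_, ?_⟩ <;> simp [Matrix.mul_apply, Fin.sum_univ_three, h1, h2, h3, h4, h5, h6]

lemma act_mul {M N : Matrix (Fin 3) (Fin 3) (ZMod 2)} (hN : lastRow N) (v : ZMod 2 × ZMod 2) :
    act (M * N) v = act M (act N v) := by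
  obtain ⟨h4, h5, h6⟩ := hN
  simp only [act, Matrix.mul_apply, Fin.sum_univ_three, h4, h5, h6]
  ext <;> simp <;> ring

lemma act_one (v : ZMod 2 × ZMod 2) : act 1 v = v := by
  simp [act]

lemma lastRow_of_mem (M : Matrix.SpecialLinearGroup (Fin 3) (ZMod 2)) (hM : M ∈ Cfsg.qd 2) :
    lastRow (M : Matrix (Fin 3) (Fin 3) (ZMod 2)) := by
  have h1 : M ∈ (Subgroup.closure {M : Matrix.SpecialLinearGroup (Fin 3) (ZMod 2) | (M : Matrix (Fin 3) (Fin 3) (ZMod 2)) 2 0 = 0 ∧
    (M : Matrix (Fin 3) (Fin 3) (ZMod 2)) 2 1 = 0 ∧ (M : Matrix (Fin 3) (Fin 3) (ZMod 2)) 2 2 = 1}).toSubmonoid := hM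
  clear hM
  rw [Subgroup.closure_toSubmonoid_of_finite] at h1
  induction h1 using Submonoid.closure_induction with
  | mem x hx => exact hx
  | one => exact lastRow_one
  | mul x y _ _ hx hy =>
    rw [Matrix.SpecialLinearGroup.coe_mul]
    exact lastRow_mul hx hy

lemma dec1 : ∀ π : Equiv.Perm (ZMod 2 × ZMod 2), ((π (1,0)).1 - (π (0,0)).1) * ((π (0,1)).2 - (π (0,0)).2) - ((π (0,1)).1 - (π (0,0)).1) * ((π (1,0)).2 - (π (0,0)).2) = 1 := by decide

lemma dec2 : ∀ π : Equiv.Perm (ZMod 2 × ZMod 2), ∀ v : ZMod 2 × ZMod 2,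
    (((π (1,0)).1 - (π (0,0)).1) * v.1 + ((π (0,1)).1 - (π (0,0)).1) * v.2 + (π (0,0)).1,
     ((π (1,0)).2 - (π (0,0)).2) * v.1 + ((π (0,1)).2 - (π (0,0)).2) * v.2 + (π (0,0)).2) = π v := by decide

noncomputable instance : MulAction ↥(Cfsg.qd 2) (ZMod 2 × ZMod 2) where
  smul g v := act ((g : Matrix.SpecialLinearGroup (Fin 3) (ZMod 2)) : Matrix (Fin 3) (Fin 3) (ZMod 2)) v
  one_smul v := act_one v
  mul_smul g h v := by
    show act (((g * h : ↥(Cfsg.qd 2)) : Matrix.SpecialLinearGroup (Fin 3) (ZMod 2)) : Matrix (Fin 3) (Fin 3) (ZMod 2)) v = act _ (act _ v)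
    rw [Subgroup.coe_mul, Matrix.SpecialLinearGroup.coe_mul]
    exact act_mul (lastRow_of_mem _ h.2) v

lemma smul_def' (g : ↥(Cfsg.qd 2)) (v : ZMod 2 × ZMod 2) :
    g • v = act ((g : Matrix.SpecialLinearGroup (Fin 3) (ZMod 2)) : Matrix (Fin 3) (Fin 3) (ZMod 2)) v := rfl

/-- The group Qd(2), the natural semidirect product of an elementary abelian group of order 4 by SL₂(2) (realised as the affine subgroup of SL₃(2)), is isomorphic to the symmetric group of degree 4. -/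
theorem result : Nonempty (↥(Cfsg.qd 2) ≃* Equiv.Perm (Fin 4)) := by
  classical
  have hinj : Function.Injective (MulAction.toPermHom ↥(Cfsg.qd 2) (ZMod 2 × ZMod 2)) := by
    intro g h hgh
    have hv : ∀ v : ZMod 2 × ZMod 2, act ((g : Matrix.SpecialLinearGroup (Fin 3) (ZMod 2)) : Matrix (Fin 3) (Fin 3) (ZMod 2)) v = act ((h : Matrix.SpecialLinearGroup (Fin 3) (ZMod 2)) : Matrix (Fin 3) (Fin 3) (ZMod 2)) v := by
      intro v
      have := congrArg (fun σ : Equiv.Perm (ZMod 2 × ZMod 2) => σ v) hgh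
      exact this
    obtain ⟨g1, g2, g3⟩ := lastRow_of_mem _ g.2
    obtain ⟨h1, h2, h3⟩ := lastRow_of_mem _ h.2
    have e00 := hv (0, 0)
    have e10 := hv (1, 0)
    have e01 := hv (0, 1)
    simp only [act, Prod.mk.injEq, mul_zero, mul_one, zero_add, add_zero] at e00 e10 e01
    apply Subtype.ext
    apply Subtype.ext
    ext i j
    fin_cases i <;> fin_cases j
    · have := e10.1; rw [e00.1] at this; exact add_right_cancel this
    · have := e01.1; rw [e00.1] at this; exact add_right_cancel this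
    · exact e00.1
    · have := e10.2; rw [e00.2] at this; exact add_right_cancel this
    · have := e01.2; rw [e00.2] at this; exact add_right_cancel this
    · exact e00.2
    · exact g1.trans h1.symm
    · exact g2.trans h2.symm
    · exact g3.trans h3.symm
  have hsurj : Function.Surjective (MulAction.toPermHom ↥(Cfsg.qd 2) (ZMod 2 × ZMod 2)) := by
    intro π
    let M : Matrix (Fin 3) (Fin 3) (ZMod 2) :=
      !![(π (1,0)).1 - (π (0,0)).1, (π (0,1)).1 - (π (0,0)).1, (π (0,0)).1;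
         (π (1,0)).2 - (π (0,0)).2, (π (0,1)).2 - (π (0,0)).2, (π (0,0)).2;
         0, 0, 1]
    have hdet : M.det = 1 := by
      rw [Matrix.det_fin_three]
      simp only [M, Matrix.of_apply, Matrix.cons_val', Matrix.cons_val_zero, Matrix.cons_val_one,
        Matrix.cons_val_two, Matrix.empty_val', Matrix.cons_val_fin_one, Matrix.head_cons,
        Matrix.tail_cons, Matrix.head_fin_const]
      have := dec1 π
      linear_combination this
    have hmem : (⟨M, hdet⟩ : Matrix.SpecialLinearGroup (Fin 3) (ZMod 2)) ∈ Cfsg.qd 2 :=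
      Subgroup.subset_closure ⟨rfl, rfl, rfl⟩
    refine ⟨⟨⟨M, hdet⟩, hmem⟩, ?_⟩
    apply Equiv.ext
    intro v
    show act M v = π v
    rw [← dec2 π v]
    rfl
  exact ⟨(MulEquiv.ofBijective _ ⟨hinj, hsurj⟩).trans
    (Equiv.permCongrHom (Fintype.equivFinOfCardEq (by simp [ZMod.card])))⟩

end Cfsg.Agent.S2761
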