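import Cfsg.Statements.S2791
import Cfsg.Agent.Helper4.StrClosed

set_option autoImplicit false
open Cfsg

namespace Cfsg.Agent.S2791

/-- Let S be a Sylow p-subgroup of the finite group G and A an abelian subgroup of S that is strongly closed in S with respect to G. Then A controls strong fusion in G: for some Sylow p-subgroup T containing A, whenever a subset of T is conjugated into T by an element of G, the same elementwise conjugation is induced by an element of N_G(A). -/
theorem result {G : Type*} [Group G] [Finite G] {p : ℕ} [Fact p.Prime] (S : Sylow p G) (A : Subgroup G) (hA : IsMulCommutative ↥A) (hsc : Cfsg.IsStronglyClosed A (S : Subgroup G)) : Cfsg.ControlsStrongFusion p A := by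
  have hA' : ∀ a ∈ A, ∀ b ∈ A, a * b = b * a := by
    intro a ha b hb
    have h1 := hA.is_comm.comm ⟨a, ha⟩ ⟨b, hb⟩
    exact congrArg Subtype.val h1
  refine ⟨S, hsc.1, fun B hB => ⟨hB, fun g hg => ?_⟩⟩
  have hVS : Subgroup.closure B ≤ (S : Subgroup G) := (Subgroup.closure_le _).mpr hB
  have hV : ∀ v ∈ Subgroup.closure B, g * v * g⁻¹ ∈ (S : Subgroup G) := by
    intro v hv
    induction hv using Subgroup.closure_induction with
    | mem x hx => exact hg ⟨x, hx, rfl⟩
    | one => simp
    | mul x y _ _ ihx ihy =>
      have h1 : g * (x * y) * g⁻¹ = (g * x * g⁻¹) * (g * y * g⁻¹) := by group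
      rw [h1]; exact Subgroup.mul_mem _ ihx ihy
    | inv x _ ih =>
      have h1 : g * x⁻¹ * g⁻¹ = (g * x * g⁻¹)⁻¹ := by group
      rw [h1]; exact Subgroup.inv_mem _ ih
  obtain ⟨n, hn, hnV⟩ := Cfsg.Agent.Helper4.strClosed_control S A hA' hsc _ (Subgroup.closure B) hVS rfl g hV
  exact ⟨n, hn, fun a ha => (hnV a (Subgroup.subset_closure ha)).symm⟩

end Cfsg.Agent.S2791
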