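import Cfsg.Statements.S2941
import Cfsg.Agent.Helper5.Basic
import Cfsg.Agent.Helper3.Layer2

set_option autoImplicit false
open Cfsg

namespace Cfsg.Agent.S2941

/-- Let G be a finite group of characteristic 2 type in which every 2-local subgroup is solvable and the centralizer of Ω₁(Z(S)) lies in N_G(S) for every Sylow 2-subgroup S, and let T be a nontrivial 2-subgroup and K a J(T)-component (J the Thompson subgroup generated by the elementary abelian 2-subgroups of largest order). If a subgroup Q is normalized by ⟨K, J(T)⟩ and normalizes J(T), then Q normalizes K. -/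
theorem result {G : Type*} [Group G] [Finite G] (hL : Cfsg.IsCharacteristicTwoType G) (hN : ∀ N : Subgroup G, Cfsg.IsTwoLocal N → Group.IsSolvable ↥N)
    (hZ : ∀ S : Sylow 2 G, Subgroup.centralizer (Cfsg.omegaCenterOf (S : Subgroup G) : Set G) ≤ Subgroup.normalizer ((S : Subgroup G) : Set G)) (T : Subgroup G) (hT : IsPGroup 2 ↥T) (hT1 : T ≠ ⊥) (K : Subgroup G) (hK : Cfsg.IsJComponent T K)
    (Q : Subgroup G) (hQ1 : K ⊔ Cfsg.thompsonSubgroupOf 2 T ≤ Subgroup.normalizer (Q : Set G)) (hQ2 : Q ≤ Subgroup.normalizer (Cfsg.thompsonSubgroupOf 2 T : Set G)) :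
    Q ≤ Subgroup.normalizer (K : Set G) := by
  classical
  obtain ⟨hK1, hK2, -, -, -, -⟩ := hK
  obtain ⟨J, hJ⟩ : ∃ J, J = Cfsg.thompsonSubgroupOf 2 T := ⟨_, rfl⟩
  rw [← hJ] at hK2 hQ1 hQ2
  have hJT : J ≤ T := by rw [hJ]; exact Subgroup.map_subtype_le _
  have hJ2 : IsPGroup 2 ↥J := hT.to_le hJT
  have hKX : K ≤ K ⊔ J := le_sup_left
  have hJX : J ≤ K ⊔ J := le_sup_right
  have hJK : J ≤ Subgroup.normalizer (K : Set G) := by
    intro j hj
    apply Cfsg.Agent.Helper5.mem_normalizer_of_conj_le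
    have : (⁅K, J⁆).map (MulAut.conj j).toMonoidHom ≤ ⁅K, J⁆ := by
      rw [Subgroup.map_le_iff_le_comap, Subgroup.commutator_le]
      intro k hk j' hj'
      rw [Subgroup.mem_comap]
      show j * (k * j' * k⁻¹ * j'⁻¹) * j⁻¹ ∈ ⁅K, J⁆
      have h1 : k * j * k⁻¹ * j⁻¹ ∈ ⁅K, J⁆ := Subgroup.commutator_mem_commutator hk hj
      have h2 : k * (j * j') * k⁻¹ * (j * j')⁻¹ ∈ ⁅K, J⁆ :=
        Subgroup.commutator_mem_commutator hk (mul_mem hj hj')
      have e : j * (k * j' * k⁻¹ * j'⁻¹) * j⁻¹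
          = (k * j * k⁻¹ * j⁻¹)⁻¹ * (k * (j * j') * k⁻¹ * (j * j')⁻¹) := by group
      rw [e]
      exact mul_mem (inv_mem h1) h2
    rwa [hK2] at this
  have hQX : ∀ q ∈ Q, ∀ x ∈ K ⊔ J, q * x * q⁻¹ ∈ K ⊔ J := by
    intro q hq
    have hle : K ⊔ J ≤ (K ⊔ J).comap (MulAut.conj q).toMonoidHom := by
      apply sup_le
      · have : ⁅K, J⁆ ≤ (K ⊔ J).comap (MulAut.conj q).toMonoidHom := by
          rw [Subgroup.commutator_le]
          intro k hk j hj
          rw [Subgroup.mem_comap]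
          show q * (k * j * k⁻¹ * j⁻¹) * q⁻¹ ∈ K ⊔ J
          have hq'' : k⁻¹ * q * k * q⁻¹ ∈ Q := by
            refine Q.mul_mem ?_ (Q.inv_mem hq)
            have := (Subgroup.mem_normalizer_iff.mp (hQ1 (hKX (K.inv_mem hk))) q).mp hq
            simpa using this
          have hj' : q * j * q⁻¹ ∈ J := (Subgroup.mem_normalizer_iff.mp (hQ2 hq) j).mp hj
          have hj'' : (k⁻¹ * q * k * q⁻¹) * (q * j * q⁻¹) * (k⁻¹ * q * k * q⁻¹)⁻¹ ∈ J :=
            (Subgroup.mem_normalizer_iff.mp (hQ2 hq'') _).mp hj'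
          have e : q * (k * j * k⁻¹ * j⁻¹) * q⁻¹ = k * ((k⁻¹ * q * k * q⁻¹) * (q * j * q⁻¹)
              * (k⁻¹ * q * k * q⁻¹)⁻¹) * k⁻¹ * (q * j * q⁻¹)⁻¹ := by group
          rw [e]
          exact mul_mem (mul_mem (mul_mem (hKX hk) (hJX hj'')) (hKX (inv_mem hk)))
            (hJX (inv_mem hj'))
        rwa [hK2] at this
      · intro j hj
        rw [Subgroup.mem_comap]
        show q * j * q⁻¹ ∈ K ⊔ J
        exact hJX ((Subgroup.mem_normalizer_iff.mp (hQ2 hq) j).mp hj)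
    intro x hx
    exact hle hx
  have hodd : ∀ g ∈ K ⊔ J, Odd (orderOf g) → g ∈ K := by
    intro g hg hgo
    obtain ⟨k, hk, j, hj, rfl⟩ := Cfsg.Agent.Helper3.mem_sup_of_le_normalizer_right K J hJK hg
    have hpow : ∀ n : ℕ, ∃ k' ∈ K, (k * j) ^ n = k' * j ^ n := by
      intro n
      induction n with
      | zero => exact ⟨1, K.one_mem, by simp⟩
      | succ n ih =>
        obtain ⟨k', hk', e⟩ := ih
        refine ⟨k' * (j ^ n * k * (j ^ n)⁻¹), K.mul_mem hk'
          ((Subgroup.mem_normalizer_iff.mp (hJK (J.pow_mem hj n)) k).mp hk), ?_⟩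
        rw [pow_succ, e, pow_succ]; group
    obtain ⟨k', hk', e⟩ := hpow (orderOf (k * j))
    rw [pow_orderOf_eq_one] at e
    have hjn : j ^ orderOf (k * j) ∈ K := by
      rw [eq_inv_of_mul_eq_one_right e.symm]
      exact K.inv_mem hk'
    obtain ⟨a, ha⟩ := IsPGroup.iff_orderOf.mp hJ2 ⟨j, hj⟩
    rw [Subgroup.orderOf_mk] at ha
    have hcop : (orderOf (k * j)).Coprime (orderOf j) := by
      rw [ha]; exact (Nat.coprime_two_right.mpr hgo).pow_right a
    obtain ⟨m, hm⟩ := exists_pow_eq_self_of_coprime hcop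
    have hjK : j ∈ K := by rw [← hm]; exact K.pow_mem hjn m
    exact K.mul_mem hk hjK
  intro q hq
  apply Cfsg.Agent.Helper5.mem_normalizer_of_conj_le
  rw [Subgroup.map_le_iff_le_comap]
  conv_lhs => rw [← hK1]
  rw [Subgroup.closure_le]
  rintro g ⟨hgK, hgo⟩
  rw [SetLike.mem_coe, Subgroup.mem_comap]
  show q * g * q⁻¹ ∈ K
  apply hodd _ (hQX q hq g (hKX hgK))
  have : orderOf (q * g * q⁻¹) = orderOf g := (MulAut.conj q).orderOf_eq g
  rw [this]; exact hgo

end Cfsg.Agent.S2941
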