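import Cfsg.Statements.S2947
import Cfsg.Agent.Helper5.Basic
import Cfsg.Agent.Helper5.StrEmb

set_option autoImplicit false
open Cfsg

namespace Cfsg.Agent.S2947

/-- Let G be a finite group of characteristic 2 type in which every 2-local subgroup is solvable and the centralizer of Ω₁(Z(S)) lies in N_G(S) for every Sylow 2-subgroup S; suppose O₂(G) = 1, fix a Sylow 2-subgroup S and a 2-local subgroup M containing N_G(J(S)) (J the Thompson subgroup generated by the elementary abelian 2-subgroups of largest order). Then M is strongly embedded in G (a proper subgroup of even order whose intersection with each conjugate by an element outside M has odd order) if and only if no nontrivial 2-subgroup of M lies in a 2-local subgroup of G not contained in M. -/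
theorem result {G : Type*} [Group G] [Finite G] (hL : Cfsg.IsCharacteristicTwoType G) (hN : ∀ N : Subgroup G, Cfsg.IsTwoLocal N → Group.IsSolvable ↥N)
    (hZ : ∀ S : Sylow 2 G, Subgroup.centralizer (Cfsg.omegaCenterOf (S : Subgroup G) : Set G) ≤ Subgroup.normalizer ((S : Subgroup G) : Set G)) (hO : Cfsg.pCore 2 G = ⊥) (S : Sylow 2 G) (M : Subgroup G) (hM : Cfsg.IsTwoLocal M)
    (hMJ : Subgroup.normalizer (Cfsg.thompsonSubgroupOf 2 (S : Subgroup G) : Set G) ≤ M) :
    Cfsg.IsStronglyEmbedded M ↔ Cfsg.straddlingTwoSubgroups M = ∅ := by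
  classical
  haveI : Fact (Nat.Prime 2) := ⟨Nat.prime_two⟩
  constructor
  · rintro ⟨-, -, hodd⟩
    have hse : ∀ g : G, g ∉ M → ¬ 2 ∣ Nat.card ↥(M ⊓ M.map (MulAut.conj g).toMonoidHom) := by
      intro g hg h2
      exact (Nat.not_even_iff_odd.mpr (hodd g hg)) (even_iff_two_dvd.mpr h2)
    have hN' : ∀ Q : Subgroup G, Q ≤ M → IsPGroup 2 Q → Q ≠ ⊥ →
        Subgroup.normalizer (Q : Set G) ≤ M :=
      fun Q hQM hQ hne => Cfsg.Agent.Helper5.normalizer_le_of_classical 2 M hse Q hQM hQ hne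
    rw [Set.eq_empty_iff_forall_notMem]
    rintro T ⟨hT2, hT1, hTM, L, ⟨R, hR2, hR1, rfl⟩, hTL, hLM⟩
    apply hLM
    have hP : IsPGroup 2 ↥(T ⊔ R) := IsPGroup.to_sup_of_normal_right' hT2 hR2 hTL
    have hne : (T ⊔ R) ⊓ M ≠ ⊥ := by
      intro h
      apply hT1
      rw [eq_bot_iff, ← h]
      exact le_inf le_sup_left hTM
    have hPM := Cfsg.Agent.Helper5.pSubgroup_le_of_inf_ne_bot M hN' (T ⊔ R) hP hne
    exact hN' R (le_sup_right.trans hPM) hR2 hR1
  · intro hemp
    obtain ⟨R, hR2, hR1, hMR⟩ := hM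
    have hRM : R ≤ M := by rw [hMR]; exact Subgroup.le_normalizer
    have hN' : ∀ Q : Subgroup G, Q ≤ M → IsPGroup 2 Q → Q ≠ ⊥ →
        Subgroup.normalizer (Q : Set G) ≤ M := by
      intro Q hQM hQ hne
      by_contra hcon
      have : Q ∈ Cfsg.straddlingTwoSubgroups M :=
        ⟨hQ, hne, hQM, _, ⟨Q, hQ, hne, rfl⟩, Subgroup.le_normalizer, hcon⟩
      rw [hemp] at this
      exact this
    refine ⟨?_, ?_, ?_⟩
    · intro htop
      apply hR1
      have hn : R.Normal := by
        rw [← Subgroup.normalizer_eq_top_iff, ← hMR]; exact htop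
      have := Cfsg.Agent.Helper5.le_pCore R hn hR2
      rw [hO] at this
      exact eq_bot_iff.mpr this
    · rw [even_iff_two_dvd]
      exact (Cfsg.Agent.Helper5.dvd_card_of_isPGroup_ne_bot R hR2 hR1).trans
        (Subgroup.card_dvd_of_le hRM)
    · intro g hg
      by_contra hno
      rw [Nat.not_odd_iff_even, even_iff_two_dvd] at hno
      obtain ⟨t, ht⟩ := exists_prime_orderOf_dvd_card' 2 hno
      have htM : (t : G) ∈ M := (Subgroup.mem_inf.mp t.2).1
      have htg : (t : G) ∈ M.map (MulAut.conj g).toMonoidHom := (Subgroup.mem_inf.mp t.2).2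
      have hto : orderOf (t : G) = 2 := by rw [Subgroup.orderOf_coe]; exact ht
      obtain ⟨Q₀, hQ₀⟩ : ∃ Q₀, Q₀ = Subgroup.zpowers (t : G) := ⟨_, rfl⟩
      have hQ₀2 : IsPGroup 2 ↥Q₀ := by
        apply IsPGroup.of_card (n := 1)
        rw [hQ₀, Nat.card_zpowers, hto, pow_one]
      have hQ₀1 : Q₀ ≠ ⊥ := by
        rw [hQ₀]
        intro h
        rw [Subgroup.zpowers_eq_bot] at h
        rw [h, orderOf_one] at hto
        exact absurd hto (by norm_num)
      have hQ₀g : Q₀ ≤ M.map (MulAut.conj g).toMonoidHom := by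
        rw [hQ₀, Subgroup.zpowers_le]; exact htg
      have hQ₀M : Q₀ ≤ M := by rw [hQ₀, Subgroup.zpowers_le]; exact htM
      obtain ⟨P, hRP⟩ := hR2.exists_le_sylow
      have hPM : (P : Subgroup G) ≤ M := by
        apply Cfsg.Agent.Helper5.pSubgroup_le_of_inf_ne_bot M hN' (P : Subgroup G) P.2
        intro h
        apply hR1
        rw [eq_bot_iff, ← h]
        exact le_inf hRP hRM
      have hQM : Q₀.map (MulAut.conj g⁻¹).toMonoidHom ≤ M := by
        rw [Cfsg.Agent.Helper5.conj_le_iff, inv_inv]; exact hQ₀g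
      apply hg
      apply Cfsg.Agent.Helper5.mem_of_conj_le M hN' P hPM (Q₀.map (MulAut.conj g⁻¹).toMonoidHom)
        hQM (Cfsg.Agent.Helper5.isPGroup_conj Q₀ hQ₀2 g⁻¹)
        (Cfsg.Agent.Helper5.conj_ne_bot Q₀ g⁻¹ hQ₀1) g
      rw [Cfsg.Agent.Helper5.conj_conj, mul_inv_cancel, Cfsg.Agent.Helper5.conj_one]
      exact hQ₀M

end Cfsg.Agent.S2947
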