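import Cfsg.Statements.S4298
import Mathlib
import Cfsg.Agent.Helper7.FrobConstruct

set_option autoImplicit false
open Cfsg

namespace Cfsg.Agent.S4298

/-- The action of invertible `2 × 2` matrices on column vectors, as automorphisms of the
(multiplicative version of the) additive group of vectors. -/
def unitsAct (R : Type) [CommRing R] :
    (Matrix (Fin 2) (Fin 2) R)ˣ →* MulAut (Multiplicative (Fin 2 → R)) where
  toFun u :=
    { toFun := fun v => Multiplicative.ofAdd ((u : Matrix (Fin 2) (Fin 2) R).mulVec v.toAdd)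
      invFun := fun v =>
        Multiplicative.ofAdd ((↑u⁻¹ : Matrix (Fin 2) (Fin 2) R).mulVec v.toAdd)
      left_inv := fun v => by
        apply Multiplicative.toAdd.injective
        show (↑u⁻¹ : Matrix (Fin 2) (Fin 2) R).mulVec
          ((u : Matrix (Fin 2) (Fin 2) R).mulVec v.toAdd) = v.toAdd
        rw [Matrix.mulVec_mulVec, Units.inv_mul, Matrix.one_mulVec]
      right_inv := fun v => by
        apply Multiplicative.toAdd.injective
        show (u : Matrix (Fin 2) (Fin 2) R).mulVec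
          ((↑u⁻¹ : Matrix (Fin 2) (Fin 2) R).mulVec v.toAdd) = v.toAdd
        rw [Matrix.mulVec_mulVec, Units.mul_inv, Matrix.one_mulVec]
      map_mul' := fun v w => by
        apply Multiplicative.toAdd.injective
        show (u : Matrix (Fin 2) (Fin 2) R).mulVec (v.toAdd + w.toAdd)
          = (u : Matrix (Fin 2) (Fin 2) R).mulVec v.toAdd
            + (u : Matrix (Fin 2) (Fin 2) R).mulVec w.toAdd
        exact Matrix.mulVec_add _ _ _ }
  map_one' := by
    refine MulEquiv.ext (fun v => ?_)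
    apply Multiplicative.toAdd.injective
    show ((1 : (Matrix (Fin 2) (Fin 2) R)ˣ) : Matrix (Fin 2) (Fin 2) R).mulVec v.toAdd = v.toAdd
    rw [Units.val_one, Matrix.one_mulVec]
  map_mul' u w := by
    refine MulEquiv.ext (fun v => ?_)
    apply Multiplicative.toAdd.injective
    show ((u * w : (Matrix (Fin 2) (Fin 2) R)ˣ) : Matrix (Fin 2) (Fin 2) R).mulVec v.toAdd
      = (u : Matrix (Fin 2) (Fin 2) R).mulVec ((w : Matrix (Fin 2) (Fin 2) R).mulVec v.toAdd)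
    rw [Units.val_mul, Matrix.mulVec_mulVec]

theorem unitsAct_apply (R : Type) [CommRing R] (u : (Matrix (Fin 2) (Fin 2) R)ˣ)
    (v : Multiplicative (Fin 2 → R)) :
    (unitsAct R u v).toAdd = (u : Matrix (Fin 2) (Fin 2) R).mulVec v.toAdd := rfl

/-- The table of an embedding of `SL(2,3)` into `SL(2,5)`. -/
def tbl : Fin 3 → Fin 3 → Fin 3 → Fin 3 → Matrix (Fin 2) (Fin 2) (ZMod 5)
  | 0, 1, 2, 0 => !![0, 4; 1, 0]
  | 0, 1, 2, 1 => !![4, 4; 3, 2]
  | 0, 1, 2, 2 => !![1, 2; 1, 3]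
  | 0, 2, 1, 0 => !![0, 1; 4, 0]
  | 0, 2, 1, 1 => !![4, 3; 4, 2]
  | 0, 2, 1, 2 => !![1, 1; 2, 3]
  | 1, 0, 0, 1 => !![1, 0; 0, 1]
  | 1, 0, 1, 1 => !![1, 4; 3, 3]
  | 1, 0, 2, 1 => !![3, 1; 2, 1]
  | 1, 1, 0, 1 => !![1, 3; 4, 3]
  | 1, 1, 1, 2 => !![2, 0; 0, 3]
  | 1, 1, 2, 0 => !![2, 2; 1, 4]
  | 1, 2, 0, 1 => !![3, 2; 1, 1]
  | 1, 2, 1, 0 => !![2, 1; 2, 4]
  | 1, 2, 2, 2 => !![0, 2; 2, 0]
  | 2, 0, 0, 2 => !![4, 0; 0, 4]
  | 2, 0, 1, 2 => !![2, 4; 3, 4]
  | 2, 0, 2, 2 => !![4, 1; 2, 2]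
  | 2, 1, 0, 2 => !![2, 3; 4, 4]
  | 2, 1, 1, 1 => !![0, 3; 3, 0]
  | 2, 1, 2, 0 => !![3, 4; 3, 1]
  | 2, 2, 0, 2 => !![4, 2; 1, 2]
  | 2, 2, 1, 0 => !![3, 3; 4, 1]
  | 2, 2, 2, 1 => !![3, 0; 0, 2]
  | _, _, _, _ => 1

/-- The embedding as a function. -/
def g₀ (M : Matrix.SpecialLinearGroup (Fin 2) (ZMod 3)) : Matrix (Fin 2) (Fin 2) (ZMod 5) :=
  tbl (M.1 0 0) (M.1 0 1) (M.1 1 0) (M.1 1 1)

set_option maxRecDepth 100000 in
theorem g₀_one : g₀ 1 = 1 := by decide +kernel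

set_option maxRecDepth 100000 in
theorem g₀_mul : ∀ M N : Matrix.SpecialLinearGroup (Fin 2) (ZMod 3),
    g₀ (M * N) = g₀ M * g₀ N := by decide +kernel

set_option maxRecDepth 100000 in
theorem g₀_fpf : ∀ M : Matrix.SpecialLinearGroup (Fin 2) (ZMod 3), M ≠ 1 →
    ∀ v : Fin 2 → ZMod 5, (g₀ M).mulVec v = v → v = 0 := by decide +kernel

set_option maxRecDepth 100000 in
theorem sl_nontrivial : ∃ M : Matrix.SpecialLinearGroup (Fin 2) (ZMod 3), M ≠ 1 := by
  decide +kernel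

/-- The embedding as a monoid homomorphism into matrices. -/
def g : Matrix.SpecialLinearGroup (Fin 2) (ZMod 3) →* Matrix (Fin 2) (Fin 2) (ZMod 5) where
  toFun := g₀
  map_one' := g₀_one
  map_mul' := g₀_mul

/-- The group SL(2,3) of order 24 (the binary tetrahedral group) occurs as a Frobenius complement of some finite Frobenius group. -/
theorem result :
    ∃ (L : Type) (_ : Group L) (_ : Finite L) (H : Subgroup L), Cfsg.IsFrobeniusComplement H ∧ Nonempty (H ≃* Matrix.SpecialLinearGroup (Fin 2) (ZMod 3)) := by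
  let ρ : Matrix.SpecialLinearGroup (Fin 2) (ZMod 3) →* MulAut (Multiplicative (Fin 2 → ZMod 5)) :=
    (unitsAct (ZMod 5)).comp g.toHomUnits
  have hfpf : ∀ q : Matrix.SpecialLinearGroup (Fin 2) (ZMod 3), q ≠ 1 →
      ∀ w : Multiplicative (Fin 2 → ZMod 5), ρ q w = w → w = 1 := by
    intro q hq w hw
    apply Multiplicative.toAdd.injective
    apply g₀_fpf q hq
    have h1 := congrArg Multiplicative.toAdd hw
    exact h1
  haveI : Nontrivial (Matrix.SpecialLinearGroup (Fin 2) (ZMod 3)) := by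
    obtain ⟨M, hM⟩ := sl_nontrivial
    exact ⟨⟨M, 1, hM⟩⟩
  haveI : Nontrivial (Multiplicative (Fin 2 → ZMod 5)) := by
    refine ⟨⟨Multiplicative.ofAdd (fun _ => 1), 1, ?_⟩⟩
    intro h
    have h1 : (1 : ZMod 5) = 0 := congrArg (fun w => (Multiplicative.toAdd w) 0) h
    revert h1
    decide
  obtain ⟨L, gL, f, H, hF, hiso, -⟩ :=
    Cfsg.Agent.Helper7.frobenius_of_fpf_action ρ inferInstance inferInstance hfpf
  exact ⟨L, gL, f, H, hF, hiso⟩

end Cfsg.Agent.S4298
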