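import Cfsg.Statements.S3374
import Mathlib
import Cfsg.Agent.Helper7.FrobConstruct
import Cfsg.Agent.S4298

set_option autoImplicit false
open Cfsg

namespace Cfsg.Agent.S3374

/-- The table of an embedding of `SL(2,5)` into `SL(2,11)`. -/
def tbl : Fin 5 → Fin 5 → Fin 5 → Fin 5 → Matrix (Fin 2) (Fin 2) (ZMod 11)
  | 0, 1, 4, 0 => !![0, 10; 1, 0]
  | 0, 1, 4, 1 => !![4, 10; 2, 8]
  | 0, 1, 4, 2 => !![1, 9; 5, 2]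
  | 0, 1, 4, 3 => !![10, 6; 2, 9]
  | 0, 1, 4, 4 => !![7, 9; 1, 3]
  | 0, 2, 2, 0 => !![8, 10; 10, 3]
  | 0, 2, 2, 1 => !![8, 3; 3, 4]
  | 0, 2, 2, 2 => !![4, 0; 0, 3]
  | 0, 2, 2, 3 => !![9, 8; 8, 6]
  | 0, 2, 2, 4 => !![4, 1; 1, 6]
  | 0, 3, 3, 0 => !![3, 1; 1, 8]
  | 0, 3, 3, 1 => !![7, 10; 10, 5]
  | 0, 3, 3, 2 => !![2, 3; 3, 5]
  | 0, 3, 3, 3 => !![7, 0; 0, 8]
  | 0, 3, 3, 4 => !![3, 8; 8, 7]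
  | 0, 4, 1, 0 => !![0, 1; 10, 0]
  | 0, 4, 1, 1 => !![4, 2; 10, 8]
  | 0, 4, 1, 2 => !![1, 5; 9, 2]
  | 0, 4, 1, 3 => !![10, 2; 6, 9]
  | 0, 4, 1, 4 => !![7, 1; 9, 3]
  | 1, 0, 0, 1 => !![1, 0; 0, 1]
  | 1, 0, 1, 1 => !![1, 4; 3, 2]
  | 1, 0, 2, 1 => !![2, 1; 9, 5]
  | 1, 0, 3, 1 => !![5, 10; 2, 2]
  | 1, 0, 4, 1 => !![2, 7; 8, 1]
  | 1, 1, 0, 1 => !![1, 3; 4, 2]
  | 1, 1, 1, 2 => !![6, 0; 0, 2]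
  | 1, 1, 2, 3 => !![6, 8; 7, 4]
  | 1, 1, 3, 4 => !![1, 2; 10, 10]
  | 1, 1, 4, 0 => !![8, 9; 1, 4]
  | 1, 2, 0, 1 => !![2, 9; 1, 5]
  | 1, 2, 1, 3 => !![6, 7; 8, 4]
  | 1, 2, 2, 0 => !![5, 1; 1, 7]
  | 1, 2, 3, 2 => !![9, 7; 6, 6]
  | 1, 2, 4, 4 => !![0, 9; 6, 0]
  | 1, 3, 0, 1 => !![5, 2; 10, 2]
  | 1, 3, 1, 4 => !![1, 10; 2, 10]
  | 1, 3, 2, 2 => !![9, 6; 7, 6]
  | 1, 3, 3, 0 => !![4, 8; 8, 8]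
  | 1, 3, 4, 3 => !![3, 7; 6, 7]
  | 1, 4, 0, 1 => !![2, 8; 7, 1]
  | 1, 4, 1, 0 => !![8, 1; 9, 4]
  | 1, 4, 2, 4 => !![0, 6; 9, 0]
  | 1, 4, 3, 3 => !![3, 6; 7, 7]
  | 1, 4, 4, 2 => !![9, 1; 1, 10]
  | 2, 0, 0, 3 => !![1, 8; 8, 10]
  | 2, 0, 1, 3 => !![8, 8; 7, 3]
  | 2, 0, 2, 3 => !![0, 4; 8, 0]
  | 2, 0, 3, 3 => !![3, 9; 5, 8]
  | 2, 0, 4, 3 => !![10, 4; 5, 1]
  | 2, 1, 0, 3 => !![8, 7; 8, 3]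
  | 2, 1, 1, 1 => !![10, 10; 10, 9]
  | 2, 1, 2, 4 => !![7, 8; 7, 5]
  | 2, 1, 3, 2 => !![6, 2; 6, 4]
  | 2, 1, 4, 0 => !![2, 6; 2, 1]
  | 2, 2, 0, 3 => !![0, 8; 4, 0]
  | 2, 2, 1, 4 => !![7, 7; 8, 5]
  | 2, 2, 2, 0 => !![5, 8; 8, 2]
  | 2, 2, 3, 1 => !![6, 5; 4, 9]
  | 2, 2, 4, 2 => !![4, 5; 9, 6]
  | 2, 3, 0, 3 => !![3, 5; 9, 8]
  | 2, 3, 1, 2 => !![6, 6; 2, 4]
  | 2, 3, 2, 1 => !![6, 4; 5, 9]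
  | 2, 3, 3, 0 => !![3, 0; 0, 4]
  | 2, 3, 4, 4 => !![4, 7; 6, 8]
  | 2, 4, 0, 3 => !![10, 5; 4, 1]
  | 2, 4, 1, 0 => !![2, 2; 6, 1]
  | 2, 4, 2, 2 => !![4, 9; 5, 6]
  | 2, 4, 3, 4 => !![4, 6; 7, 8]
  | 2, 4, 4, 1 => !![2, 0; 0, 6]
  | 3, 0, 0, 2 => !![10, 3; 3, 1]
  | 3, 0, 1, 2 => !![1, 7; 6, 10]
  | 3, 0, 2, 2 => !![8, 2; 6, 3]
  | 3, 0, 3, 2 => !![0, 7; 3, 0]
  | 3, 0, 4, 2 => !![3, 3; 4, 8]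
  | 3, 1, 0, 2 => !![1, 6; 7, 10]
  | 3, 1, 1, 4 => !![9, 0; 0, 5]
  | 3, 1, 2, 1 => !![7, 5; 4, 3]
  | 3, 1, 3, 3 => !![7, 2; 6, 5]
  | 3, 1, 4, 0 => !![9, 9; 5, 10]
  | 3, 2, 0, 2 => !![8, 6; 2, 3]
  | 3, 2, 1, 1 => !![7, 4; 5, 3]
  | 3, 2, 2, 0 => !![8, 0; 0, 7]
  | 3, 2, 3, 4 => !![5, 7; 6, 2]
  | 3, 2, 4, 3 => !![5, 5; 9, 7]
  | 3, 3, 0, 2 => !![0, 3; 7, 0]
  | 3, 3, 1, 3 => !![7, 6; 2, 5]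
  | 3, 3, 2, 4 => !![5, 6; 7, 2]
  | 3, 3, 3, 0 => !![6, 3; 3, 9]
  | 3, 3, 4, 1 => !![4, 4; 3, 6]
  | 3, 4, 0, 2 => !![3, 4; 3, 8]
  | 3, 4, 1, 0 => !![9, 5; 9, 10]
  | 3, 4, 2, 3 => !![5, 9; 5, 7]
  | 3, 4, 3, 1 => !![4, 3; 4, 6]
  | 3, 4, 4, 4 => !![1, 1; 1, 2]
  | 4, 0, 0, 4 => !![10, 0; 0, 10]
  | 4, 0, 1, 4 => !![9, 4; 3, 10]
  | 4, 0, 2, 4 => !![6, 1; 9, 9]
  | 4, 0, 3, 4 => !![9, 10; 2, 6]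
  | 4, 0, 4, 4 => !![10, 7; 8, 9]
  | 4, 1, 0, 4 => !![9, 3; 4, 10]
  | 4, 1, 1, 3 => !![2, 10; 10, 1]
  | 4, 1, 2, 2 => !![8, 5; 4, 4]
  | 4, 1, 3, 1 => !![0, 5; 2, 0]
  | 4, 1, 4, 0 => !![3, 10; 2, 7]
  | 4, 2, 0, 4 => !![6, 9; 1, 9]
  | 4, 2, 1, 2 => !![8, 4; 5, 4]
  | 4, 2, 2, 0 => !![7, 3; 3, 3]
  | 4, 2, 3, 3 => !![2, 5; 4, 5]
  | 4, 2, 4, 1 => !![10, 1; 9, 1]
  | 4, 3, 0, 4 => !![9, 2; 10, 6]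
  | 4, 3, 1, 1 => !![0, 2; 5, 0]
  | 4, 3, 2, 3 => !![2, 4; 5, 5]
  | 4, 3, 3, 0 => !![6, 10; 10, 4]
  | 4, 3, 4, 2 => !![5, 4; 3, 7]
  | 4, 4, 0, 4 => !![10, 8; 7, 9]
  | 4, 4, 1, 0 => !![3, 2; 10, 7]
  | 4, 4, 2, 1 => !![10, 9; 1, 1]
  | 4, 4, 3, 2 => !![5, 3; 4, 7]
  | 4, 4, 4, 3 => !![5, 0; 0, 9]
  | _, _, _, _ => 1

/-- The embedding as a function. -/
def g₀ (M : Matrix.SpecialLinearGroup (Fin 2) (ZMod 5)) : Matrix (Fin 2) (Fin 2) (ZMod 11) :=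
  tbl (M.1 0 0) (M.1 0 1) (M.1 1 0) (M.1 1 1)

set_option maxRecDepth 1000000 in
theorem g₀_one : g₀ 1 = 1 := by decide +kernel

set_option maxRecDepth 1000000 in
set_option maxHeartbeats 4000000 in
theorem g₀_mul : ∀ M N : Matrix.SpecialLinearGroup (Fin 2) (ZMod 5),
    g₀ (M * N) = g₀ M * g₀ N := by decide +kernel

set_option maxRecDepth 1000000 in
set_option maxHeartbeats 4000000 in
theorem g₀_fpf : ∀ M : Matrix.SpecialLinearGroup (Fin 2) (ZMod 5), M ≠ 1 →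
    ∀ v : Fin 2 → ZMod 11, (g₀ M).mulVec v = v → v = 0 := by decide +kernel

set_option maxRecDepth 1000000 in
theorem sl_nontrivial : ∃ M : Matrix.SpecialLinearGroup (Fin 2) (ZMod 5), M ≠ 1 := by
  decide +kernel

/-- The embedding as a monoid homomorphism into matrices. -/
def g : Matrix.SpecialLinearGroup (Fin 2) (ZMod 5) →* Matrix (Fin 2) (Fin 2) (ZMod 11) where
  toFun := g₀
  map_one' := g₀_one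
  map_mul' := g₀_mul

/-- SL(2,5) occurs as a Frobenius complement: there is a finite group L with a subgroup H isomorphic to SL(2,5) which is a non-trivial proper subgroup meeting each conjugate gHg⁻¹ with g outside H trivially. -/
theorem result :
    ∃ (L : Type) (_ : Group L) (_ : Finite L) (H : Subgroup L),
      Cfsg.IsFrobeniusComplement H ∧ Nonempty (H ≃* Matrix.SpecialLinearGroup (Fin 2) (ZMod 5)) := by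
  let ρ : Matrix.SpecialLinearGroup (Fin 2) (ZMod 5) →*
      MulAut (Multiplicative (Fin 2 → ZMod 11)) :=
    (Cfsg.Agent.S4298.unitsAct (ZMod 11)).comp g.toHomUnits
  have hfpf : ∀ q : Matrix.SpecialLinearGroup (Fin 2) (ZMod 5), q ≠ 1 →
      ∀ w : Multiplicative (Fin 2 → ZMod 11), ρ q w = w → w = 1 := by
    intro q hq w hw
    apply Multiplicative.toAdd.injective
    apply g₀_fpf q hq
    have h1 := congrArg Multiplicative.toAdd hw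
    exact h1
  haveI : Nontrivial (Matrix.SpecialLinearGroup (Fin 2) (ZMod 5)) := by
    obtain ⟨M, hM⟩ := sl_nontrivial
    exact ⟨⟨M, 1, hM⟩⟩
  haveI : Nontrivial (Multiplicative (Fin 2 → ZMod 11)) := by
    refine ⟨⟨Multiplicative.ofAdd (fun _ => 1), 1, ?_⟩⟩
    intro h
    have h1 : (1 : ZMod 11) = 0 := congrArg (fun w => (Multiplicative.toAdd w) 0) h
    revert h1
    decide
  obtain ⟨L, gL, f, H, hF, hiso, -⟩ :=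
    Cfsg.Agent.Helper7.frobenius_of_fpf_action ρ inferInstance inferInstance hfpf
  exact ⟨L, gL, f, H, hF, hiso⟩

end Cfsg.Agent.S3374
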