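import Cfsg.Statements.S3375
-- import your own Cfsg.Agent.* helpers here

set_option autoImplicit false
open Cfsg

namespace Cfsg.Agent.S3375

/-- Let γ be an automorphism of order 2 of a finite group H. (i) If γ fixes only the identity, then H is abelian and γ inverts every element. (ii) If γ has exactly two fixed points and H has a subgroup of index 2, then H has a γ-invariant abelian subgroup of index 2 on which γ acts by inversion. -/
theorem result {H : Type*} [Group H] [Finite H] (γ : MulAut H) (hγ : orderOf γ = 2) :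
    ((∀ h : H, γ h = h → h = 1) → (∀ a b : H, a * b = b * a) ∧ ∀ h : H, γ h = h⁻¹) ∧
    ((Nat.card {h : H // γ h = h} = 2 ∧ ∃ M : Subgroup H, M.index = 2) →
      ∃ A : Subgroup H, A.index = 2 ∧ IsMulCommutative A ∧ (∀ a ∈ A, γ a ∈ A) ∧ ∀ a ∈ A, γ a = a⁻¹) := by
  classical
  have hγγ : ∀ h : H, γ (γ h) = h := by
    intro h
    have h2 : γ ^ 2 = 1 := by rw [← hγ]; exact pow_orderOf_eq_one γ
    have : (γ ^ 2) h = h := by rw [h2]; rfl
    rwa [pow_two, MulAut.mul_apply] at this
  -- elements of the form h⁻¹ γ(h) are inverted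
  have hinv : ∀ h : H, γ (h⁻¹ * γ h) = (h⁻¹ * γ h)⁻¹ := by
    intro h
    rw [map_mul, map_inv, hγγ, mul_inv_rev, inv_inv]
  have hcomm_of_inv : ∀ a b : H, γ a = a⁻¹ → γ b = b⁻¹ → γ (a * b) = (a * b)⁻¹ → a * b = b * a := by
    intro a b ha hb hab
    rw [map_mul, ha, hb, mul_inv_rev] at hab
    have : (a⁻¹ * b⁻¹)⁻¹ = (b⁻¹ * a⁻¹)⁻¹ := by rw [hab]
    simpa [mul_inv_rev] using this.symm
  refine ⟨?_, ?_⟩
  · intro hfix
    have hinj : Function.Injective (fun h : H => h⁻¹ * γ h) := by
      intro h k hhk
      have hhk' : h⁻¹ * γ h = k⁻¹ * γ k := hhk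
      have h1 : γ (k * h⁻¹) = k * h⁻¹ := by
        rw [map_mul, map_inv]
        have e : γ k = k * (h⁻¹ * γ h) := by rw [hhk']; group
        rw [e]; group
      have h2 := hfix _ h1
      have : k = h := by
        have := congrArg (· * h) h2
        simpa using this
      exact this.symm
    have hsurj : Function.Surjective (fun h : H => h⁻¹ * γ h) :=
      Finite.surjective_of_injective hinj
    have hall : ∀ h : H, γ h = h⁻¹ := by
      intro x
      obtain ⟨h, rfl⟩ := hsurj x
      exact hinv h
    exact ⟨fun a b => hcomm_of_inv a b (hall a) (hall b) (hall _), hall⟩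
  · rintro ⟨hcard, M, hM⟩
    -- a γ-invariant subgroup of index 2
    obtain ⟨A, hA, hAγ⟩ : ∃ A : Subgroup H, A.index = 2 ∧ ∀ a ∈ A, γ a ∈ A := by
      by_cases hinvM : ∀ m ∈ M, γ m ∈ M
      · exact ⟨M, hM, hinvM⟩
      · push Not at hinvM
        obtain ⟨m₀, hm₀, hγm₀⟩ := hinvM
        have hmul := fun a b => Subgroup.mul_mem_iff_of_index_two (a := a) (b := b) hM
        let A : Subgroup H :=
          { carrier := {h | h ∈ M ↔ γ h ∈ M}
            mul_mem' := by
              intro a b ha hb
              simp only [Set.mem_setOf_eq] at ha hb ⊢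
              rw [map_mul, hmul, hmul, ha, hb]
            one_mem' := by
              simp only [Set.mem_setOf_eq, map_one]
            inv_mem' := by
              intro a ha
              simp only [Set.mem_setOf_eq] at ha ⊢
              rw [map_inv, inv_mem_iff, inv_mem_iff, ha] }
        have hmemA : ∀ h : H, h ∈ A ↔ (h ∈ M ↔ γ h ∈ M) := fun h => Iff.rfl
        refine ⟨A, ?_, ?_⟩
        · rw [Subgroup.index_eq_two_iff]
          refine ⟨m₀, fun b => ?_⟩
          rw [hmemA, hmemA, map_mul, hmul, hmul]
          by_cases h1 : b ∈ M <;> by_cases h2 : γ b ∈ M <;> simp [Xor', h1, h2, hm₀, hγm₀]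
        · intro a ha
          rw [hmemA] at ha ⊢
          rw [hγγ]
          exact ha.symm
    -- the map h ↦ h⁻¹ γ(h) lands in A
    have hFA : ∀ h : H, h⁻¹ * γ h ∈ A := by
      intro h
      rw [Subgroup.mul_mem_iff_of_index_two hA, inv_mem_iff]
      constructor
      · intro hh; exact hAγ h hh
      · intro hh
        have := hAγ _ hh
        rwa [hγγ] at this
    haveI : Fintype H := Fintype.ofFinite H
    let F : H → ↥A := fun h => ⟨h⁻¹ * γ h, hFA h⟩
    have hfiber : ∀ a ∈ (Finset.univ : Finset H).image F,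
        ((Finset.univ : Finset H).filter fun x => F x = a).card ≤ 2 := by
      intro a ha
      obtain ⟨h₀, -, hh₀⟩ := Finset.mem_image.mp ha
      have hmap : ∀ k ∈ (Finset.univ : Finset H).filter (fun x => F x = a),
          γ (k * h₀⁻¹) = k * h₀⁻¹ := by
        intro k hk
        have hk' : F k = F h₀ := by rw [(Finset.mem_filter.mp hk).2, hh₀]
        have hk'' : k⁻¹ * γ k = h₀⁻¹ * γ h₀ := congrArg Subtype.val hk'
        rw [map_mul, map_inv]
        have e : γ k = k * (h₀⁻¹ * γ h₀) := by rw [← hk'']; group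
        rw [e]; group
      haveI : Fintype {h : H // γ h = h} := Fintype.ofFinite _
      have hc2 : Fintype.card {h : H // γ h = h} = 2 := by
        rw [← Nat.card_eq_fintype_card]; exact hcard
      rw [← hc2, ← Finset.card_univ]
      refine Finset.card_le_card_of_injOn
        (fun k => if hk : γ (k * h₀⁻¹) = k * h₀⁻¹ then ⟨k * h₀⁻¹, hk⟩ else ⟨1, map_one γ⟩)
        (fun k _ => Finset.mem_univ _) ?_
      intro k hk k' hk' hkk'
      have h1 := hmap k hk
      have h2 := hmap k' hk'
      simp only [h1, h2, dif_pos] at hkk'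
      have := congrArg Subtype.val hkk'
      simpa using this
    have hle := Finset.card_le_mul_card_image (Finset.univ : Finset H) 2 hfiber
    have hcardA : Nat.card A * 2 = Nat.card H := by
      rw [← hA]; exact Subgroup.card_mul_index A
    haveI : Fintype ↥A := Fintype.ofFinite _
    have himg : (Finset.univ : Finset H).image F = Finset.univ := by
      apply Finset.eq_univ_of_card
      have h1 : ((Finset.univ : Finset H).image F).card ≤ Fintype.card ↥A := Finset.card_le_univ _
      rw [Finset.card_univ, ← Nat.card_eq_fintype_card] at hle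
      rw [← Nat.card_eq_fintype_card] at h1 ⊢
      omega
    have hAinv : ∀ a ∈ A, γ a = a⁻¹ := by
      intro a ha
      have : (⟨a, ha⟩ : ↥A) ∈ (Finset.univ : Finset H).image F := by
        rw [himg]; exact Finset.mem_univ _
      obtain ⟨h, -, hh⟩ := Finset.mem_image.mp this
      have hh' : h⁻¹ * γ h = a := congrArg Subtype.val hh
      rw [← hh']
      exact hinv h
    refine ⟨A, hA, ⟨⟨?_⟩⟩, hAγ, hAinv⟩
    rintro ⟨a, ha⟩ ⟨b, hb⟩
    apply Subtype.ext
    exact hcomm_of_inv a b (hAinv a ha) (hAinv b hb) (hAinv _ (A.mul_mem ha hb))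

end Cfsg.Agent.S3375
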