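import Cfsg.Statements.S3379
import Mathlib
-- import your own Cfsg.Agent.* helpers here

set_option autoImplicit false
open Cfsg

namespace Cfsg.Agent.S3379

/-- Let G be a finite group all of whose Sylow subgroups are cyclic. Then G is generated by two elements x and y of coprime orders n and m with x⁻¹yx = y^r, where gcd(r − 1, m) = 1 and r^n ≡ 1 (mod m). -/
theorem result {G : Type*} [Group G] [Finite G]
    (hZ : ∀ (p : ℕ) [Fact p.Prime] (P : Sylow p G), IsCyclic (P : Subgroup G)) :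
    ∃ (x y : G) (n m r : ℕ), Subgroup.closure {x, y} = ⊤ ∧ orderOf x = n ∧ orderOf y = m ∧
      x⁻¹ * y * x = y ^ r ∧ Nat.Coprime (r - 1) m ∧ Nat.Coprime n m ∧ 1 ≤ r ∧ r ^ n % m = 1 % m := by
  classical
  haveI : IsZGroup G := ⟨fun p hp P => by haveI := Fact.mk hp; exact hZ p P⟩
  haveI hcyc : IsCyclic (commutator G) := IsZGroup.isCyclic_commutator G
  have hcop := IsZGroup.coprime_commutator_index G
  obtain ⟨H, hH⟩ := Subgroup.exists_right_complement'_of_coprime hcop
  haveI hHcyc : IsCyclic H := by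
    have h1 : Abelianization G ≃* H := hH.symm.QuotientMulEquiv
    exact isCyclic_of_surjective _ h1.surjective
  obtain ⟨y0, hy0⟩ := IsCyclic.exists_generator (α := commutator G)
  obtain ⟨x0, hx0⟩ := IsCyclic.exists_generator (α := H)
  obtain ⟨x, hx⟩ : ∃ x : G, x = (x0 : G) := ⟨_, rfl⟩
  obtain ⟨y, hy⟩ : ∃ y : G, y = (y0 : G) := ⟨_, rfl⟩
  obtain ⟨m, hm⟩ : ∃ m : ℕ, m = Nat.card (commutator G) := ⟨_, rfl⟩
  obtain ⟨n, hn⟩ : ∃ n : ℕ, n = Nat.card H := ⟨_, rfl⟩
  have hox : orderOf x = n := by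
    rw [hx, Subgroup.orderOf_coe, hn]; exact orderOf_eq_card_of_forall_mem_zpowers hx0
  have hoy : orderOf y = m := by
    rw [hy, Subgroup.orderOf_coe, hm]; exact orderOf_eq_card_of_forall_mem_zpowers hy0
  have hmpos : 0 < m := hm ▸ Nat.card_pos
  have hnm : Nat.Coprime n m := by
    have h1 : (commutator G).index = Nat.card H := hH.symm.index_eq_card
    rw [h1, ← hm, ← hn] at hcop
    exact hcop.symm
  have hCy : ∀ c ∈ commutator G, c ∈ Subgroup.zpowers y := by
    intro c hc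
    obtain ⟨k, hk⟩ := Subgroup.mem_zpowers_iff.mp (hy0 ⟨c, hc⟩)
    rw [Subgroup.mem_zpowers_iff]
    refine ⟨k, ?_⟩
    have := congrArg Subtype.val hk
    rw [Subgroup.coe_zpow] at this
    rw [hy]; exact this
  have hHx : ∀ h ∈ H, h ∈ Subgroup.zpowers x := by
    intro c hc
    obtain ⟨k, hk⟩ := Subgroup.mem_zpowers_iff.mp (hx0 ⟨c, hc⟩)
    rw [Subgroup.mem_zpowers_iff]
    refine ⟨k, ?_⟩
    have := congrArg Subtype.val hk
    rw [Subgroup.coe_zpow] at this
    rw [hx]; exact this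
  have hyC : y ∈ commutator G := by rw [hy]; exact y0.2
  have hgen : Subgroup.closure {x, y} = ⊤ := by
    rw [eq_top_iff, ← hH.sup_eq_top]
    refine sup_le ?_ ?_
    · intro c hc
      obtain ⟨k, hk⟩ := Subgroup.mem_zpowers_iff.mp (hCy c hc)
      rw [← hk]; exact Subgroup.zpow_mem _ (Subgroup.subset_closure (by simp)) k
    · intro h hh
      obtain ⟨k, hk⟩ := Subgroup.mem_zpowers_iff.mp (hHx h hh)
      rw [← hk]; exact Subgroup.zpow_mem _ (Subgroup.subset_closure (by simp)) k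
  have hnormal : (commutator G).Normal := inferInstance
  have hconj : x⁻¹ * y * x ∈ commutator G := by
    have := hnormal.conj_mem y hyC x⁻¹
    simpa using this
  obtain ⟨r0, hr0⟩ := (Submonoid.mem_powers_iff _ _).mp (mem_powers_iff_mem_zpowers.mpr (hCy _ hconj))
  obtain ⟨r, hrdef⟩ : ∃ r : ℕ, r = r0 + m := ⟨_, rfl⟩
  have hr : y ^ r = x⁻¹ * y * x := by
    rw [hrdef, pow_add, hr0, ← hoy, pow_orderOf_eq_one, mul_one]
  have hr1 : 1 ≤ r := by omega
  have hconjpow : ∀ j : ℕ, x⁻¹ * y ^ j * x = (x⁻¹ * y * x) ^ j := by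
    intro j
    have := conj_pow (a := x⁻¹) (b := y) (i := j)
    simpa using this.symm
  have hpow : ∀ k : ℕ, (x⁻¹) ^ k * y * x ^ k = y ^ (r ^ k) := by
    intro k
    induction k with
    | zero => simp
    | succ k ih =>
      calc (x⁻¹) ^ (k+1) * y * x ^ (k+1) = x⁻¹ * ((x⁻¹) ^ k * y * x ^ k) * x := by
            rw [pow_succ' x⁻¹ k, pow_succ x k]; simp only [mul_assoc]
        _ = x⁻¹ * y ^ (r ^ k) * x := by rw [ih]
        _ = (x⁻¹ * y * x) ^ (r ^ k) := hconjpow _
        _ = (y ^ r) ^ (r ^ k) := by rw [hr]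
        _ = y ^ (r ^ (k+1)) := by rw [← pow_mul, pow_succ']
  have hfin : r ^ n % m = 1 % m := by
    have h1 := hpow n
    rw [inv_pow, ← hox, pow_orderOf_eq_one, inv_one, one_mul, mul_one] at h1
    rw [hox] at h1
    have h2 : y ^ (r ^ n) = y ^ 1 := by rw [← h1, pow_one]
    rw [pow_eq_pow_iff_modEq, hoy] at h2
    exact h2
  have hcop2 : Nat.Coprime (r - 1) m := by
    obtain ⟨w, hw⟩ : ∃ w : G, w = y ^ (r - 1) := ⟨_, rfl⟩
    have hDn : (Subgroup.zpowers w).Normal := by
      constructor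
      intro d hd g
      obtain ⟨j, rfl⟩ := Subgroup.mem_zpowers_iff.mp hd
      obtain ⟨s, hs⟩ := Subgroup.mem_zpowers_iff.mp (hCy _ (hnormal.conj_mem y hyC g))
      have h1 : g * w * g⁻¹ = w ^ s := by
        rw [hw, ← conj_pow, ← hs, ← zpow_natCast, ← zpow_natCast, ← zpow_mul, ← zpow_mul]
        rw [mul_comm]
      rw [← conj_zpow, h1, ← zpow_mul]
      exact Subgroup.zpow_mem_zpowers w _
    obtain ⟨D, hD⟩ : ∃ D : Subgroup G, D = Subgroup.zpowers w := ⟨_, rfl⟩
    haveI : D.Normal := hD ▸ hDn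
    have hab : ((x : G) : G ⧸ D) * (y : G ⧸ D) = (y : G ⧸ D) * (x : G ⧸ D) := by
      rw [← QuotientGroup.mk_mul, ← QuotientGroup.mk_mul]
      apply QuotientGroup.eq.mpr
      have h1 : (x * y)⁻¹ * (y * x) = w := by
        calc (x * y)⁻¹ * (y * x) = y⁻¹ * (x⁻¹ * y * x) := by group
          _ = y⁻¹ * y ^ r := by rw [hr]
          _ = w := by
            rw [hw]
            obtain ⟨r', hr'⟩ : ∃ r', r = r' + 1 := ⟨r - 1, by omega⟩
            rw [hr', Nat.add_sub_cancel, pow_succ', inv_mul_cancel_left]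
      rw [h1, hD]; exact Subgroup.mem_zpowers w
    have hgenQ : Subgroup.closure {((x : G) : G ⧸ D), (y : G ⧸ D)} = ⊤ := by
      have h1 := congrArg (Subgroup.map (QuotientGroup.mk' D)) hgen
      rw [MonoidHom.map_closure, Subgroup.map_top_of_surjective _ (QuotientGroup.mk'_surjective D),
        Set.image_pair] at h1
      exact h1
    have hcomm : ∀ u v : G ⧸ D, u * v = v * u := by
      have hcen1 : Subgroup.closure {((x : G) : G ⧸ D), (y : G ⧸ D)} ≤
          Subgroup.centralizer {((x : G) : G ⧸ D), (y : G ⧸ D)} := by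
        rw [Subgroup.closure_le]
        intro g hg
        rw [SetLike.mem_coe, Subgroup.mem_centralizer_iff]
        intro h hh
        rcases hg with rfl | rfl <;> rcases hh with rfl | rfl
        · rfl
        · exact hab.symm
        · exact hab
        · rfl
      rw [hgenQ] at hcen1
      have hcen2 : Subgroup.closure {((x : G) : G ⧸ D), (y : G ⧸ D)} ≤ Subgroup.center (G ⧸ D) := by
        rw [Subgroup.closure_le]
        intro g hg
        rw [SetLike.mem_coe, Subgroup.mem_center_iff]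
        intro h
        have := Subgroup.mem_centralizer_iff.mp (hcen1 (Subgroup.mem_top h)) g hg
        exact this.symm
      rw [hgenQ] at hcen2
      intro u v
      exact (Subgroup.mem_center_iff.mp (hcen2 (Subgroup.mem_top v)) u)
    have hCD : commutator G ≤ D := by
      rw [commutator_def, Subgroup.commutator_le]
      intro g1 _ g2 _
      have h1 : ((g1 * g2 * g1⁻¹ * g2⁻¹ : G) : G ⧸ D) = 1 := by
        rw [QuotientGroup.mk_mul, QuotientGroup.mk_mul, QuotientGroup.mk_mul, QuotientGroup.mk_inv,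
          QuotientGroup.mk_inv, hcomm (g1 : G ⧸ D) (g2 : G ⧸ D), mul_inv_cancel_right, mul_inv_cancel]
      exact (QuotientGroup.eq_one_iff _).mp h1
    have hyD : y ∈ Subgroup.zpowers w := hD ▸ hCD hyC
    obtain ⟨j, hj⟩ := Subgroup.mem_zpowers_iff.mp hyD
    rw [hw, ← zpow_natCast, ← zpow_mul] at hj
    have hj' : y ^ (((r - 1 : ℕ) : ℤ) * j) = y ^ (1 : ℤ) := by rw [hj, zpow_one]
    rw [zpow_eq_zpow_iff_modEq, hoy] at hj'
    obtain ⟨c, hc⟩ := hj'.dvd
    rw [← Nat.isCoprime_iff_coprime]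
    exact ⟨j, c, by linear_combination (-1 : ℤ) * hc⟩
  exact ⟨x, y, n, m, r, hgen, hox, hoy, hr.symm, hcop2, hnm, hr1, hfin⟩

end Cfsg.Agent.S3379
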