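import Cfsg.Statements.S3381
import Mathlib

set_option autoImplicit false
open Cfsg

namespace Cfsg.Agent.S3381

/-- Let G be a finite group acting faithfully and linearly on a non-trivial finite vector space V over the field with q elements (q prime) so that every non-zero vector has a stabilizer of order 2, and suppose G has a central involution. Then V has q^(2r) elements for some r and G contains exactly q^r + 1 non-central involutions. -/
theorem result
    (q : ℕ) [Fact q.Prime] {V : Type*} [AddCommGroup V] [Module (ZMod q) V] [Finite V] [Nontrivial V]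
    {G : Type*} [Group G] [Finite G] (ρ : G →* (V ≃ₗ[ZMod q] V)) (hρ : Function.Injective ρ)
    (hstab : ∀ v : V, v ≠ 0 → Nat.card {g : G // ρ g v = v} = 2)
    (z : G) (hz : orderOf z = 2) (hzc : z ∈ Subgroup.center G) :
    ∃ r : ℕ, Nat.card V = q ^ (2 * r) ∧
      Nat.card {g : G // orderOf g = 2 ∧ g ∉ Subgroup.center G} = q ^ r + 1 := by
  classical
  haveI : Fintype V := Fintype.ofFinite V
  haveI : Fintype G := Fintype.ofFinite G
  have hq : q.Prime := Fact.out
  have hmul : ∀ a b : G, ∀ v : V, ρ (a * b) v = ρ a (ρ b v) := by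
    intro a b v; rw [map_mul]; rfl
  have hone : ∀ v : V, ρ 1 v = v := by
    intro v; rw [map_one]; rfl
  have hsq1 : ∀ t : G, orderOf t = 2 → t ^ 2 = 1 := by
    intro t ht; rw [← ht, pow_orderOf_eq_one]
  have hinv2 : ∀ t : G, orderOf t = 2 → ∀ v : V, ρ t (ρ t v) = v := by
    intro t ht v
    rw [← hmul, ← pow_two, hsq1 t ht, hone]
  have hne1 : ∀ t : G, orderOf t = 2 → t ≠ 1 := by
    intro t ht h; rw [h, orderOf_one] at ht; omega
  have stab : ∀ v : V, v ≠ 0 → ∃ t : G, orderOf t = 2 ∧ ρ t v = v ∧
      ∀ g : G, ρ g v = v → g = 1 ∨ g = t := by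
    intro v hv
    have h2 := hstab v hv
    obtain ⟨⟨t, ht⟩, hne, huniq⟩ :=
      (Nat.card_eq_two_iff' (⟨1, hone v⟩ : {g : G // ρ g v = v})).1 h2
    have ht1 : t ≠ 1 := by
      intro h; apply hne; exact Subtype.ext h
    have hall : ∀ g : G, ρ g v = v → g = 1 ∨ g = t := by
      intro g hg
      by_cases hg1 : g = 1
      · exact Or.inl hg1
      · right
        have := huniq ⟨g, hg⟩ (fun h => hg1 (congrArg Subtype.val h))
        exact congrArg Subtype.val this
    have htt : t ^ 2 = 1 := by
      have h3 : ρ (t ^ 2) v = v := by rw [pow_two, hmul, ht, ht]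
      rcases hall _ h3 with h | h
      · exact h
      · exfalso; apply ht1
        rw [pow_two] at h
        simpa using h
    exact ⟨t, orderOf_eq_prime htt ht1, ht, hall⟩
  have central_neg : ∀ c : G, orderOf c = 2 → c ∈ Subgroup.center G → ∀ v : V, ρ c v = -v := by
    intro c hc hcc
    have hcomm : ∀ g : G, ∀ v : V, ρ c (ρ g v) = ρ g (ρ c v) := by
      intro g v
      rw [← hmul, ← hmul, Subgroup.mem_center_iff.1 hcc g]
    have hnofix : ∀ w : V, ρ c w = w → w = 0 := by
      intro w hw
      by_contra hw0
      have hex : ∃ x : V, ρ c x ≠ x := by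
        by_contra hall
        push_neg at hall
        apply hne1 c hc
        apply hρ
        rw [map_one]
        ext x
        exact hall x
      obtain ⟨x, hx⟩ := hex
      have key : ∀ v : V, ρ c v ≠ v → ∀ t : G, orderOf t = 2 → ρ t v = v → ρ t w = -w := by
        intro v hv t ht htv
        have h1 : ρ t (w + ρ t w) = w + ρ t w := by
          rw [map_add, hinv2 t ht, add_comm]
        have h2 : ρ c (w + ρ t w) = w + ρ t w := by
          rw [map_add, hcomm, hw]
        by_contra hneg
        have h0 : w + ρ t w ≠ 0 := by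
          intro h; apply hneg; exact (eq_neg_of_add_eq_zero_right h)
        obtain ⟨s, hs, hsv, hsall⟩ := stab _ h0
        have ht' : t = s := by
          rcases hsall t h1 with h | h
          · exact absurd h (hne1 t ht)
          · exact h
        have hc' : c = s := by
          rcases hsall c h2 with h | h
          · exact absurd h (hne1 c hc)
          · exact h
        apply hv
        rw [hc', ← ht']; exact htv
      obtain ⟨t, ht, htx, -⟩ := stab x (by rintro rfl; exact hx (map_zero _))
      have htw : ρ t w = -w := key x hx t ht htx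
      have hwne : -w ≠ w := by
        intro h
        obtain ⟨s, hs, hsv, hsall⟩ := stab w hw0
        have ht' : t = s := by
          rcases hsall t (by rw [htw, h]) with h | h
          · exact absurd h (hne1 t ht)
          · exact h
        have hc' : c = s := by
          rcases hsall c hw with h | h
          · exact absurd h (hne1 c hc)
          · exact h
        apply hx; rw [hc', ← ht']; exact htx
      have hcancel : ∀ y : V, y + y = 0 → y = 0 := by
        intro y hy
        by_contra hy0
        have h2 : (2 : ZMod q) = 0 := by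
          by_contra h2
          apply hy0
          have : (2 : ZMod q) • y = 0 := by rw [two_smul]; exact hy
          rcases smul_eq_zero.1 this with h | h
          · exact absurd h h2
          · exact h
        apply hwne
        have : (2 : ZMod q) • w = 0 := by rw [h2, zero_smul]
        rw [two_smul] at this
        exact (eq_neg_of_add_eq_zero_left this).symm
      have hcu : ρ c (ρ c x - x) = -(ρ c x - x) := by
        rw [map_sub, hinv2 c hc]; abel
      have hu0 : ρ c x - x ≠ 0 := by
        intro h; apply hx; exact sub_eq_zero.1 h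
      generalize ρ c x - x = u at hcu hu0
      have hv0 : w + u ≠ 0 := by
        intro h
        have h' : ρ c (w + u) = 0 := by rw [h, map_zero]
        rw [map_add, hw, hcu] at h'
        apply hw0; apply hcancel
        have : w + w = (w + u) + (w + -u) := by abel
        rw [this, h, h', add_zero]
      have hcv : ρ c (w + u) ≠ w + u := by
        rw [map_add, hw, hcu]
        intro h
        apply hu0; apply hcancel
        have h5 : -u = u := add_left_cancel h
        have : u + u = -u + u := by rw [h5]
        rw [this, neg_add_cancel]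
      obtain ⟨s, hs, hsv, -⟩ := stab (w + u) hv0
      have hsw : ρ s w = -w := key (w + u) hcv s hs hsv
      have hsu : ρ s u = u + (w + w) := by
        have h6 : ρ s w + ρ s u = w + u := by rw [← map_add]; exact hsv
        rw [hsw] at h6
        have h3 : ρ s u = (-w + ρ s u) + w := by abel
        rw [h3, h6]; abel
      have h4 : ρ c (ρ s u) = ρ s (ρ c u) := hcomm s u
      rw [hcu, map_neg, hsu, map_add, map_add, hcu, hw] at h4
      apply hw0
      apply hcancel; apply hcancel
      have : (w + w) + (w + w) = (-u + (w + w)) - (-(u + (w + w))) := by abel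
      rw [this, h4, sub_self]
    intro v
    have h1 : ρ c (v + ρ c v) = v + ρ c v := by
      rw [map_add, hinv2 c hc, add_comm]
    have := hnofix _ h1
    exact eq_neg_of_add_eq_zero_right this
  have hzneg := central_neg z hz hzc
  have h2ne : (2 : ZMod q) ≠ 0 := by
    intro h2
    apply hne1 z hz
    apply hρ
    rw [map_one]
    ext v
    rw [hzneg v]
    have : (2 : ZMod q) • v = 0 := by rw [h2, zero_smul]
    rw [two_smul] at this
    show -v = v
    exact (eq_neg_of_add_eq_zero_left this).symm
  have hcancel : ∀ y : V, y + y = 0 → y = 0 := by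
    intro y hy
    have : (2 : ZMod q) • y = 0 := by rw [two_smul]; exact hy
    rcases smul_eq_zero.1 this with h | h
    · exact absurd h h2ne
    · exact h
  have hnegself : ∀ y : V, -y = y → y = 0 := by
    intro y hy
    apply hcancel
    have : y + y = -y + y := by rw [hy]
    rw [this, neg_add_cancel]
  have hzeq : ∀ c : G, (∀ v : V, ρ c v = -v) → c = z := by
    intro c hcv
    apply hρ
    ext v
    rw [hcv, hzneg]
  have hTfix : ∀ t : G, orderOf t = 2 → t ≠ z → ∃ v : V, v ≠ 0 ∧ ρ t v = v := by
    intro t ht htz
    by_contra hno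
    push_neg at hno
    apply htz
    apply hzeq
    intro v
    have h1 : ρ t (v + ρ t v) = v + ρ t v := by
      rw [map_add, hinv2 t ht, add_comm]
    have h0 : v + ρ t v = 0 := by
      by_contra h; exact hno _ h h1
    exact eq_neg_of_add_eq_zero_right h0
  have hzcomm : ∀ g : G, g * z = z * g := fun g => Subgroup.mem_center_iff.1 hzc g
  have hzz : z * z = 1 := by rw [← pow_two, hsq1 z hz]
  have hTz : ∀ t : G, orderOf t = 2 → t ≠ z →
      orderOf (t * z) = 2 ∧ t * z ≠ z ∧ t * z ≠ t := by
    intro t ht htz
    refine ⟨?_, ?_, ?_⟩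
    · apply orderOf_eq_prime
      · rw [(show Commute t z from hzcomm t).mul_pow, hsq1 t ht, hsq1 z hz, one_mul]
      · intro h
        apply htz
        calc t = t * (z * z) := by rw [hzz, mul_one]
          _ = (t * z) * z := by rw [mul_assoc]
          _ = z := by rw [h, one_mul]
    · intro h
      apply hne1 t ht
      simpa using h
    · intro h
      apply hne1 z hz
      simpa using h
  set A : G → Finset V := fun t => Finset.univ.filter (fun v => ρ t v = v) with hA
  have hAmem : ∀ t : G, ∀ v : V, v ∈ A t ↔ ρ t v = v := by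
    intro t v; simp [hA]
  have hAz : ∀ t : G, ∀ v : V, v ∈ A (t * z) ↔ ρ t v = -v := by
    intro t v
    rw [hAmem, hmul, hzneg, map_neg, neg_eq_iff_eq_neg]
  have hprod_le : ∀ s t : G, (∀ v : V, ρ s v = v → ρ t v = v → v = 0) →
      (A s).card * (A t).card ≤ Fintype.card V := by
    intro s t hst
    rw [← Finset.card_product, ← Finset.card_univ]
    apply Finset.card_le_card_of_injOn (fun p : V × V => p.1 + p.2)
    · intro p _; simp
    · rintro ⟨x, y⟩ hp ⟨x', y'⟩ hp' h
      rw [Finset.mem_coe, Finset.mem_product] at hp hp'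
      have hx := (hAmem s x).1 hp.1
      have hy := (hAmem t y).1 hp.2
      have hx' := (hAmem s x').1 hp'.1
      have hy' := (hAmem t y').1 hp'.2
      have h' : x + y = x' + y' := h
      have hd : x - x' = y' - y := by
        rw [sub_eq_sub_iff_add_eq_add, h', add_comm]
      have h0 : x - x' = 0 := by
        apply hst
        · rw [map_sub, hx, hx']
        · rw [hd, map_sub, hy', hy]
      have hxx : x = x' := sub_eq_zero.1 h0
      have hyy : y = y' := by
        rw [h0] at hd; exact (sub_eq_zero.1 hd.symm).symm
      rw [hxx, hyy]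
  have hprod_eq : ∀ t : G, orderOf t = 2 →
      (A t).card * (A (t * z)).card = Fintype.card V := by
    intro t ht
    apply le_antisymm
    · apply hprod_le
      intro v h1 h2
      rw [hmul, hzneg, map_neg, h1] at h2
      exact hnegself v h2
    · rw [← Finset.card_product, ← Finset.card_univ]
      apply Finset.card_le_card_of_injOn
        (fun v : V => ((2 : ZMod q)⁻¹ • (v + ρ t v), (2 : ZMod q)⁻¹ • (v - ρ t v)))
      · intro v _
        rw [Finset.mem_coe, Finset.mem_product]
        refine ⟨(hAmem t _).2 ?_, (hAz t _).2 ?_⟩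
        · rw [map_smul, map_add, hinv2 t ht, add_comm]
        · rw [map_smul, map_sub, hinv2 t ht, ← smul_neg, neg_sub]
      · intro v _ v' _ h
        simp only [Prod.mk.injEq] at h
        obtain ⟨h1, h2⟩ := h
        have h1' : v + ρ t v = v' + ρ t v' := smul_right_injective V (inv_ne_zero h2ne) h1
        have h2' : v - ρ t v = v' - ρ t v' := smul_right_injective V (inv_ne_zero h2ne) h2
        have h3 : (v - v') + (v - v') = 0 := by
          have : (v - v') + (v - v') =
              (v + ρ t v) + (v - ρ t v) - ((v' + ρ t v') + (v' - ρ t v')) := by abel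
          rw [this, h1', h2', sub_self]
        exact sub_eq_zero.1 (hcancel _ h3)
  have hdisj : ∀ s t : G, orderOf s = 2 → orderOf t = 2 → s ≠ t →
      ∀ v : V, ρ s v = v → ρ t v = v → v = 0 := by
    intro s t hs ht hst v h1 h2
    by_contra hv
    obtain ⟨r, hr, hrv, hrall⟩ := stab v hv
    apply hst
    have e1 : s = r := by
      rcases hrall s h1 with h | h
      · exact absurd h (hne1 s hs)
      · exact h
    have e2 : t = r := by
      rcases hrall t h2 with h | h
      · exact absurd h (hne1 t ht)
      · exact h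
    rw [e1, e2]
  have hthird : ∀ t : G, orderOf t = 2 → t ≠ z →
      ∃ s : G, orderOf s = 2 ∧ s ≠ z ∧ s ≠ t ∧ s ≠ t * z := by
    intro t ht htz
    obtain ⟨htz2, htzz, htzt⟩ := hTz t ht htz
    obtain ⟨w, hw0, hw⟩ := hTfix t ht htz
    obtain ⟨w', hw'0, hw'⟩ := hTfix (t * z) htz2 htzz
    have hw'' : ρ t w' = -w' := (hAz t w').1 ((hAmem _ _).2 hw')
    have hne : w + w' ≠ 0 := by
      intro h
      have e : w' = -w := eq_neg_of_add_eq_zero_right h
      rw [e, map_neg, hw, neg_neg] at hw''
      exact hw0 (hnegself w hw'')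
    obtain ⟨s, hs, hsv, -⟩ := stab _ hne
    refine ⟨s, hs, ?_, ?_, ?_⟩
    · intro hsz
      rw [hsz, hzneg] at hsv
      exact hne (hnegself _ hsv)
    · intro hst
      rw [hst, map_add, hw, hw''] at hsv
      have : -w' = w' := add_left_cancel hsv
      exact hw'0 (hnegself _ this)
    · intro hstz
      rw [hstz, hmul, hzneg, map_neg, map_add, hw, hw''] at hsv
      have : -w = w := by
        have h5 : -w + w' = w + w' := by rw [← hsv]; abel
        exact add_right_cancel h5
      exact hw0 (hnegself _ this)
  have arith : ∀ a b c d N : ℕ, 0 < N → a * b = N → c * d = N → c * a ≤ N → c * b ≤ N →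
      d * a ≤ N → d * b ≤ N → a * a = N := by
    intro a b c d N hN e1 e2 l1 l2 l3 l4
    have hc : 0 < c := Nat.pos_of_ne_zero (by rintro rfl; rw [zero_mul] at e2; omega)
    have hd : 0 < d := Nat.pos_of_ne_zero (by rintro rfl; rw [mul_zero] at e2; omega)
    have ha : 0 < a := Nat.pos_of_ne_zero (by rintro rfl; rw [zero_mul] at e1; omega)
    have hb : 0 < b := Nat.pos_of_ne_zero (by rintro rfl; rw [mul_zero] at e1; omega)
    have had : a ≤ d := by
      rw [← e2] at l1; exact Nat.le_of_mul_le_mul_left l1 hc
    have hac : a ≤ c := by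
      rw [← e2, mul_comm c d] at l3; exact Nat.le_of_mul_le_mul_left l3 hd
    have hbd : b ≤ d := by
      rw [← e2] at l2; exact Nat.le_of_mul_le_mul_left l2 hc
    have hbc : b ≤ c := by
      rw [← e2, mul_comm c d] at l4; exact Nat.le_of_mul_le_mul_left l4 hd
    have haa : a * a ≤ a * b := by rw [e1, ← e2]; exact Nat.mul_le_mul hac had
    have hbb : b * b ≤ a * b := by rw [e1, ← e2]; exact Nat.mul_le_mul hbc hbd
    have hab : a ≤ b := Nat.le_of_mul_le_mul_left haa ha
    have hba : b ≤ a := Nat.le_of_mul_le_mul_right hbb hb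
    have : a = b := le_antisymm hab hba
    rw [← e1, this]
  have hsq : ∀ t : G, orderOf t = 2 → t ≠ z → (A t).card * (A t).card = Fintype.card V := by
    intro t ht htz
    obtain ⟨htz2, htzz, htzt⟩ := hTz t ht htz
    obtain ⟨s, hs, hsz, hst, hstz⟩ := hthird t ht htz
    obtain ⟨hsz2, hszz, hszs⟩ := hTz s hs hsz
    have hszt : s * z ≠ t := by
      intro h; apply hstz
      rw [← h, mul_assoc, hzz, mul_one]
    have hsztz : s * z ≠ t * z := by
      intro h; exact hst (mul_right_cancel h)
    exact arith _ _ _ _ _ Fintype.card_pos (hprod_eq t ht) (hprod_eq s hs)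
      (hprod_le s t (hdisj s t hs ht hst))
      (hprod_le s (t * z) (hdisj s (t * z) hs htz2 hstz))
      (hprod_le (s * z) t (hdisj (s * z) t hsz2 ht hszt))
      (hprod_le (s * z) (t * z) (hdisj (s * z) (t * z) hsz2 htz2 hsztz))
  have hVcard : Fintype.card V = q ^ Module.finrank (ZMod q) V := by
    rw [Module.card_eq_pow_finrank (K := ZMod q) (V := V), ZMod.card]
  have hall : ∀ t : G, orderOf t = 2 → t ≠ z →
      ∃ k : ℕ, (A t).card = q ^ k ∧ Fintype.card V = q ^ (2 * k) := by
    intro t ht htz
    have h := hsq t ht htz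
    have hdvd : (A t).card ∣ q ^ Module.finrank (ZMod q) V := by
      rw [← hVcard, ← h]; exact dvd_mul_right _ _
    obtain ⟨k, -, hk⟩ := (Nat.dvd_prime_pow hq).1 hdvd
    refine ⟨k, hk, ?_⟩
    rw [← h, hk, two_mul, pow_add]
  obtain ⟨v₀, hv₀⟩ := exists_ne (0 : V)
  obtain ⟨t₀, ht₀, ht₀v, -⟩ := stab v₀ hv₀
  have ht₀z : t₀ ≠ z := by
    intro h
    rw [h, hzneg] at ht₀v
    exact hv₀ (hnegself _ ht₀v)
  obtain ⟨r, hr, hVr⟩ := hall t₀ ht₀ ht₀z
  have hAr : ∀ t : G, orderOf t = 2 → t ≠ z → (A t).card = q ^ r := by
    intro t ht htz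
    obtain ⟨k, hk, hVk⟩ := hall t ht htz
    have h2k : 2 * k = 2 * r := Nat.pow_right_injective hq.two_le (hVk.symm.trans hVr)
    have hkr : k = r := by omega
    rw [hk, hkr]
  refine ⟨r, ?_, ?_⟩
  · rw [Nat.card_eq_fintype_card, hVr]
  · have hr1 : 1 ≤ r := by
      by_contra h0
      have hr0 : r = 0 := by omega
      rw [hr0] at hVr
      have h1 := Fintype.one_lt_card (α := V)
      simp at hVr
      omega
    have hqr : 1 < q ^ r := Nat.one_lt_pow (by omega) hq.one_lt
    have hτex : ∀ v : V, ∃ t : G, v ≠ 0 →
        (orderOf t = 2 ∧ ρ t v = v ∧ ∀ g : G, ρ g v = v → g = 1 ∨ g = t) := by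
      intro v
      by_cases hv : v = 0
      · exact ⟨1, fun h => absurd hv h⟩
      · obtain ⟨t, ht⟩ := stab v hv
        exact ⟨t, fun _ => ht⟩
    choose τ hτ using hτex
    set T : Finset G := Finset.univ.filter (fun t => orderOf t = 2 ∧ t ≠ z) with hT
    set S : Finset V := Finset.univ.filter (fun v => v ≠ 0) with hS
    have hτz : ∀ v : V, v ≠ 0 → τ v ≠ z := by
      intro v hv h
      have h3 := (hτ v hv).2.1
      rw [h, hzneg] at h3
      exact hv (hnegself _ h3)
    have hmaps : ∀ v ∈ S, τ v ∈ T := by
      intro v hv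
      have hv0 : v ≠ 0 := by simpa [hS] using hv
      simp only [hT, Finset.mem_filter, Finset.mem_univ, true_and]
      exact ⟨(hτ v hv0).1, hτz v hv0⟩
    have hcount : S.card = ∑ b ∈ T, (S.filter (fun a => τ a = b)).card :=
      Finset.card_eq_sum_card_fiberwise hmaps
    have hfib : ∀ b ∈ T, (S.filter (fun a => τ a = b)).card = q ^ r - 1 := by
      intro b hb
      have hb' : orderOf b = 2 ∧ b ≠ z := by simpa [hT] using hb
      have hSb : S.filter (fun a => τ a = b) = (A b).erase 0 := by
        ext v
        simp only [Finset.mem_filter, Finset.mem_erase, hS, Finset.mem_univ, true_and, hAmem]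
        constructor
        · rintro ⟨hv0, rfl⟩
          exact ⟨hv0, (hτ v hv0).2.1⟩
        · rintro ⟨hv0, hbv⟩
          refine ⟨hv0, ?_⟩
          rcases (hτ v hv0).2.2 b hbv with h | h
          · exact absurd h (hne1 b hb'.1)
          · exact h.symm
      rw [hSb, Finset.card_erase_of_mem ((hAmem b 0).2 (map_zero _)), hAr b hb'.1 hb'.2]
    have hScard : S.card = q ^ (2 * r) - 1 := by
      have hSe : S = Finset.univ.erase 0 := by
        ext v; simp [hS]
      rw [hSe, Finset.card_erase_of_mem (Finset.mem_univ _), Finset.card_univ, hVr]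
    rw [hScard, Finset.sum_congr rfl hfib, Finset.sum_const, smul_eq_mul] at hcount
    have hTcard : T.card = q ^ r + 1 := by
      have hid : q ^ (2 * r) - 1 = (q ^ r + 1) * (q ^ r - 1) := by
        rw [two_mul, pow_add]
        obtain ⟨m, hm⟩ : ∃ m, q ^ r = m + 1 := ⟨q ^ r - 1, by omega⟩
        rw [hm]
        have e : (m + 1) * (m + 1) = (m + 1 + 1) * m + 1 := by ring
        rw [e, Nat.add_sub_cancel, Nat.add_sub_cancel]
      rw [hid] at hcount
      exact (Nat.eq_of_mul_eq_mul_right (by omega) hcount).symm
    rw [Nat.card_eq_fintype_card, Fintype.card_subtype, ← hTcard]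
    congr 1
    ext g
    simp only [Finset.mem_filter, Finset.mem_univ, true_and, hT]
    constructor
    · rintro ⟨hg, hgc⟩
      refine ⟨hg, fun h => hgc ?_⟩
      rw [h]; exact hzc
    · rintro ⟨hg, hgz⟩
      exact ⟨hg, fun hgc => hgz (hzeq g (central_neg g hg hgc))⟩

end Cfsg.Agent.S3381
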