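import Cfsg.Statements.S3383
import Mathlib
import Cfsg.Agent.Helper7.FrobKer

set_option autoImplicit false
open Cfsg

namespace Cfsg.Agent.S3383

/-- Let H be a Frobenius complement in a finite group L and K the Frobenius kernel (as a subgroup). Then K is characteristic in L, and every normal subgroup of L either contains K or is contained in K. -/
theorem result {L : Type*} [Group L] [Finite L]
    (H : Subgroup L) (hH : Cfsg.IsFrobeniusComplement H)
    (K : Subgroup L) (hK : (K : Set L) = Cfsg.frobeniusKernel H) :
    K.Characteristic ∧ ∀ N : Subgroup L, N.Normal → K ≤ N ∨ N ≤ K := by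
  have hdich := fun N hN => Cfsg.Agent.Helper7.frob_normal_dichotomy H hH K hK N hN
  refine ⟨⟨?_⟩, hdich⟩
  intro φ
  have hKn := Cfsg.Agent.Helper7.frob_kernel_normal H hH K hK
  have hn : (K.comap φ.toMonoidHom).Normal := hKn.comap _
  have hcard : Nat.card (K.comap φ.toMonoidHom) = Nat.card K := by
    have e : K.comap φ.toMonoidHom = K.map φ.symm.toMonoidHom := by
      ext x
      rw [Subgroup.mem_comap, Subgroup.mem_map]
      constructor
      · intro hx
        exact ⟨φ x, hx, by simp⟩
      · rintro ⟨y, hy, rfl⟩
        simpa using hy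
    rw [e]
    exact (Nat.card_congr (Subgroup.equivMapOfInjective K φ.symm.toMonoidHom
      φ.symm.injective).toEquiv).symm
  rcases hdich _ hn with h | h
  · exact (Subgroup.eq_of_le_of_card_ge h hcard.le).symm
  · exact Subgroup.eq_of_le_of_card_ge h hcard.ge

end Cfsg.Agent.S3383
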