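import Cfsg.Statements.S3733
import Mathlib

set_option autoImplicit false
open Cfsg

namespace Cfsg.Agent.S3733

/-- Let A and V be subgroups of a finite group with V abelian and nontrivial and A normalizing V. Suppose a nonempty finite family of proper subgroups of A partitions A: every non-identity element of A lies in exactly one member. If the number of members minus one is coprime to the order of V, then some member B of the family has a non-identity fixed point on V, that is V ∩ C(B) ≠ 1. -/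
theorem result {G : Type*} [Group G] [Finite G] (A V : Subgroup G) (hVab : IsMulCommutative V) (hV : V ≠ ⊥) (hAV : A ≤ Subgroup.normalizer (V : Set G)) (𝒜 : Finset (Subgroup G)) (hne : 𝒜.Nonempty) (hprop : ∀ B ∈ 𝒜, B < A) (hpart : ∀ a ∈ A, a ≠ 1 → ∃! B, B ∈ 𝒜 ∧ a ∈ B) (hk : (𝒜.card - 1).Coprime (Nat.card V)) : ∃ B ∈ 𝒜, V ⊓ Subgroup.centralizer (B : Set G) ≠ ⊥ := by
  classical
  by_contra hcon
  push Not at hcon
  haveI : Fintype G := Fintype.ofFinite G
  letI instV : CommGroup ↥V :=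
    { (inferInstance : Group ↥V) with mul_comm := fun a b => mul_comm' a b }
  -- the conjugation action on V
  let f : G → ↥V → ↥V := fun a v =>
    if h : a * (v : G) * a⁻¹ ∈ V then ⟨a * (v : G) * a⁻¹, h⟩ else 1
  have hfA : ∀ a ∈ A, ∀ v : ↥V, ((f a v : ↥V) : G) = a * (v : G) * a⁻¹ := by
    intro a ha v
    have h : a * (v : G) * a⁻¹ ∈ V := by
      have := hAV ha
      rw [Subgroup.mem_normalizer_iff] at this
      exact (this v).mp v.2
    simp only [f, dif_pos h]
  have hf1 : ∀ v : ↥V, f 1 v = v := by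
    intro v
    apply Subtype.ext
    rw [hfA 1 A.one_mem v]; simp
  have hfmul : ∀ a ∈ A, ∀ v w : ↥V, f a (v * w) = f a v * f a w := by
    intro a ha v w
    apply Subtype.ext
    rw [Subgroup.coe_mul, hfA a ha, hfA a ha, hfA a ha, Subgroup.coe_mul]; group
  have hfone : ∀ a ∈ A, f a 1 = 1 := by
    intro a ha
    apply Subtype.ext
    rw [hfA a ha]; simp
  have hfcomp : ∀ a ∈ A, ∀ b ∈ A, ∀ v : ↥V, f a (f b v) = f (a * b) v := by
    intro a ha b hb v
    apply Subtype.ext
    rw [hfA a ha, hfA b hb, hfA (a * b) (A.mul_mem ha hb)]; group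
  -- norms
  let N : Finset G → ↥V → ↥V := fun S v => ∏ a ∈ S, f a v
  let fin : Subgroup G → Finset G := fun B => Finset.univ.filter (fun a => a ∈ B)
  have hmemfin : ∀ (B : Subgroup G) (a : G), a ∈ fin B ↔ a ∈ B := by
    intro B a; simp [fin]
  -- norm over a subgroup B ≤ A is fixed by B
  have hfix : ∀ B : Subgroup G, B ≤ A → ∀ b' ∈ B, ∀ v : ↥V, f b' (N (fin B) v) = N (fin B) v := by
    intro B hBA b' hb' v
    let g : ↥V →* ↥V := MonoidHom.mk' (f b') (hfmul b' (hBA hb'))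
    have h1 : f b' (N (fin B) v) = ∏ a ∈ fin B, f b' (f a v) := by
      show g (∏ a ∈ fin B, f a v) = ∏ a ∈ fin B, g (f a v)
      exact map_prod g _ _
    rw [h1]
    show ∏ a ∈ fin B, f b' (f a v) = ∏ a ∈ fin B, f a v
    have h2 : ∏ a ∈ fin B, f b' (f a v) = ∏ a ∈ fin B, f (b' * a) v := by
      apply Finset.prod_congr rfl
      intro a ha
      exact hfcomp b' (hBA hb') a (hBA ((hmemfin B a).mp ha)) v
    rw [h2]
    apply Finset.prod_nbij' (fun a => b' * a) (fun a => b'⁻¹ * a)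
    · intro a ha
      exact (hmemfin B _).mpr (B.mul_mem hb' ((hmemfin B a).mp ha))
    · intro a ha
      exact (hmemfin B _).mpr (B.mul_mem (B.inv_mem hb') ((hmemfin B a).mp ha))
    · intro a _; simp
    · intro a _; simp
    · intro a _; rfl
  -- hence the norm is trivial
  obtain ⟨B₀, hB₀⟩ := hne
  have htriv : ∀ B : Subgroup G, B ≤ A → (∃ B' ∈ 𝒜, B' ≤ B) → ∀ v : ↥V, N (fin B) v = 1 := by
    intro B hBA ⟨B', hB', hB'B⟩ v
    have hmem : ((N (fin B) v : ↥V) : G) ∈ V ⊓ Subgroup.centralizer (B' : Set G) := by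
      refine Subgroup.mem_inf.mpr ⟨(N (fin B) v).2, ?_⟩
      rw [Subgroup.mem_centralizer_iff]
      intro b hb
      have h1 := hfix B hBA b (hB'B hb) v
      have h2 := congrArg Subtype.val h1
      rw [hfA b (hBA (hB'B hb))] at h2
      have e : b * ((N (fin B) v : ↥V) : G) = (b * ((N (fin B) v : ↥V) : G) * b⁻¹) * b := by group
      rw [e, h2]
    rw [hcon B' hB', Subgroup.mem_bot] at hmem
    exact Subtype.ext hmem
  have hNB : ∀ B ∈ 𝒜, ∀ v : ↥V, N (fin B) v = 1 := fun B hB v =>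
    htriv B (hprop B hB).le ⟨B, hB, le_rfl⟩ v
  have hNA : ∀ v : ↥V, N (fin A) v = 1 := fun v =>
    htriv A le_rfl ⟨B₀, hB₀, (hprop B₀ hB₀).le⟩ v
  -- splitting off the identity
  have hsplit : ∀ (B : Subgroup G) (v : ↥V), N (fin B) v = v * N ((fin B).erase 1) v := by
    intro B v
    have h1 : (1 : G) ∈ fin B := (hmemfin B 1).mpr B.one_mem
    have := Finset.mul_prod_erase (fin B) (fun a => f a v) h1
    rw [hf1] at this
    exact this.symm
  -- the partition
  have hunion : 𝒜.biUnion (fun B => (fin B).erase 1) = (fin A).erase 1 := by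
    ext a
    simp only [Finset.mem_biUnion, Finset.mem_erase, hmemfin]
    constructor
    · rintro ⟨B, hB, ha1, haB⟩
      exact ⟨ha1, (hprop B hB).le haB⟩
    · rintro ⟨ha1, haA⟩
      obtain ⟨B, ⟨hB, haB⟩, -⟩ := hpart a haA ha1
      exact ⟨B, hB, ha1, haB⟩
  have hdisj : (𝒜 : Set (Subgroup G)).PairwiseDisjoint (fun B => (fin B).erase 1) := by
    intro B hB B' hB' hne'
    rw [Function.onFun, Finset.disjoint_left]
    intro a ha ha'
    rw [Finset.mem_erase, hmemfin] at ha ha'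
    obtain ⟨B'', -, huniq⟩ := hpart a ((hprop B hB).le ha.2) ha.1
    exact hne' ((huniq B ⟨hB, ha.2⟩).trans (huniq B' ⟨hB', ha'.2⟩).symm)
  have hkey : ∀ v : ↥V, v ^ (𝒜.card - 1) = 1 := by
    intro v
    have h1 : ∏ B ∈ 𝒜, N (fin B) v = v ^ 𝒜.card * N ((fin A).erase 1) v := by
      have : ∏ B ∈ 𝒜, N (fin B) v = ∏ B ∈ 𝒜, (v * N ((fin B).erase 1) v) :=
        Finset.prod_congr rfl (fun B _ => hsplit B v)
      rw [this, Finset.prod_mul_distrib, Finset.prod_const]
      congr 1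
      show ∏ B ∈ 𝒜, ∏ a ∈ (fin B).erase 1, f a v = ∏ a ∈ (fin A).erase 1, f a v
      rw [← hunion, Finset.prod_biUnion hdisj]
    have h2 : ∏ B ∈ 𝒜, N (fin B) v = 1 := Finset.prod_eq_one (fun B hB => hNB B hB v)
    have h3 : v * N ((fin A).erase 1) v = 1 := by rw [← hsplit A v]; exact hNA v
    have h4 : N ((fin A).erase 1) v = v⁻¹ := eq_inv_of_mul_eq_one_right h3
    rw [h2, h4] at h1
    have hpos : 0 < 𝒜.card := Finset.card_pos.mpr ⟨B₀, hB₀⟩
    have h5 : v ^ 𝒜.card = v ^ (𝒜.card - 1) * v := by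
      rw [← pow_succ, Nat.sub_add_cancel hpos]
    rw [h5, mul_assoc, mul_inv_cancel, mul_one] at h1
    exact h1.symm
  -- conclusion
  apply hV
  rw [Subgroup.eq_bot_iff_forall]
  intro x hx
  have h1 := hkey ⟨x, hx⟩
  have h2 : orderOf (⟨x, hx⟩ : ↥V) ∣ 𝒜.card - 1 := orderOf_dvd_of_pow_eq_one h1
  have h3 : orderOf (⟨x, hx⟩ : ↥V) ∣ Nat.card V := orderOf_dvd_natCard _
  have h4 : orderOf (⟨x, hx⟩ : ↥V) = 1 := Nat.eq_one_of_dvd_coprimes hk h2 h3
  have h5 := orderOf_eq_one_iff.mp h4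
  exact congrArg Subtype.val h5

end Cfsg.Agent.S3733
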