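import Cfsg.Statements.S3735
import Mathlib
-- import your own Cfsg.Agent.* helpers here

set_option autoImplicit false
open Cfsg

namespace Cfsg.Agent.S3735

open Subgroup in
/-- irreducible `B`-invariant subgroup -/
def Irr {G : Type*} [Group G] (B S : Subgroup G) : Prop :=
  B ≤ normalizer (S : Set G) ∧ S ≠ ⊥ ∧
    ∀ S' : Subgroup G, S' ≤ S → B ≤ normalizer (S' : Set G) → S' = ⊥ ∨ S' = S

open Subgroup in
theorem exists_irr {G : Type*} [Group G] [Finite G] (B : Subgroup G) :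
    ∀ (n : ℕ) (W : Subgroup G), Nat.card W ≤ n → W ≠ ⊥ → B ≤ normalizer (W : Set G) →
      ∃ S, S ≤ W ∧ Irr B S := by
  intro n
  induction n with
  | zero => intro W hW; exfalso; have := Nat.card_pos (α := W); omega
  | succ n ih =>
    intro W hW hne hB
    by_cases hirr : ∀ S' : Subgroup G, S' ≤ W → B ≤ normalizer (S' : Set G) → S' = ⊥ ∨ S' = W
    · exact ⟨W, le_rfl, hB, hne, hirr⟩
    · push Not at hirr
      obtain ⟨S', hS'W, hBS', hS'1, hS'2⟩ := hirr
      have hlt : Nat.card S' < Nat.card W :=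
        lt_of_le_of_ne (Subgroup.card_le_of_le hS'W)
          (fun h => hS'2 (Subgroup.eq_of_le_of_card_ge hS'W h.ge))
      obtain ⟨S, hS, hI⟩ := ih S' (by omega) hS'1 hBS'
      exact ⟨S, hS.trans hS'W, hI⟩

open Subgroup in
theorem sup_irr_eq {G : Type*} [Group G] [Finite G] (H V : Subgroup G)
    (hss : ∀ U : Subgroup G, U ≤ V → H ≤ normalizer (U : Set G) →
      ∃ W : Subgroup G, W ≤ V ∧ H ≤ normalizer (W : Set G) ∧ U ⊓ W = ⊥ ∧ U ⊔ W = V) :
    (⨆ S : {S : Subgroup G // S ≤ V ∧ Irr H S}, (S : Subgroup G)) = V := by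
  have hTV : (⨆ S : {S : Subgroup G // S ≤ V ∧ Irr H S}, (S : Subgroup G)) ≤ V :=
    iSup_le fun S => S.2.1
  have hHT : H ≤ normalizer ((⨆ S : {S : Subgroup G // S ≤ V ∧ Irr H S}, (S : Subgroup G) : Subgroup G) : Set G) := by
    refine le_trans ?_ (iInf_normalizer_le_normalizer_iSup _)
    exact le_iInf fun S => S.2.2.1
  obtain ⟨W, hWV, hHW, hTW, hTWV⟩ := hss _ hTV hHT
  by_cases hW : W = ⊥
  · rw [hW, sup_bot_eq] at hTWV; exact hTWV
  · exfalso
    obtain ⟨S, hSW, hS⟩ := exists_irr H _ W le_rfl hW hHW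
    have hST : S ≤ ⨆ S : {S : Subgroup G // S ≤ V ∧ Irr H S}, (S : Subgroup G) :=
      le_iSup (fun S : {S : Subgroup G // S ≤ V ∧ Irr H S} => (S : Subgroup G)) ⟨S, hSW.trans hWV, hS⟩
    have h3 : S ≤ (⨆ S : {S : Subgroup G // S ≤ V ∧ Irr H S}, (S : Subgroup G)) ⊓ W := le_inf hST hSW
    rw [hTW] at h3
    exact hS.2.1 (le_bot_iff.mp h3)

open Subgroup in
theorem mem_sup_comm {G : Type*} [Group G] (W S : Subgroup G)
    (hc : ∀ w ∈ W, ∀ s ∈ S, w * s = s * w) (x : G) (hx : x ∈ W ⊔ S) :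
    ∃ w ∈ W, ∃ s ∈ S, x = w * s := by
  rw [sup_eq_closure_mul] at hx
  refine Subgroup.closure_induction (p := fun x _ => ∃ w ∈ W, ∃ s ∈ S, x = w * s) ?_ ?_ ?_ ?_ hx
  · intro x hx
    obtain ⟨w, hw, s, hs, rfl⟩ := hx
    exact ⟨w, hw, s, hs, rfl⟩
  · exact ⟨1, one_mem _, 1, one_mem _, by simp⟩
  · intro x y _ _ ihx ihy
    obtain ⟨w, hw, s, hs, rfl⟩ := ihx
    obtain ⟨w', hw', s', hs', rfl⟩ := ihy
    refine ⟨w * w', mul_mem hw hw', s * s', mul_mem hs hs', ?_⟩
    calc w * s * (w' * s') = w * (s * w') * s' := by group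
      _ = w * (w' * s) * s' := by rw [hc w' hw' s hs]
      _ = _ := by group
  · intro x _ ih
    obtain ⟨w, hw, s, hs, rfl⟩ := ih
    refine ⟨w⁻¹, inv_mem hw, s⁻¹, inv_mem hs, ?_⟩
    rw [mul_inv_rev, ← hc w⁻¹ (inv_mem hw) s⁻¹ (inv_mem hs)]

open Subgroup in
theorem compl_of_sup_irr {G : Type*} [Group G] [Finite G] (A V : Subgroup G)
    (hVab : ∀ x ∈ V, ∀ y ∈ V, x * y = y * x)
    (hsup : V ≤ (⨆ S : {S : Subgroup G // S ≤ V ∧ Irr A S}, (S : Subgroup G)))
    (U : Subgroup G) (hUV : U ≤ V) (hAU : A ≤ normalizer (U : Set G)) :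
    ∃ W : Subgroup G, W ≤ V ∧ A ≤ normalizer (W : Set G) ∧ U ⊓ W = ⊥ ∧ U ⊔ W = V := by
  classical
  have hfin : {W : Subgroup G | W ≤ V ∧ A ≤ normalizer (W : Set G) ∧ U ⊓ W = ⊥}.Finite :=
    Set.toFinite _
  have hne : {W : Subgroup G | W ≤ V ∧ A ≤ normalizer (W : Set G) ∧ U ⊓ W = ⊥}.Nonempty := by
    refine ⟨⊥, bot_le, ?_, inf_bot_eq _⟩
    intro a _
    rw [mem_normalizer_iff_map_conj_eq, Subgroup.map_bot]
  obtain ⟨W, hWmax⟩ := hfin.exists_maximal hne
  obtain ⟨⟨hWV, hAW, hUW⟩, hmax⟩ := hWmax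
  refine ⟨W, hWV, hAW, hUW, ?_⟩
  by_contra hneq
  have hlt : U ⊔ W ≤ V := sup_le hUV hWV
  have hex : ∃ S : Subgroup G, S ≤ V ∧ Irr A S ∧ ¬ S ≤ U ⊔ W := by
    by_contra hall
    push Not at hall
    apply hneq
    apply le_antisymm hlt
    exact hsup.trans (iSup_le fun S => hall S S.2.1 S.2.2)
  obtain ⟨S, hSV, hS, hSn⟩ := hex
  have hAUW : A ≤ normalizer ((U ⊔ W : Subgroup G) : Set G) :=
    (le_inf hAU hAW).trans (normalizer_inf_normalizer_le_normalizer_sup U W)
  have hSUW : S ⊓ (U ⊔ W) = ⊥ := by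
    rcases hS.2.2 (S ⊓ (U ⊔ W)) inf_le_left
      ((le_inf hS.1 hAUW).trans inf_normalizer_le_normalizer_inf) with h | h
    · exact h
    · exact absurd (inf_eq_left.mp h) hSn
  have hdisj : U ⊓ (W ⊔ S) = ⊥ := by
    rw [eq_bot_iff]
    intro x hx
    obtain ⟨hxU, hxWS⟩ := Subgroup.mem_inf.mp hx
    obtain ⟨w, hw, s, hs, rfl⟩ := mem_sup_comm W S
      (fun w hw s hs => hVab w (hWV hw) s (hSV hs)) x hxWS
    have hs' : s ∈ S ⊓ (U ⊔ W) := by
      refine Subgroup.mem_inf.mpr ⟨hs, ?_⟩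
      have : s = w⁻¹ * (w * s) := by group
      rw [this, hVab _ (inv_mem (hWV hw)) _ (hUV hxU)]
      exact mul_mem (mem_sup_left hxU) (mem_sup_right (inv_mem hw))
    rw [hSUW, Subgroup.mem_bot] at hs'
    rw [hs', mul_one] at hxU ⊢
    have : w ∈ U ⊓ W := Subgroup.mem_inf.mpr ⟨hxU, hw⟩
    rwa [hUW] at this
  have hW' : W ⊔ S ≤ W := hmax (y := W ⊔ S) ⟨sup_le hWV hSV,
    (le_inf hAW hS.1).trans (normalizer_inf_normalizer_le_normalizer_sup W S), hdisj⟩ le_sup_left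
  exact hSn ((le_sup_right.trans hW').trans le_sup_right)

open Subgroup in
theorem map_conj_conj_inv {G : Type*} [Group G] (T : Subgroup G) (h : G) :
    (T.map (MulAut.conj h⁻¹).toMonoidHom).map (MulAut.conj h).toMonoidHom = T := by
  rw [map_map]
  convert map_id T
  ext x; simp only [MonoidHom.coe_comp, MulEquiv.coe_toMonoidHom, Function.comp_apply, MulAut.conj_apply, MonoidHom.id_apply, inv_inv]; group

open Subgroup in
theorem le_normalizer_map_conj {G : Type*} [Group G] (A T : Subgroup G) (h : G)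
    (hh : h ∈ normalizer (A : Set G)) (hAT : A ≤ normalizer (T : Set G)) :
    A ≤ normalizer ((T.map (MulAut.conj h).toMonoidHom : Subgroup G) : Set G) := by
  intro a ha
  rw [mem_normalizer_iff_map_conj_eq, map_map]
  have ha' : h⁻¹ * a * h ∈ A := by
    have := (mem_normalizer_iff.mp (inv_mem hh) a).mp ha
    simpa using this
  have h1 := mem_normalizer_iff_map_conj_eq.mp (hAT ha')
  conv_rhs => rw [← h1]
  rw [map_map]; congr 1; ext x; simp [mul_assoc]

open Subgroup in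
theorem irr_le_sup_irr {G : Type*} [Group G] [Finite G] (H A V : Subgroup G) (hAH : A ≤ H)
    (hAn : H ≤ normalizer (A : Set G)) (S : Subgroup G) (hSV : S ≤ V) (hS : Irr H S) :
    S ≤ ⨆ S : {S : Subgroup G // S ≤ V ∧ Irr A S}, (S : Subgroup G) := by
  obtain ⟨W, hWS, hW⟩ := exists_irr A _ S le_rfl hS.2.1 (hAH.trans hS.1)
  have hconj : ∀ h : H, W.map (MulAut.conj (h : G)).toMonoidHom ≤ S := by
    intro h
    have h1 := mem_normalizer_iff_map_conj_eq.mp (hS.1 h.2)
    rw [← h1]; exact map_mono hWS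
  have hXS : (⨆ h : H, W.map (MulAut.conj (h : G)).toMonoidHom) ≤ S := iSup_le hconj
  have hX1 : (⨆ h : H, W.map (MulAut.conj (h : G)).toMonoidHom) ≠ ⊥ := by
    intro h0
    have h1 : W ≤ ⨆ h : H, W.map (MulAut.conj (h : G)).toMonoidHom := by
      have h2 := le_iSup (fun h : H => W.map (MulAut.conj (h : G)).toMonoidHom) 1
      have h3 : W.map (MulAut.conj ((1 : H) : G)).toMonoidHom = W := by
        convert map_id W
        ext x; simp
      rwa [h3] at h2
    rw [h0] at h1; exact hW.2.1 (le_bot_iff.mp h1)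
  have hHX : H ≤ normalizer ((⨆ h : H, W.map (MulAut.conj (h : G)).toMonoidHom : Subgroup G) : Set G) := by
    intro k hk
    rw [mem_normalizer_iff_map_conj_eq, Subgroup.map_iSup]
    apply le_antisymm
    · apply iSup_le; intro h
      rw [map_map]
      refine le_trans (le_of_eq ?_) (le_iSup (fun h : H => W.map (MulAut.conj (h : G)).toMonoidHom) (⟨k, hk⟩ * h))
      congr 1; ext x; simp [mul_assoc]
    · apply iSup_le; intro h
      refine le_trans (le_of_eq ?_) (le_iSup (fun h : H => (W.map (MulAut.conj (h : G)).toMonoidHom).map (MulAut.conj k : G →* G)) (⟨k, hk⟩⁻¹ * h))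
      rw [map_map]; congr 1; ext x; simp [mul_assoc]
  have hXeq : (⨆ h : H, W.map (MulAut.conj (h : G)).toMonoidHom) = S :=
    (hS.2.2 _ hXS hHX).resolve_left hX1
  rw [← hXeq]
  apply iSup_le; intro h
  refine le_iSup (fun S : {S : Subgroup G // S ≤ V ∧ Irr A S} => (S : Subgroup G))
    ⟨_, (hconj h).trans hSV, ?_, ?_, ?_⟩
  · exact le_normalizer_map_conj A W h (hAn h.2) hW.1
  · intro h0
    rw [map_eq_bot_iff_of_injective _ (MulAut.conj (h : G)).injective] at h0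
    exact hW.2.1 h0
  · intro S' hS' hAS'
    have h1 : S'.map (MulAut.conj (h : G)⁻¹).toMonoidHom ≤ W := by
      have h2 := map_mono (f := (MulAut.conj (h : G)⁻¹).toMonoidHom) hS'
      have h3 := map_conj_conj_inv W (h : G)⁻¹
      rw [inv_inv] at h3
      rwa [h3] at h2
    have h2 := le_normalizer_map_conj A S' (h : G)⁻¹ (inv_mem (hAn h.2)) hAS'
    rcases hW.2.2 _ h1 h2 with h3 | h3
    · left
      rwa [map_eq_bot_iff_of_injective _ (MulAut.conj (h : G)⁻¹).injective] at h3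
    · right
      rw [← h3, map_conj_conj_inv]

/-- Clifford's Theorem for actions on finite abelian groups, first part. Let H and V be subgroups of a finite group with V abelian and H normalizing V, and let A be a normal subgroup of H. If every H-invariant subgroup of V has an H-invariant complement in V, then every A-invariant subgroup of V has an A-invariant complement in V. -/
theorem result {G : Type*} [Group G] [Finite G] (H A V : Subgroup G) (hVab : IsMulCommutative V) (hHV : H ≤ Subgroup.normalizer (V : Set G)) (hAH : A ≤ H) (hAn : H ≤ Subgroup.normalizer (A : Set G)) (hss : ∀ U : Subgroup G, U ≤ V → H ≤ Subgroup.normalizer (U : Set G) → ∃ W : Subgroup G, W ≤ V ∧ H ≤ Subgroup.normalizer (W : Set G) ∧ U ⊓ W = ⊥ ∧ U ⊔ W = V) (U : Subgroup G) (hUV : U ≤ V) (hAU : A ≤ Subgroup.normalizer (U : Set G)) : ∃ W : Subgroup G, W ≤ V ∧ A ≤ Subgroup.normalizer (W : Set G) ∧ U ⊓ W = ⊥ ∧ U ⊔ W = V := by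
  have hVc : ∀ x ∈ V, ∀ y ∈ V, x * y = y * x := by
    intro x hx y hy
    have h1 := hVab.is_comm.comm (⟨x, hx⟩ : V) ⟨y, hy⟩
    exact congrArg Subtype.val h1
  have h1 := sup_irr_eq H V hss
  have h2 : V ≤ (⨆ S : {S : Subgroup G // S ≤ V ∧ Irr A S}, (S : Subgroup G)) :=
    h1.ge.trans (iSup_le fun S => irr_le_sup_irr H A V hAH hAn S S.2.1 S.2.2)
  exact compl_of_sup_irr A V hVc h2 U hUV hAU

end Cfsg.Agent.S3735
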