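import Cfsg.Statements.S3742
import Mathlib

set_option autoImplicit false
open Cfsg

namespace Cfsg.Agent.S3742

open QuaternionGroup

def F (u v : QuaternionGroup 2) : QuaternionGroup 2 → QuaternionGroup 2
  | a i => u ^ i.val
  | xa i => v * u ^ i.val

def valid (u v : QuaternionGroup 2) : Prop := u ^ 2 ≠ 1 ∧ v ^ 2 ≠ 1 ∧ v ≠ u ∧ v ≠ u⁻¹

instance validDec (u v : QuaternionGroup 2) : Decidable (valid u v) := by
  unfold valid; infer_instance

def R (u v : QuaternionGroup 2) : Finset (QuaternionGroup 2 × QuaternionGroup 2) :=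
  {(u, v), (v, u * v), (u * v, u), (v⁻¹, u⁻¹), ((u * v)⁻¹, v⁻¹), (u⁻¹, (u * v)⁻¹)}

set_option maxRecDepth 100000 in
theorem F_mul : ∀ u v : QuaternionGroup 2, valid u v →
    ∀ g h : QuaternionGroup 2, F u v (g * h) = F u v g * F u v h := by decide

set_option maxRecDepth 100000 in
theorem F_bij : ∀ u v : QuaternionGroup 2, valid u v → Function.Bijective (F u v) := by decide

set_option maxRecDepth 100000 in
theorem card_valid :
    Fintype.card {p : QuaternionGroup 2 × QuaternionGroup 2 // valid p.1 p.2} = 24 := by decide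

set_option maxRecDepth 100000 in
theorem pow_facts : ∀ i : ZMod 4, (a i : QuaternionGroup 2) = (a 1) ^ i.val ∧
    (xa i : QuaternionGroup 2) = xa 0 * (a 1) ^ i.val := by decide

set_option maxRecDepth 100000 in
theorem F_gen : ∀ u v : QuaternionGroup 2, F u v (a 1) = u ∧ F u v (xa 0) = v := by decide

set_option maxRecDepth 100000 in
theorem F_id : ∀ g : QuaternionGroup 2, F (a 1) (xa 0) g = g := by decide

set_option maxRecDepth 100000 in
theorem K3 : ∀ u v : QuaternionGroup 2, valid u v →
    R u v = R (a 1) (xa 0) ∨ R u v = R (a 3) (xa 0) ∨ R u v = R (a 1) (xa 2) ∨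
      R u v = R (a 3) (xa 2) := by decide

set_option maxRecDepth 100000 in
theorem K4 : ({R (a 1) (xa 0), R (a 3) (xa 0), R (a 1) (xa 2), R (a 3) (xa 2)} :
    Finset (Finset (QuaternionGroup 2 × QuaternionGroup 2))).card = 4 := by decide

set_option maxRecDepth 100000 in
theorem K2 : ∀ u v : QuaternionGroup 2, valid u v → R u v = R (a 1) (xa 0) →
    R (F u v (a 3)) (F u v (xa 0)) = R (a 3) (xa 0) →
    R (F u v (a 1)) (F u v (xa 2)) = R (a 1) (xa 2) →
    R (F u v (a 3)) (F u v (xa 2)) = R (a 3) (xa 2) → u = a 1 ∧ v = xa 0 := by decide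

theorem eqF (φ : MulAut (QuaternionGroup 2)) (g : QuaternionGroup 2) :
    φ g = F (φ (a 1)) (φ (xa 0)) g := by
  cases g with
  | a i =>
    show φ (a i) = (φ (a 1)) ^ i.val
    conv_lhs => rw [(pow_facts i).1]
    rw [map_pow]
  | xa i =>
    show φ (xa i) = φ (xa 0) * (φ (a 1)) ^ i.val
    conv_lhs => rw [(pow_facts i).2]
    rw [map_mul, map_pow]

theorem pairValid (φ : MulAut (QuaternionGroup 2)) : valid (φ (a 1)) (φ (xa 0)) := by
  refine ⟨?_, ?_, ?_, ?_⟩
  · intro h
    rw [← map_pow] at h
    have := (map_eq_one_iff φ φ.injective).1 h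
    revert this; decide
  · intro h
    rw [← map_pow] at h
    have := (map_eq_one_iff φ φ.injective).1 h
    revert this; decide
  · intro h
    have := φ.injective h
    revert this; decide
  · intro h
    rw [← map_inv] at h
    have := φ.injective h
    revert this; decide

noncomputable def mkAut (u v : QuaternionGroup 2) (h : valid u v) : MulAut (QuaternionGroup 2) :=
  MulEquiv.ofBijective (MonoidHom.mk' (F u v) (F_mul u v h)) (F_bij u v h)

theorem mkAut_apply (u v : QuaternionGroup 2) (h : valid u v) (g : QuaternionGroup 2) :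
    mkAut u v h g = F u v g := rfl

theorem card_aut : Nat.card (MulAut (QuaternionGroup 2)) = 24 := by
  have e : MulAut (QuaternionGroup 2) ≃
      {p : QuaternionGroup 2 × QuaternionGroup 2 // valid p.1 p.2} :=
    { toFun := fun φ => ⟨(φ (a 1), φ (xa 0)), pairValid φ⟩
      invFun := fun p => mkAut p.1.1 p.1.2 p.2
      left_inv := fun φ => MulEquiv.ext (fun g => (eqF φ g).symm)
      right_inv := fun p => by
        apply Subtype.ext
        apply Prod.ext
        · exact (F_gen p.1.1 p.1.2).1
        · exact (F_gen p.1.1 p.1.2).2 }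
  rw [Nat.card_congr e, Nat.card_eq_fintype_card, card_valid]

open Pointwise in
theorem smulR (φ : MulAut (QuaternionGroup 2)) (u v : QuaternionGroup 2) :
    φ • R u v = R (φ u) (φ v) := by
  rw [← Finset.image_smul]
  simp [R, Finset.image_insert, Prod.smul_mk, MulAut.smul_def]

open Pointwise in
theorem orb : MulAction.orbit (MulAut (QuaternionGroup 2)) (R (a 1) (xa 0)) =
    (({R (a 1) (xa 0), R (a 3) (xa 0), R (a 1) (xa 2), R (a 3) (xa 2)} :
      Finset (Finset (QuaternionGroup 2 × QuaternionGroup 2))) :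
      Set (Finset (QuaternionGroup 2 × QuaternionGroup 2))) := by
  ext D
  simp only [Finset.coe_insert, Finset.coe_singleton, Set.mem_insert_iff, Set.mem_singleton_iff]
  constructor
  · rintro ⟨φ, rfl⟩
    beta_reduce
    rw [smulR]
    exact K3 _ _ (pairValid φ)
  · intro hD
    rcases hD with rfl | rfl | rfl | rfl
    · exact MulAction.mem_orbit_self _
    · refine ⟨mkAut (a 3) (xa 0) (by decide), ?_⟩
      show mkAut (a 3) (xa 0) _ • R (a 1) (xa 0) = _
      rw [smulR, mkAut_apply, mkAut_apply, (F_gen _ _).1, (F_gen _ _).2]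
    · refine ⟨mkAut (a 1) (xa 2) (by decide), ?_⟩
      show mkAut (a 1) (xa 2) _ • R (a 1) (xa 0) = _
      rw [smulR, mkAut_apply, mkAut_apply, (F_gen _ _).1, (F_gen _ _).2]
    · refine ⟨mkAut (a 3) (xa 2) (by decide), ?_⟩
      show mkAut (a 3) (xa 2) _ • R (a 1) (xa 0) = _
      rw [smulR, mkAut_apply, mkAut_apply, (F_gen _ _).1, (F_gen _ _).2]

/-- The automorphism group of the quaternion group of order 8 is isomorphic to the symmetric group of degree 4. -/
theorem result : Nonempty (MulAut (QuaternionGroup 2) ≃* Equiv.Perm (Fin 4)) := by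
  classical
  open Pointwise in
  have hmem : ∀ D : Finset (QuaternionGroup 2 × QuaternionGroup 2),
      D ∈ MulAction.orbit (MulAut (QuaternionGroup 2)) (R (a 1) (xa 0)) ↔
      (D = R (a 1) (xa 0) ∨ D = R (a 3) (xa 0) ∨ D = R (a 1) (xa 2) ∨ D = R (a 3) (xa 2)) := by
    intro D
    rw [orb]
    simp only [Finset.coe_insert, Finset.coe_singleton, Set.mem_insert_iff, Set.mem_singleton_iff]
  open Pointwise in
  have hX : Nat.card (MulAction.orbit (MulAut (QuaternionGroup 2)) (R (a 1) (xa 0))) = 4 := by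
    rw [orb, Nat.card_coe_set_eq, Set.ncard_coe_finset]
    exact K4
  open Pointwise in
  have hinj : Function.Injective (MulAction.toPermHom (MulAut (QuaternionGroup 2))
      (MulAction.orbit (MulAut (QuaternionGroup 2)) (R (a 1) (xa 0)))) := by
    rw [injective_iff_map_eq_one]
    intro φ hφ
    have hfix : ∀ D (hD : D ∈ MulAction.orbit (MulAut (QuaternionGroup 2)) (R (a 1) (xa 0))),
        φ • D = D := by
      intro D hD
      have h1 : (MulAction.toPermHom (MulAut (QuaternionGroup 2))
          (MulAction.orbit (MulAut (QuaternionGroup 2)) (R (a 1) (xa 0))) φ) ⟨D, hD⟩ = ⟨D, hD⟩ := by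
        rw [hφ]; rfl
      have h2 : ((MulAction.toPermHom (MulAut (QuaternionGroup 2))
          (MulAction.orbit (MulAut (QuaternionGroup 2)) (R (a 1) (xa 0))) φ) ⟨D, hD⟩).1 = φ • D := rfl
      rw [h1] at h2
      exact h2.symm
    have f0 := hfix _ ((hmem _).2 (Or.inl rfl))
    have f1 := hfix _ ((hmem _).2 (Or.inr (Or.inl rfl)))
    have f2 := hfix _ ((hmem _).2 (Or.inr (Or.inr (Or.inl rfl))))
    have f3 := hfix _ ((hmem _).2 (Or.inr (Or.inr (Or.inr rfl))))
    rw [smulR] at f0 f1 f2 f3
    rw [eqF φ (a 3), eqF φ (xa 0)] at f1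
    rw [eqF φ (a 1), eqF φ (xa 2)] at f2
    rw [eqF φ (a 3), eqF φ (xa 2)] at f3
    have hk := K2 _ _ (pairValid φ) f0 f1 f2 f3
    apply MulEquiv.ext
    intro g
    show φ g = g
    rw [eqF φ g, hk.1, hk.2]
    exact F_id g
  open Pointwise in
  haveI hfin : Finite (MulAction.orbit (MulAut (QuaternionGroup 2)) (R (a 1) (xa 0))) :=
    Nat.finite_of_card_ne_zero (by rw [hX]; norm_num)
  open Pointwise in
  obtain ⟨ψ, hψ⟩ : ∃ ψ : MulAut (QuaternionGroup 2) →* Equiv.Perm (Fin 4), Function.Injective ψ :=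
    ⟨((Finite.equivFinOfCardEq hX).permCongrHom.toMonoidHom).comp
      (MulAction.toPermHom (MulAut (QuaternionGroup 2))
      (MulAction.orbit (MulAut (QuaternionGroup 2)) (R (a 1) (xa 0)))),
      (Finite.equivFinOfCardEq hX).permCongrHom.injective.comp hinj⟩
  have hbij : Function.Bijective ψ := by
    apply Function.Injective.bijective_of_nat_card_le hψ
    rw [card_aut, Nat.card_eq_fintype_card, Fintype.card_perm, Fintype.card_fin]
    decide
  exact ⟨MulEquiv.ofBijective ψ hbij⟩

end Cfsg.Agent.S3742
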