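import Cfsg.Statements.S3746
import Cfsg.Agent.Helper3.PComp

set_option autoImplicit false
open Cfsg

namespace Cfsg.Agent.S3746

/-- Let Z ≤ Z(G) be a central subgroup of a finite group G and E a subgroup of G containing Z whose image E/Z is a component of G/Z (subnormal and quasisimple). Then the derived subgroup [E, E] is a component of G. -/
theorem result {G : Type*} [Group G] [Finite G] (Z : Subgroup G) (hZ : Z ≤ Subgroup.center G) [Z.Normal] (E : Subgroup G) (hZE : Z ≤ E) (hE : Cfsg.IsComponent (E.map (QuotientGroup.mk' Z))) : Cfsg.IsComponent ⁅E, E⁆ := by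
  classical
  obtain ⟨hEsn, hEq⟩ := hE
  -- E is subnormal
  have hEcomap : (E.map (QuotientGroup.mk' Z)).comap (QuotientGroup.mk' Z) = E := by
    rw [Subgroup.comap_map_eq, QuotientGroup.ker_mk']
    exact sup_eq_left.mpr hZE
  have hEs : E.IsSubnormal := by
    have := hEsn.comap (QuotientGroup.mk' Z)
    rwa [hEcomap] at this
  have hDs : (⁅E, E⁆ : Subgroup G).IsSubnormal := Helper3.commutator_self_subnormal E hEs
  have hDE : ⁅E, E⁆ ≤ E := Helper3.commutator_self_le E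
  -- E ≤ D ⊔ Z
  have hperfbar : Group.IsPerfect ↥(E.map (QuotientGroup.mk' Z)) := hEq.1
  have hbar : ⁅E.map (QuotientGroup.mk' Z), E.map (QuotientGroup.mk' Z)⁆ = E.map (QuotientGroup.mk' Z) :=
    Subgroup.isPerfect_iff.mp hperfbar
  have hEDZ : E ≤ ⁅E, E⁆ ⊔ Z := by
    have h1 : E.map (QuotientGroup.mk' Z) ≤ (⁅E, E⁆ : Subgroup G).map (QuotientGroup.mk' Z) := by
      rw [Subgroup.map_commutator, hbar]
    have h2 := (Subgroup.map_le_map_iff).mp h1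
    rwa [QuotientGroup.ker_mk'] at h2
  have hZc : ∀ z ∈ Z, ∀ g : G, g * z = z * g := fun z hz g => Subgroup.mem_center_iff.mp (hZ hz) g
  -- D is perfect
  have hDperf : ⁅(⁅E, E⁆ : Subgroup G), (⁅E, E⁆ : Subgroup G)⁆ = ⁅E, E⁆ := by
    apply le_antisymm (Helper3.commutator_self_le _)
    rw [Subgroup.commutator_le]
    intro a ha b hb
    obtain ⟨d₁, hd₁, z₁, hz₁, rfl⟩ := Subgroup.mem_sup_of_normal_right.mp (hEDZ ha)
    obtain ⟨d₂, hd₂, z₂, hz₂, rfl⟩ := Subgroup.mem_sup_of_normal_right.mp (hEDZ hb)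
    have h3 := Subgroup.commutator_mem_commutator hd₁ hd₂
    rw [commutatorElement_def] at h3 ⊢
    have e : d₁ * z₁ * (d₂ * z₂) * (d₁ * z₁)⁻¹ * (d₂ * z₂)⁻¹ = d₁ * d₂ * d₁⁻¹ * d₂⁻¹ := by
      have c1 := hZc z₁ hz₁
      have c2 := hZc z₂ hz₂
      calc d₁ * z₁ * (d₂ * z₂) * (d₁ * z₁)⁻¹ * (d₂ * z₂)⁻¹
          = d₁ * (z₁ * d₂) * z₂ * z₁⁻¹ * d₁⁻¹ * z₂⁻¹ * d₂⁻¹ := by group
        _ = d₁ * (d₂ * z₁) * z₂ * z₁⁻¹ * d₁⁻¹ * z₂⁻¹ * d₂⁻¹ := by rw [← c1 d₂]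
        _ = d₁ * d₂ * (z₁ * z₂) * z₁⁻¹ * d₁⁻¹ * z₂⁻¹ * d₂⁻¹ := by group
        _ = d₁ * d₂ * (z₂ * z₁) * z₁⁻¹ * d₁⁻¹ * z₂⁻¹ * d₂⁻¹ := by rw [c1 z₂]
        _ = d₁ * d₂ * (z₂ * d₁⁻¹) * z₂⁻¹ * d₂⁻¹ := by group
        _ = d₁ * d₂ * (d₁⁻¹ * z₂) * z₂⁻¹ * d₂⁻¹ := by rw [c2 d₁⁻¹]
        _ = d₁ * d₂ * d₁⁻¹ * d₂⁻¹ := by group
    rw [e]
    exact h3
  have hDperf' : Group.IsPerfect ↥(⁅E, E⁆ : Subgroup G) := Subgroup.isPerfect_iff.mpr hDperf
  -- the homomorphism D → E/Z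
  let φ : ↥(⁅E, E⁆ : Subgroup G) →* ↥(E.map (QuotientGroup.mk' Z)) :=
    ((QuotientGroup.mk' Z).subgroupMap E).comp (Subgroup.inclusion hDE)
  have hφs : Function.Surjective φ := by
    rintro ⟨_, e, he, rfl⟩
    obtain ⟨d, hd, z, hz, rfl⟩ := Subgroup.mem_sup_of_normal_right.mp (hEDZ he)
    refine ⟨⟨d, hd⟩, ?_⟩
    apply Subtype.ext
    show QuotientGroup.mk' Z d = QuotientGroup.mk' Z (d * z)
    have hz1 : QuotientGroup.mk' Z z = 1 := (QuotientGroup.eq_one_iff z).mpr hz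
    rw [map_mul, hz1, mul_one]
  have hker : φ.ker = Z.subgroupOf (⁅E, E⁆ : Subgroup G) := by
    ext d
    rw [MonoidHom.mem_ker, Subgroup.mem_subgroupOf]
    constructor
    · intro h
      have h1 : QuotientGroup.mk' Z (d : G) = 1 := congrArg Subtype.val h
      exact (QuotientGroup.eq_one_iff _).mp h1
    · intro h
      apply Subtype.ext
      show QuotientGroup.mk' Z (d : G) = 1
      exact (QuotientGroup.eq_one_iff _).mpr h
  have hcent : Z.subgroupOf (⁅E, E⁆ : Subgroup G) ≤ Subgroup.center ↥(⁅E, E⁆ : Subgroup G) := by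
    intro d hd
    rw [Subgroup.mem_subgroupOf] at hd
    rw [Subgroup.mem_center_iff]
    intro g
    apply Subtype.ext
    exact hZc _ hd g
  have hq : Cfsg.IsQuasisimple (↥(⁅E, E⁆ : Subgroup G) ⧸ Z.subgroupOf (⁅E, E⁆ : Subgroup G)) := by
    have e1 := QuotientGroup.quotientKerEquivOfSurjective φ hφs
    have e2 := QuotientGroup.quotientMulEquivOfEq hker
    exact Helper3.quasisimple_of_mulEquiv (e2.symm.trans e1).symm hEq
  exact ⟨hDs, Helper3.quasisimple_of_central_quotient _ hcent hq⟩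

end Cfsg.Agent.S3746
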