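import Cfsg.Statements.S3748
import Cfsg.Agent.Helper4.WielandtZip
import Cfsg.Agent.Helper4.Cores
import Cfsg.Agent.Lead.Fitting

set_option autoImplicit false
open Cfsg

namespace Cfsg.Agent.S3748

/-- Call a proper subgroup M of G primitive when M = N_G(N) for every non-trivial normal subgroup N of M. If M is a primitive subgroup of the finite group G, then no non-trivial subnormal subgroup of G is contained in M; in particular M ∩ F(G) = 1. -/
theorem result {G : Type*} [Group G] [Finite G] (M : Subgroup G) (hM : M ≠ ⊤) (hprim : ∀ N : Subgroup G, N ≤ M → M ≤ Subgroup.normalizer (N : Set G) → N ≠ ⊥ → Subgroup.normalizer (N : Set G) = M) : (∀ L : Subgroup G, L.IsSubnormal → L ≤ M → L = ⊥) ∧ M ⊓ Cfsg.fittingSubgroup G = ⊥ := by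
  refine ⟨fun L hL hLM => Cfsg.Agent.Helper4.primitive_subnormal_eq_bot M hM hprim L hL hLM, ?_⟩
  apply Cfsg.Agent.Helper4.primitive_subnormal_eq_bot M hM hprim _ ?_ inf_le_left
  have hnil := Cfsg.Agent.Lead.fitting_isNilpotent (G := G)
  have h1 : ((M ⊓ Cfsg.fittingSubgroup G).subgroupOf (Cfsg.fittingSubgroup G)).IsSubnormal :=
    Cfsg.Agent.Helper4.isSubnormal_of_nilpotent' _
  exact h1.trans inf_le_right (Cfsg.Agent.Helper4.fittingSubgroup_normal G).isSubnormal

end Cfsg.Agent.S3748
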