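import Cfsg.Statements.S3760
-- import your own Cfsg.Agent.* helpers here

set_option autoImplicit false
open Cfsg

namespace Cfsg.Agent.S3760

/-- Let the group G act transitively on a set X, let x ∈ X with stabilizer H = G_x, and let K ≤ H. Then N_G(K) acts transitively on the set of fixed points of K if and only if every G-conjugate of K contained in H is already an H-conjugate of K. -/
theorem result {G : Type*} [Group G] {X : Type*} [MulAction G X] (htrans : ∀ a b : X, ∃ g : G, g • a = b) (x : X) (K : Subgroup G) (hK : K ≤ MulAction.stabilizer G x) : (∀ a b : X, (∀ k ∈ K, k • a = a) → (∀ k ∈ K, k • b = b) → ∃ g ∈ Subgroup.normalizer (K : Set G), g • a = b) ↔ ∀ g : G, K.map (MulAut.conj g).toMonoidHom ≤ MulAction.stabilizer G x → ∃ h ∈ MulAction.stabilizer G x, K.map (MulAut.conj g).toMonoidHom = K.map (MulAut.conj h).toMonoidHom := by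
  classical
  have key : ∀ (a b : G) (L : Subgroup G),
      (L.map (MulAut.conj a).toMonoidHom).map (MulAut.conj b).toMonoidHom =
        L.map (MulAut.conj (b * a)).toMonoidHom := by
    intro a b L
    rw [Subgroup.map_map]
    congr 1
    ext y
    simp [MulAut.conj_apply, mul_assoc]
  have kone : ∀ (L : Subgroup G), L.map (MulAut.conj (1 : G)).toMonoidHom = L := by
    intro L
    ext y
    simp
  have hnorm : ∀ n : G, n ∈ Subgroup.normalizer (K : Set G) ↔
      K.map (MulAut.conj n).toMonoidHom = K := fun n => Subgroup.mem_normalizer_iff_map_conj_eq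
  constructor
  · intro h g hg
    have hKx : ∀ k ∈ K, k • x = x := fun k hk => MulAction.mem_stabilizer_iff.mp (hK hk)
    have hKg : ∀ k ∈ K, k • (g⁻¹ • x) = g⁻¹ • x := by
      intro k hk
      have h1 : (MulAut.conj g).toMonoidHom k ∈ MulAction.stabilizer G x := hg ⟨k, hk, rfl⟩
      rw [MulAction.mem_stabilizer_iff] at h1
      simp only [MulEquiv.toMonoidHom_eq_coe, MonoidHom.coe_coe, MulAut.conj_apply] at h1
      rw [mul_smul, mul_smul] at h1
      rw [eq_inv_smul_iff]
      exact h1
    obtain ⟨n, hn, hnx⟩ := h x (g⁻¹ • x) hKx hKg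
    refine ⟨g * n, ?_, ?_⟩
    · rw [MulAction.mem_stabilizer_iff, mul_smul, hnx, smul_inv_smul]
    · rw [← key, (hnorm n).mp hn]
  · intro h a b ha hb
    have aux : ∀ c : X, (∀ k ∈ K, k • c = c) → ∃ m ∈ Subgroup.normalizer (K : Set G), m • x = c := by
      intro c hc
      obtain ⟨u, hu⟩ := htrans x c
      have h1 : K.map (MulAut.conj u⁻¹).toMonoidHom ≤ MulAction.stabilizer G x := by
        rintro _ ⟨k, hk, rfl⟩
        rw [MulAction.mem_stabilizer_iff]
        simp only [MulEquiv.toMonoidHom_eq_coe, MonoidHom.coe_coe, MulAut.conj_apply, inv_inv]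
        rw [mul_smul, mul_smul, hu, hc k hk, ← hu, inv_smul_smul]
      obtain ⟨h₁, hh₁, he⟩ := h u⁻¹ h1
      refine ⟨u * h₁, ?_, ?_⟩
      · rw [hnorm, ← key, ← he, key, mul_inv_cancel, kone]
      · rw [mul_smul, MulAction.mem_stabilizer_iff.mp hh₁, hu]
    obtain ⟨m₁, hm₁, hm₁x⟩ := aux a ha
    obtain ⟨m₂, hm₂, hm₂x⟩ := aux b hb
    refine ⟨m₂ * m₁⁻¹, Subgroup.mul_mem _ hm₂ (Subgroup.inv_mem _ hm₁), ?_⟩
    rw [mul_smul, ← hm₁x, inv_smul_smul, hm₂x]

end Cfsg.Agent.S3760
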