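import Cfsg.Statements.S3771
import Mathlib
import Cfsg.Agent.S0129
import Cfsg.Agent.Lead.UniqSub

set_option autoImplicit false
open Cfsg

namespace Cfsg.Agent.S3771

/-- Let p be a prime and R a finite p-group of p-rank at most 2 (no elementary abelian subgroup of order p³) in which every element has order dividing p. Then R has order at most p³. -/
theorem result {R : Type*} [Group R] [Finite R] {p : ℕ} [Fact p.Prime] (hR : IsPGroup p R) (hrank : Cfsg.PRankLE p 2 R) (hexp : ∀ x : R, x ^ p = 1) : Nat.card R ≤ p ^ 3 := by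
  have hp : p.Prime := Fact.out
  obtain ⟨A, hAn, hAc, hAmax⟩ := Cfsg.Agent.Lead.exists_max_normal_abelian (G := R)
  haveI := hAn
  have hAcomm : IsMulCommutative A := ⟨⟨fun a b => Subtype.ext (hAc a a.2 b b.2)⟩⟩
  obtain ⟨a, ha⟩ := IsPGroup.iff_card.mp (hR.to_subgroup A)
  have hle := hrank A hAcomm (fun x _ => hexp x)
  rw [ha] at hle
  have ha2 : a ≤ 2 := (Nat.pow_le_pow_iff_right hp.one_lt).mp hle
  have hmax : ∀ B : Subgroup R, B.Normal → IsMulCommutative B → A ≤ B → B = A := by
    intro B hBn hB hAB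
    exact hAmax B hBn
      (fun x hx y hy => congrArg Subtype.val (hB.is_comm.comm ⟨x, hx⟩ ⟨y, hy⟩)) hAB
  have h1 := Cfsg.Agent.S0129.result hR A hAcomm hmax a ha
  have h2 : a * (a + 1) / 2 ≤ 3 := by interval_cases a <;> norm_num
  exact h1.trans (Nat.pow_le_pow_right hp.pos h2)


end Cfsg.Agent.S3771
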