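import Cfsg.Statements.S3774
import Mathlib

set_option autoImplicit false
open Cfsg

namespace Cfsg.Agent.S3774

/-- Let G be a nontrivial finite 2-group whose automorphism group permutes the involutions of G transitively. Then every involution of G is central, so that the involutions together with 1 form the subgroup Ω₁(Z(G)), and if this subgroup has order q then |G| is a power of q. -/
theorem result {G : Type*} [Group G] [Finite G] [Nontrivial G] (hG : IsPGroup 2 G) (htrans : ∀ x y : G, x ≠ 1 → x ^ 2 = 1 → y ≠ 1 → y ^ 2 = 1 → ∃ a : MulAut G, a x = y) : (∀ x : G, x ^ 2 = 1 → x ∈ Subgroup.center G) ∧ ∃ m : ℕ, Nat.card G = Nat.card {z : G // z ^ 2 = 1} ^ m := by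
  classical
  haveI : Fact (Nat.Prime 2) := ⟨Nat.prime_two⟩
  haveI : Fintype G := Fintype.ofFinite G
  have hZ : Nontrivial (Subgroup.center G) := hG.center_nontrivial
  obtain ⟨k₀, hk₀⟩ := IsPGroup.iff_card.mp (hG.to_subgroup (Subgroup.center G))
  have hk₀' : k₀ ≠ 0 := by
    rintro rfl
    rw [pow_zero] at hk₀
    exact (Finite.one_lt_card_iff_nontrivial.mpr hZ).ne' hk₀
  obtain ⟨z', hz'⟩ := exists_prime_orderOf_dvd_card' (G := Subgroup.center G) 2
    (by rw [hk₀]; exact dvd_pow_self 2 hk₀')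
  obtain ⟨z₀, hz₀def⟩ : ∃ z₀ : G, z₀ = (z' : G) := ⟨_, rfl⟩
  have hz₀Z : z₀ ∈ Subgroup.center G := by rw [hz₀def]; exact z'.2
  have hz₀ord : orderOf z₀ = 2 := by rw [hz₀def, Subgroup.orderOf_coe]; exact hz'
  have hz₀1 : z₀ ≠ 1 := by
    intro h; rw [h, orderOf_one] at hz₀ord; omega
  have hz₀2 : z₀ ^ 2 = 1 := by rw [← hz₀ord]; exact pow_orderOf_eq_one z₀
  have hcent : ∀ x : G, x ^ 2 = 1 → x ∈ Subgroup.center G := by
    intro x hx
    by_cases hx1 : x = 1
    · rw [hx1]; exact Subgroup.one_mem _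
    · obtain ⟨a, ha⟩ := htrans z₀ x hz₀1 hz₀2 hx1 hx
      rw [Subgroup.mem_center_iff]
      intro g
      have h1 : a.symm g * z₀ = z₀ * a.symm g := Subgroup.mem_center_iff.mp hz₀Z (a.symm g)
      have h2 := congrArg a h1
      rw [map_mul, map_mul, MulEquiv.apply_symm_apply, ha] at h2
      exact h2
  refine ⟨hcent, ?_⟩
  let I : Subgroup G :=
    { carrier := {z | z ^ 2 = 1}
      one_mem' := one_pow 2
      mul_mem' := by
        intro a b ha hb
        have ha' : a ^ 2 = 1 := ha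
        have hb' : b ^ 2 = 1 := hb
        have hc : Commute a b := Subgroup.mem_center_iff.mp (hcent b hb') a
        show (a * b) ^ 2 = 1
        rw [hc.mul_pow, ha', hb', one_mul]
      inv_mem' := by
        intro a ha
        have ha' : a ^ 2 = 1 := ha
        show a⁻¹ ^ 2 = 1
        rw [inv_pow, ha', inv_one] }
  obtain ⟨s, hs⟩ := IsPGroup.iff_card.mp (hG.to_subgroup I)
  have hs' : Nat.card {z : G // z ^ 2 = 1} = 2 ^ s := hs
  obtain ⟨n, hn⟩ := IsPGroup.iff_card.mp hG
  obtain ⟨f, hf⟩ : ∃ f : G → G, f = fun x => x ^ (orderOf x / 2) := ⟨_, rfl⟩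
  have hfdef : ∀ x, f x = x ^ (orderOf x / 2) := fun x => by rw [hf]
  have hfx : ∀ x : G, x ≠ 1 → f x ≠ 1 ∧ (f x) ^ 2 = 1 := by
    intro x hx
    obtain ⟨k, hk⟩ := IsPGroup.iff_orderOf.mp hG x
    have hk0 : k ≠ 0 := by
      rintro rfl
      rw [pow_zero] at hk
      exact hx (orderOf_eq_one_iff.mp hk)
    obtain ⟨j, rfl⟩ : ∃ j, k = j + 1 := ⟨k - 1, by omega⟩
    have hdiv : orderOf x / 2 = 2 ^ j := by
      rw [hk, pow_succ]; exact Nat.mul_div_cancel _ (by norm_num)
    rw [hfdef, hdiv]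
    constructor
    · intro h
      have h1 := orderOf_dvd_of_pow_eq_one h
      rw [hk] at h1
      have h2 := Nat.le_of_dvd (by positivity) h1
      have h3 : 2 ^ j < 2 ^ (j + 1) := Nat.pow_lt_pow_right (by norm_num) (by omega)
      omega
    · rw [← pow_mul, ← pow_succ, ← hk]; exact pow_orderOf_eq_one x
  have hfa : ∀ (a : MulAut G) (x : G), f (a x) = a (f x) := by
    intro a x
    rw [hfdef, hfdef, MulEquiv.orderOf_eq, map_pow]
  obtain ⟨S, hS⟩ : ∃ S : Finset G, S = Finset.univ.filter (fun x : G => x ≠ 1) := ⟨_, rfl⟩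
  obtain ⟨T, hT⟩ : ∃ T : Finset G,
      T = Finset.univ.filter (fun z : G => z ≠ 1 ∧ z ^ 2 = 1) := ⟨_, rfl⟩
  have hmaps : (S : Set G).MapsTo f T := by
    intro x hx
    have hx' := Finset.mem_coe.mp hx
    rw [hS] at hx'
    have hx1 : x ≠ 1 := (Finset.mem_filter.mp hx').2
    apply Finset.mem_coe.mpr
    rw [hT]
    exact Finset.mem_filter.mpr ⟨Finset.mem_univ _, hfx x hx1⟩
  have hcount := Finset.card_eq_sum_card_fiberwise hmaps
  have hfib : ∀ t ∈ T, ∀ t' ∈ T,
      (S.filter (fun x => f x = t)).card ≤ (S.filter (fun x => f x = t')).card := by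
    intro t ht t' ht'
    rw [hT] at ht ht'
    obtain ⟨-, ht1, ht2⟩ := Finset.mem_filter.mp ht
    obtain ⟨-, ht1', ht2'⟩ := Finset.mem_filter.mp ht'
    obtain ⟨a, ha⟩ := htrans t t' ht1 ht2 ht1' ht2'
    apply Finset.card_le_card_of_injOn (fun x => a x)
    · intro x hx
      obtain ⟨hxS, hxt⟩ := Finset.mem_filter.mp (Finset.mem_coe.mp hx)
      rw [hS] at hxS
      have hx1 : x ≠ 1 := (Finset.mem_filter.mp hxS).2
      apply Finset.mem_coe.mpr
      apply Finset.mem_filter.mpr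
      refine ⟨?_, ?_⟩
      · rw [hS]
        exact Finset.mem_filter.mpr ⟨Finset.mem_univ _,
          fun h => hx1 ((map_eq_one_iff a a.injective).mp h)⟩
      · show f (a x) = t'
        rw [hfa, hxt, ha]
    · intro x _ y _ hxy
      exact a.injective hxy
  have hz₀T : z₀ ∈ T := by
    rw [hT]; exact Finset.mem_filter.mpr ⟨Finset.mem_univ _, hz₀1, hz₀2⟩
  obtain ⟨c, hc⟩ : ∃ c : ℕ, c = (S.filter (fun x => f x = z₀)).card := ⟨_, rfl⟩
  have hfibeq : ∀ t ∈ T, (S.filter (fun x => f x = t)).card = c := by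
    intro t ht
    rw [hc]
    exact le_antisymm (hfib t ht z₀ hz₀T) (hfib z₀ hz₀T t ht)
  have hSum : S.card = T.card * c := by
    rw [hcount, Finset.sum_congr rfl hfibeq, Finset.sum_const, smul_eq_mul]
  have hSfull : (Finset.univ : Finset G) = insert 1 S := by
    ext x
    rw [hS]
    simp only [Finset.mem_univ, Finset.mem_insert, Finset.mem_filter, true_and, true_iff]
    exact em (x = 1)
  have h1S : (1 : G) ∉ S := by
    rw [hS]; intro h; exact (Finset.mem_filter.mp h).2 rfl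
  have hSc : Nat.card G = S.card + 1 := by
    rw [Nat.card_eq_fintype_card, ← Finset.card_univ, hSfull, Finset.card_insert_of_notMem h1S]
  have hTfull : (Finset.univ.filter (fun z : G => z ^ 2 = 1)) = insert 1 T := by
    ext z
    rw [hT]
    simp only [Finset.mem_filter, Finset.mem_univ, true_and, Finset.mem_insert]
    constructor
    · intro h
      by_cases hz : z = 1
      · exact Or.inl hz
      · exact Or.inr ⟨hz, h⟩
    · rintro (h | ⟨-, h⟩)
      · rw [h]; exact one_pow 2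
      · exact h
  have h1T : (1 : G) ∉ T := by
    rw [hT]; intro h
    exact (Finset.mem_filter.mp h).2.1 rfl
  have hq : Nat.card {z : G // z ^ 2 = 1} = T.card + 1 := by
    rw [Nat.card_eq_fintype_card, Fintype.card_subtype, hTfull,
      Finset.card_insert_of_notMem h1T]
  have hdvd : 2 ^ s - 1 ∣ 2 ^ n - 1 := by
    have e1 : 2 ^ s - 1 = T.card := by omega
    have e2 : 2 ^ n - 1 = S.card := by omega
    rw [e1, e2, hSum]; exact dvd_mul_right _ _
  have hgcd := Nat.pow_sub_one_gcd_pow_sub_one 2 s n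
  rw [Nat.gcd_eq_left hdvd] at hgcd
  have hpos1 : 0 < 2 ^ s := by positivity
  have hpos2 : 0 < 2 ^ (Nat.gcd s n) := by positivity
  have hpow : 2 ^ s = 2 ^ (Nat.gcd s n) := by omega
  have hsg : s = Nat.gcd s n := Nat.pow_right_injective (le_refl 2) hpow
  have hdn : Nat.gcd s n ∣ n := Nat.gcd_dvd_right s n
  rw [← hsg] at hdn
  obtain ⟨m, hm⟩ := hdn
  refine ⟨m, ?_⟩
  rw [hn, hs', ← pow_mul, ← hm]


end Cfsg.Agent.S3774
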