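import Cfsg.Statements.S3780
import Mathlib
-- import your own Cfsg.Agent.* helpers here

set_option autoImplicit false
open Cfsg

namespace Cfsg.Agent.S3780

/-- iterate of an endomorphism -/
def iter {V : Type*} [Monoid V] (θ : V →* V) : ℕ → (V →* V)
  | 0 => MonoidHom.id V
  | (k+1) => (iter θ k).comp θ

theorem sub_one_pow_prime {R : Type*} [Ring R] {p : ℕ} (hp : p.Prime) (a : R) (ha : a ^ p = 1) :
    ∃ s : R, (a - 1) ^ p = p * s := by
  obtain ⟨r, hr⟩ := (Commute.neg_one_right a).exists_add_pow_prime_eq hp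
  have hc : ∃ c : R, (1 : R) + (-1) ^ p = p * c := by
    rcases hp.eq_two_or_odd' with h2 | hodd
    · subst h2; exact ⟨1, by norm_num⟩
    · exact ⟨0, by rw [hodd.neg_one_pow]; simp⟩
  obtain ⟨c, hc⟩ := hc
  exact ⟨c + a * (-1) * r, by rw [sub_eq_add_neg, hr, ha, hc, mul_add]; simp only [mul_assoc]⟩

theorem theta_pow_eq_one {V : Type*} [CommGroup V] {p : ℕ} (hp : p.Prime) (α : MulAut V)
    (hα : α ^ p = 1) (θ : V →* V) (hθ : ∀ v, θ v = α v * v⁻¹) (v : V) (hv : v ^ p = 1) :
    (iter θ p) v = 1 := by
  let a : AddMonoid.End (Additive V) := MonoidHom.toAdditive α.toMonoidHom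
  have ha1 : ∀ x : Additive V, a x = Additive.ofMul (α x.toMul) := fun x => rfl
  have ha : ∀ k : ℕ, ∀ x : Additive V, (a ^ k) x = Additive.ofMul ((α ^ k) x.toMul) := by
    intro k
    induction k with
    | zero => intro x; rw [pow_zero, pow_zero]; rfl
    | succ k ih =>
      intro x
      rw [pow_succ, pow_succ, AddMonoid.End.coe_mul, Function.comp_apply, ih, MulAut.mul_apply, ha1]
      rfl
  have hap : a ^ p = 1 := by
    ext x; rw [ha, hα]; rfl
  have hb : ∀ k : ℕ, ∀ w : V, ((a - 1) ^ k) (Additive.ofMul w) = Additive.ofMul ((iter θ k) w) := by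
    intro k
    induction k with
    | zero => intro w; rw [pow_zero]; rfl
    | succ k ih =>
      intro w
      have h1 : (a - 1) (Additive.ofMul w) = Additive.ofMul (θ w) := by
        rw [hθ]
        show a (Additive.ofMul w) - (1 : AddMonoid.End (Additive V)) (Additive.ofMul w) = _
        rw [ha1, AddMonoid.End.one_apply, ← ofMul_div, div_eq_mul_inv]
        rfl
      rw [pow_succ, AddMonoid.End.coe_mul, Function.comp_apply, h1, ih]
      rfl
  obtain ⟨s, h1⟩ := sub_one_pow_prime hp a hap
  have h2 := hb p v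
  rw [h1, AddMonoid.End.coe_mul, Function.comp_apply, AddMonoid.End.natCast_apply, ← map_nsmul] at h2
  have h3 : p • Additive.ofMul v = 0 := by
    rw [← ofMul_pow, hv]; rfl
  rw [h3, map_zero] at h2
  exact (Additive.ofMul.injective h2.symm)

theorem card_ker_comp_le {V : Type*} [Group V] [Finite V] (f g : V →* V) :
    Nat.card (f.comp g).ker ≤ Nat.card f.ker * Nat.card g.ker := by
  let φ : (f.comp g).ker →* f.ker :=
    { toFun := fun x => ⟨g x.1, by have := x.2; rw [MonoidHom.mem_ker] at this ⊢; exact this⟩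
      map_one' := by ext; simp
      map_mul' := by intro x y; ext; simp }
  have h1 : Nat.card φ.ker * Nat.card φ.range = Nat.card (f.comp g).ker := by
    rw [← Subgroup.index_ker, Subgroup.card_mul_index]
  have h2 : Nat.card φ.range ≤ Nat.card f.ker := Subgroup.card_le_card_group _
  have h3 : Nat.card φ.ker ≤ Nat.card g.ker := by
    apply Nat.card_le_card_of_injective (fun x : φ.ker => (⟨x.1.1, by
      have := x.2; rw [MonoidHom.mem_ker] at this ⊢; exact congrArg Subtype.val this⟩ : g.ker))
    intro x y hxy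
    have h := congrArg Subtype.val hxy
    exact Subtype.ext (Subtype.ext h)
  calc Nat.card (f.comp g).ker = Nat.card φ.ker * Nat.card φ.range := h1.symm
    _ ≤ Nat.card g.ker * Nat.card f.ker := Nat.mul_le_mul h3 h2
    _ = _ := mul_comm _ _

theorem greedy {V : Type*} [CommGroup V] [Finite V] {p : ℕ} [Fact p.Prime] (hV : IsPGroup p V)
    (Φ : Subgroup V) :
    ∀ j : ℕ, ∃ S : Finset V, S.card ≤ j ∧ (Subgroup.closure (S : Set V) ⊔ Φ = ⊤ ∨
      p ^ j * Nat.card Φ ≤ Nat.card ↥(Subgroup.closure (S : Set V) ⊔ Φ)) := by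
  classical
  intro j
  induction j with
  | zero =>
    refine ⟨∅, by simp, Or.inr ?_⟩
    rw [pow_zero, one_mul]
    exact Subgroup.card_le_of_le le_sup_right
  | succ j ih =>
    obtain ⟨S, hS, h⟩ := ih
    rcases h with h | h
    · exact ⟨S, by omega, Or.inl h⟩
    · by_cases htop : Subgroup.closure (S : Set V) ⊔ Φ = ⊤
      · exact ⟨S, by omega, Or.inl htop⟩
      · obtain ⟨x, hx⟩ : ∃ x, x ∉ Subgroup.closure (S : Set V) ⊔ Φ := by
          by_contra hall; push Not at hall; exact htop (eq_top_iff.mpr fun x _ => hall x)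
        refine ⟨insert x S, (Finset.card_insert_le x S).trans (by omega), Or.inr ?_⟩
        have hle : Subgroup.closure (S : Set V) ⊔ Φ ≤
            Subgroup.closure ((insert x S : Finset V) : Set V) ⊔ Φ :=
          sup_le_sup_right (Subgroup.closure_mono (by simp)) Φ
        have hne : Subgroup.closure (S : Set V) ⊔ Φ ≠
            Subgroup.closure ((insert x S : Finset V) : Set V) ⊔ Φ := by
          intro heq
          apply hx; rw [heq]
          exact Subgroup.mem_sup_left (Subgroup.subset_closure (by simp))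
        obtain ⟨a, ha⟩ := (hV.to_subgroup (Subgroup.closure (S : Set V) ⊔ Φ)).exists_card_eq
        obtain ⟨b, hb⟩ := (hV.to_subgroup
          (Subgroup.closure ((insert x S : Finset V) : Set V) ⊔ Φ)).exists_card_eq
        obtain ⟨f, hf⟩ := (hV.to_subgroup Φ).exists_card_eq
        have hcl : Nat.card ↥(Subgroup.closure (S : Set V) ⊔ Φ) <
            Nat.card ↥(Subgroup.closure ((insert x S : Finset V) : Set V) ⊔ Φ) :=
          lt_of_le_of_ne (Subgroup.card_le_of_le hle)
            (fun h' => hne (Subgroup.eq_of_le_of_card_ge hle h'.ge))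
        rw [ha, hf, ← pow_add] at h
        rw [ha, hb] at hcl
        rw [hb, hf, ← pow_add]
        have hp1 := (Fact.out : p.Prime).one_lt
        have h1 : j + f ≤ a := (Nat.pow_le_pow_iff_right hp1).mp h
        have h2 : a < b := (Nat.pow_lt_pow_iff_right hp1).mp hcl
        exact Nat.pow_le_pow_right (by omega) (by omega)

theorem eq_top_of_sup_pow {V : Type*} [CommGroup V] [Finite V] {p : ℕ} [Fact p.Prime]
    (hV : IsPGroup p V) (H : Subgroup V)
    (h : H ⊔ (powMonoidHom p : V →* V).range = ⊤) : H = ⊤ := by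
  have key : ∀ m : ℕ, ∀ v : V, ∃ h ∈ H, ∃ u : V, v = h * u ^ (p ^ m) := by
    intro m
    induction m with
    | zero => intro v; exact ⟨1, one_mem _, v, by simp⟩
    | succ m ih =>
      intro v
      obtain ⟨h₁, hh₁, u, rfl⟩ := ih v
      have hu : u ∈ H ⊔ (powMonoidHom p : V →* V).range := by rw [h]; trivial
      obtain ⟨h₂, hh₂, w, ⟨u', rfl⟩, rfl⟩ := Subgroup.mem_sup.mp hu
      refine ⟨h₁ * h₂ ^ (p ^ m), mul_mem hh₁ (pow_mem hh₂ _), u', ?_⟩
      simp only [powMonoidHom_apply]
      rw [mul_pow, ← pow_mul, pow_succ, mul_assoc, mul_comm (p ^ m) p]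
  rw [eq_top_iff]; intro v _
  obtain ⟨k, hk⟩ := hV.exists_card_eq
  obtain ⟨h₁, hh₁, u, rfl⟩ := key k v
  have h2 : u ^ (p ^ k) = 1 := by rw [← hk]; exact pow_card_eq_one'
  rw [h2, mul_one]; exact hh₁

/-- Let V be a finite abelian p-group and α an automorphism of V of order p whose fixed-point subgroup has order p^n. Then V can be generated by pn elements: some subset of V with at most pn elements generates V. -/
theorem result {V : Type*} [CommGroup V] [Finite V] {p : ℕ} [Fact p.Prime] (hV : IsPGroup p V) (α : MulAut V) (hα : orderOf α = p) (n : ℕ) (hfix : Nat.card {v : V // α v = v} = p ^ n) : ∃ S : Finset V, S.card ≤ p * n ∧ Subgroup.closure (S : Set V) = ⊤ := by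
  classical
  have hp := (Fact.out : p.Prime)
  let θ : V →* V :=
    { toFun := fun v => α v * v⁻¹
      map_one' := by simp
      map_mul' := by intro x y; rw [map_mul, mul_inv]; exact mul_mul_mul_comm _ _ _ _ }
  have hαp : α ^ p = 1 := by rw [← hα]; exact pow_orderOf_eq_one α
  have hker : Nat.card θ.ker = p ^ n := by
    rw [← hfix]
    exact Nat.card_congr (Equiv.subtypeEquivRight (fun v => by
      rw [MonoidHom.mem_ker]; exact mul_inv_eq_one))
  have hpow : ∀ k : ℕ, Nat.card (iter θ k).ker ≤ (Nat.card θ.ker) ^ k := by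
    intro k
    induction k with
    | zero =>
      rw [pow_zero]
      show Nat.card (MonoidHom.id V).ker ≤ 1
      rw [MonoidHom.ker_id, Subgroup.card_bot]
    | succ k ih =>
      rw [pow_succ (Nat.card θ.ker)]
      exact (card_ker_comp_le (iter θ k) θ).trans (Nat.mul_le_mul_right _ ih)
  have hΩle : Nat.card (powMonoidHom p : V →* V).ker ≤ p ^ (n * p) := by
    calc Nat.card (powMonoidHom p : V →* V).ker
        ≤ Nat.card (iter θ p).ker :=
          Subgroup.card_le_of_le (fun v hv => by
            rw [MonoidHom.mem_ker] at hv ⊢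
            exact theta_pow_eq_one hp α hαp θ (fun _ => rfl) v hv)
      _ ≤ (Nat.card θ.ker) ^ p := hpow p
      _ = _ := by rw [hker, ← pow_mul]
  obtain ⟨k, hk⟩ := (hV.to_subgroup (powMonoidHom p : V →* V).ker).exists_card_eq
  have hkn : k ≤ p * n := by
    rw [hk] at hΩle
    have := (Nat.pow_le_pow_iff_right hp.one_lt).mp hΩle
    rw [mul_comm]; exact this
  have hcard : Nat.card (powMonoidHom p : V →* V).ker * Nat.card (powMonoidHom p : V →* V).range
      = Nat.card V := by
    rw [← Subgroup.index_ker, Subgroup.card_mul_index]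
  obtain ⟨S, hS, h⟩ := greedy hV (powMonoidHom p : V →* V).range k
  refine ⟨S, hS.trans hkn, eq_top_of_sup_pow hV _ ?_⟩
  rcases h with h | h
  · exact h
  · rw [← hk, hcard] at h
    exact Subgroup.eq_top_of_le_card _ h

end Cfsg.Agent.S3780
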