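import Cfsg.Statements.S3784
import Mathlib
-- import your own Cfsg.Agent.* helpers here

set_option autoImplicit false
open Cfsg

namespace Cfsg.Agent.S3784

theorem lemA (r j : ℕ) : ∃ N, Odd N ∧ (2 * r + 1) ^ (2 * j + 1) + 1 = (2 * r + 2) * N := by
  induction j with
  | zero => exact ⟨1, odd_one, by ring⟩
  | succ j ih =>
    obtain ⟨N, hN, h⟩ := ih
    refine ⟨2 * r * (2 * r + 1) ^ (2 * j + 1) + N, ?_, ?_⟩
    · exact Even.add_odd ⟨r * (2 * r + 1) ^ (2 * j + 1), by ring⟩ hN
    · have e : (2 * r + 1) ^ (2 * (j + 1) + 1) =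
          (2 * r + 1) ^ (2 * j + 1) * ((2 * r + 2) * (2 * r) + 1) := by ring
      rw [e]; linear_combination h

theorem lemB (r j : ℕ) : ∃ N, Odd N ∧ (2 * r + 1) ^ (2 * j + 1) = 2 * r * N + 1 := by
  induction j with
  | zero => exact ⟨1, odd_one, by ring⟩
  | succ j ih =>
    obtain ⟨N, hN, h⟩ := ih
    refine ⟨(2 * r + 2) * (2 * r * N + 1) + N, ?_, ?_⟩
    · exact Even.add_odd ⟨(r + 1) * (2 * r * N + 1), by ring⟩ hN
    · have e : (2 * r + 1) ^ (2 * (j + 1) + 1) = (2 * r + 1) ^ (2 * j + 1) * (2 * r + 1) ^ 2 := by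
        ring
      rw [e, h]; ring

theorem odd_dvd_two_pow (N a : ℕ) (hN : Odd N) (h : N ∣ 2 ^ a) : N = 1 := by
  obtain ⟨i, -, hi⟩ := (Nat.dvd_prime_pow Nat.prime_two).mp h
  rcases Nat.eq_zero_or_pos i with h0 | h0
  · rw [hi, h0, pow_zero]
  · exfalso
    rw [hi] at hN
    exact (Nat.not_even_iff_odd.mpr hN) ((Nat.even_pow' (by omega)).mpr even_two)

/-- Let p, q be primes and a, b positive integers with p^a = q^b + 1. Then either p = 2, b = 1, a is prime and q = 2^a − 1; or q = 2, a = 1, b is a power of 2 and p = 2^b + 1; or p^a = 9 and q^b = 8. -/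
theorem result (p q a b : ℕ) (hp : p.Prime) (hq : q.Prime) (ha : 1 ≤ a) (hb : 1 ≤ b) (h : p ^ a = q ^ b + 1) : (p = 2 ∧ b = 1 ∧ a.Prime ∧ q + 1 = 2 ^ a) ∨ (q = 2 ∧ a = 1 ∧ (∃ m : ℕ, b = 2 ^ m) ∧ p = 2 ^ b + 1) ∨ (p ^ a = 9 ∧ q ^ b = 8) := by
  have hpa : 2 ≤ p := hp.two_le
  have hqb : 2 ≤ q := hq.two_le
  have h0 := h
  rcases hp.eq_two_or_odd' with rfl | hpodd
  · left
    have hqodd : Odd q := by
      rcases hq.eq_two_or_odd' with rfl | h'
      · exfalso
        have h1 : Even (2 ^ a) := (Nat.even_pow' (by omega)).mpr even_two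
        have h2 : Even (2 ^ b) := (Nat.even_pow' (by omega)).mpr even_two
        rw [h] at h1
        exact (Nat.not_even_iff_odd.mpr (h2.add_one)) h1
      · exact h'
    obtain ⟨r, hr⟩ := hqodd
    have hr1 : 1 ≤ r := by omega
    have hb1 : b = 1 := by
      rcases Nat.even_or_odd b with ⟨c, hc⟩ | ⟨j, hj⟩
      · exfalso
        have hc1 : 1 ≤ c := by omega
        have hodd : Odd (q ^ c) := Odd.pow ⟨r, hr⟩
        obtain ⟨s, hs⟩ := hodd
        have e : q ^ b = 4 * (s * s + s) + 1 := by rw [hc, pow_add, hs]; ring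
        have hqb2 : 2 ≤ q ^ b := le_trans hqb (Nat.le_self_pow (by omega) q)
        have h' := h
        rw [e] at h
        rcases Nat.lt_or_ge a 2 with ha2 | ha2
        · have : a = 1 := by omega
          rw [this, pow_one] at h'; omega
        · obtain ⟨d, rfl⟩ := Nat.exists_eq_add_of_le ha2
          have e2 : 2 ^ (2 + d) = 4 * 2 ^ d := by ring
          rw [e2] at h; omega
      · obtain ⟨N, hN, hA⟩ := lemA r j
        rw [hj, hr, hA] at h
        have hNdvd : N ∣ 2 ^ a := ⟨2 * r + 2, by rw [h]; ring⟩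
        have hN1 := odd_dvd_two_pow N a hN hNdvd
        rw [hN1, mul_one] at hA
        have e3 : (2 * r + 1) ^ (2 * j + 1) = (2 * r + 1) ^ 1 := by rw [pow_one]; omega
        have := Nat.pow_right_injective (by omega : 2 ≤ 2 * r + 1) e3
        omega
    subst hb1
    rw [pow_one] at h
    refine ⟨rfl, rfl, ?_, h.symm⟩
    have hq' : (2 ^ a - 1).Prime := by
      have : 2 ^ a - 1 = q := by omega
      rw [this]; exact hq
    have ha1 : a ≠ 1 := by
      rintro rfl
      omega
    exact (Nat.prime_of_pow_sub_one_prime ha1 hq').2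
  · have hq2 : q = 2 := by
      rcases hq.eq_two_or_odd' with rfl | hqodd
      · rfl
      · exfalso
        have h1 : Odd (p ^ a) := hpodd.pow
        have h2 : Even (q ^ b + 1) := (hqodd.pow).add_one
        rw [h] at h1
        exact (Nat.not_even_iff_odd.mpr h1) h2
    subst hq2
    right
    obtain ⟨r, hr⟩ := hpodd
    have hr1 : 1 ≤ r := by omega
    rcases Nat.even_or_odd a with ⟨c, hc⟩ | ⟨j, hj⟩
    · right
      have hc1 : 1 ≤ c := by omega
      have hu2 : p ^ c * p ^ c = 2 ^ b + 1 := by rw [← h, hc, pow_add]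
      have huodd : Odd (p ^ c) := Odd.pow ⟨r, hr⟩
      obtain ⟨s, hs⟩ := huodd
      have h4 : 4 * (s * (s + 1)) = 2 ^ b := by
        rw [hs] at hu2; nlinarith
      have hs_dvd : s ∣ 2 ^ b := ⟨4 * (s + 1), by rw [← h4]; ring⟩
      have hs1_dvd : s + 1 ∣ 2 ^ b := ⟨4 * s, by rw [← h4]; ring⟩
      obtain ⟨i, -, hi⟩ := (Nat.dvd_prime_pow Nat.prime_two).mp hs_dvd
      obtain ⟨k, -, hk⟩ := (Nat.dvd_prime_pow Nat.prime_two).mp hs1_dvd
      have hi0 : i = 0 := by
        by_contra hne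
        have e1 : Even (2 ^ i) := (Nat.even_pow' hne).mpr even_two
        have hk0 : k ≠ 0 := by
          rintro rfl
          rw [pow_zero] at hk
          have : 0 < 2 ^ i := Nat.two_pow_pos i
          omega
        have e2 : Even (2 ^ k) := (Nat.even_pow' hk0).mpr even_two
        rw [← hk, hi] at e2
        exact (Nat.not_even_iff_odd.mpr e1.add_one) e2
      have hs1 : s = 1 := by rw [hi, hi0, pow_zero]
      have hu3 : p ^ c = 3 := by omega
      constructor
      · rw [hc, pow_add, hu3]; norm_num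
      · rw [hu3] at hu2
        omega
    · left
      obtain ⟨N, hN, hB⟩ := lemB r j
      rw [hj, hr, hB] at h
      have hNdvd : N ∣ 2 ^ b := ⟨2 * r, by linarith⟩
      have hN1 := odd_dvd_two_pow N b hN hNdvd
      rw [hN1, mul_one] at hB
      have e3 : (2 * r + 1) ^ (2 * j + 1) = (2 * r + 1) ^ 1 := by rw [pow_one]; exact hB
      have hj0 : 2 * j + 1 = 1 := Nat.pow_right_injective (by omega : 2 ≤ 2 * r + 1) e3
      have ha1 : a = 1 := by omega
      subst ha1
      rw [pow_one] at h0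
      refine ⟨rfl, rfl, ?_, h0⟩
      have hp' : (2 ^ b + 1).Prime := by rw [← h0]; exact hp
      exact Nat.pow_of_pow_add_prime (by norm_num) (by omega) hp'

end Cfsg.Agent.S3784
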