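import Cfsg.Statements.S3785
import Mathlib
import Cfsg.Agent.Helper4.CoprimeOmega
import Cfsg.Agent.Helper4.Cores
import Cfsg.Agent.Helper3.Cores
import Cfsg.Agent.Helper7.EqOrdSylow
import Cfsg.Agent.Lead.Fitting
import Cfsg.Agent.S0044

set_option autoImplicit false
open Cfsg

namespace Cfsg.Agent.S3785

universe u

theorem s3785_cent_normal {G : Type*} [Group G] (S : Set G)
    (hS : ∀ x ∈ S, ∀ h : G, h⁻¹ * x * h ∈ S) : (Subgroup.centralizer S).Normal := by
  constructor
  intro c hc h
  rw [Subgroup.mem_centralizer_iff] at hc ⊢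
  intro x hx
  have h1 := hc _ (hS x hx h)
  calc x * (h * c * h⁻¹) = h * ((h⁻¹ * x * h) * c) * h⁻¹ := by group
    _ = h * (c * (h⁻¹ * x * h)) * h⁻¹ := by rw [h1]
    _ = h * c * h⁻¹ * x := by group

theorem s3785_aux {G : Type u} [Group G] [Finite G] (hG : Group.IsSolvable G)
    (hodd : Odd (Nat.card (Cfsg.fittingSubgroup G))) :
    Subgroup.centralizer {x : G | x ∈ Cfsg.fittingSubgroup G ∧ (orderOf x).Prime} ≤
      Cfsg.fittingSubgroup G := by
  classical
  haveI := hG
  have hFn : (Cfsg.fittingSubgroup G).Normal := Cfsg.Agent.Helper4.fittingSubgroup_normal G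
  obtain ⟨S, hSdef⟩ : ∃ S : Set G, S = {x : G | x ∈ Cfsg.fittingSubgroup G ∧ (orderOf x).Prime} :=
    ⟨_, rfl⟩
  rw [← hSdef]
  have hSinv : ∀ x ∈ S, ∀ h : G, h⁻¹ * x * h ∈ S := by
    intro x hx h
    rw [hSdef] at hx ⊢
    refine ⟨?_, ?_⟩
    · have := hFn.conj_mem x hx.1 h⁻¹
      rwa [inv_inv] at this
    · have h1 : orderOf (MulAut.conj h⁻¹ x) = orderOf x := MulEquiv.orderOf_eq _ x
      rw [MulAut.conj_apply, inv_inv] at h1
      rw [h1]; exact hx.2
  have hCn : (Subgroup.centralizer S).Normal := s3785_cent_normal S hSinv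
  -- K1
  have K1 : ∀ (r : ℕ) [Fact r.Prime] (z : G), z ∈ Subgroup.centralizer S →
      (∃ k, orderOf z = r ^ k) → ∀ (s : ℕ) [Fact s.Prime], s ≠ r →
      ∀ x ∈ Cfsg.pCore s G, z * x = x * z := by
    intro r hr z hzC hzo s hs hsr x hx
    obtain ⟨k, hk⟩ := hzo
    have hPp : IsPGroup s ↥(Cfsg.pCore s G) := Cfsg.Agent.Helper3.pCore_isPGroup s G
    have hPF : Cfsg.pCore s G ≤ Cfsg.fittingSubgroup G := Cfsg.Agent.Helper3.pCore_le_fitting s G
    by_cases hs2 : s = 2
    · -- the 2-core is trivial
      have hbot : Cfsg.pCore s G = ⊥ := by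
        obtain ⟨j, hj⟩ := IsPGroup.iff_card.mp hPp
        have hdvd : Nat.card ↥(Cfsg.pCore s G) ∣ Nat.card ↥(Cfsg.fittingSubgroup G) :=
          Subgroup.card_dvd_of_le hPF
        have hj0 : j = 0 := by
          by_contra hj0
          have h2 : 2 ∣ Nat.card ↥(Cfsg.fittingSubgroup G) := by
            refine dvd_trans ?_ hdvd
            rw [hj, hs2]
            exact dvd_pow_self 2 hj0
          exact (Nat.not_even_iff_odd.mpr hodd) (even_iff_two_dvd.mpr h2)
        rw [hj0, pow_zero] at hj
        exact Subgroup.card_eq_one.mp hj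
      rw [hbot, Subgroup.mem_bot] at hx
      rw [hx, mul_one, one_mul]
    · haveI : (Cfsg.pCore s G).Characteristic := Cfsg.Agent.Helper3.pCore_characteristic s G
      haveI hPn : (Cfsg.pCore s G).Normal := inferInstance
      have hcop : Nat.Coprime (orderOf z) s := by
        rw [hk]
        exact Nat.Coprime.pow_left k ((Nat.coprime_primes hr.out hs.out).mpr (Ne.symm hsr))
      have hiter : ∀ (j : ℕ) (y : ↥(Cfsg.pCore s G)),
          (((⇑(MulAut.conjNormal z : MulAut ↥(Cfsg.pCore s G)))^[j] y :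
            ↥(Cfsg.pCore s G)) : G) = z ^ j * (y : G) * (z ^ j)⁻¹ := by
        intro j
        induction j with
        | zero => intro y; simp
        | succ j ih =>
          intro y
          rw [Function.iterate_succ_apply', MulAut.conjNormal_apply, ih, pow_succ']
          group
      have hf : ∀ y : ↥(Cfsg.pCore s G),
          (⇑(MulAut.conjNormal z : MulAut ↥(Cfsg.pCore s G)).toMonoidHom)^[orderOf z] y = y := by
        intro y
        apply Subtype.ext
        rw [MulEquiv.coe_toMonoidHom, hiter, pow_orderOf_eq_one, one_mul, inv_one, mul_one]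
      have hfix : ∀ y : ↥(Cfsg.pCore s G), y ^ s = 1 →
          (MulAut.conjNormal z : MulAut ↥(Cfsg.pCore s G)).toMonoidHom y = y := by
        intro y hy
        by_cases hy1 : y = 1
        · rw [hy1, map_one]
        · have hyo : orderOf y = s := orderOf_eq_prime hy hy1
          have hyS : (y : G) ∈ S := by
            rw [hSdef]
            refine ⟨hPF y.2, ?_⟩
            rw [Subgroup.orderOf_coe, hyo]; exact hs.out
          have hc := Subgroup.mem_centralizer_iff.mp hzC _ hyS
          apply Subtype.ext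
          rw [MulEquiv.coe_toMonoidHom, MulAut.conjNormal_apply, ← hc, mul_inv_cancel_right]
      have hres := Cfsg.Agent.Helper4.coprime_end_trivial_aux hs2 (orderOf z) hcop
        (Nat.card ↥(Cfsg.pCore s G)) ↥(Cfsg.pCore s G) le_rfl hPp
        (MulAut.conjNormal z : MulAut ↥(Cfsg.pCore s G)).toMonoidHom hf hfix ⟨x, hx⟩
      have h2 := congrArg Subtype.val hres
      rw [MulEquiv.coe_toMonoidHom, MulAut.conjNormal_apply] at h2
      have h3 : z * x * z⁻¹ = x := h2
      calc z * x = z * x * z⁻¹ * z := by group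
        _ = x * z := by rw [h3]
  -- K2
  have K2 : ∀ z : G, (∀ (s : ℕ) [Fact s.Prime], ∀ x ∈ Cfsg.pCore s G, z * x = x * z) →
      z ∈ Cfsg.fittingSubgroup G := by
    intro z hz
    apply Cfsg.Agent.S0044.result
    have hle : Cfsg.fittingSubgroup G ≤ Subgroup.centralizer ({z} : Set G) := by
      rw [Cfsg.Agent.Lead.fitting_eq_iSup_pCore]
      apply iSup_le
      intro q
      haveI : Fact (q : ℕ).Prime := ⟨q.2⟩
      intro x hx
      rw [Subgroup.mem_centralizer_iff]
      intro h hh
      rw [Set.mem_singleton_iff.mp hh]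
      exact hz (q : ℕ) x hx
    rw [Subgroup.mem_centralizer_iff]
    intro x hx
    have := Subgroup.mem_centralizer_iff.mp (hle hx) z rfl
    exact this.symm
  -- q-elements of C lie in F
  have hq : ∀ (q : ℕ) [Fact q.Prime] (y : G), y ∈ Subgroup.centralizer S →
      (∃ k, orderOf y = q ^ k) → y ∈ Cfsg.fittingSubgroup G := by
    intro q hqf y hyC hyo
    obtain ⟨Sq, hSq⟩ : ∃ Sq : Set G, Sq = {x : G | ∃ p : ℕ, p.Prime ∧ p ≠ q ∧ x ∈ Cfsg.pCore p G} :=
      ⟨_, rfl⟩
    have hSqinv : ∀ x ∈ Sq, ∀ h : G, h⁻¹ * x * h ∈ Sq := by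
      intro x hx h
      rw [hSq] at hx ⊢
      obtain ⟨p, hp, hpq, hxp⟩ := hx
      refine ⟨p, hp, hpq, ?_⟩
      haveI : (Cfsg.pCore p G).Characteristic := Cfsg.Agent.Helper3.pCore_characteristic p G
      have hPn : (Cfsg.pCore p G).Normal := inferInstance
      have := hPn.conj_mem x hxp h⁻¹
      rwa [inv_inv] at this
    haveI hDn : (Subgroup.centralizer Sq).Normal := s3785_cent_normal Sq hSqinv
    haveI := hCn
    obtain ⟨M, hM⟩ : ∃ M : Subgroup G, M = Subgroup.centralizer S ⊓ Subgroup.centralizer Sq :=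
      ⟨_, rfl⟩
    haveI hMn : M.Normal := by rw [hM]; infer_instance
    have hidx : ∀ r : ℕ, r.Prime → r ∣ (Subgroup.center ↥M).index → r = q := by
      intro r hr hdvd
      by_contra hrq
      haveI : Fact r.Prime := ⟨hr⟩
      obtain ⟨R⟩ : Nonempty (Sylow r ↥M) := inferInstance
      have hRZ : (R : Subgroup ↥M) ≤ Subgroup.center ↥M := by
        intro z hz
        obtain ⟨k, hk⟩ := (IsPGroup.iff_orderOf.mp R.isPGroup') ⟨z, hz⟩
        have hzo : orderOf (z : G) = r ^ k := by
          rw [← hk, Subgroup.orderOf_mk, Subgroup.orderOf_coe]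
        have hzM : (z : G) ∈ Subgroup.centralizer S ⊓ Subgroup.centralizer Sq := by
          rw [← hM]; exact z.2
        have hall : ∀ (s : ℕ) [Fact s.Prime], ∀ x ∈ Cfsg.pCore s G, (z : G) * x = x * z := by
          intro s hs x hx
          by_cases hsr : s = r
          · have hxSq : x ∈ Sq := by
              rw [hSq]; exact ⟨s, hs.out, by rw [hsr]; exact hrq, hx⟩
            exact (Subgroup.mem_centralizer_iff.mp hzM.2 x hxSq).symm
          · exact K1 r (z : G) hzM.1 ⟨k, hzo⟩ s hsr x hx
        have hzF : (z : G) ∈ Cfsg.fittingSubgroup G := K2 _ hall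
        have hzr : (z : G) ∈ Cfsg.pCore r G :=
          Cfsg.Agent.Helper7.mem_pCore_of_mem_fitting_of_pow r (z : G) hzF k
            (by rw [← hzo]; exact pow_orderOf_eq_one _)
        rw [Subgroup.mem_center_iff]
        intro m
        apply Subtype.ext
        have hmM : (m : G) ∈ Subgroup.centralizer S ⊓ Subgroup.centralizer Sq := by
          rw [← hM]; exact m.2
        have hzSq : (z : G) ∈ Sq := by rw [hSq]; exact ⟨r, hr, hrq, hzr⟩
        have := Subgroup.mem_centralizer_iff.mp hmM.2 (z : G) hzSq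
        exact this.symm
      have h1 : (Subgroup.center ↥M).index ∣ (R : Subgroup ↥M).index :=
        Subgroup.index_dvd_of_le hRZ
      exact R.not_dvd_index (hdvd.trans h1)
    have hMnil : Group.IsNilpotent ↥M := by
      apply Group.of_quotient_center_nilpotent
      have hpg : IsPGroup q (↥M ⧸ Subgroup.center ↥M) := by
        apply IsPGroup.of_card (n := (Subgroup.center ↥M).index.primeFactorsList.length)
        rw [← Subgroup.index_eq_card]
        exact Nat.eq_prime_pow_of_unique_prime_dvd (Subgroup.index_ne_zero_of_finite)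
          (fun {d} hd hdvd => hidx d hd hdvd)
      exact hpg.isNilpotent
    have hMF : M ≤ Cfsg.fittingSubgroup G := Cfsg.Agent.Helper3.le_fitting M hMnil
    apply hMF
    rw [hM]
    refine Subgroup.mem_inf.mpr ⟨hyC, Subgroup.mem_centralizer_iff.mpr ?_⟩
    intro x hx
    rw [hSq] at hx
    obtain ⟨p, hp, hpq, hxp⟩ := hx
    haveI : Fact p.Prime := ⟨hp⟩
    exact (K1 q y hyC hyo p hpq x hxp).symm
  -- conclude via Sylow generation
  have htop : (⊤ : Subgroup ↥(Subgroup.centralizer S)) ≤
      (Cfsg.fittingSubgroup G).subgroupOf (Subgroup.centralizer S) := by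
    rw [← Cfsg.Agent.Helper3.iSup_sylow_eq_top ↥(Subgroup.centralizer S)]
    apply iSup_le
    intro p
    apply iSup_le
    intro P
    haveI : Fact (p : ℕ).Prime := ⟨p.2⟩
    intro z hz
    rw [Subgroup.mem_subgroupOf]
    obtain ⟨k, hk⟩ := (IsPGroup.iff_orderOf.mp P.isPGroup') ⟨z, hz⟩
    refine hq (p : ℕ) (z : G) z.2 ⟨k, ?_⟩
    rw [← hk, Subgroup.orderOf_mk, Subgroup.orderOf_coe]
  intro c hc
  have := htop (Subgroup.mem_top (⟨c, hc⟩ : ↥(Subgroup.centralizer S)))
  rw [Subgroup.mem_subgroupOf] at this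
  exact this


/-- Let G be a finite solvable group whose Fitting subgroup F(G) has odd order. If an element g of G commutes with every element of prime order of F(G), then g ∈ F(G). -/
theorem result {G : Type*} [Group G] [Finite G] (hG : Group.IsSolvable G) (hodd : Odd (Nat.card (Cfsg.fittingSubgroup G))) (g : G) (hg : ∀ x ∈ Cfsg.fittingSubgroup G, (orderOf x).Prime → g * x = x * g) : g ∈ Cfsg.fittingSubgroup G := by
  apply s3785_aux hG hodd
  rw [Subgroup.mem_centralizer_iff]
  intro x hx
  exact (hg x hx.1 hx.2).symm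

end Cfsg.Agent.S3785
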