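import Cfsg.Statements.S3800
import Cfsg.Agent.Helper3.Coprime

set_option autoImplicit false
open Cfsg

namespace Cfsg.Agent.S3800

/-- Let G be a finite group, N a normal subgroup of G whose order is prime to p, and P a p-subgroup of G. Then in G/N the normalizer of the image of P is the image of N_G(P), and the centralizer of the image of P is the image of C_G(P). -/
theorem result {G : Type*} [Group G] [Finite G] {p : ℕ} [Fact p.Prime] (N : Subgroup G) [N.Normal] (hN : (Nat.card N).Coprime p) (P : Subgroup G) (hP : IsPGroup p P) : Subgroup.normalizer ((P.map (QuotientGroup.mk' N)) : Set (G ⧸ N)) = (Subgroup.normalizer (P : Set G)).map (QuotientGroup.mk' N) ∧ Subgroup.centralizer ((P.map (QuotientGroup.mk' N)) : Set (G ⧸ N)) = (Subgroup.centralizer (P : Set G)).map (QuotientGroup.mk' N) := by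
  classical
  constructor
  · apply le_antisymm
    · intro q hq
      obtain ⟨g, rfl⟩ := QuotientGroup.mk'_surjective N q
      have hconj : P.map (MulAut.conj g).toMonoidHom ≤ P ⊔ N := by
        rintro _ ⟨x, hx, rfl⟩
        have h1 : QuotientGroup.mk' N g * QuotientGroup.mk' N x * (QuotientGroup.mk' N g)⁻¹ ∈
            P.map (QuotientGroup.mk' N) :=
          (Subgroup.mem_normalizer_iff.mp hq _).mp (Subgroup.mem_map_of_mem _ hx)
        obtain ⟨y, hy, hy2⟩ := h1
        have h2 : QuotientGroup.mk' N y = QuotientGroup.mk' N (g * x * g⁻¹) := by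
          rw [hy2]; simp
        rw [QuotientGroup.mk'_eq_mk'] at h2
        obtain ⟨z, hz, hz2⟩ := h2
        show g * x * g⁻¹ ∈ P ⊔ N
        rw [← hz2]
        exact Subgroup.mul_mem _ (Subgroup.mem_sup_left hy) (Subgroup.mem_sup_right hz)
      obtain ⟨o, ho, hon⟩ := Helper3.exists_mul_mem_normalizer_of_conj_le_sup p P N hN hP g hconj
      refine ⟨o⁻¹ * g, hon, ?_⟩
      have ho1 : QuotientGroup.mk' N o = 1 := (QuotientGroup.eq_one_iff o).mpr ho
      rw [map_mul, map_inv, ho1]
      simp
    · exact Subgroup.le_normalizer_map _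
  · apply le_antisymm
    · intro q hq
      obtain ⟨g, rfl⟩ := QuotientGroup.mk'_surjective N q
      have hcomm : ∀ x ∈ P, g * x * g⁻¹ * x⁻¹ ∈ N := by
        intro x hx
        have h1 := Subgroup.mem_centralizer_iff.mp hq _ (Subgroup.mem_map_of_mem (QuotientGroup.mk' N) hx)
        apply (QuotientGroup.eq_one_iff _).mp
        show QuotientGroup.mk' N (g * x * g⁻¹ * x⁻¹) = 1
        rw [map_mul, map_mul, map_mul, map_inv, map_inv, ← h1]
        group
      obtain ⟨o, ho, hoc⟩ := Helper3.exists_mul_mem_centralizer_of_commutator_mem p P N hN hP g hcomm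
      refine ⟨o⁻¹ * g, hoc, ?_⟩
      have ho1 : QuotientGroup.mk' N o = 1 := (QuotientGroup.eq_one_iff o).mpr ho
      rw [map_mul, map_inv, ho1]
      simp
    · rintro _ ⟨c, hc, rfl⟩
      rw [Subgroup.mem_centralizer_iff]
      rintro _ ⟨x, hx, rfl⟩
      rw [← map_mul, ← map_mul, Subgroup.mem_centralizer_iff.mp hc x hx]

end Cfsg.Agent.S3800
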