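import Cfsg.Statements.S3979
import Mathlib

set_option autoImplicit false
open Cfsg
open scoped commutatorElement

namespace Cfsg.Agent.S3979

theorem result {G : Type*} [Group G] [Finite G] [IsCyclic G] : Cfsg.HasCyclicSchurMultiplier G 1 := by
  constructor
  · refine ⟨G, inferInstance, inferInstance, MonoidHom.id G, ⟨?_, ?_, ?_⟩, ?_⟩
    · exact Function.surjective_id
    · rw [MonoidHom.ker_id]; exact bot_le
    · rw [MonoidHom.ker_id]; exact bot_le
    · have h1 : Subsingleton (MonoidHom.id G).ker := by
        rw [MonoidHom.ker_id]
        infer_instance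
      have h2 : Subsingleton (Multiplicative (ZMod 1)) := by
        show Subsingleton (Fin 1)
        infer_instance
      exact ⟨{ toFun := fun _ => 1
               invFun := fun _ => 1
               left_inv := fun _ => Subsingleton.elim _ _
               right_inv := fun _ => Subsingleton.elim _ _
               map_mul' := fun _ _ => Subsingleton.elim _ _ }⟩
  · intro Γ _ _ σ hσ
    obtain ⟨hsurj, hcen, hcomm⟩ := hσ
    have hab : ∀ a b : Γ, a * b = b * a := commutative_of_cyclic_center_quotient σ hcen
    have hbot : commutator Γ = ⊥ := by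
      rw [commutator_eq_closure, Subgroup.closure_eq_bot_iff]
      rintro _ ⟨a, b, rfl⟩
      rw [Set.mem_singleton_iff, commutatorElement_eq_one_iff_mul_comm]
      exact hab a b
    refine ⟨1, ?_⟩
    intro y
    refine ⟨1, ?_⟩
    apply Subtype.ext
    have : (y : Γ) ∈ commutator Γ := hcomm y.2
    rw [hbot, Subgroup.mem_bot] at this
    rw [this]
    rfl

end Cfsg.Agent.S3979
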