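import Cfsg.Statements.S3950
import Cfsg.Agent.S3979
import Cfsg.Agent.Helper7.Heis
import Cfsg.Agent.Helper7.AbelianSurj

set_option autoImplicit false
open Cfsg
open scoped commutatorElement

namespace Cfsg.Agent.S3950

open Cfsg.Agent.Helper7

/-- Elements of the kernel of the Heisenberg projection are commutators. -/
theorem exists_commutator_eq {m n : ℕ} {h : n ∣ m} (x : Heis m n h) (hx : x ∈ (Heis.proj m n h).ker) :
    ∃ d1 d2 : Heis m n h, x = ⁅d1, d2⁆ := by
  rw [Heis.mem_ker_proj] at hx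
  obtain ⟨c', hc'⟩ := ZMod.ringHom_surjective (ZMod.castHom h (ZMod n)) x.c
  refine ⟨⟨c', 0, 0⟩, ⟨0, 1, 0⟩, ?_⟩
  rw [commutatorElement_def]
  ext
  · simp only [Heis.mul_a, Heis.inv_a, hx.1]; ring
  · simp only [Heis.mul_b, Heis.inv_b, hx.2]; ring
  · simp only [Heis.mul_c, Heis.mul_a, Heis.mul_b, Heis.inv_a, Heis.inv_b, Heis.inv_c, map_neg,
      map_add, map_zero, hc']; ring

theorem result {G : Type*} [CommGroup G] [Finite G] : Cfsg.HasCyclicSchurMultiplier G 1 ↔ IsCyclic G := by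
  constructor
  · intro hM
    by_contra hnc
    obtain ⟨p, hp, φ, hφ⟩ := exists_surjective_of_not_isCyclic hnc
    haveI : NeZero p := ⟨hp.ne_zero⟩
    haveI : Fact (1 < p) := ⟨hp.one_lt⟩
    -- the pullback
    obtain ⟨Γ, hΓ⟩ : ∃ Γ : Subgroup (G × Heis p p (dvd_refl p)),
        Γ = MonoidHom.eqLocus (φ.comp (MonoidHom.fst G (Heis p p (dvd_refl p))))
          ((Heis.proj p p (dvd_refl p)).comp (MonoidHom.snd G (Heis p p (dvd_refl p)))) :=
      ⟨_, rfl⟩
    have hmem : ∀ z : G × Heis p p (dvd_refl p), z ∈ Γ ↔ φ z.1 = Heis.proj p p (dvd_refl p) z.2 := by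
      intro z
      rw [hΓ]
      rfl
    obtain ⟨σ, hσ⟩ : ∃ σ : Γ →* G, σ = (MonoidHom.fst G (Heis p p (dvd_refl p))).comp Γ.subtype :=
      ⟨_, rfl⟩
    have hσa : ∀ z : Γ, σ z = z.1.1 := by
      intro z
      rw [hσ]
      rfl
    have hkerσ : ∀ z : Γ, z ∈ σ.ker → z.1.1 = 1 ∧ z.1.2 ∈ (Heis.proj p p (dvd_refl p)).ker := by
      intro z hz
      rw [MonoidHom.mem_ker, hσa] at hz
      refine ⟨hz, ?_⟩
      have h1 := (hmem z.1).1 z.2
      rw [hz, map_one] at h1
      rw [MonoidHom.mem_ker]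
      exact h1.symm
    have hstem : Cfsg.IsStemExtension σ := by
      refine ⟨?_, ?_, ?_⟩
      · intro g
        obtain ⟨d, hd⟩ := Heis.proj_surjective (h := dvd_refl p) (φ g)
        exact ⟨⟨(g, d), (hmem _).2 hd.symm⟩, by rw [hσa]⟩
      · intro z hz
        obtain ⟨h1, h2⟩ := hkerσ z hz
        have h3 := Heis.ker_proj_le_center h2
        rw [Subgroup.mem_center_iff] at h3 ⊢
        intro w
        apply Subtype.ext
        apply Prod.ext
        · show w.1.1 * z.1.1 = z.1.1 * w.1.1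
          rw [mul_comm]
        · show w.1.2 * z.1.2 = z.1.2 * w.1.2
          exact h3 w.1.2
      · intro z hz
        obtain ⟨h1, h2⟩ := hkerσ z hz
        obtain ⟨d1, d2, hd⟩ := exists_commutator_eq z.1.2 h2
        obtain ⟨g1, hg1⟩ := hφ (Heis.proj p p (dvd_refl p) d1)
        obtain ⟨g2, hg2⟩ := hφ (Heis.proj p p (dvd_refl p) d2)
        have h3 : z = ⁅(⟨(g1, d1), (hmem _).2 hg1⟩ : Γ), (⟨(g2, d2), (hmem _).2 hg2⟩ : Γ)⁆ := by
          apply Subtype.ext
          apply Prod.ext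
          · show z.1.1 = g1 * g2 * g1⁻¹ * g2⁻¹
            rw [h1, mul_comm g1 g2, mul_inv_cancel_right, mul_inv_cancel]
          · show z.1.2 = d1 * d2 * d1⁻¹ * d2⁻¹
            rw [hd, commutatorElement_def]
        rw [h3, commutator_def]
        exact Subgroup.commutator_mem_commutator (Subgroup.mem_top _) (Subgroup.mem_top _)
    obtain ⟨π, hπ⟩ := hM.2 Γ σ hstem
    -- a nontrivial element of the kernel
    have hz0 : ((1 : G), (⟨0, 0, 1⟩ : Heis p p (dvd_refl p))) ∈ Γ := by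
      rw [hmem, map_one]
      rfl
    have hz0ker : (⟨((1 : G), (⟨0, 0, 1⟩ : Heis p p (dvd_refl p))), hz0⟩ : Γ) ∈ σ.ker := by
      rw [MonoidHom.mem_ker, hσa]
    obtain ⟨t, ht⟩ := hπ ⟨_, hz0ker⟩
    have ht1 : t = 1 := Subsingleton.elim _ _
    rw [ht1, map_one] at ht
    have h4 : ((1 : G), (⟨0, 0, 1⟩ : Heis p p (dvd_refl p))) = 1 := by
      have h5 := congrArg (fun w : σ.ker => (w.1.1 : G × Heis p p (dvd_refl p))) ht
      exact h5.symm
    have h6 : (⟨0, 0, 1⟩ : Heis p p (dvd_refl p)) = 1 := (Prod.mk.inj h4).2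
    have h7 : (1 : ZMod p) = 0 := congrArg Heis.c h6
    exact one_ne_zero h7
  · intro hcyc
    exact Cfsg.Agent.S3979.result

end Cfsg.Agent.S3950
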