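import Cfsg.Statements.S3951
import Cfsg.Agent.Helper7.Heis
import Cfsg.Agent.Helper7.StemAb

set_option autoImplicit false
open Cfsg
open scoped commutatorElement

namespace Cfsg.Agent.S3951

theorem closure_gens (m n : ℕ) [NeZero m] [NeZero n] :
    Subgroup.closure ({Multiplicative.ofAdd ((1 : ZMod m), (0 : ZMod n)),
      Multiplicative.ofAdd ((0 : ZMod m), (1 : ZMod n))} :
      Set (Multiplicative (ZMod m × ZMod n))) = ⊤ := by
  rw [eq_top_iff]
  intro g _
  have key : ∀ v : ZMod m × ZMod n, Multiplicative.ofAdd v =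
      (Multiplicative.ofAdd ((1 : ZMod m), (0 : ZMod n))) ^ v.1.val *
      (Multiplicative.ofAdd ((0 : ZMod m), (1 : ZMod n))) ^ v.2.val := by
    intro v
    rw [← ofAdd_nsmul, ← ofAdd_nsmul, ← ofAdd_add]
    apply congrArg Multiplicative.ofAdd
    apply Prod.ext
    · simp
    · simp
  have h1 := key (Multiplicative.toAdd g)
  rw [ofAdd_toAdd] at h1
  rw [h1]
  refine Subgroup.mul_mem _ (Subgroup.pow_mem _ (Subgroup.subset_closure (by simp)) _)
    (Subgroup.pow_mem _ (Subgroup.subset_closure (by simp)) _)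

theorem result (m n : ℕ) [NeZero m] [NeZero n] (hnm : n ∣ m) : Cfsg.HasCyclicSchurMultiplier (Multiplicative (ZMod m × ZMod n)) n := by
  constructor
  · exact ⟨Cfsg.Agent.Helper7.Heis m n hnm, inferInstance, inferInstance,
      Cfsg.Agent.Helper7.Heis.proj m n hnm,
      ⟨Cfsg.Agent.Helper7.Heis.proj_surjective, Cfsg.Agent.Helper7.Heis.ker_proj_le_center,
        Cfsg.Agent.Helper7.Heis.ker_proj_le_commutator⟩,
      ⟨Cfsg.Agent.Helper7.Heis.kerEquiv m n hnm⟩⟩
  · intro Γ _ _ σ hσ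
    obtain ⟨hsurj, hcen, hcomm⟩ := hσ
    obtain ⟨x, hx⟩ := hsurj (Multiplicative.ofAdd ((1 : ZMod m), (0 : ZMod n)))
    obtain ⟨y, hy⟩ := hsurj (Multiplicative.ofAdd ((0 : ZMod m), (1 : ZMod n)))
    obtain ⟨hcker, hker, hpow⟩ := Cfsg.Agent.Helper7.ker_le_zpowers_of_commuting σ hcen hcomm x y
      (by rw [hx, hy]; exact closure_gens m n) (mul_comm _ _)
    have hn0 : 0 < n := Nat.pos_of_ne_zero (NeZero.ne n)
    have hcn : ⁅x, y⁆ ^ n = 1 := by
      rw [← hpow n]
      have h1 : y ^ n ∈ σ.ker := by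
        rw [MonoidHom.mem_ker, map_pow, hy, ← ofAdd_nsmul]
        have h2 : n • ((0 : ZMod m), (1 : ZMod n)) = 0 := by
          apply Prod.ext
          · simp
          · simp
        rw [h2]
        rfl
      have h3 := hcen h1
      rw [Subgroup.mem_center_iff] at h3
      rw [commutatorElement_def, h3 x, mul_inv_cancel_right, mul_inv_cancel]
    have hcn' : (⟨⁅x, y⁆, hcker⟩ : σ.ker) ^ n = 1 := by
      apply Subtype.ext
      exact hcn
    refine ⟨{ toFun := fun k => (⟨⁅x, y⁆, hcker⟩ : σ.ker) ^ (Multiplicative.toAdd k).val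
              map_one' := by
                show (⟨⁅x, y⁆, hcker⟩ : σ.ker) ^ (0 : ZMod n).val = 1
                rw [ZMod.val_zero, pow_zero]
              map_mul' := by
                intro a b
                show (⟨⁅x, y⁆, hcker⟩ : σ.ker) ^ (Multiplicative.toAdd a + Multiplicative.toAdd b).val =
                  (⟨⁅x, y⁆, hcker⟩ : σ.ker) ^ (Multiplicative.toAdd a).val *
                  (⟨⁅x, y⁆, hcker⟩ : σ.ker) ^ (Multiplicative.toAdd b).val
                rw [ZMod.val_add, ← pow_eq_pow_mod _ hcn', pow_add] }, ?_⟩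
    intro a
    obtain ⟨i, hi⟩ := Subgroup.mem_zpowers_iff.1 (hker a.2)
    refine ⟨Multiplicative.ofAdd ((i : ZMod n)), ?_⟩
    apply Subtype.ext
    show ((⟨⁅x, y⁆, hcker⟩ : σ.ker) ^ ((i : ZMod n)).val : σ.ker).1 = a.1
    rw [Subgroup.coe_pow, ← hi]
    show ⁅x, y⁆ ^ ((i : ZMod n)).val = ⁅x, y⁆ ^ i
    rw [← zpow_natCast, ZMod.val_intCast]
    have h1 : i = n * (i / n) + i % n := (Int.mul_ediv_add_emod i n).symm
    conv_rhs => rw [h1]
    rw [zpow_add, zpow_mul, zpow_natCast, hcn, one_zpow, one_mul]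

end Cfsg.Agent.S3951
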