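import Cfsg.Statements.S3962
import Mathlib

set_option autoImplicit false
open Cfsg
open scoped commutatorElement

namespace Cfsg.Agent.S3962

theorem central_of_comm_central {G : Type*} [Group G] (hG : Group.IsPerfect G) (x : G)
    (h : ∀ g : G, ⁅g, x⁆ ∈ Subgroup.center G) : x ∈ Subgroup.center G := by
  let φ : G →* G := MonoidHom.mk' (fun g => ⁅g, x⁆) (by
    intro a b
    show ⁅a * b, x⁆ = ⁅a, x⁆ * ⁅b, x⁆
    rw [commutatorElement_mul_left_eq_conj_mul]
    have h1 : a * ⁅b, x⁆ * a⁻¹ = ⁅b, x⁆ := by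
      rw [mul_inv_eq_iff_eq_mul]
      exact ((Subgroup.mem_center_iff.1 (h b)) a)
    rw [h1]
    exact ((Subgroup.mem_center_iff.1 (h b)) _).symm)
  have hφ : ∀ g, φ g = ⁅g, x⁆ := fun g => rfl
  have hk : commutator G ≤ φ.ker := by
    rw [commutator_eq_closure, Subgroup.closure_le]
    rintro _ ⟨a, b, rfl⟩
    show φ ⁅a, b⁆ = 1
    rw [map_commutatorElement, commutatorElement_eq_one_iff_mul_comm, hφ, hφ]
    exact (Subgroup.mem_center_iff.1 (h b)) _
  rw [hG.commutator_eq_top] at hk
  rw [Subgroup.mem_center_iff]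
  intro g
  have h2 : φ g = 1 := MonoidHom.mem_ker.1 (hk (Subgroup.mem_top g))
  rw [hφ, commutatorElement_eq_one_iff_mul_comm] at h2
  exact h2

theorem result {G Q : Type*} [Group G] [Group Q] (hG : Group.IsPerfect G) (π : G →* Q) (hπ : Function.Surjective π) (hker : π.ker ≤ Subgroup.center G) : (Subgroup.center G).map π = Subgroup.center Q := by
  apply le_antisymm
  · rintro _ ⟨z, hz, rfl⟩
    rw [Subgroup.mem_center_iff]
    intro q
    obtain ⟨g, rfl⟩ := hπ q
    rw [← map_mul, ← map_mul, Subgroup.mem_center_iff.1 hz g]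
  · intro q hq
    obtain ⟨x, rfl⟩ := hπ q
    refine ⟨x, ?_, rfl⟩
    apply central_of_comm_central hG
    intro g
    apply hker
    rw [MonoidHom.mem_ker, map_commutatorElement, commutatorElement_eq_one_iff_mul_comm]
    exact ((Subgroup.mem_center_iff.1 hq) (π g))

end Cfsg.Agent.S3962
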