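import Cfsg.Statements.S3963
import Cfsg.Agent.Helper7.Stem
import Cfsg.Agent.Helper7.StemDef

set_option autoImplicit false
open Cfsg

namespace Cfsg.Agent.S3963

theorem result (n : ℕ) [NeZero n] : Cfsg.HasCyclicSchurMultiplier (QuaternionGroup n) 1 := by
  apply Cfsg.Agent.Helper7.hasCyclicSchurMultiplier_one_of_forall_ker_eq_bot
  intro Γ _ _ σ hσ
  obtain ⟨hsurj, hcen, hcomm⟩ := hσ
  obtain ⟨r, hr⟩ := hsurj (QuaternionGroup.a 1)
  obtain ⟨s, hs⟩ := hsurj (QuaternionGroup.xa 0)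
  apply Cfsg.Agent.Helper7.ker_eq_bot_of_inverting σ hcen hcomm r s ?_ ?_ n ?_ ?_
  · rw [hr, hs, eq_top_iff]
    intro g _
    have hr1 : QuaternionGroup.a (1 : ZMod (2 * n)) ∈
        Subgroup.closure ({QuaternionGroup.a 1, QuaternionGroup.xa 0} : Set (QuaternionGroup n)) :=
      Subgroup.subset_closure (by simp)
    have hs1 : QuaternionGroup.xa (0 : ZMod (2 * n)) ∈
        Subgroup.closure ({QuaternionGroup.a 1, QuaternionGroup.xa 0} : Set (QuaternionGroup n)) :=
      Subgroup.subset_closure (by simp)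
    cases g with
    | a i =>
      have h1 : QuaternionGroup.a i = (QuaternionGroup.a 1) ^ (i.val) := by
        rw [QuaternionGroup.a_one_pow, ZMod.natCast_zmod_val]
      rw [h1]
      exact Subgroup.pow_mem _ hr1 _
    | xa i =>
      have h1 : QuaternionGroup.xa i = QuaternionGroup.xa 0 * (QuaternionGroup.a 1) ^ (i.val) := by
        rw [QuaternionGroup.a_one_pow, QuaternionGroup.xa_mul_a, zero_add, ZMod.natCast_zmod_val]
      rw [h1]
      exact Subgroup.mul_mem _ hs1 (Subgroup.pow_mem _ hr1 _)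
  · rw [hr, hs, mul_inv_eq_iff_eq_mul, eq_inv_mul_iff_mul_eq]
    simp [QuaternionGroup.xa_mul_a, QuaternionGroup.a_mul_xa]
  · have h1 : s ^ 2 * (r ^ n)⁻¹ ∈ σ.ker := by
      rw [MonoidHom.mem_ker, map_mul, map_inv, map_pow, map_pow, hr, hs, QuaternionGroup.xa_sq,
        QuaternionGroup.a_one_pow, mul_inv_cancel]
    have h2 := hcen h1
    rw [Subgroup.mem_center_iff] at h2
    have h3 : Commute (s ^ 2 * (r ^ n)⁻¹) s := (h2 s).symm
    have h4 : r ^ n = (s ^ 2 * (r ^ n)⁻¹)⁻¹ * s ^ 2 := by group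
    rw [h4]
    exact h3.inv_left.mul_left ((Commute.refl s).pow_left 2)
  · rw [hr, orderOf_pow' _ (by norm_num), QuaternionGroup.orderOf_a_one]
    have h1 : Nat.gcd (2 * n) 2 = 2 := Nat.gcd_eq_right (Dvd.intro _ rfl)
    rw [h1]
    omega

end Cfsg.Agent.S3963
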