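import Cfsg.Statements.S3964
import Cfsg.Agent.Helper7.Stem
import Cfsg.Agent.Helper7.StemDef

set_option autoImplicit false
open Cfsg

namespace Cfsg.Agent.S3964

theorem result (n : ℕ) (hn : Odd n) : Cfsg.HasCyclicSchurMultiplier (DihedralGroup n) 1 := by
  haveI : NeZero n := ⟨by rintro rfl; simp at hn⟩
  apply Cfsg.Agent.Helper7.hasCyclicSchurMultiplier_one_of_forall_ker_eq_bot
  intro Γ _ _ σ hσ
  obtain ⟨hsurj, hcen, hcomm⟩ := hσ
  obtain ⟨r, hr⟩ := hsurj (DihedralGroup.r 1)
  obtain ⟨s, hs⟩ := hsurj (DihedralGroup.sr 0)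
  apply Cfsg.Agent.Helper7.ker_eq_bot_of_inverting σ hcen hcomm r s ?_ ?_ n ?_ ?_
  · rw [hr, hs, eq_top_iff]
    intro g _
    have hr1 : DihedralGroup.r (1 : ZMod n) ∈
        Subgroup.closure ({DihedralGroup.r 1, DihedralGroup.sr 0} : Set (DihedralGroup n)) :=
      Subgroup.subset_closure (by simp)
    have hs1 : DihedralGroup.sr (0 : ZMod n) ∈
        Subgroup.closure ({DihedralGroup.r 1, DihedralGroup.sr 0} : Set (DihedralGroup n)) :=
      Subgroup.subset_closure (by simp)
    cases g with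
    | r i =>
      have h1 : DihedralGroup.r i = (DihedralGroup.r 1) ^ (i.val) := by
        rw [DihedralGroup.r_one_pow, ZMod.natCast_zmod_val]
      rw [h1]
      exact Subgroup.pow_mem _ hr1 _
    | sr i =>
      have h1 : DihedralGroup.sr i = DihedralGroup.sr 0 * (DihedralGroup.r 1) ^ (i.val) := by
        rw [DihedralGroup.r_one_pow, DihedralGroup.sr_mul_r, zero_add, ZMod.natCast_zmod_val]
      rw [h1]
      exact Subgroup.mul_mem _ hs1 (Subgroup.pow_mem _ hr1 _)
  · rw [hr, hs]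
    simp
  · have h1 : r ^ n ∈ σ.ker := by
      rw [MonoidHom.mem_ker, map_pow, hr, DihedralGroup.r_one_pow_n]
    have h2 := hcen h1
    rw [Subgroup.mem_center_iff] at h2
    exact (h2 s).symm
  · rw [hr, Nat.Coprime.orderOf_pow, DihedralGroup.orderOf_r_one]
    rw [DihedralGroup.orderOf_r_one]
    exact (Nat.coprime_two_left.2 hn).symm

end Cfsg.Agent.S3964
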