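import Cfsg.Statements.S3965
import Cfsg.Agent.Helper7.Stem2

set_option autoImplicit false
open Cfsg
open scoped commutatorElement

namespace Cfsg.Agent.S3965

/-- The natural map `D_{2n} → D_n`. -/
def dihedralRed (n : ℕ) : DihedralGroup (2 * n) →* DihedralGroup n where
  toFun g := match g with
    | DihedralGroup.r i =>
        DihedralGroup.r (ZMod.castHom (Dvd.intro_left 2 rfl : n ∣ 2 * n) (ZMod n) i)
    | DihedralGroup.sr i =>
        DihedralGroup.sr (ZMod.castHom (Dvd.intro_left 2 rfl : n ∣ 2 * n) (ZMod n) i)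
  map_one' := by
    rw [DihedralGroup.one_def]
    show DihedralGroup.r _ = _
    rw [map_zero, DihedralGroup.one_def]
  map_mul' := by
    rintro (i | i) (j | j)
    · show DihedralGroup.r _ = DihedralGroup.r _ * DihedralGroup.r _
      rw [DihedralGroup.r_mul_r, map_add]
    · show DihedralGroup.sr _ = DihedralGroup.r _ * DihedralGroup.sr _
      rw [DihedralGroup.r_mul_sr, map_sub]
    · show DihedralGroup.sr _ = DihedralGroup.sr _ * DihedralGroup.r _
      rw [DihedralGroup.sr_mul_r, map_add]
    · show DihedralGroup.r _ = DihedralGroup.sr _ * DihedralGroup.sr _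
      rw [DihedralGroup.sr_mul_sr, map_sub]

theorem dihedralRed_r (n : ℕ) (i : ZMod (2 * n)) : dihedralRed n (DihedralGroup.r i) =
    DihedralGroup.r (ZMod.castHom (Dvd.intro_left 2 rfl : n ∣ 2 * n) (ZMod n) i) := rfl

theorem dihedralRed_sr (n : ℕ) (i : ZMod (2 * n)) : dihedralRed n (DihedralGroup.sr i) =
    DihedralGroup.sr (ZMod.castHom (Dvd.intro_left 2 rfl : n ∣ 2 * n) (ZMod n) i) := rfl

theorem dihedralRed_surjective (n : ℕ) : Function.Surjective (dihedralRed n) := by
  intro g
  cases g with
  | r j =>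
    obtain ⟨i, hi⟩ := ZMod.ringHom_surjective
      (ZMod.castHom (Dvd.intro_left 2 rfl : n ∣ 2 * n) (ZMod n)) j
    exact ⟨DihedralGroup.r i, by rw [dihedralRed_r, hi]⟩
  | sr j =>
    obtain ⟨i, hi⟩ := ZMod.ringHom_surjective
      (ZMod.castHom (Dvd.intro_left 2 rfl : n ∣ 2 * n) (ZMod n)) j
    exact ⟨DihedralGroup.sr i, by rw [dihedralRed_sr, hi]⟩

theorem ker_cases (n : ℕ) [NeZero n] (g : DihedralGroup (2 * n)) (hg : g ∈ (dihedralRed n).ker) :
    g = 1 ∨ g = DihedralGroup.r (n : ZMod (2 * n)) := by
  haveI : NeZero (2 * n) := ⟨by have := NeZero.ne n; omega⟩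
  rw [MonoidHom.mem_ker] at hg
  cases g with
  | r i =>
    rw [dihedralRed_r, DihedralGroup.one_def] at hg
    have h1 : ZMod.castHom (Dvd.intro_left 2 rfl : n ∣ 2 * n) (ZMod n) i = 0 := by
      injection hg
    have h2 : ((i.val : ℕ) : ZMod n) = 0 := by
      rw [← h1, ZMod.castHom_apply, ZMod.natCast_val]
    rw [ZMod.natCast_eq_zero_iff] at h2
    obtain ⟨t, ht⟩ := h2
    have h3 : i.val < 2 * n := ZMod.val_lt i
    have h4 : t = 0 ∨ t = 1 := by
      have hn : 0 < n := Nat.pos_of_ne_zero (NeZero.ne n)
      rcases Nat.lt_or_ge t 2 with h | h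
      · omega
      · exfalso
        have : n * 2 ≤ n * t := Nat.mul_le_mul_left n h
        omega
    have h5 : i = ((i.val : ℕ) : ZMod (2 * n)) := (ZMod.natCast_zmod_val i).symm
    rcases h4 with h4 | h4
    · left
      rw [h4, mul_zero] at ht
      rw [h5, ht, Nat.cast_zero, DihedralGroup.one_def]
    · right
      rw [h4, mul_one] at ht
      rw [h5, ht]
  | sr i =>
    rw [dihedralRed_sr, DihedralGroup.one_def] at hg
    exact absurd hg (by intro h; cases h)

theorem two_n (n : ℕ) : (n : ZMod (2 * n)) + n = 0 := by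
  have h1 : ((2 * n : ℕ) : ZMod (2 * n)) = 0 := ZMod.natCast_self _
  rw [← h1]
  push_cast
  ring

theorem result (n : ℕ) [NeZero n] (hn : Even n) : Cfsg.HasCyclicSchurMultiplier (DihedralGroup n) 2 := by
  haveI : NeZero (2 * n) := ⟨by have := NeZero.ne n; omega⟩
  haveI : Fact (Nat.Prime 2) := ⟨Nat.prime_two⟩
  have hZ2 : Nat.card (Multiplicative (ZMod 2)) = 2 := by
    show Nat.card (ZMod 2) = 2
    simp
  constructor
  · refine ⟨DihedralGroup (2 * n), inferInstance, inferInstance, dihedralRed n,
      ⟨dihedralRed_surjective n, ?_, ?_⟩, ?_⟩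
    · intro g hg
      rw [Subgroup.mem_center_iff]
      rcases ker_cases n g hg with rfl | rfl
      · intro h
        rw [mul_one, one_mul]
      · intro h
        cases h with
        | r j => rw [DihedralGroup.r_mul_r, DihedralGroup.r_mul_r, add_comm]
        | sr j =>
          rw [DihedralGroup.r_mul_sr, DihedralGroup.sr_mul_r]
          congr 1
          have h1 := two_n n
          linear_combination h1
    · intro g hg
      rcases ker_cases n g hg with rfl | rfl
      · exact one_mem _
      · obtain ⟨k, hk⟩ := hn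
        have h1 : DihedralGroup.r (n : ZMod (2 * n)) =
            ⁅DihedralGroup.sr (0 : ZMod (2 * n)), DihedralGroup.r (k : ZMod (2 * n))⁆ := by
          rw [commutatorElement_def, DihedralGroup.inv_sr, DihedralGroup.inv_r,
            DihedralGroup.sr_mul_r, DihedralGroup.sr_mul_sr, DihedralGroup.r_mul_r]
          congr 1
          have h2 := two_n n
          have h3 : (n : ZMod (2 * n)) = (k : ZMod (2 * n)) + k := by
            rw [hk]
            push_cast
            ring
          rw [h3] at h2 ⊢
          linear_combination h2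
        rw [h1, commutator_def]
        exact Subgroup.commutator_mem_commutator (Subgroup.mem_top _) (Subgroup.mem_top _)
    · have h1 := Subgroup.card_eq_card_quotient_mul_card_subgroup (dihedralRed n).ker
      have h2 : Nat.card (DihedralGroup (2 * n) ⧸ (dihedralRed n).ker) =
          Nat.card (DihedralGroup n) :=
        Nat.card_congr (QuotientGroup.quotientKerEquivOfSurjective _
          (dihedralRed_surjective n)).toEquiv
      rw [h2, DihedralGroup.nat_card, DihedralGroup.nat_card] at h1
      have hn0 : 0 < n := Nat.pos_of_ne_zero (NeZero.ne n)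
      have h3 : Nat.card (dihedralRed n).ker = 2 := by
        have h4 : 2 * n * 2 = 2 * n * Nat.card (dihedralRed n).ker := by
          rw [← h1]
          ring
        exact (Nat.eq_of_mul_eq_mul_left (by omega) h4).symm
      exact ⟨mulEquivOfPrimeCardEq h3 hZ2⟩
  · intro Γ _ _ σ hσ
    obtain ⟨hsurj, hcen, hcomm⟩ := hσ
    obtain ⟨r, hr⟩ := hsurj (DihedralGroup.r 1)
    obtain ⟨s, hs⟩ := hsurj (DihedralGroup.sr 0)
    obtain ⟨c, hcn, hσc, hker⟩ :=
      Cfsg.Agent.Helper7.exists_ker_le_zpowers_of_inverting σ hcen hcomm r s (by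
        rw [hr, hs, eq_top_iff]
        intro g _
        have hr1 : DihedralGroup.r (1 : ZMod n) ∈
            Subgroup.closure ({DihedralGroup.r 1, DihedralGroup.sr 0} : Set (DihedralGroup n)) :=
          Subgroup.subset_closure (by simp)
        have hs1 : DihedralGroup.sr (0 : ZMod n) ∈
            Subgroup.closure ({DihedralGroup.r 1, DihedralGroup.sr 0} : Set (DihedralGroup n)) :=
          Subgroup.subset_closure (by simp)
        cases g with
        | r i =>
          have h1 : DihedralGroup.r i = (DihedralGroup.r 1) ^ (i.val) := by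
            rw [DihedralGroup.r_one_pow, ZMod.natCast_zmod_val]
          rw [h1]
          exact Subgroup.pow_mem _ hr1 _
        | sr i =>
          have h1 : DihedralGroup.sr i = DihedralGroup.sr 0 * (DihedralGroup.r 1) ^ (i.val) := by
            rw [DihedralGroup.r_one_pow, DihedralGroup.sr_mul_r, zero_add, ZMod.natCast_zmod_val]
          rw [h1]
          exact Subgroup.mul_mem _ hs1 (Subgroup.pow_mem _ hr1 _))
        (by rw [hr, hs]; simp) n (by
          have h1 : r ^ n ∈ σ.ker := by
            rw [MonoidHom.mem_ker, map_pow, hr, DihedralGroup.r_one_pow_n]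
          have h2 := hcen h1
          rw [Subgroup.mem_center_iff] at h2
          exact (h2 s).symm)
    obtain ⟨m, hm⟩ := hn
    have hm0 : 0 < m := by
      have := NeZero.ne n
      omega
    have hord : orderOf (σ c) = m := by
      rw [hσc, orderOf_inv, hr, orderOf_pow' _ (by norm_num), DihedralGroup.orderOf_r_one]
      have h1 : Nat.gcd n 2 = 2 := Nat.gcd_eq_right ⟨m, by omega⟩
      rw [h1]
      omega
    have hcm2 : (c ^ m) ^ 2 = 1 := by
      rw [← pow_mul, ← hcn]
      congr 1
      omega
    have hsub : ∀ a ∈ σ.ker, a = 1 ∨ a = c ^ m := by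
      intro a ha
      obtain ⟨i, hi⟩ := Subgroup.mem_zpowers_iff.1 (hker ha)
      have h1 : σ c ^ i = 1 := by
        rw [← map_zpow, hi]
        exact ha
      rw [← orderOf_dvd_iff_zpow_eq_one, hord] at h1
      obtain ⟨j, rfl⟩ := h1
      rw [zpow_mul, zpow_natCast] at hi
      rcases Int.even_or_odd' j with ⟨t, ht | ht⟩
      · left
        rw [← hi, ht, zpow_mul, zpow_ofNat, hcm2, one_zpow]
      · right
        rw [← hi, ht, zpow_add, zpow_mul, zpow_ofNat, hcm2, one_zpow, one_mul, zpow_one]
    have hle : Nat.card σ.ker ≤ 2 := by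
      have h1 : (σ.ker : Set Γ) ⊆ {1, c ^ m} := by
        intro a ha
        rcases hsub a ha with h | h
        · rw [h]; simp
        · rw [h]; simp
      have h2 : Nat.card (σ.ker : Set Γ) ≤ Nat.card ({1, c ^ m} : Set Γ) :=
        Nat.card_mono (Set.toFinite _) h1
      have h3 : Nat.card ({1, c ^ m} : Set Γ) ≤ 2 := by
        rw [Nat.card_coe_set_eq]
        calc ({1, c ^ m} : Set Γ).ncard ≤ ({c ^ m} : Set Γ).ncard + 1 := Set.ncard_insert_le _ _
          _ = 2 := by rw [Set.ncard_singleton]
      exact h2.trans h3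
    have hpos : 0 < Nat.card σ.ker := Nat.card_pos
    rcases Nat.lt_or_ge (Nat.card σ.ker) 2 with h | h
    · have h1 : Nat.card σ.ker = 1 := by omega
      rw [Nat.card_eq_one_iff_unique] at h1
      haveI := h1.1
      exact ⟨1, fun y => ⟨1, Subsingleton.elim _ _⟩⟩
    · have h1 : Nat.card σ.ker = 2 := le_antisymm hle h
      exact ⟨(mulEquivOfPrimeCardEq hZ2 h1).toMonoidHom, (mulEquivOfPrimeCardEq hZ2 h1).surjective⟩

end Cfsg.Agent.S3965
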