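import Cfsg.Statements.S3966
import Mathlib

set_option autoImplicit false
open Cfsg
open scoped commutatorElement

namespace Cfsg.Agent.S3966

theorem inv_a (n : ℕ) (i : ZMod (2 * n)) :
    (QuaternionGroup.a i : QuaternionGroup n)⁻¹ = QuaternionGroup.a (-i) := rfl

theorem inv_xa (n : ℕ) (i : ZMod (2 * n)) :
    (QuaternionGroup.xa i : QuaternionGroup n)⁻¹ = QuaternionGroup.xa ((n : ZMod (2 * n)) + i) := rfl

/-- The natural map `Q_n → D_n`. -/
def quatRed (n : ℕ) : QuaternionGroup n →* DihedralGroup n where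
  toFun g := match g with
    | QuaternionGroup.a i =>
        DihedralGroup.r (ZMod.castHom (Dvd.intro_left 2 rfl : n ∣ 2 * n) (ZMod n) i)
    | QuaternionGroup.xa i =>
        DihedralGroup.sr (ZMod.castHom (Dvd.intro_left 2 rfl : n ∣ 2 * n) (ZMod n) i)
  map_one' := by
    rw [QuaternionGroup.one_def]
    show DihedralGroup.r _ = _
    rw [map_zero, DihedralGroup.one_def]
  map_mul' := by
    rintro (i | i) (j | j)
    · show DihedralGroup.r _ = DihedralGroup.r _ * DihedralGroup.r _
      rw [DihedralGroup.r_mul_r, map_add]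
    · show DihedralGroup.sr _ = DihedralGroup.r _ * DihedralGroup.sr _
      rw [DihedralGroup.r_mul_sr, map_sub]
    · show DihedralGroup.sr _ = DihedralGroup.sr _ * DihedralGroup.r _
      rw [DihedralGroup.sr_mul_r, map_add]
    · show DihedralGroup.r _ = DihedralGroup.sr _ * DihedralGroup.sr _
      rw [DihedralGroup.sr_mul_sr, map_sub, map_add, map_natCast, ZMod.natCast_self, zero_add]

theorem quatRed_a (n : ℕ) (i : ZMod (2 * n)) : quatRed n (QuaternionGroup.a i) =
    DihedralGroup.r (ZMod.castHom (Dvd.intro_left 2 rfl : n ∣ 2 * n) (ZMod n) i) := rfl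

theorem quatRed_xa (n : ℕ) (i : ZMod (2 * n)) : quatRed n (QuaternionGroup.xa i) =
    DihedralGroup.sr (ZMod.castHom (Dvd.intro_left 2 rfl : n ∣ 2 * n) (ZMod n) i) := rfl

theorem quatRed_surjective (n : ℕ) : Function.Surjective (quatRed n) := by
  intro g
  cases g with
  | r j =>
    obtain ⟨i, hi⟩ := ZMod.ringHom_surjective
      (ZMod.castHom (Dvd.intro_left 2 rfl : n ∣ 2 * n) (ZMod n)) j
    exact ⟨QuaternionGroup.a i, by rw [quatRed_a, hi]⟩
  | sr j =>
    obtain ⟨i, hi⟩ := ZMod.ringHom_surjective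
      (ZMod.castHom (Dvd.intro_left 2 rfl : n ∣ 2 * n) (ZMod n)) j
    exact ⟨QuaternionGroup.xa i, by rw [quatRed_xa, hi]⟩

theorem ker_cases (n : ℕ) [NeZero n] (g : QuaternionGroup n) (hg : g ∈ (quatRed n).ker) :
    g = 1 ∨ g = QuaternionGroup.a (n : ZMod (2 * n)) := by
  haveI : NeZero (2 * n) := ⟨by have := NeZero.ne n; omega⟩
  rw [MonoidHom.mem_ker] at hg
  cases g with
  | a i =>
    rw [quatRed_a, DihedralGroup.one_def] at hg
    have h1 : ZMod.castHom (Dvd.intro_left 2 rfl : n ∣ 2 * n) (ZMod n) i = 0 := by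
      injection hg
    have h2 : ((i.val : ℕ) : ZMod n) = 0 := by
      rw [← h1, ZMod.castHom_apply, ZMod.natCast_val]
    rw [ZMod.natCast_eq_zero_iff] at h2
    obtain ⟨t, ht⟩ := h2
    have h3 : i.val < 2 * n := ZMod.val_lt i
    have h4 : t = 0 ∨ t = 1 := by
      have hn : 0 < n := Nat.pos_of_ne_zero (NeZero.ne n)
      rcases Nat.lt_or_ge t 2 with h | h
      · omega
      · exfalso
        have : n * 2 ≤ n * t := Nat.mul_le_mul_left n h
        omega
    have h5 : i = ((i.val : ℕ) : ZMod (2 * n)) := (ZMod.natCast_zmod_val i).symm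
    rcases h4 with h4 | h4
    · left
      rw [h4, mul_zero] at ht
      rw [h5, ht, Nat.cast_zero, QuaternionGroup.one_def]
    · right
      rw [h4, mul_one] at ht
      rw [h5, ht]
  | xa i =>
    rw [quatRed_xa, DihedralGroup.one_def] at hg
    exact absurd hg (by intro h; cases h)

theorem two_n (n : ℕ) : (n : ZMod (2 * n)) + n = 0 := by
  have h1 : ((2 * n : ℕ) : ZMod (2 * n)) = 0 := ZMod.natCast_self _
  rw [← h1]
  push_cast
  ring

theorem result (n : ℕ) [NeZero n] (hn : Even n) : ∃ σ : QuaternionGroup n →* DihedralGroup n, Cfsg.IsStemExtension σ ∧ Nat.card σ.ker = 2 := by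
  haveI : NeZero (2 * n) := ⟨by have := NeZero.ne n; omega⟩
  refine ⟨quatRed n, ⟨quatRed_surjective n, ?_, ?_⟩, ?_⟩
  · intro g hg
    rw [Subgroup.mem_center_iff]
    rcases ker_cases n g hg with rfl | rfl
    · intro h
      rw [mul_one, one_mul]
    · intro h
      cases h with
      | a j => rw [QuaternionGroup.a_mul_a, QuaternionGroup.a_mul_a, add_comm]
      | xa j =>
        rw [QuaternionGroup.a_mul_xa, QuaternionGroup.xa_mul_a]
        congr 1
        have h1 := two_n n
        linear_combination h1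
  · intro g hg
    rcases ker_cases n g hg with rfl | rfl
    · exact one_mem _
    · obtain ⟨k, hk⟩ := hn
      have h1 : QuaternionGroup.a (n : ZMod (2 * n)) =
          ⁅QuaternionGroup.xa (0 : ZMod (2 * n)), QuaternionGroup.a (k : ZMod (2 * n))⁆ := by
        rw [commutatorElement_def, inv_xa, inv_a,
          QuaternionGroup.xa_mul_a, QuaternionGroup.xa_mul_xa, QuaternionGroup.a_mul_a]
        congr 1
        have h3 : (n : ZMod (2 * n)) = (k : ZMod (2 * n)) + k := by
          rw [hk]
          push_cast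
          ring
        rw [h3]
        ring
      rw [h1, commutator_def]
      exact Subgroup.commutator_mem_commutator (Subgroup.mem_top _) (Subgroup.mem_top _)
  · have h1 := Subgroup.card_eq_card_quotient_mul_card_subgroup (quatRed n).ker
    have h2 : Nat.card (QuaternionGroup n ⧸ (quatRed n).ker) =
        Nat.card (DihedralGroup n) :=
      Nat.card_congr (QuotientGroup.quotientKerEquivOfSurjective _
        (quatRed_surjective n)).toEquiv
    rw [h2, DihedralGroup.nat_card, Nat.card_eq_fintype_card, QuaternionGroup.card] at h1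
    have hn0 : 0 < n := Nat.pos_of_ne_zero (NeZero.ne n)
    have h4 : 2 * n * 2 = 2 * n * Nat.card (quatRed n).ker := by
      rw [← h1]
      ring
    exact (Nat.eq_of_mul_eq_mul_left (by omega) h4).symm

end Cfsg.Agent.S3966
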