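import Mathlib
import Cfsg.Agent.Helper2.CenterChar
import Cfsg.Agent.Helper2.NPC3
import Cfsg.Agent.Helper2.CharKer
import Cfsg.Agent.S0142
import Cfsg.Statements.S3968

set_option autoImplicit false
open Cfsg

namespace Cfsg.Agent.S3968

/-- Let `p` be a prime and `G` a finite group with a faithful irreducible complex character of degree `p` (so `G` is an irreducible linear group in `p` variables). If `p ^ 2` divides the order of `G`, then the centre of `G` is nontrivial. -/
theorem result {G : Type*} [Group G] [Finite G] (p : ℕ) (hp : p.Prime) (χ : Cfsg.IrrCharacter G) (hdeg : χ.1 1 = p) (hfaith : ∀ g : G, χ.1 g = χ.1 1 → g = 1) (hdiv : p ^ 2 ∣ Nat.card G) : Subgroup.center G ≠ ⊥ := by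
  classical
  haveI : Fintype G := Fintype.ofFinite G
  obtain ⟨d, ρ, hi, hρ⟩ := χ.2
  haveI := hi
  haveI : Fact p.Prime := ⟨hp⟩
  have hd : Module.finrank ℂ (Fin d → ℂ) = p := by
    have h1 : ρ.character 1 = (Module.finrank ℂ (Fin d → ℂ) : ℂ) := Representation.char_one ρ
    rw [hρ, hdeg] at h1
    exact_mod_cast h1.symm
  intro hZ
  obtain ⟨P0⟩ : Nonempty (Sylow p G) := inferInstance
  set P : Subgroup G := (P0 : Subgroup G) with hP
  have hPcard : Nat.card P = p ^ (Nat.card G).factorization p := Sylow.card_eq_multiplicity P0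
  have hk2 : 2 ≤ (Nat.card G).factorization p :=
    (hp.pow_dvd_iff_le_factorization (Nat.card_pos.ne')).mp hdiv
  have hPge : p ^ 2 ≤ Nat.card P := by
    rw [hPcard]; exact Nat.pow_le_pow_right hp.pos hk2
  have hPp : IsPGroup p P := P0.isPGroup'
  have hA : ∀ z : P, z ∈ Subgroup.center P → z ≠ 1 → (χ : G → ℂ) z = 0 := by
    intro z hz hz1
    have hle : P ≤ Subgroup.centralizer ({(z : G)} : Set G) := by
      intro y hy
      rw [Subgroup.mem_centralizer_singleton_iff]
      have := Subgroup.mem_center_iff.mp hz ⟨y, hy⟩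
      exact congrArg Subtype.val this
    have hdvd : (Subgroup.centralizer ({(z : G)} : Set G)).index ∣ P.index :=
      Subgroup.index_dvd_of_le hle
    have hcop : Nat.Coprime (Module.finrank ℂ (Fin d → ℂ))
        (Subgroup.centralizer ({(z : G)} : Set G)).index := by
      rw [hd]
      apply (Nat.Prime.coprime_iff_not_dvd hp).mpr
      intro h
      exact P0.not_dvd_index (h.trans hdvd)
    rcases Cfsg.Agent.S0142.result ρ (z : G) hcop with h | h
    · rw [← hρ]; exact h
    · exfalso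
      have hmem := Cfsg.Agent.Helper2.CenterChar.mem_center_of_norm_eq χ.2 hfaith (z : G)
        (by rw [← hρ, h, Representation.char_one, Complex.norm_natCast])
      rw [hZ, Subgroup.mem_bot] at hmem
      exact hz1 (Subtype.ext hmem)
  haveI : Nontrivial P := by
    apply (Finite.one_lt_card_iff_nontrivial).mp
    calc 1 < p ^ 2 := Nat.one_lt_pow (by norm_num) hp.one_lt
      _ ≤ Nat.card P := hPge
  have hcn : Nontrivial (Subgroup.center P) := IsPGroup.center_nontrivial hPp
  obtain ⟨⟨z, hz⟩, hz1⟩ := exists_ne (1 : Subgroup.center P)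
  have hz1' : z ≠ 1 := fun h => hz1 (Subtype.ext h)
  have hchP : Cfsg.IsCharacter P (fun y : P => (χ : G → ℂ) y) :=
    Cfsg.Agent.Lead.isCharacter_res _ (Cfsg.Agent.Lead.isCharacter_of_isIrrCharacter χ.2)
  obtain ⟨m, hm⟩ := Cfsg.Agent.Lead.exists_multiset_irr hchP
  have hsum1 := Cfsg.Agent.Helper2.NPC.multiset_sum_one m
  have hdegsum : (m.map (fun ψ : Cfsg.IrrCharacter P => Cfsg.charDegree (ψ : P → ℂ))).sum = p := by
    have h1 : (fun y : P => (χ : G → ℂ) y) 1 = (p : ℂ) := hdeg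
    rw [hm, hsum1] at h1
    exact_mod_cast h1
  by_cases hlin : ∀ ψ ∈ m, (ψ : P → ℂ) 1 = 1
  · have hval : ∀ y : P, (χ : G → ℂ) y
        = (m.map (fun ψ : Cfsg.IrrCharacter P => (ψ : P → ℂ) y)).sum := by
      intro y
      have := congrFun hm y
      rw [Cfsg.Agent.Lead.multiset_irr_sum_apply] at this
      exact this
    have hPab : ∀ a b : P, a * b = b * a := by
      intro a b
      have h1 : (χ : G → ℂ) ((a * b * a⁻¹ * b⁻¹ : P) : G) = (χ : G → ℂ) 1 := by
        rw [hval (a * b * a⁻¹ * b⁻¹)]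
        have h1' := hval 1
        rw [show ((1 : P) : G) = 1 from rfl] at h1'
        rw [h1']
        congr 1
        apply Multiset.map_congr rfl
        intro ψ hψ
        have hmul := Cfsg.Agent.Lead.isCharacter_linear_mul
          (Cfsg.Agent.Lead.isCharacter_of_isIrrCharacter ψ.2) (hlin ψ hψ)
        have e1 : (ψ : P → ℂ) a * (ψ : P → ℂ) a⁻¹ = 1 := by
          rw [← hmul, mul_inv_cancel, hlin ψ hψ]
        have e2 : (ψ : P → ℂ) b * (ψ : P → ℂ) b⁻¹ = 1 := by
          rw [← hmul, mul_inv_cancel, hlin ψ hψ]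
        rw [hmul, hmul, hmul, hlin ψ hψ]
        calc (ψ : P → ℂ) a * (ψ : P → ℂ) b * (ψ : P → ℂ) a⁻¹ * (ψ : P → ℂ) b⁻¹
            = ((ψ : P → ℂ) a * (ψ : P → ℂ) a⁻¹) * ((ψ : P → ℂ) b * (ψ : P → ℂ) b⁻¹) := by ring
          _ = 1 := by rw [e1, e2, one_mul]
      have h2 := hfaith _ h1
      have h3 : a * b * a⁻¹ * b⁻¹ = 1 := Subtype.ext h2
      calc a * b = (a * b * a⁻¹ * b⁻¹) * b * a := by group
        _ = b * a := by rw [h3, one_mul]
    have hvan : ∀ y : P, y ≠ 1 → (χ : G → ℂ) y = 0 := fun y hy =>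
      hA y (Subgroup.mem_center_iff.mpr (fun g => hPab g y)) hy
    have hmne : m ≠ 0 := by
      rintro rfl
      simp at hdegsum
      exact hp.ne_zero hdegsum.symm
    obtain ⟨ψ₀, hψ₀⟩ := Multiset.exists_mem_of_ne_zero hmne
    have hci := Cfsg.Agent.Helper2.NPC.classInner_multiset m ψ₀
    rw [← hm] at hci
    have hdirect : Cfsg.classInner (fun y : P => (χ : G → ℂ) y) (ψ₀ : P → ℂ)
        = (Nat.card P : ℂ)⁻¹ * (p : ℂ) := by
      unfold Cfsg.classInner
      congr 1
      rw [Finset.sum_eq_single (1 : P)]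
      · rw [hlin ψ₀ hψ₀, map_one, mul_one]; exact hdeg
      · intro y _ hy
        show (χ : G → ℂ) (y : G) * _ = 0
        rw [hvan y hy, zero_mul]
      · intro h; exact absurd (Finset.mem_univ _) h
    rw [hdirect] at hci
    have hcount : 1 ≤ m.count ψ₀ := Multiset.one_le_count_iff_mem.mpr hψ₀
    have hPpos : (Nat.card P : ℂ) ≠ 0 := by exact_mod_cast (Nat.card_pos (α := P)).ne'
    have h5 : (p : ℂ) = (Nat.card P : ℂ) * (m.count ψ₀ : ℂ) := by
      rw [← hci]; field_simp
    have h6 : p = Nat.card P * m.count ψ₀ := by exact_mod_cast h5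
    have h7 : p ^ 2 ≤ p := by
      calc p ^ 2 ≤ Nat.card P := hPge
        _ ≤ Nat.card P * m.count ψ₀ := Nat.le_mul_of_pos_right _ hcount
        _ = p := h6.symm
    have hp2 := hp.two_le
    nlinarith
  · push_neg at hlin
    obtain ⟨ψ₁, hψ₁, hne1⟩ := hlin
    obtain ⟨K, -, -, -, hdpos, hd1, hd2⟩ := Cfsg.Agent.Helper2.CharKer.exists_ker ψ₁
    have hdvdP : Cfsg.charDegree (ψ₁ : P → ℂ) ∣ Nat.card P :=
      Dvd.dvd.trans (dvd_mul_right _ _) hd2
    rw [hPcard] at hdvdP
    obtain ⟨j, -, hj⟩ := (Nat.dvd_prime_pow hp).mp hdvdP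
    have hj1 : j ≠ 0 := by
      rintro rfl
      rw [pow_zero] at hj
      apply hne1
      rw [hd1, hj, Nat.cast_one]
    have hge : p ≤ Cfsg.charDegree (ψ₁ : P → ℂ) := by
      rw [hj]
      calc p = p ^ 1 := (pow_one p).symm
        _ ≤ p ^ j := Nat.pow_le_pow_right hp.pos (Nat.one_le_iff_ne_zero.mpr hj1)
    obtain ⟨m', rfl⟩ := Multiset.exists_cons_of_mem hψ₁
    rw [Multiset.map_cons, Multiset.sum_cons] at hdegsum
    have hm'0 : m' = 0 := by
      by_contra hne
      obtain ⟨ψ₂, hψ₂⟩ := Multiset.exists_mem_of_ne_zero hne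
      obtain ⟨K₂, -, -, -, hdpos₂, -, -⟩ := Cfsg.Agent.Helper2.CharKer.exists_ker ψ₂
      have : Cfsg.charDegree (ψ₂ : P → ℂ)
          ≤ (m'.map (fun ψ : Cfsg.IrrCharacter P => Cfsg.charDegree (ψ : P → ℂ))).sum :=
        Multiset.single_le_sum (fun _ _ => Nat.zero_le _) _ (Multiset.mem_map_of_mem _ hψ₂)
      omega
    rw [hm'0] at hm
    have hfin : (fun y : P => (χ : G → ℂ) y) = (ψ₁ : P → ℂ) := by
      rw [hm]; simp
    have h0 := hA z hz hz1'
    have h1 := Cfsg.Agent.Helper2.CenterChar.center_ne_zero ψ₁.2 hz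
    rw [← hfin] at h1
    exact h1 h0


end Cfsg.Agent.S3968
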