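import Cfsg.Statements.S3969
import Mathlib
import Cfsg.Agent.Helper6.CoprimeCount
import Cfsg.Agent.Helper6.KleinSylow
import Cfsg.Agent.Helper6.HallNilp
-- import your own Cfsg.Agent.* helpers here

set_option autoImplicit false
open Cfsg

namespace Cfsg.Agent.S3969


open scoped IsMulCommutative in
/-- The subgroup of elements of order dividing `p` in an abelian subgroup `P`, with the bound
`|Ω₁(P)| ∣ p ^ rank P`. -/
theorem omega_card {G : Type*} [Group G] (P : Subgroup G) [Finite P] (hab : IsMulCommutative P)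
    (p : ℕ) : ∃ V : Subgroup G, (∀ x, x ∈ V ↔ x ∈ P ∧ x ^ p = 1) ∧
      Nat.card V ∣ p ^ Group.rank P := by
  haveI := hab
  refine ⟨((powMonoidHom p : P →* P).ker).map P.subtype, ?_, ?_⟩
  · intro x
    constructor
    · rintro ⟨y, hy, rfl⟩
      refine ⟨y.2, ?_⟩
      have h1 : y ^ p = 1 := hy
      have h2 := congrArg (fun z : P => (z : G)) h1
      simpa using h2
    · rintro ⟨hx, hxp⟩
      refine ⟨⟨x, hx⟩, ?_, rfl⟩
      show (⟨x, hx⟩ : P) ^ p = 1
      apply Subtype.ext
      simpa using hxp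
  · rw [Subgroup.card_map_of_injective (Subgroup.subtype_injective P)]
    exact Cfsg.Agent.Helper6.card_ker_pow_dvd (A := P) p

/-- Let `P` be an abelian Sylow `p`-subgroup of the finite group `G`, generated by `d` elements (`d` its minimal number of generators). If the order of `G` is coprime to `(p - 1)(p ^ 2 - 1) ⋯ (p ^ d - 1)`, then `G` has a normal `p`-complement. (The classical statement needs only the largest number of cyclic factors of `P` of equal order in place of `d`; the form here follows from it.) -/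
theorem result {G : Type*} [Group G] [Finite G] (p : ℕ) [Fact p.Prime] (P : Sylow p G) (hab : IsMulCommutative (P : Subgroup G)) (hcop : Nat.Coprime (Nat.card G) (∏ i ∈ Finset.Icc 1 (Group.rank (P : Subgroup G)), (p ^ i - 1))) : Cfsg.HasNormalPComplement p G := by
  classical
  have hp : p.Prime := Fact.out
  have hcommP : ∀ a ∈ (P : Subgroup G), ∀ b ∈ (P : Subgroup G), a * b = b * a := by
    intro a ha b hb
    have := hab.is_comm.comm (⟨a, ha⟩ : (P : Subgroup G)) ⟨b, hb⟩
    exact congrArg (fun z : (P : Subgroup G) => (z : G)) this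
  have hPC : (P : Subgroup G) ≤ Subgroup.centralizer ((P : Subgroup G) : Set G) := by
    intro a ha
    rw [Subgroup.mem_centralizer_iff]
    intro b hb
    exact hcommP b hb a ha
  suffices hmain : ∀ n ∈ Subgroup.normalizer ((P : Subgroup G) : Set G),
      ∀ x ∈ (P : Subgroup G), n * x * n⁻¹ = x by
    obtain ⟨N, hN, hc⟩ := Cfsg.Agent.Helper6.exists_normal_complement_of_conj_trivial P hmain
    exact ⟨P, N, hN, hc⟩
  by_contra hcon
  push Not at hcon
  obtain ⟨n, hn, x, hx, hnx⟩ := hcon
  have hnC : n ∉ Subgroup.centralizer ((P : Subgroup G) : Set G) := by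
    intro hc
    apply hnx
    have := Subgroup.mem_centralizer_iff.mp hc x hx
    rw [← this]; group
  have h1 : ¬ ∀ (q k : ℕ), q.Prime → (∃ j, orderOf (n ^ k) = q ^ j) →
      n ^ k ∈ Subgroup.centralizer ((P : Subgroup G) : Set G) := by
    intro hall
    exact hnC (Cfsg.Agent.Helper6.mem_of_primary_powers_mem _ (orderOf n) n rfl (orderOf_pos n) hall)
  push Not at h1
  obtain ⟨q, k, hq, ⟨j, hj⟩, hgC⟩ := h1
  obtain ⟨g, hgdef⟩ : ∃ g : G, g = n ^ k := ⟨_, rfl⟩
  rw [← hgdef] at hj hgC
  have hgN : g ∈ Subgroup.normalizer ((P : Subgroup G) : Set G) := by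
    rw [hgdef]; exact Subgroup.pow_mem _ hn k
  have hex : ∃ i : ℕ, g ^ q ^ i ∈ Subgroup.centralizer ((P : Subgroup G) : Set G) :=
    ⟨j, by rw [← hj, pow_orderOf_eq_one]; exact Subgroup.one_mem _⟩
  have hi0 : Nat.find hex ≠ 0 := by
    intro h0
    have := Nat.find_spec hex
    rw [h0, pow_zero, pow_one] at this
    exact hgC this
  obtain ⟨i, hi⟩ := Nat.exists_eq_succ_of_ne_zero hi0
  obtain ⟨h, hhdef⟩ : ∃ h : G, h = g ^ q ^ i := ⟨_, rfl⟩
  have hhC : h ∉ Subgroup.centralizer ((P : Subgroup G) : Set G) := by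
    rw [hhdef]
    exact Nat.find_min hex (by rw [hi]; exact Nat.lt_succ_self i)
  have hhq : h ^ q ∈ Subgroup.centralizer ((P : Subgroup G) : Set G) := by
    have := Nat.find_spec hex
    rw [hi, pow_succ, pow_mul] at this
    rw [hhdef]; exact this
  have hhN : h ∈ Subgroup.normalizer ((P : Subgroup G) : Set G) := by
    rw [hhdef]; exact Subgroup.pow_mem _ hgN _
  have hho : orderOf h ∣ q ^ j := by
    rw [hhdef, ← hj]; exact orderOf_pow_dvd _
  haveI : Fact q.Prime := ⟨hq⟩
  have hqp : q ≠ p := by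
    rintro rfl
    have hz : IsPGroup q (Subgroup.zpowers h) := by
      obtain ⟨j', -, hj'⟩ := (Nat.dvd_prime_pow hq).mp hho
      exact IsPGroup.of_card (n := j') (by rw [Nat.card_zpowers, hj'])
    have hsup : IsPGroup q (Subgroup.zpowers h ⊔ (P : Subgroup G) : Subgroup G) :=
      IsPGroup.to_sup_of_normal_right' hz P.isPGroup' (by rw [Subgroup.zpowers_le]; exact hhN)
    have := P.is_maximal' hsup le_sup_right
    have hhP : h ∈ (P : Subgroup G) := by
      rw [← this]; exact Subgroup.mem_sup_left (Subgroup.mem_zpowers h)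
    exact hhC (hPC hhP)
  have hcoph : (orderOf h).Coprime p := by
    apply Nat.Coprime.coprime_dvd_left hho
    exact Nat.Coprime.pow_left _ ((Nat.coprime_primes hq hp).mpr hqp)
  have hh1 : h ≠ 1 := by
    rintro rfl
    exact hhC (Subgroup.one_mem _)
  have hqG : q ∣ Nat.card G := by
    obtain ⟨j', -, hj'⟩ := (Nat.dvd_prime_pow hq).mp hho
    have hj0 : j' ≠ 0 := by
      rintro rfl
      rw [pow_zero, orderOf_eq_one_iff] at hj'
      exact hh1 hj'
    have : q ∣ orderOf h := by rw [hj']; exact dvd_pow_self q hj0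
    exact dvd_trans this (orderOf_dvd_natCard h)
  obtain ⟨V, hVmem, hVcard⟩ := omega_card (P : Subgroup G) hab p
  have hVP : V ≤ (P : Subgroup G) := fun x hx => ((hVmem x).mp hx).1
  have hVp : IsPGroup p V := P.isPGroup'.to_le hVP
  obtain ⟨k', hk'⟩ := IsPGroup.iff_card.mp hVp
  have hkd : k' ≤ Group.rank (P : Subgroup G) := by
    rw [hk'] at hVcard
    exact (Nat.pow_dvd_pow_iff_le_right hp.one_lt).mp hVcard
  have hNV : ∀ v ∈ V, h * v * h⁻¹ ∈ V := by
    intro v hv
    obtain ⟨hvP, hvp⟩ := (hVmem v).mp hv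
    rw [hVmem]
    refine ⟨(Subgroup.mem_normalizer_iff.mp hhN v).mp hvP, ?_⟩
    rw [conj_pow, hvp]; group
  have hqV : ∀ v ∈ V, h ^ q * v * (h ^ q)⁻¹ = v := by
    intro v hv
    have := Subgroup.mem_centralizer_iff.mp hhq v (hVP hv)
    rw [← this]; group
  have hneV : ∃ v ∈ V, h * v * h⁻¹ ≠ v := by
    by_contra hcon
    push Not at hcon
    apply hhC
    have hall := Cfsg.Agent.Helper6.centralizes_abelian_of_omega_one (P : Subgroup G)
      P.isPGroup' hcommP h hhN hcoph (fun a ha hap => hcon a ((hVmem a).mpr ⟨ha, hap⟩))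
    rw [Subgroup.mem_centralizer_iff]
    intro y hy
    have := hall y hy
    calc y * h = (h * y * h⁻¹) * h := by rw [this]
      _ = h * y := by group
  obtain ⟨j', hj1, hjk, hdvd⟩ := Cfsg.Agent.Helper6.exists_dvd_pow_sub_one_of_action
    (fun e => hqp e.symm) V hVp h hNV hqV hneV k' hk'
  have hprod : q ∣ ∏ i ∈ Finset.Icc 1 (Group.rank (P : Subgroup G)), (p ^ i - 1) :=
    dvd_trans hdvd (Finset.dvd_prod_of_mem _ (Finset.mem_Icc.mpr ⟨hj1, le_trans hjk hkd⟩))
  have hg1 := Nat.dvd_gcd hqG hprod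
  rw [hcop.gcd_eq_one] at hg1
  exact hq.one_lt.ne' (Nat.dvd_one.mp hg1)

end Cfsg.Agent.S3969
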