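import Cfsg.Statements.S3994
import Cfsg.Agent.Helper7.PiDecomp

set_option autoImplicit false
open Cfsg

namespace Cfsg.Agent.S3994

/-- The `n'`-part `N / gcd (N, n ^ N)` of `N` is prime to `n`. -/
theorem coprime_div_gcd_pow (N n : ℕ) (hN : 0 < N) (hn : 0 < n) :
    Nat.Coprime (N / Nat.gcd N (n ^ N)) n := by
  by_contra h
  obtain ⟨r, hr, hrK, hrn⟩ := Nat.Prime.not_coprime_iff_dvd.1 h
  have hDN : Nat.gcd N (n ^ N) ∣ N := Nat.gcd_dvd_left _ _
  have hDpos : 0 < Nat.gcd N (n ^ N) := Nat.gcd_pos_of_pos_left _ hN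
  have hKpos : 0 < N / Nat.gcd N (n ^ N) := Nat.div_pos (Nat.le_of_dvd hN hDN) hDpos
  have h1 : (Nat.gcd N (n ^ N)).factorization r = N.factorization r := by
    rw [Nat.factorization_gcd hN.ne' (pow_pos hn N).ne', Finsupp.inf_apply,
      Nat.factorization_pow, Finsupp.smul_apply, smul_eq_mul]
    have h2 : 0 < n.factorization r := hr.factorization_pos_of_dvd hn.ne' hrn
    have h3 : N.factorization r < N := Nat.factorization_lt r hN.ne'
    apply min_eq_left
    nlinarith
  have h4 : (N / Nat.gcd N (n ^ N)).factorization r = 0 := by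
    rw [Nat.factorization_div hDN, Finsupp.tsub_apply, h1, Nat.sub_self]
  have h5 : 0 < (N / Nat.gcd N (n ^ N)).factorization r :=
    hr.factorization_pos_of_dvd hKpos.ne' hrK
  omega

theorem result {G : Type*} [Group G] [Finite G] (n : ℕ) (hn : 0 < n) :
    Nat.card {g : G // n ∣ orderOf g} = 0 ∨
      (Nat.card G / Nat.gcd (Nat.card G) (n ^ Nat.card G)) ∣ Nat.card {g : G // n ∣ orderOf g} := by
  right
  have hN : 0 < Nat.card G := Nat.card_pos
  have hKn := coprime_div_gcd_pow (Nat.card G) n hN hn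
  obtain ⟨D, hD⟩ : ∃ D, D = Nat.gcd (Nat.card G) (n ^ Nat.card G) := ⟨_, rfl⟩
  rw [← hD] at hKn ⊢
  have hDN : D ∣ Nat.card G := hD ▸ Nat.gcd_dvd_left _ _
  have hDn : D ∣ n ^ Nat.card G := hD ▸ Nat.gcd_dvd_right _ _
  obtain ⟨K, hK⟩ : ∃ K, K = Nat.card G / D := ⟨_, rfl⟩
  rw [← hK] at hKn ⊢
  have hNDK : Nat.card G = D * K := by rw [hK, Nat.mul_div_cancel' hDN]
  have hco : Nat.Coprime D K :=
    (Nat.Coprime.coprime_dvd_right hDn (Nat.Coprime.pow_right _ hKn)).symm
  obtain ⟨k, hk1, hk0⟩ := Nat.chineseRemainder hco 1 0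
  obtain ⟨k', hk'0, hk'1⟩ := Nat.chineseRemainder hco 0 1
  have hmk : K ∣ k := (Nat.modEq_zero_iff_dvd).1 hk0
  have hqk' : D ∣ k' := (Nat.modEq_zero_iff_dvd).1 hk'0
  have hkk' : k + k' ≡ 1 [MOD D * K] := by
    rw [← Nat.modEq_and_modEq_iff_modEq_mul hco]
    exact ⟨by simpa using hk1.add hk'0, by simpa using hk0.add hk'1⟩
  have key := Cfsg.Agent.Helper7.dvd_card_pi_decomp (G := G) D K hco (Dvd.intro_left D hNDK.symm)
    (fun u => n ∣ orderOf u)
    (fun g u hu => by
      have h1 : orderOf (g * u * g⁻¹) = orderOf u := (MulAut.conj g).orderOf_eq u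
      rw [h1]
      exact hu) k hk1 hk0
  have hcongr : Nat.card {g : G // n ∣ orderOf g} =
      Nat.card {x : G // x ^ (D * K) = 1 ∧ n ∣ orderOf (x ^ k)} := by
    apply Nat.card_congr
    apply Equiv.subtypeEquivRight
    intro x
    have hx : x ^ (D * K) = 1 := by
      rw [← hNDK]
      exact pow_card_eq_one'
    constructor
    · intro h
      refine ⟨hx, ?_⟩
      have h1 : x ^ k * x ^ k' = x := by
        rw [← pow_add]
        have h2 : x ^ (k + k') = x ^ 1 := by
          rw [pow_eq_pow_iff_modEq]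
          exact hkk'.of_dvd (orderOf_dvd_of_pow_eq_one hx)
        rw [h2, pow_one]
      have h3 : orderOf (x ^ k) ∣ D := by
        apply orderOf_dvd_of_pow_eq_one
        obtain ⟨t, rfl⟩ := hmk
        rw [← pow_mul, show K * t * D = D * K * t by ring, pow_mul, hx, one_pow]
      have h4 : orderOf (x ^ k') ∣ K := by
        apply orderOf_dvd_of_pow_eq_one
        obtain ⟨t, rfl⟩ := hqk'
        rw [← pow_mul, show D * t * K = D * K * t by ring, pow_mul, hx, one_pow]
      have h5 : (orderOf (x ^ k)).Coprime (orderOf (x ^ k')) :=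
        Nat.Coprime.coprime_dvd_left h3 (Nat.Coprime.coprime_dvd_right h4 hco)
      have h6 := ((Commute.refl x).pow_pow k k').orderOf_mul_eq_mul_orderOf_of_coprime h5
      rw [h1] at h6
      rw [h6] at h
      have h7 : Nat.Coprime n (orderOf (x ^ k')) :=
        Nat.Coprime.coprime_dvd_right h4 hKn.symm
      exact h7.dvd_of_dvd_mul_right h
    · intro h
      exact h.2.trans (orderOf_pow_dvd k)
  rw [hcongr]
  exact key

end Cfsg.Agent.S3994
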