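import Cfsg.Statements.S4005
import Mathlib
import Cfsg.Agent.S0144
import Cfsg.Agent.Helper3.SchurZ
import Cfsg.Agent.Helper4.Crit19
import Cfsg.Agent.Lead.Fpf2
import Cfsg.Agent.Helper7.SylowLemmas

set_option autoImplicit false
open Cfsg

namespace Cfsg.Agent.S4005

universe u

/-- If only the primes `p`, `q` divide `|G|` and a Sylow `q`-subgroup has order `q`, then a
Sylow `p`-subgroup has index `q`. -/
theorem sylow_index_eq {G : Type u} [Group G] [Finite G] (p q : ℕ) [Fact p.Prime] [Fact q.Prime]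
    (hpq : p ≠ q) (hG : ∀ r : ℕ, r.Prime → r ∣ Nat.card G → r = p ∨ r = q)
    (P : Sylow p G) (Q : Sylow q G) (hQ : Nat.card (Q : Subgroup G) = q) :
    (P : Subgroup G).index = q := by
  have hp : p.Prime := Fact.out
  have hq : q.Prime := Fact.out
  have hidx0 : (P : Subgroup G).index ≠ 0 := Subgroup.index_ne_zero_of_finite
  have h1 : ∀ {d : ℕ}, d.Prime → d ∣ (P : Subgroup G).index → d = q := by
    intro d hd hdd
    rcases hG d hd (hdd.trans (Subgroup.index_dvd_card _)) with h | h
    · exfalso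
      rw [h] at hdd
      exact P.not_dvd_index hdd
    · exact h
  have h2 := Nat.eq_prime_pow_of_unique_prime_dvd hidx0 h1
  have hqG : q ∣ Nat.card G := hQ ▸ Subgroup.card_subgroup_dvd_card (Q : Subgroup G)
  have hqidx : q ∣ (P : Subgroup G).index := by
    have h3 := Subgroup.card_mul_index (P : Subgroup G)
    rw [← h3] at hqG
    rcases (Nat.Prime.dvd_mul hq).1 hqG with h | h
    · exfalso
      obtain ⟨k, hk⟩ := IsPGroup.iff_card.1 P.isPGroup'
      rw [hk] at h
      exact hpq ((Nat.prime_dvd_prime_iff_eq hq hp).1 (hq.dvd_of_dvd_pow h)).symm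
    · exact h
  have hfac : (Nat.card G).factorization q = 1 := by
    have h3 := Q.card_eq_multiplicity
    rw [hQ] at h3
    have h4 : q ^ 1 = q ^ (Nat.card G).factorization q := by rw [pow_one]; exact h3
    exact (Nat.pow_right_injective hq.two_le h4).symm
  generalize ((P : Subgroup G).index).primeFactorsList.length = a at h2
  have ha1 : a ≤ 1 := by
    have h5 : q ^ a ∣ Nat.card G := h2 ▸ Subgroup.index_dvd_card _
    have := (hq.pow_dvd_iff_le_factorization Nat.card_pos.ne').1 h5
    omega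
  have ha0 : a ≠ 0 := by
    rintro rfl
    rw [pow_zero] at h2
    rw [h2] at hqidx
    exact hq.one_lt.ne' (Nat.dvd_one.1 hqidx)
  have : a = 1 := by omega
  rw [h2, this, pow_one]

/-- A finite group whose set of element orders is exactly {1, 2, 3} has either a normal elementary abelian 3-subgroup of index 2 or a normal elementary abelian 2-subgroup of index 3. -/
theorem result {G : Type*} [Group G] [Finite G] (h : Set.range (orderOf : G → ℕ) = {k : ℕ | 1 ≤ k ∧ k ≤ 3}) :
    (∃ N : Subgroup G, N.Normal ∧ Cfsg.IsElementaryAbelian 3 N ∧ N.index = 2) ∨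
      (∃ N : Subgroup G, N.Normal ∧ Cfsg.IsElementaryAbelian 2 N ∧ N.index = 3) := by
  haveI : Fact (Nat.Prime 2) := ⟨Nat.prime_two⟩
  haveI : Fact (Nat.Prime 3) := ⟨Nat.prime_three⟩
  have hord : ∀ g : G, orderOf g = 1 ∨ orderOf g = 2 ∨ orderOf g = 3 := by
    intro g
    have h1 : orderOf g ∈ Set.range (orderOf : G → ℕ) := ⟨g, rfl⟩
    rw [h] at h1
    obtain ⟨h2, h3⟩ := h1
    omega
  obtain ⟨t, ht⟩ : ∃ t : G, orderOf t = 2 := by
    have h1 : 2 ∈ Set.range (orderOf : G → ℕ) := by
      rw [h]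
      exact ⟨by norm_num, by norm_num⟩
    exact h1
  obtain ⟨x, hx⟩ : ∃ x : G, orderOf x = 3 := by
    have h1 : 3 ∈ Set.range (orderOf : G → ℕ) := by
      rw [h]
      exact ⟨by norm_num, by norm_num⟩
    exact h1
  have no6 : ∀ a b : G, orderOf a = 2 → orderOf b = 3 → a * b ≠ b * a := by
    intro a b ha hb hab
    have h1 : orderOf (a * b) = orderOf a * orderOf b :=
      Commute.orderOf_mul_eq_mul_orderOf_of_coprime hab (by rw [ha, hb]; norm_num)
    rw [ha, hb] at h1
    rcases hord (a * b) with h2 | h2 | h2 <;> omega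
  have hprimes : ∀ r : ℕ, r.Prime → r ∣ Nat.card G → r = 2 ∨ r = 3 := by
    intro r hr hrd
    haveI := Fact.mk hr
    obtain ⟨g, hg⟩ := exists_prime_orderOf_dvd_card' r hrd
    rcases hord g with h2 | h2 | h2
    · rw [hg] at h2
      exact absurd h2 hr.one_lt.ne'
    · left; rw [← hg, h2]
    · right; rw [← hg, h2]
  haveI hsol : Group.IsSolvable G :=
    Cfsg.Agent.S0144.solvable_of_two_primes 2 3 Nat.prime_two Nat.prime_three _ G rfl hprimes
  haveI : Nontrivial G := by
    refine ⟨⟨t, 1, ?_⟩⟩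
    rintro rfl
    rw [orderOf_one] at ht
    omega
  have hP2 : ∀ K : Subgroup G, IsPGroup 2 K → ∀ k ∈ K, k ≠ 1 → orderOf k = 2 := by
    intro K hK k hk hk1
    obtain ⟨j, hj⟩ := (IsPGroup.iff_orderOf.1 hK) ⟨k, hk⟩
    rw [Subgroup.orderOf_mk] at hj
    rcases hord k with h2 | h2 | h2
    · exact absurd (orderOf_eq_one_iff.1 h2) hk1
    · exact h2
    · exfalso
      rw [h2] at hj
      have h3 : 2 ∣ 3 := by
        rw [hj]
        apply dvd_pow_self
        rintro rfl
        simp at hj
      omega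
  have hP3 : ∀ K : Subgroup G, IsPGroup 3 K → ∀ k ∈ K, k ≠ 1 → orderOf k = 3 := by
    intro K hK k hk hk1
    obtain ⟨j, hj⟩ := (IsPGroup.iff_orderOf.1 hK) ⟨k, hk⟩
    rw [Subgroup.orderOf_mk] at hj
    rcases hord k with h2 | h2 | h2
    · exact absurd (orderOf_eq_one_iff.1 h2) hk1
    · exfalso
      rw [h2] at hj
      have h3 : 3 ∣ 2 := by
        rw [hj]
        apply dvd_pow_self
        rintro rfl
        simp at hj
      omega
    · exact h2
  have hsq : ∀ K : Subgroup G, IsPGroup 2 K → ∀ k ∈ K, k ^ 2 = 1 := by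
    intro K hK k hk
    by_cases hk1 : k = 1
    · rw [hk1, one_pow]
    · rw [← hP2 K hK k hk hk1]
      exact pow_orderOf_eq_one k
  have hcube : ∀ K : Subgroup G, IsPGroup 3 K → ∀ k ∈ K, k ^ 3 = 1 := by
    intro K hK k hk
    by_cases hk1 : k = 1
    · rw [hk1, one_pow]
    · rw [← hP3 K hK k hk hk1]
      exact pow_orderOf_eq_one k
  -- fixed-point-freeness
  have hfpf23 : ∀ (K : Subgroup G), IsPGroup 3 K → ∀ a : G, orderOf a = 2 →
      K ⊓ Subgroup.centralizer {a} = ⊥ := by
    intro K hK a ha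
    rw [eq_bot_iff]
    rintro k ⟨hk, hkc⟩
    rw [Subgroup.mem_bot]
    by_contra hk1
    have hkc' : k ∈ Subgroup.centralizer {a} := hkc
    rw [Subgroup.mem_centralizer_singleton_iff] at hkc'
    exact no6 a k ha (hP3 K hK k hk hk1) hkc'.symm
  have hfpf32 : ∀ (K : Subgroup G), IsPGroup 2 K → ∀ a : G, orderOf a = 3 →
      K ⊓ Subgroup.centralizer {a} = ⊥ := by
    intro K hK a ha
    rw [eq_bot_iff]
    rintro k ⟨hk, hkc⟩
    rw [Subgroup.mem_bot]
    by_contra hk1
    have hkc' : k ∈ Subgroup.centralizer {a} := hkc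
    rw [Subgroup.mem_centralizer_singleton_iff] at hkc'
    exact no6 k a (hP2 K hK k hk hk1) ha hkc'
  -- 2-subgroups are abelian
  have hab2 : ∀ K : Subgroup G, IsPGroup 2 K → ∀ a ∈ K, ∀ b ∈ K, a * b = b * a := by
    intro K hK a ha b hb
    have h1 := hsq K hK a ha
    have h2 := hsq K hK b hb
    have h3 := hsq K hK (a * b) (K.mul_mem ha hb)
    have ha' : a⁻¹ = a := by
      rw [inv_eq_iff_mul_eq_one, ← sq]; exact h1
    have hb' : b⁻¹ = b := by
      rw [inv_eq_iff_mul_eq_one, ← sq]; exact h2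
    have hab' : (a * b)⁻¹ = a * b := by
      rw [inv_eq_iff_mul_eq_one, ← sq]; exact h3
    rw [mul_inv_rev, ha', hb'] at hab'
    exact hab'.symm
  have h2G : 2 ∣ Nat.card G := ht ▸ orderOf_dvd_natCard t
  have h3G : 3 ∣ Nat.card G := hx ▸ orderOf_dvd_natCard x
  obtain T : Sylow 2 G := default
  obtain S : Sylow 3 G := default
  have hT1 : (T : Subgroup G) ≠ ⊥ := T.ne_bot_of_dvd_card h2G
  have hS1 : (S : Subgroup G) ≠ ⊥ := S.ne_bot_of_dvd_card h3G
  obtain ⟨r, hr, U, hUn, hU1, hUp⟩ := Helper3.exists_normal_pgroup_of_solvable G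
  haveI := hUn
  haveI := Fact.mk hr
  have hUnorm : ∀ g : G, g ∈ Subgroup.normalizer (U : Set G) := by
    intro g
    rw [Subgroup.normalizer_eq_top]
    exact Subgroup.mem_top g
  have hr23 : r = 2 ∨ r = 3 := by
    obtain ⟨u, hu1⟩ := Subgroup.ne_bot_iff_exists_ne_one.1 hU1
    obtain ⟨j, hj⟩ := (IsPGroup.iff_orderOf.1 hUp) u
    have hj0 : j ≠ 0 := by
      rintro rfl
      rw [pow_zero, orderOf_eq_one_iff] at hj
      exact hu1 hj
    have hrd : r ∣ orderOf (u : G) := by
      rw [Subgroup.orderOf_coe, hj]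
      exact dvd_pow_self r hj0
    rcases hord (u : G) with h2 | h2 | h2
    · rw [h2] at hrd
      exact absurd (Nat.dvd_one.1 hrd) hr.one_lt.ne'
    · rw [h2] at hrd
      left
      exact (Nat.prime_dvd_prime_iff_eq hr Nat.prime_two).1 hrd
    · rw [h2] at hrd
      right
      exact (Nat.prime_dvd_prime_iff_eq hr Nat.prime_three).1 hrd
  rcases hr23 with rfl | rfl
  · -- normal 2-subgroup: Sylow 2 is normal of index 3
    right
    have hUT : U ≤ (T : Subgroup G) := Cfsg.Agent.Helper7.normal_pGroup_le_sylow U hUp T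
    haveI hCn : (Subgroup.centralizer (U : Set G)).Normal := Subgroup.normal_centralizer
    obtain ⟨u, hu1⟩ := Subgroup.ne_bot_iff_exists_ne_one.1 hU1
    have hu2 : orderOf (u : G) = 2 := hP2 U hUp u u.2 (fun h => hu1 (Subtype.ext h))
    have hC2 : IsPGroup 2 (Subgroup.centralizer (U : Set G)) := by
      intro c
      refine ⟨1, ?_⟩
      apply Subtype.ext
      show (c : G) ^ 2 ^ 1 = 1
      rw [pow_one]
      rcases hord (c : G) with h2 | h2 | h2
      · rw [orderOf_eq_one_iff.1 h2, one_pow]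
      · rw [← h2]; exact pow_orderOf_eq_one _
      · exfalso
        have := (Subgroup.mem_centralizer_iff.1 c.2) u u.2
        exact no6 u c hu2 h2 this
    have hTC : (T : Subgroup G) ≤ Subgroup.centralizer (U : Set G) := by
      intro s hs
      rw [Subgroup.mem_centralizer_iff]
      intro v hv
      exact hab2 T T.isPGroup' v (hUT hv) s hs
    have hCT : Subgroup.centralizer (U : Set G) ≤ (T : Subgroup G) :=
      Cfsg.Agent.Helper7.normal_pGroup_le_sylow _ hC2 T
    have hTeq : (T : Subgroup G) = Subgroup.centralizer (U : Set G) := le_antisymm hTC hCT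
    have hTn : (T : Subgroup G).Normal := hTeq ▸ hCn
    -- Sylow 3 has order 3
    have hS3 : Nat.card (S : Subgroup G) = 3 := by
      obtain ⟨b, hb1⟩ := Subgroup.ne_bot_iff_exists_ne_one.1 hS1
      have hbo : orderOf (b : G) = 3 := hP3 S S.isPGroup' b b.2 (fun h => hb1 (Subtype.ext h))
      have hle : (S : Subgroup G) ≤ Subgroup.zpowers (b : G) := by
        intro a ha
        by_contra hab
        have hao : orderOf a = 3 := hP3 S S.isPGroup' a ha (by
          rintro rfl
          exact hab (Subgroup.one_mem _))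
        have hXY : Subgroup.zpowers (⟨a, ha⟩ : (S : Subgroup G)) ≠ Subgroup.zpowers b := by
          intro heq
          have h1 : (⟨a, ha⟩ : (S : Subgroup G)) ∈ Subgroup.zpowers b :=
            heq ▸ Subgroup.mem_zpowers _
          obtain ⟨k, hk⟩ := Subgroup.mem_zpowers_iff.1 h1
          apply hab
          rw [Subgroup.mem_zpowers_iff]
          exact ⟨k, by have := congrArg Subtype.val hk; simpa using this⟩
        obtain ⟨x', z', hx3, hz3, hz1, hxz, hcomm⟩ :=
          Lead.exists_rank_two_of_two_subgroups S.isPGroup'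
            (Subgroup.zpowers (⟨a, ha⟩ : (S : Subgroup G))) (Subgroup.zpowers b)
            (by rw [Nat.card_zpowers, Subgroup.orderOf_mk, hao])
            (by rw [Nat.card_zpowers, ← Subgroup.orderOf_coe, hbo]) hXY
        apply Lead.fpf_rank_two_false U hU1 3 (x' : G) (z' : G)
          (by have := congrArg Subtype.val hx3; simpa using this)
          (by have := congrArg Subtype.val hz3; simpa using this)
          (fun h => hz1 (Subtype.ext h))
          (by
            intro hmem
            obtain ⟨k, hk⟩ := Subgroup.mem_zpowers_iff.1 hmem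
            apply hxz
            rw [Subgroup.mem_zpowers_iff]
            exact ⟨k, Subtype.ext (by simpa using hk)⟩)
          (by have := congrArg Subtype.val hcomm; simpa using this)
          (hUnorm _) (hUnorm _)
        intro g hg hg1
        have hgS : g ∈ (S : Subgroup G) := by
          have hle : Subgroup.zpowers (z' : G) ⊔ Subgroup.zpowers (x' : G) ≤ (S : Subgroup G) := by
            rw [sup_le_iff, Subgroup.zpowers_le, Subgroup.zpowers_le]
            exact ⟨z'.2, x'.2⟩
          exact hle hg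
        exact hfpf32 U hUp g (hP3 S S.isPGroup' g hgS hg1)
      have h1 : (S : Subgroup G) = Subgroup.zpowers (b : G) :=
        le_antisymm hle (by rw [Subgroup.zpowers_le]; exact b.2)
      rw [h1, Nat.card_zpowers, hbo]
    refine ⟨T, hTn, ⟨⟨⟨fun a b => Subtype.ext (hab2 T T.isPGroup' a a.2 b b.2)⟩⟩,
      hsq T T.isPGroup'⟩, ?_⟩
    exact sylow_index_eq 2 3 (by norm_num) hprimes T S hS3
  · -- normal 3-subgroup: Sylow 3 is normal of index 2
    left
    have hT2 : Nat.card (T : Subgroup G) = 2 := by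
      obtain ⟨b, hb1⟩ := Subgroup.ne_bot_iff_exists_ne_one.1 hT1
      have hbo : orderOf (b : G) = 2 := hP2 T T.isPGroup' b b.2 (fun h => hb1 (Subtype.ext h))
      have hle : (T : Subgroup G) ≤ Subgroup.zpowers (b : G) := by
        intro a ha
        by_contra hab
        apply Lead.fpf_rank_two_false U hU1 2 a (b : G) (hsq T T.isPGroup' a ha)
          (hsq T T.isPGroup' b b.2) (fun h => hb1 (Subtype.ext h)) hab
          (hab2 T T.isPGroup' a ha b b.2) (hUnorm _) (hUnorm _)
        intro g hg hg1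
        have hgT : g ∈ (T : Subgroup G) := by
          have hle : Subgroup.zpowers (b : G) ⊔ Subgroup.zpowers a ≤ (T : Subgroup G) := by
            rw [sup_le_iff, Subgroup.zpowers_le, Subgroup.zpowers_le]
            exact ⟨b.2, ha⟩
          exact hle hg
        exact hfpf23 U hUp g (hP2 T T.isPGroup' g hgT hg1)
      have h1 : (T : Subgroup G) = Subgroup.zpowers (b : G) :=
        le_antisymm hle (by rw [Subgroup.zpowers_le]; exact b.2)
      rw [h1, Nat.card_zpowers, hbo]
    have hidx : (S : Subgroup G).index = 2 :=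
      sylow_index_eq 3 2 (by norm_num) (fun r hr hrd => (hprimes r hr hrd).symm) S T hT2
    haveI hSn : (S : Subgroup G).Normal := Subgroup.normal_of_index_eq_two hidx
    have ht2 : t * t = 1 := by
      rw [← sq, ← ht]
      exact pow_orderOf_eq_one t
    have hinv : ∀ s ∈ (S : Subgroup G), t * s * t⁻¹ = s⁻¹ :=
      Helper4.conj_eq_inv_of_fpf (S : Subgroup G) t ht2 (hfpf23 S S.isPGroup' t ht)
    have hSab : ∀ a ∈ (S : Subgroup G), ∀ b ∈ (S : Subgroup G), a * b = b * a := by
      intro a ha b hb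
      have h1 := hinv (a * b) (Subgroup.mul_mem _ ha hb)
      have h2 : t * (a * b) * t⁻¹ = (t * a * t⁻¹) * (t * b * t⁻¹) := by group
      rw [h2, hinv a ha, hinv b hb, mul_inv_rev] at h1
      have h3 : (a⁻¹ * b⁻¹)⁻¹ = (b⁻¹ * a⁻¹)⁻¹ := by rw [h1]
      rw [mul_inv_rev, mul_inv_rev, inv_inv, inv_inv] at h3
      exact h3.symm
    exact ⟨S, hSn, ⟨⟨⟨fun a b => Subtype.ext (hSab a a.2 b b.2)⟩⟩, hcube S S.isPGroup'⟩, hidx⟩

end Cfsg.Agent.S4005
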