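import Cfsg.Statements.S4203
import Mathlib
import Cfsg.Agent.S0144

set_option autoImplicit false
open Cfsg

namespace Cfsg.Agent.S4203

universe u

theorem index_modEq_one_of_normalizer_le {G : Type u} [Group G] [Finite G] (p : ℕ)
    [Fact p.Prime] (P : Sylow p G) (M : Subgroup G)
    (hM : Subgroup.normalizer ((P : Subgroup G) : Set G) ≤ M) :
    M.index ≡ 1 [MOD p] := by
  have hPM : (P : Subgroup G) ≤ M := Subgroup.le_normalizer.trans hM
  have h1 : Nat.card (Sylow p G) ≡ 1 [MOD p] := card_sylow_modEq_one p G
  have h2 : Nat.card (Sylow p M) ≡ 1 [MOD p] := card_sylow_modEq_one p M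
  rw [Sylow.card_eq_index_normalizer P] at h1
  rw [Sylow.card_eq_index_normalizer (P.subtype hPM)] at h2
  have h3 : (Subgroup.normalizer (((P.subtype hPM : Sylow p M) : Subgroup M) : Set M)).index =
      (Subgroup.normalizer ((P : Subgroup G) : Set G)).relIndex M := by
    rw [Subgroup.relIndex, Sylow.coe_subtype, Subgroup.subgroupOf_normalizer_eq hPM]
  replace h2 : (Subgroup.normalizer ((P : Subgroup G) : Set G)).relIndex M ≡ 1 [MOD p] := by
    rw [← h3]
    exact h2
  have h4 := Subgroup.relIndex_mul_index hM
  replace h1 : (Subgroup.normalizer ((P : Subgroup G) : Set G)).index ≡ 1 [MOD p] := h1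
  rw [← h4] at h1
  have h5 : (Subgroup.normalizer ((P : Subgroup G) : Set G)).relIndex M * M.index ≡
      1 * M.index [MOD p] := Nat.ModEq.mul_right _ h2
  rw [one_mul] at h5
  exact h5.symm.trans h1

theorem aux : ∀ (n : ℕ) (G : Type u) [Group G] [Finite G], Nat.card G = n →
    (∀ M : Subgroup G, IsCoatom M → ∃ p : ℕ, p.Prime ∧ (M.index = p ∨ M.index = p ^ 2)) →
    Group.IsSolvable G := by
  intro n
  induction n using Nat.strong_induction_on with
  | _ n ih =>
  intro G _ _ hn h
  rcases subsingleton_or_nontrivial G with hsub | hnt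
  · exact inferInstance
  have hne : (Nat.card G).primeFactors.Nonempty := Nat.nonempty_primeFactors.2 Finite.one_lt_card
  obtain ⟨p, hpmem, hpmax⟩ := Finset.exists_max_image _ id hne
  have hp : p.Prime := Nat.prime_of_mem_primeFactors hpmem
  have hpd : p ∣ Nat.card G := Nat.dvd_of_mem_primeFactors hpmem
  have hmax : ∀ q : ℕ, q.Prime → q ∣ Nat.card G → q ≤ p := fun q hq hqd =>
    hpmax q (Nat.mem_primeFactors.2 ⟨hq, hqd, Nat.card_pos.ne'⟩)
  haveI := Fact.mk hp
  obtain P : Sylow p G := default
  by_cases hPn : (P : Subgroup G).Normal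
  · haveI := hPn
    have hP1 : 1 < Nat.card (P : Subgroup G) := by
      have h1 : p ∣ Nat.card (P : Subgroup G) := by
        have h2 := P.card_eq_multiplicity
        rw [h2]
        apply dvd_pow_self
        have h3 : 0 < (Nat.card G).factorization p :=
          hp.factorization_pos_of_dvd Nat.card_pos.ne' hpd
        omega
      have h4 := Nat.le_of_dvd Nat.card_pos h1
      have := hp.two_le
      omega
    have hlt : Nat.card (G ⧸ (P : Subgroup G)) < n := by
      have h1 := Subgroup.card_eq_card_quotient_mul_card_subgroup (P : Subgroup G)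
      have h3 : 0 < Nat.card (G ⧸ (P : Subgroup G)) := Nat.card_pos
      rw [← hn, h1]
      nlinarith
    haveI hQ : Group.IsSolvable (G ⧸ (P : Subgroup G)) := by
      apply ih _ hlt _ rfl
      intro Mb hMb
      have hco : IsCoatom (Mb.comap (QuotientGroup.mk' (P : Subgroup G))) :=
        Subgroup.isCoatom_comap_of_surjective (QuotientGroup.mk'_surjective _) hMb
      obtain ⟨r, hr, hidx⟩ := h _ hco
      rw [Subgroup.index_comap_of_surjective _ (QuotientGroup.mk'_surjective _)] at hidx
      exact ⟨r, hr, hidx⟩
    haveI : Group.IsSolvable (P : Subgroup G) := by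
      haveI := P.isPGroup'.isNilpotent
      infer_instance
    exact Group.isSolvable_of_ker_le_range (P : Subgroup G).subtype
      (QuotientGroup.mk' (P : Subgroup G)) (by simp)
  · have hNtop : Subgroup.normalizer ((P : Subgroup G) : Set G) ≠ ⊤ := by
      intro hN
      exact hPn (Subgroup.normalizer_eq_top_iff.1 hN)
    obtain ⟨M, hM, hNM⟩ := (eq_top_or_exists_le_coatom _).resolve_left hNtop
    have hmod := index_modEq_one_of_normalizer_le p P M hNM
    obtain ⟨r, hr, hidx⟩ := h M hM
    have hrd : r ∣ Nat.card G := by
      rcases hidx with hi | hi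
      · rw [← hi]; exact Subgroup.index_dvd_card M
      · exact (dvd_pow_self r two_ne_zero).trans (hi ▸ Subgroup.index_dvd_card M)
    have hrp : r ≤ p := hmax r hr hrd
    have hr2 := hr.two_le
    have hp2 := hp.two_le
    have h23 : r = 2 ∧ p = 3 := by
      rcases hidx with hi | hi
      · exfalso
        rw [hi] at hmod
        unfold Nat.ModEq at hmod
        rw [Nat.mod_eq_of_lt hp.one_lt] at hmod
        rcases Nat.lt_or_ge r p with hlt | hge
        · rw [Nat.mod_eq_of_lt hlt] at hmod
          omega
        · have : r = p := le_antisymm hrp hge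
          rw [this, Nat.mod_self] at hmod
          omega
      · rw [hi] at hmod
        have h1 : 1 ≤ r ^ 2 := Nat.one_le_pow _ _ (by omega)
        have h2 : p ∣ r ^ 2 - 1 := (Nat.modEq_iff_dvd' h1).1 hmod.symm
        have h3 : r ^ 2 - 1 = (r - 1) * (r + 1) := by
          obtain ⟨k, rfl⟩ : ∃ k, r = k + 1 := ⟨r - 1, by omega⟩
          simp only [Nat.add_sub_cancel]
          have : (k + 1) ^ 2 = k * (k + 1 + 1) + 1 := by ring
          rw [this, Nat.add_sub_cancel]
        rw [h3] at h2
        rcases (Nat.Prime.dvd_mul hp).1 h2 with h4 | h4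
        · exfalso
          have := Nat.le_of_dvd (by omega) h4
          omega
        · have h5 := Nat.le_of_dvd (by omega) h4
          have h6 : p ≠ r := by
            intro h6
            rw [h6] at h4
            have : r ∣ 1 := (Nat.dvd_add_right (dvd_refl r)).1 h4
            have := Nat.le_of_dvd one_pos this
            omega
          have h7 : p = r + 1 := by omega
          rcases hr.eq_two_or_odd with h8 | h8
          · exact ⟨h8, by omega⟩
          · exfalso
            rcases hp.eq_two_or_odd with h9 | h9
            · omega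
            · omega
    obtain ⟨hr2', hp3⟩ := h23
    exact Cfsg.Agent.S0144.solvable_of_two_primes 2 3 Nat.prime_two Nat.prime_three _ G rfl
      (fun q hq hqd => by
        have h1 := hmax q hq hqd
        have h2 := hq.two_le
        rw [hp3] at h1
        interval_cases q
        · left; rfl
        · right; rfl)

/-- A finite group in which every maximal subgroup has index a prime or the square of a prime is solvable. -/
theorem result {G : Type*} [Group G] [Finite G] (h : ∀ M : Subgroup G, IsCoatom M → ∃ p : ℕ, p.Prime ∧ (M.index = p ∨ M.index = p ^ 2)) : Group.IsSolvable G := by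
  exact aux _ G rfl h

end Cfsg.Agent.S4203
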