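import Cfsg.Statements.S4205
import Mathlib

set_option autoImplicit false
open Cfsg

namespace Cfsg.Agent.S4205

theorem ucs_le_iter {G : Type*} [Group G] (H : Subgroup G) (i : ℕ) :
    Subgroup.upperCentralSeries G i ≤
      (fun K : Subgroup G => Subgroup.normalizer (K : Set G))^[i] H := by
  induction i with
  | zero => simp
  | succ i ih =>
    rw [Function.iterate_succ_apply']
    set K := (fun K : Subgroup G => Subgroup.normalizer (K : Set G))^[i] H with hK
    intro z hz
    have key : ∀ w ∈ Subgroup.upperCentralSeries G (i + 1), ∀ h ∈ K, w * h * w⁻¹ ∈ K := by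
      intro w hw h hh
      rw [Subgroup.mem_upperCentralSeries_succ_iff] at hw
      have h1 : w * h * w⁻¹ * h⁻¹ ∈ K := ih (hw h)
      have h2 : w * h * w⁻¹ = (w * h * w⁻¹ * h⁻¹) * h := by group
      rw [h2]
      exact K.mul_mem h1 hh
    show z ∈ Subgroup.normalizer (K : Set G)
    rw [Subgroup.mem_normalizer_iff]
    intro h
    constructor
    · intro hh
      exact key z hz h hh
    · intro hh
      have h3 := key z⁻¹ (Subgroup.inv_mem _ hz) _ hh
      have h4 : z⁻¹ * (z * h * z⁻¹) * z⁻¹⁻¹ = h := by group
      rw [h4] at h3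
      exact h3

theorem result {G : Type*} [Group G] [Finite G] (c : ℕ) (hG : Subgroup.upperCentralSeries G c = ⊤) (H : Subgroup G) : (fun K : Subgroup G => Subgroup.normalizer (K : Set G))^[c] H = ⊤ := by
  rw [eq_top_iff, ← hG]
  exact ucs_le_iter H c

end Cfsg.Agent.S4205
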