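import Cfsg.Statements.S4206
import Mathlib

set_option autoImplicit false
open Cfsg

namespace Cfsg.Agent.S4206

theorem le_iff_map_eq_bot {G : Type*} [Group G] (X N : Subgroup G) [N.Normal] :
    X ≤ N ↔ X.map (QuotientGroup.mk' N) = ⊥ := by
  rw [Subgroup.map_eq_bot_iff, QuotientGroup.ker_mk']

theorem three_subgroups_mod {G : Type*} [Group G] (A B C N : Subgroup G) [N.Normal]
    (h1 : ⁅⁅B, C⁆, A⁆ ≤ N) (h2 : ⁅⁅C, A⁆, B⁆ ≤ N) : ⁅⁅A, B⁆, C⁆ ≤ N := by
  rw [le_iff_map_eq_bot, Subgroup.map_commutator, Subgroup.map_commutator] at *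
  exact Subgroup.commutator_commutator_eq_bot_of_rotate h1 h2

theorem aux {G : Type*} [Group G] (H : ℕ → Subgroup G) (hN : ∀ i, (H i).Normal) (L : Subgroup G) (hL : ∀ i, ⁅H i, L⁆ ≤ H (i + 1)) (j : ℕ) : ∀ i : ℕ, ⁅H i, L.lowerCentralSeries j⁆ ≤ H (i + j + 1) := by
  induction j with
  | zero => intro i; exact hL i
  | succ j ih =>
    intro i
    rw [Subgroup.lowerCentralSeries_succ, Subgroup.commutator_comm]
    haveI := hN (i + (j + 1) + 1)
    apply three_subgroups_mod
    · rw [Subgroup.commutator_comm L (H i)]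
      refine le_trans (Subgroup.commutator_mono (hL i) le_rfl) ?_
      have := ih (i + 1)
      have e : i + 1 + j + 1 = i + (j + 1) + 1 := by omega
      rw [e] at this
      exact this
    · refine le_trans (Subgroup.commutator_mono (ih i) le_rfl) ?_
      exact hL (i + j + 1)

theorem result {G : Type*} [Group G] [Finite G] (H : ℕ → Subgroup G) (hN : ∀ i, (H i).Normal) (hdesc : ∀ i, H (i + 1) ≤ H i) (L : Subgroup G) (hL : ∀ i, ⁅H i, L⁆ ≤ H (i + 1)) (i j : ℕ) : ⁅H i, L.lowerCentralSeries j⁆ ≤ H (i + j + 1) :=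
  aux H hN L hL j i

end Cfsg.Agent.S4206
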