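import Cfsg.Statements.S4208
import Cfsg.Agent.Helper7.AutPGroup
import Cfsg.Agent.Lead.PGroupFrattini

set_option autoImplicit false
open Cfsg

namespace Cfsg.Agent.S4208

/-- Let `P` be a group of order `p^n` whose Frattini subgroup has index `p^r`. Then the order of the automorphism group of `P` divides `p^(r(n-r)) · (p^r - 1)(p^r - p) ⋯ (p^r - p^(r-1))`. -/
theorem result {P : Type*} [Group P] [Finite P] {p n r : ℕ} [Fact p.Prime] (hP : Nat.card P = p ^ n) (hr : (frattini P).index = p ^ r) : Nat.card (MulAut P) ∣ p ^ (r * (n - r)) * ∏ i ∈ Finset.range r, (p ^ r - p ^ i) := by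
  classical
  have hp : p.Prime := Fact.out
  have hPG : IsPGroup p P := IsPGroup.of_card hP
  haveI : (frattini P).Normal := inferInstance
  have hcomm : ∀ a b : P ⧸ frattini P, a * b = b * a := by
    intro a b
    induction a using QuotientGroup.induction_on with
    | H a =>
    induction b using QuotientGroup.induction_on with
    | H b =>
    rw [← QuotientGroup.mk_mul, ← QuotientGroup.mk_mul, QuotientGroup.eq]
    apply Cfsg.Agent.Lead.commutator_le_frattini_of_isPGroup p hPG
    have h : (a * b)⁻¹ * (b * a) = b⁻¹ * a⁻¹ * b⁻¹⁻¹ * a⁻¹⁻¹ := by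
      simp [mul_assoc]
    rw [h]
    exact Subgroup.commutator_mem_commutator (H₁ := ⊤) (H₂ := ⊤) (g₁ := b⁻¹) (g₂ := a⁻¹)
      (Subgroup.mem_top _) (Subgroup.mem_top _)
  letI cg : CommGroup (P ⧸ frattini P) :=
    { (inferInstance : Group (P ⧸ frattini P)) with
      mul_comm := hcomm }
  letI md : Module (ZMod p) (Additive (P ⧸ frattini P)) :=
    AddCommGroup.zmodModule (by
      intro x
      induction x using Additive.rec with
      | ofMul x =>
      induction x using QuotientGroup.induction_on with
      | H x =>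
      rw [← ofMul_pow, ← QuotientGroup.mk_pow]
      have := Cfsg.Agent.Lead.pow_mem_frattini_of_isPGroup p hPG x
      rw [(QuotientGroup.eq_one_iff _).mpr this]
      rfl)
  let f : P →* Multiplicative (Additive (P ⧸ frattini P)) :=
    { toFun := fun x => Multiplicative.ofAdd (Additive.ofMul (QuotientGroup.mk x))
      map_one' := rfl
      map_mul' := fun _ _ => rfl }
  have hf : Function.Surjective f := by
    intro y
    obtain ⟨x, hx⟩ := QuotientGroup.mk_surjective (Additive.toMul (Multiplicative.toAdd y))
    exact ⟨x, by show Multiplicative.ofAdd (Additive.ofMul (QuotientGroup.mk x)) = y; rw [hx]; rfl⟩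
  have hker : f.ker = frattini P := by
    ext x
    rw [MonoidHom.mem_ker]
    show (QuotientGroup.mk x : P ⧸ frattini P) = 1 ↔ _
    exact QuotientGroup.eq_one_iff x
  have hcardV : Nat.card (Additive (P ⧸ frattini P)) = p ^ r := by
    rw [← hr]; rfl
  have hfr : Module.finrank (ZMod p) (Additive (P ⧸ frattini P)) = r := by
    haveI : Fintype (Additive (P ⧸ frattini P)) := Fintype.ofFinite _
    have h := Module.card_eq_pow_finrank (K := ZMod p) (V := Additive (P ⧸ frattini P))
    rw [ZMod.card, ← Nat.card_eq_fintype_card, hcardV] at h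
    exact (Nat.pow_right_injective hp.two_le h).symm
  have h1 := Cfsg.Agent.Helper7.card_mulAut_dvd_card_genTuple (P := P) r
  have h2 := Cfsg.Agent.Helper7.card_genTuple p f hf (le_of_eq hker) hfr
  rw [h2, hker] at h1
  have h3 : Nat.card (frattini P) * p ^ r = p ^ n := by
    rw [← hr, ← hP]; exact Subgroup.card_mul_index _
  have hrn : r ≤ n := by
    have : p ^ r ∣ p ^ n := Dvd.intro_left _ h3
    exact (Nat.pow_dvd_pow_iff_le_right hp.one_lt).mp this
  have h4 : Nat.card (frattini P) = p ^ (n - r) := by
    have h5 : p ^ n = p ^ (n - r) * p ^ r := by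
      rw [← pow_add, Nat.sub_add_cancel hrn]
    rw [h5] at h3
    exact Nat.eq_of_mul_eq_mul_right (pow_pos hp.pos r) h3
  rw [h4, ← pow_mul, mul_comm (n - r) r, mul_comm] at h1
  exact h1

end Cfsg.Agent.S4208
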