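import Cfsg.Statements.S4212
import Cfsg.Agent.Helper7.HallFrob

set_option autoImplicit false
open Cfsg

namespace Cfsg.Agent.S4212

theorem result {G : Type*} [Group G] [Finite G] (c : G) (n : ℕ) : Nat.gcd (Nat.card {y : G // IsConj c y} * n) (Nat.card G) ∣ Nat.card {x : G // IsConj c (x ^ n)} := by
  classical
  let _ : Fintype G := Fintype.ofFinite _
  rcases Nat.eq_zero_or_pos n with rfl | hn
  · rw [Nat.mul_zero, Nat.gcd_zero_left]
    by_cases hc : c = 1
    · subst hc
      have h1 : Nat.card {x : G // IsConj (1 : G) (x ^ 0)} = Nat.card G := by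
        apply Nat.card_congr
        exact Equiv.subtypeUnivEquiv (fun x => by rw [pow_zero])
      rw [h1]
    · have h1 : IsEmpty {x : G // IsConj c (x ^ 0)} := by
        refine ⟨fun x => hc ?_⟩
        have h2 := x.2
        rw [pow_zero, isConj_one_left] at h2
        exact h2
      have h3 : Nat.card {x : G // IsConj c (x ^ 0)} = 0 := Nat.card_of_isEmpty
      rw [h3]
      exact dvd_zero _
  rw [Nat.dvd_iff_prime_pow_dvd_dvd]
  intro p k hp hpk
  have hpk1 := hpk.trans (Nat.gcd_dvd_left _ _)
  have hpk2 := hpk.trans (Nat.gcd_dvd_right _ _)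
  obtain ⟨a, m, hpm, hnam⟩ := Nat.exists_eq_pow_mul_and_not_dvd hn.ne' p hp.ne_one
  have hcop : Nat.Coprime (p ^ k) m :=
    Nat.Coprime.pow_left k ((Nat.Prime.coprime_iff_not_dvd hp).2 hpm)
  have hpk3 : p ^ k ∣ Nat.card {y : G // IsConj c y} * p ^ a := by
    apply hcop.dvd_of_dvd_mul_right
    rw [mul_assoc, ← hnam]
    exact hpk1
  have hX : Nat.card {x : G // IsConj c (x ^ n)} =
      ∑ s : G, if IsConj c (s ^ m) then Nat.card {x : G // x ^ (p ^ a) = s} else 0 := by
    rw [Nat.card_eq_fintype_card, Fintype.card_subtype]
    rw [Finset.card_eq_sum_card_fiberwise (f := fun x => x ^ (p ^ a)) (t := Finset.univ)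
      (fun x _ => Finset.mem_univ _)]
    apply Finset.sum_congr rfl
    intro s _
    split_ifs with h
    · rw [Nat.card_eq_fintype_card, Fintype.card_subtype]
      congr 1
      ext x
      simp only [Finset.mem_filter, Finset.mem_univ, true_and]
      constructor
      · exact fun hx => hx.2
      · intro hx
        refine ⟨?_, hx⟩
        rw [hnam, pow_mul, hx]
        exact h
    · rw [Finset.card_eq_zero, Finset.filter_eq_empty_iff]
      intro x hx hxs
      rw [Finset.mem_filter] at hx
      apply h
      rw [← hxs, ← pow_mul, ← hnam]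
      exact hx.2
  rw [hX]
  apply Cfsg.Agent.Helper7.dvd_sum_of_class_fun
  · intro g s
    have h1 : IsConj c ((g * s * g⁻¹) ^ m) ↔ IsConj c (s ^ m) := by
      rw [conj_pow]
      constructor
      · intro h
        exact h.trans (isConj_iff.2 ⟨g⁻¹, by group⟩)
      · intro h
        exact h.trans (isConj_iff.2 ⟨g, rfl⟩)
    have h2 : Nat.card {x : G // x ^ (p ^ a) = g * s * g⁻¹} =
        Nat.card {x : G // x ^ (p ^ a) = s} := by
      apply Nat.card_congr
      refine ⟨fun x => ⟨g⁻¹ * x.1 * g, ?_⟩, fun x => ⟨g * x.1 * g⁻¹, ?_⟩, ?_, ?_⟩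
      · have h3 : g⁻¹ * x.1 * g = g⁻¹ * x.1 * g⁻¹⁻¹ := by rw [inv_inv]
        rw [h3, conj_pow, x.2]
        group
      · rw [conj_pow, x.2]
      · intro x
        apply Subtype.ext
        show g * (g⁻¹ * x.1 * g) * g⁻¹ = x.1
        group
      · intro x
        apply Subtype.ext
        show g⁻¹ * (g * x.1 * g⁻¹) * g = x.1
        group
    simp only [h1, h2]
  · intro s
    split_ifs with h
    · have hh : Nat.card {y : G // IsConj c y} ∣ (Subgroup.centralizer ({s} : Set G)).index := by
        have h1 : Nat.card {y : G // IsConj c y} = Nat.card {y : G // IsConj (s ^ m) y} := by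
          apply Nat.card_congr
          exact Equiv.subtypeEquivRight (fun y => ⟨fun hy => h.symm.trans hy, fun hy => h.trans hy⟩)
        rw [h1, Cfsg.Agent.Helper7.card_isConj_eq_index_centralizer]
        apply Subgroup.index_dvd_of_le
        intro g hg
        rw [Subgroup.mem_centralizer_iff] at hg ⊢
        intro y hy
        rw [Set.mem_singleton_iff] at hy
        subst hy
        have h2 : Commute s g := hg s rfl
        exact h2.pow_left m
      by_cases hps : p ∣ orderOf s
      · exact hpk3.trans (Nat.mul_dvd_mul hh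
          (Cfsg.Agent.Helper7.prime_pow_dvd_card_pow_eq p a hp s hps))
      · have hcop2 : Nat.Coprime (p ^ a) (orderOf s) :=
          Nat.Coprime.pow_left a ((Nat.Prime.coprime_iff_not_dvd hp).2 hps)
        obtain ⟨t, ht⟩ := exists_pow_eq_self_of_coprime hcop2
        have hz : (s ^ t) ^ (p ^ a) = s := by
          rw [← pow_mul, mul_comm, pow_mul, ht]
        have hcs : ∀ w : G, w ∈ Subgroup.centralizer ({s} : Set G) → Commute (s ^ t) w := by
          intro w hw
          rw [Subgroup.mem_centralizer_iff] at hw
          have h2 : Commute s w := hw s rfl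
          exact h2.pow_left t
        have hzc : s ^ t ∈ Subgroup.centralizer ({s} : Set G) := by
          rw [Subgroup.mem_centralizer_iff]
          intro y hy
          rw [Set.mem_singleton_iff] at hy
          subst hy
          exact ((Commute.refl y).pow_right t)
        have hxc : ∀ x : G, x ^ (p ^ a) = s → x ∈ Subgroup.centralizer ({s} : Set G) := by
          intro x hx
          rw [Subgroup.mem_centralizer_iff]
          intro y hy
          rw [Set.mem_singleton_iff] at hy
          subst hy
          rw [← hx]
          exact ((Commute.refl x).pow_left (p ^ a))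
        have hbij : Nat.card {x : G // x ^ (p ^ a) = s} =
            Nat.card {w : Subgroup.centralizer ({s} : Set G) // w ^ (p ^ a) = 1} := by
          apply Nat.card_congr
          refine ⟨fun x => ⟨⟨(s ^ t)⁻¹ * x.1, Subgroup.mul_mem _ (Subgroup.inv_mem _ hzc)
            (hxc x.1 x.2)⟩, ?_⟩, fun w => ⟨s ^ t * w.1.1, ?_⟩, ?_, ?_⟩
          · apply Subtype.ext
            show ((s ^ t)⁻¹ * x.1) ^ (p ^ a) = 1
            have h2 : Commute (s ^ t)⁻¹ x.1 := (hcs x.1 (hxc x.1 x.2)).inv_left
            rw [h2.mul_pow, inv_pow, hz, x.2, inv_mul_cancel]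
          · have h2 : Commute (s ^ t) w.1.1 := hcs w.1.1 w.1.2
            have h3 : (w.1.1) ^ (p ^ a) = 1 := congrArg Subtype.val w.2
            rw [h2.mul_pow, hz, h3, mul_one]
          · intro x
            apply Subtype.ext
            show s ^ t * ((s ^ t)⁻¹ * x.1) = x.1
            group
          · intro w
            apply Subtype.ext
            apply Subtype.ext
            show (s ^ t)⁻¹ * (s ^ t * w.1.1) = w.1.1
            group
        have hfrob := Cfsg.Agent.Helper7.dvd_card_pow_eq_one
          (G := Subgroup.centralizer ({s} : Set G))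
          (Nat.gcd (p ^ a) (Nat.card (Subgroup.centralizer ({s} : Set G))))
          (Nat.gcd_dvd_right _ _)
        have hbij2 : Nat.card {w : Subgroup.centralizer ({s} : Set G) //
            w ^ (Nat.gcd (p ^ a) (Nat.card (Subgroup.centralizer ({s} : Set G)))) = 1} =
            Nat.card {w : Subgroup.centralizer ({s} : Set G) // w ^ (p ^ a) = 1} := by
          apply Nat.card_congr
          apply Equiv.subtypeEquivRight
          intro w
          rw [← orderOf_dvd_iff_pow_eq_one, ← orderOf_dvd_iff_pow_eq_one]
          constructor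
          · intro h2
            exact h2.trans (Nat.gcd_dvd_left _ _)
          · intro h2
            exact Nat.dvd_gcd h2 (orderOf_dvd_natCard w)
        rw [hbij2, ← hbij] at hfrob
        have h5 : p ^ k ∣ (Subgroup.centralizer ({s} : Set G)).index *
            Nat.gcd (p ^ a) (Nat.card (Subgroup.centralizer ({s} : Set G))) := by
          rw [← Nat.gcd_mul_left]
          apply Nat.dvd_gcd
          · exact hpk3.trans (Nat.mul_dvd_mul_right hh _)
          · rw [mul_comm, Subgroup.card_mul_index]
            exact hpk2
        exact h5.trans (Nat.mul_dvd_mul_left _ hfrob)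
    · rw [mul_zero]
      exact dvd_zero _

end Cfsg.Agent.S4212
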