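import Cfsg.Statements.S4213
import Cfsg.Agent.Helper7.Frobenius
import Cfsg.Agent.Helper7.Solvable

set_option autoImplicit false
open Cfsg

namespace Cfsg.Agent.S4213

universe u

/-- Lifting solutions of `y ^ n = 1` through a normal subgroup of exponent `p` prime to `n`. -/
theorem exists_lift {G : Type u} [Group G] (K : Subgroup G) [K.Normal] (p n : ℕ)
    (hK : ∀ x ∈ K, x ^ p = 1) (hpn : Nat.Coprime p n) (yb : G ⧸ K) (hyb : yb ^ n = 1) :
    ∃ y : G, y ^ n = 1 ∧ (y : G ⧸ K) = yb := by
  obtain ⟨y, rfl⟩ := QuotientGroup.mk_surjective yb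
  have h1 : y ^ n ∈ K := by
    rw [← QuotientGroup.eq_one_iff, QuotientGroup.mk_pow]
    exact hyb
  have h2 : y ^ (n * p) = 1 := by
    rw [pow_mul]
    exact hK _ h1
  obtain ⟨k, hk0, hk1⟩ := Nat.chineseRemainder hpn 0 1
  have hk0' : p ∣ k := (Nat.modEq_zero_iff_dvd).1 hk0
  have h3 : (y ^ k) ^ n = 1 := by
    obtain ⟨t, rfl⟩ := hk0'
    rw [← pow_mul, show p * t * n = n * p * t by ring, pow_mul, h2, one_pow]
  refine ⟨y ^ k, h3, ?_⟩
  rw [QuotientGroup.mk_pow]
  have h4 : (y : G ⧸ K) ^ k = (y : G ⧸ K) ^ 1 := by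
    rw [pow_eq_pow_iff_modEq]
    exact hk1.of_dvd (orderOf_dvd_of_pow_eq_one hyb)
  rw [h4, pow_one]

theorem aux (N : ℕ) : ∀ (G : Type u) [Group G] [Finite G] [Group.IsSolvable G], Nat.card G = N →
    ∀ n, n ∣ N → Nat.card {x : G // x ^ n = 1} = n →
    ∃ H : Subgroup G, (H : Set G) = {x : G | x ^ n = 1} := by
  induction N using Nat.strong_induction_on with
  | _ N ih =>
    intro G _ _ _ hG n hn hcount
    by_cases htriv : Subsingleton G
    · refine ⟨⊤, ?_⟩
      ext x
      simp only [Subgroup.coe_top, Set.mem_univ, Set.mem_ofPred_eq, true_iff]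
      rw [Subsingleton.elim x 1, one_pow]
    rw [not_subsingleton_iff_nontrivial] at htriv
    obtain ⟨p, K, hp, hKn, hKbot, hKp, -⟩ := Cfsg.Agent.Helper7.exists_normal_exponent_prime (G := G)
    haveI := hKn
    have hKpos : 0 < Nat.card K := Nat.card_pos
    have hpK : p ∣ Nat.card K := by
      obtain ⟨x, hx1⟩ := (Subgroup.ne_bot_iff_exists_ne_one).1 hKbot
      have h1 : orderOf x.1 ∣ p := orderOf_dvd_of_pow_eq_one (hKp x.1 x.2)
      have h2 : orderOf x.1 ≠ 1 := fun h => hx1 (Subtype.ext (orderOf_eq_one_iff.1 h))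
      have h3 : orderOf x.1 = p := (hp.eq_one_or_self_of_dvd _ h1).resolve_left h2
      rw [← h3]
      exact Subgroup.orderOf_dvd_natCard K x.2
    have hK2 : 2 ≤ Nat.card K := le_trans hp.two_le (Nat.le_of_dvd hKpos hpK)
    have hcardG : Nat.card G = Nat.card (G ⧸ K) * Nat.card K :=
      Subgroup.card_eq_card_quotient_mul_card_subgroup K
    have hQpos : 0 < Nat.card (G ⧸ K) := Nat.card_pos
    have hlt : Nat.card (G ⧸ K) < N := by
      rw [← hG, hcardG]
      nlinarith
    have hnpos : 0 < n := by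
      rw [← hcount]
      exact Nat.card_pos_iff.2 ⟨⟨⟨1, one_pow n⟩⟩, inferInstance⟩
    have hfin : ({x : G | x ^ n = 1} : Set G).Finite := Set.toFinite _
    by_cases hpn : p ∣ n
    · -- `p ∣ n`
      obtain ⟨n', hn'⟩ : ∃ n', n = n' * Nat.gcd n (Nat.card K) :=
        ⟨n / Nat.gcd n (Nat.card K), (Nat.div_mul_cancel (Nat.gcd_dvd_left _ _)).symm⟩
      have hgpos : 0 < Nat.gcd n (Nat.card K) := Nat.gcd_pos_of_pos_left _ hnpos
      have hpg : p ∣ Nat.gcd n (Nat.card K) := Nat.dvd_gcd hpn hpK
      have hn'pos : 0 < n' := by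
        rcases Nat.eq_zero_or_pos n' with h | h
        · rw [h, zero_mul] at hn'
          omega
        · exact h
      have hn'dvd : n' ∣ Nat.card (G ⧸ K) := by
        obtain ⟨c, hc⟩ := Nat.gcd_dvd_right n (Nat.card K)
        have hcop : Nat.Coprime n' c := by
          have h1 := Nat.coprime_div_gcd_div_gcd hgpos (m := n) (n := Nat.card K)
          rwa [Nat.div_eq_of_eq_mul_left hgpos hn', Nat.div_eq_of_eq_mul_right hgpos hc] at h1
        apply hcop.dvd_of_dvd_mul_right
        have h4 : n' * Nat.gcd n (Nat.card K) ∣ Nat.card (G ⧸ K) * c * Nat.gcd n (Nat.card K) := by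
          rw [← hn', mul_assoc, mul_comm c, ← hc, ← hcardG, hG]
          exact hn
        exact Nat.dvd_of_mul_dvd_mul_right hgpos h4
      have hfrob := Cfsg.Agent.Helper7.dvd_card_pow_eq_one (G := G ⧸ K) n' hn'dvd
      have hLpos : 0 < Nat.card {y : G ⧸ K // y ^ n' = 1} :=
        Nat.card_pos_iff.2 ⟨⟨⟨1, one_pow n'⟩⟩, inferInstance⟩
      have hLge : n' ≤ Nat.card {y : G ⧸ K // y ^ n' = 1} := Nat.le_of_dvd hLpos hfrob
      have hsub : (QuotientGroup.mk ⁻¹' {y : G ⧸ K | y ^ n' = 1} : Set G) ⊆ {x : G | x ^ n = 1} := by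
        intro y hy
        have h1 : y ^ n' ∈ K := by
          rw [← QuotientGroup.eq_one_iff, QuotientGroup.mk_pow]
          exact hy
        obtain ⟨g', hg'⟩ := hpg
        show y ^ n = 1
        rw [hn', hg', pow_mul, pow_mul, hKp _ h1, one_pow]
      have hpre : Nat.card (QuotientGroup.mk ⁻¹' {y : G ⧸ K | y ^ n' = 1} : Set G) =
          Nat.card K * Nat.card {y : G ⧸ K // y ^ n' = 1} :=
        QuotientGroup.card_preimage_mk K {y : G ⧸ K | y ^ n' = 1}
      have hle : Nat.card (QuotientGroup.mk ⁻¹' {y : G ⧸ K | y ^ n' = 1} : Set G) ≤ n := by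
        rw [← hcount]
        exact Nat.card_mono hfin hsub
      have hgle : Nat.gcd n (Nat.card K) ≤ Nat.card K :=
        Nat.le_of_dvd hKpos (Nat.gcd_dvd_right _ _)
      have hL : Nat.card {y : G ⧸ K // y ^ n' = 1} = n' := by
        have h1 : Nat.card K * Nat.card {y : G ⧸ K // y ^ n' = 1} ≤ n' * Nat.card K := by
          calc Nat.card K * Nat.card {y : G ⧸ K // y ^ n' = 1} ≤ n := by
                rw [← hpre]; exact hle
            _ = n' * Nat.gcd n (Nat.card K) := hn'
            _ ≤ n' * Nat.card K := Nat.mul_le_mul_left _ hgle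
        have h2 : Nat.card {y : G ⧸ K // y ^ n' = 1} ≤ n' := by
          rw [mul_comm] at h1
          exact Nat.le_of_mul_le_mul_right h1 hKpos
        omega
      have hncard : n ≤ Nat.card (QuotientGroup.mk ⁻¹' {y : G ⧸ K | y ^ n' = 1} : Set G) := by
        rw [hpre, hL, hn', mul_comm]
        exact Nat.mul_le_mul_right _ hgle
      have hseteq : (QuotientGroup.mk ⁻¹' {y : G ⧸ K | y ^ n' = 1} : Set G) = {x : G | x ^ n = 1} := by
        apply Set.eq_of_subset_of_ncard_le hsub _ hfin
        rw [← Nat.card_coe_set_eq, ← Nat.card_coe_set_eq]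
        have h1 : Nat.card ({x : G | x ^ n = 1} : Set G) = n := hcount
        rw [h1]
        exact hncard
      obtain ⟨Hb, hHb⟩ := ih _ hlt (G ⧸ K) rfl n' hn'dvd hL
      refine ⟨Hb.comap (QuotientGroup.mk' K), ?_⟩
      rw [Subgroup.coe_comap, hHb, ← hseteq]
      rfl
    · -- `p ∤ n`
      have hcop : Nat.Coprime p n := (Nat.Prime.coprime_iff_not_dvd hp).2 hpn
      have hKpg : IsPGroup p K := by
        intro x
        refine ⟨1, ?_⟩
        rw [pow_one]
        apply Subtype.ext
        exact hKp x.1 x.2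
      haveI : Fact p.Prime := ⟨hp⟩
      obtain ⟨i, hi⟩ := (IsPGroup.iff_card).1 hKpg
      have hcopK : Nat.Coprime n (Nat.card K) := by
        rw [hi]
        exact Nat.Coprime.pow_right _ hcop.symm
      have hndvd : n ∣ Nat.card (G ⧸ K) := by
        apply hcopK.dvd_of_dvd_mul_right
        rw [← hcardG, hG]
        exact hn
      have hfrob := Cfsg.Agent.Helper7.dvd_card_pow_eq_one (G := G ⧸ K) n hndvd
      have hLpos : 0 < Nat.card {y : G ⧸ K // y ^ n = 1} :=
        Nat.card_pos_iff.2 ⟨⟨⟨1, one_pow n⟩⟩, inferInstance⟩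
      have hLge : n ≤ Nat.card {y : G ⧸ K // y ^ n = 1} := Nat.le_of_dvd hLpos hfrob
      have hLle : Nat.card {y : G ⧸ K // y ^ n = 1} ≤ n := by
        have hmap : ∀ x : {x : G // x ^ n = 1}, ((x.1 : G) : G ⧸ K) ^ n = 1 := by
          intro x
          rw [← QuotientGroup.mk_pow, x.2]
          rfl
        have hsurj : Function.Surjective
            (fun x : {x : G // x ^ n = 1} => (⟨((x.1 : G) : G ⧸ K), hmap x⟩ :
              {y : G ⧸ K // y ^ n = 1})) := by
          rintro ⟨yb, hyb⟩
          obtain ⟨y, hy, hy'⟩ := exists_lift K p n hKp hcop yb hyb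
          exact ⟨⟨y, hy⟩, Subtype.ext hy'⟩
        have h1 := Nat.card_le_card_of_surjective _ hsurj
        rwa [hcount] at h1
      have hL : Nat.card {y : G ⧸ K // y ^ n = 1} = n := le_antisymm hLle hLge
      obtain ⟨Hb, hHb⟩ := ih _ hlt (G ⧸ K) rfl n hndvd hL
      have hHbcard : Nat.card (Hb : Set (G ⧸ K)) = n := by
        rw [hHb]
        exact hL
      have hKH : K ≤ Hb.comap (QuotientGroup.mk' K) := by
        intro x hx
        rw [Subgroup.mem_comap]
        have h1 : (QuotientGroup.mk' K) x = 1 := (QuotientGroup.eq_one_iff x).2 hx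
        rw [h1]
        exact one_mem _
      have hHcard : Nat.card (Hb.comap (QuotientGroup.mk' K)) = Nat.card K * n := by
        have h1 := QuotientGroup.card_preimage_mk K (Hb : Set (G ⧸ K))
        rw [hHbcard] at h1
        rw [← h1]
        rfl
      -- Schur–Zassenhaus inside `H`
      have hNcard : Nat.card (K.subgroupOf (Hb.comap (QuotientGroup.mk' K))) = Nat.card K :=
        Nat.card_congr (Subgroup.subgroupOfEquivOfLe hKH).toEquiv
      have hNidx : (K.subgroupOf (Hb.comap (QuotientGroup.mk' K))).index = n := by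
        have h1 := Subgroup.card_mul_index (K.subgroupOf (Hb.comap (QuotientGroup.mk' K)))
        rw [hNcard, hHcard] at h1
        exact Nat.eq_of_mul_eq_mul_left hKpos h1
      obtain ⟨C, hC⟩ := Subgroup.exists_right_complement'_of_coprime
        (N := K.subgroupOf (Hb.comap (QuotientGroup.mk' K))) (by rw [hNcard, hNidx]; exact hcopK.symm)
      have hCcard : Nat.card C = n := by
        have h1 := hC.card_mul_card
        rw [hNcard, hHcard] at h1
        exact Nat.eq_of_mul_eq_mul_left hKpos h1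
      refine ⟨C.map (Subgroup.subtype _), ?_⟩
      have hsub : ((C.map (Subgroup.subtype _) : Subgroup G) : Set G) ⊆ {x : G | x ^ n = 1} := by
        rintro x ⟨c, hc, rfl⟩
        have h1 : (⟨c, hc⟩ : C) ^ n = 1 := by
          rw [← hCcard]
          exact pow_card_eq_one'
        have h2 : c ^ n = 1 := congrArg Subtype.val h1
        show (c : G) ^ n = 1
        rw [← Subgroup.coe_pow, h2]
        rfl
      apply Set.eq_of_subset_of_ncard_le hsub _ hfin
      rw [← Nat.card_coe_set_eq, ← Nat.card_coe_set_eq]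
      have h1 : Nat.card ({x : G | x ^ n = 1} : Set G) = n := hcount
      have h2 : Nat.card ((C.map (Subgroup.subtype _) : Subgroup G) : Set G) = n := by
        rw [← hCcard]
        exact Nat.card_congr (C.equivMapOfInjective _ (Subgroup.subtype_injective _)).symm.toEquiv
      rw [h1, h2]

/-- If `G` is a finite solvable group and `n` divides the order of `G` and exactly `n` elements `x` of `G` satisfy `x^n = 1`, then these elements form a normal subgroup. -/
theorem result {G : Type*} [Group G] [Finite G] [Group.IsSolvable G] (n : ℕ) (hn : n ∣ Nat.card G) (hcount : Nat.card {x : G // x ^ n = 1} = n) : ∃ H : Subgroup G, H.Normal ∧ (H : Set G) = {x : G | x ^ n = 1} := by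
  obtain ⟨H, hH⟩ := aux (Nat.card G) G rfl n hn hcount
  refine ⟨H, ⟨?_⟩, hH⟩
  intro x hx g
  rw [← SetLike.mem_coe, hH] at hx ⊢
  show (g * x * g⁻¹) ^ n = 1
  have hx' : x ^ n = 1 := hx
  rw [conj_pow, hx', mul_one, mul_inv_cancel]

end Cfsg.Agent.S4213
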