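import Cfsg.Statements.S4217
import Mathlib
import Cfsg.Agent.Helper6.Gaschutz2
-- import your own Cfsg.Agent.* helpers here

set_option autoImplicit false
open Cfsg

namespace Cfsg.Agent.S4217

/-- Let `A` be an abelian normal subgroup of the finite group `G`. Then `A` has a complement in `G` if and only if, for every prime `p` dividing the index of `A`, there are a Sylow `p`-subgroup `S` of `G/A` and a subgroup `K` of `G` with `K ∩ A = 1` and `KA` equal to the preimage of `S` (that is, `A` has a complement in the preimage of a Sylow `p`-subgroup of `G/A`). -/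
theorem result {G : Type*} [Group G] [Finite G] (A : Subgroup G) [A.Normal] (hA : IsMulCommutative A) : (∃ K : Subgroup G, K.IsComplement' A) ↔ ∀ p : ℕ, p.Prime → p ∣ A.index → ∃ (S : Sylow p (G ⧸ A)) (K : Subgroup G), K ⊓ A = ⊥ ∧ K ⊔ A = (S : Subgroup (G ⧸ A)).comap (QuotientGroup.mk' A) := by
  constructor
  · rintro ⟨K, hc⟩ p hp hd
    haveI : Fact p.Prime := ⟨hp⟩
    obtain ⟨S⟩ : Nonempty (Sylow p (G ⧸ A)) := inferInstance
    have hAle : A ≤ (S : Subgroup (G ⧸ A)).comap (QuotientGroup.mk' A) := by
      intro a ha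
      rw [Subgroup.mem_comap]
      have : QuotientGroup.mk' A a = 1 := (QuotientGroup.eq_one_iff a).mpr ha
      rw [this]; exact Subgroup.one_mem _
    refine ⟨S, K ⊓ (S : Subgroup (G ⧸ A)).comap (QuotientGroup.mk' A), ?_, ?_⟩
    · have h0 : K ⊓ A = ⊥ := disjoint_iff.mp hc.disjoint
      rw [eq_bot_iff, ← h0]
      exact inf_le_inf_right A inf_le_left
    · apply le_antisymm
      · exact sup_le inf_le_right hAle
      · intro x hx
        obtain ⟨⟨⟨k, hk⟩, ⟨a, ha⟩⟩, hka, -⟩ := hc.existsUnique x
        simp only at hka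
        have hkS : k ∈ (S : Subgroup (G ⧸ A)).comap (QuotientGroup.mk' A) := by
          have e : k = x * a⁻¹ := by rw [← hka]; group
          rw [e]
          exact Subgroup.mul_mem _ hx (Subgroup.inv_mem _ (hAle ha))
        rw [← hka]
        exact Subgroup.mul_mem_sup (Subgroup.mem_inf.mpr ⟨hk, hkS⟩) ha
  · intro h
    have hker : (QuotientGroup.mk' A).ker = A := QuotientGroup.ker_mk' A
    have hB : ∀ a ∈ (QuotientGroup.mk' A).ker, ∀ b ∈ (QuotientGroup.mk' A).ker, a * b = b * a := by
      rw [hker]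
      intro a ha b hb
      have := hA.is_comm.comm (⟨a, ha⟩ : A) ⟨b, hb⟩
      exact congrArg Subtype.val this
    obtain ⟨f, hf⟩ := Cfsg.Agent.Helper6.gaschutz_lift_local (Nat.card G) G rfl
      (QuotientGroup.mk' A) (QuotientGroup.mk'_surjective A) hB (MonoidHom.id (G ⧸ A)) (by
        intro p hp
        haveI : Fact p.Prime := ⟨hp⟩
        by_cases hd : p ∣ A.index
        · obtain ⟨S, K, h1, h2⟩ := h p hp hd
          obtain ⟨ψ, hψ⟩ := Cfsg.Agent.Helper6.exists_partial_section A K h1 (S : Subgroup (G ⧸ A)) h2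
          exact ⟨S, S.isPGroup', S.not_dvd_index, ψ, fun x => hψ x⟩
        · refine ⟨⊥, IsPGroup.of_bot, ?_, 1, ?_⟩
          · rw [Subgroup.index_bot, ← Subgroup.index_eq_card]; exact hd
          · intro x
            have hx : (x : G ⧸ A) = 1 := Subgroup.mem_bot.mp x.2
            show QuotientGroup.mk' A 1 = (x : G ⧸ A)
            rw [hx, map_one])
    exact ⟨f.range, (Cfsg.Agent.Helper6.isComplement'_range_of_section A f hf).symm⟩

end Cfsg.Agent.S4217
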