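import Cfsg.Statements.S4218
import Cfsg.Agent.Helper4.HH123
import Cfsg.Agent.Helper4.FratFaithful

set_option autoImplicit false
open Cfsg

namespace Cfsg.Agent.S4218

open scoped commutatorElement in
theorem s4218_aux {G : Type*} [Group G] [Finite G] {p : ℕ} [Fact p.Prime] (hG : Cfsg.IsPSolvable p G)
    [hn : ((Cfsg.pPrimeCore p G).subgroupOf (Cfsg.pPrimePCore p G)).Normal] (g : G) :
    (∀ x ∈ Cfsg.pPrimePCore p G, g * x * g⁻¹ * x⁻¹ ∈ ((frattini (↥(Cfsg.pPrimePCore p G) ⧸ (Cfsg.pPrimeCore p G).subgroupOf (Cfsg.pPrimePCore p G))).comap (QuotientGroup.mk' ((Cfsg.pPrimeCore p G).subgroupOf (Cfsg.pPrimePCore p G)))).map (Cfsg.pPrimePCore p G).subtype) ↔ g ∈ Cfsg.pPrimePCore p G := by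
  have hNn : (Cfsg.pPrimeCore p G).Normal := Cfsg.Agent.Helper5.pPrimeCore_normal' p G
  have hO := Cfsg.Agent.Helper3.pPrimeCore_quotient_eq_bot p G
  have hhh := Cfsg.Agent.Helper4.hh123
    (Cfsg.Agent.Helper4.isPSolvable_quotient hG (Cfsg.pPrimeCore p G)) hO
  have hRn : (Cfsg.pCore p (G ⧸ Cfsg.pPrimeCore p G)).Normal := Cfsg.Agent.Helper5.pCore_normal p _
  have hRp : IsPGroup p (Cfsg.pCore p (G ⧸ Cfsg.pPrimeCore p G)) := Cfsg.Agent.Helper5.pCore_isPGroup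
  let θ : ↥(Cfsg.pPrimePCore p G) →* ↥(Cfsg.pCore p (G ⧸ Cfsg.pPrimeCore p G)) :=
    ((QuotientGroup.mk' (Cfsg.pPrimeCore p G)).comp (Cfsg.pPrimePCore p G).subtype).codRestrict _
      (fun k => k.2)
  have hθ : ∀ k : ↥(Cfsg.pPrimePCore p G), ((θ k : ↥(Cfsg.pCore p (G ⧸ Cfsg.pPrimeCore p G))) :
      G ⧸ Cfsg.pPrimeCore p G) = QuotientGroup.mk' (Cfsg.pPrimeCore p G) (k : G) := fun k => rfl
  have hker : (Cfsg.pPrimeCore p G).subgroupOf (Cfsg.pPrimePCore p G) ≤ θ.ker := by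
    intro k hk
    rw [MonoidHom.mem_ker]
    apply Subtype.ext
    rw [hθ]
    exact (QuotientGroup.eq_one_iff _).mpr (Subgroup.mem_subgroupOf.mp hk)
  have hθ' : ∀ k : ↥(Cfsg.pPrimePCore p G),
      (QuotientGroup.lift ((Cfsg.pPrimeCore p G).subgroupOf (Cfsg.pPrimePCore p G)) θ hker)
        (QuotientGroup.mk' ((Cfsg.pPrimeCore p G).subgroupOf (Cfsg.pPrimePCore p G)) k) = θ k :=
    fun k => rfl
  have hKq : IsPGroup p (↥(Cfsg.pPrimePCore p G) ⧸ (Cfsg.pPrimeCore p G).subgroupOf (Cfsg.pPrimePCore p G)) := by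
    intro y
    obtain ⟨k, rfl⟩ := QuotientGroup.mk'_surjective _ y
    obtain ⟨j, hj⟩ := hRp (θ k)
    refine ⟨j, ?_⟩
    rw [← map_pow]
    apply (QuotientGroup.eq_one_iff _).mpr
    rw [Subgroup.mem_subgroupOf]
    have h0 := congrArg Subtype.val hj
    rw [Subgroup.coe_pow, Subgroup.coe_one, hθ, ← map_pow] at h0
    rw [Subgroup.coe_pow]
    exact (QuotientGroup.eq_one_iff _).mp h0
  constructor
  · intro hg
    have hFn : ((frattini ↥(Cfsg.pCore p (G ⧸ Cfsg.pPrimeCore p G))).map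
        (Cfsg.pCore p (G ⧸ Cfsg.pPrimeCore p G)).subtype).Normal :=
      ConjAct.normal_of_characteristic_of_normal
    have hD := Cfsg.Agent.Helper4.fratStab_isPGroup _ hRn hRp hhh hFn
    have hDn := Cfsg.Agent.Helper4.fratStab_normal _ hRn _ hFn
    have hDle := Cfsg.Agent.Helper5.le_pCore _ hDn hD
    show QuotientGroup.mk' (Cfsg.pPrimeCore p G) g ∈ Cfsg.pCore p (G ⧸ Cfsg.pPrimeCore p G)
    apply hDle
    rw [Cfsg.Agent.Helper4.mem_fratStab]
    intro r hr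
    obtain ⟨k, rfl⟩ := QuotientGroup.mk'_surjective _ r
    have hk : k ∈ Cfsg.pPrimePCore p G := hr
    obtain ⟨f', hf', hfeq⟩ := Subgroup.mem_map.mp (hg k hk)
    have h1 := Cfsg.Agent.Helper4.frattini_map_mem p hRp
      (QuotientGroup.lift ((Cfsg.pPrimeCore p G).subgroupOf (Cfsg.pPrimePCore p G)) θ hker) _
      (Subgroup.mem_comap.mp hf')
    rw [hθ'] at h1
    refine Subgroup.mem_map.mpr ⟨θ f', h1, ?_⟩
    have hfeq' : (f' : G) = g * k * g⁻¹ * k⁻¹ := hfeq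
    show QuotientGroup.mk' (Cfsg.pPrimeCore p G) (f' : G) = _
    rw [hfeq', map_mul, map_mul, map_mul, map_inv, map_inv]
  · intro hg x hx
    refine Subgroup.mem_map.mpr ⟨⟨g, hg⟩ * ⟨x, hx⟩ * ⟨g, hg⟩⁻¹ * ⟨x, hx⟩⁻¹, ?_, rfl⟩
    rw [Subgroup.mem_comap]
    apply Cfsg.Agent.Lead.commutator_le_frattini_of_isPGroup p hKq
    rw [map_mul, map_mul, map_mul, map_inv, map_inv, ← commutatorElement_def]
    exact Subgroup.commutator_mem_commutator (Subgroup.mem_top _) (Subgroup.mem_top _)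

/-- Let `G` be a finite `p`-solvable group, `N₀ = O_{p'}(G)`, `P₁ = O_{p',p}(G)`, and let `F ≤ P₁` be the preimage of the Frattini subgroup of `P₁/N₀`. Then an element `g` of `G` induces the identity on `P₁/F` by conjugation (that is, `g x g⁻¹ x⁻¹ ∈ F` for all `x ∈ P₁`) if and only if `g ∈ P₁`: the group `G/P₁` acts faithfully on `P₁/F`. -/
theorem result {G : Type*} [Group G] [Finite G] {p : ℕ} [Fact p.Prime] (hG : Cfsg.IsPSolvable p G) (g : G) : (∀ x ∈ Cfsg.pPrimePCore p G, g * x * g⁻¹ * x⁻¹ ∈ ((frattini (↥(Cfsg.pPrimePCore p G) ⧸ (Cfsg.pPrimeCore p G).subgroupOf (Cfsg.pPrimePCore p G))).comap (QuotientGroup.mk' ((Cfsg.pPrimeCore p G).subgroupOf (Cfsg.pPrimePCore p G)))).map (Cfsg.pPrimePCore p G).subtype) ↔ g ∈ Cfsg.pPrimePCore p G := s4218_aux hG g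

end Cfsg.Agent.S4218
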