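import Cfsg.Statements.S4219
import Mathlib
import Cfsg.Agent.Helper7.RelSylow

set_option autoImplicit false
open Cfsg

namespace Cfsg.Agent.S4219

open Cfsg.Agent.Helper7 in
theorem result {G : Type*} [Group G] [Finite G] {α : Type*} [Fintype α] [MulAction G α] {t : ℕ} (hG : MulAction.IsMultiplyPretransitive G α t) (x : Fin t ↪ α) {p : ℕ} [Fact p.Prime] (P : Sylow p (MulAction.stabilizer G x)) (a b : Fin t ↪ α) (ha : ∀ i, a i ∈ MulAction.fixedPoints ((P : Subgroup (MulAction.stabilizer G x)).map (MulAction.stabilizer G x).subtype) α) (hb : ∀ i, b i ∈ MulAction.fixedPoints ((P : Subgroup (MulAction.stabilizer G x)).map (MulAction.stabilizer G x).subtype) α) : ∃ g ∈ Subgroup.normalizer ((((P : Subgroup (MulAction.stabilizer G x)).map (MulAction.stabilizer G x).subtype) : Subgroup G) : Set G), g • a = b := by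
  haveI := hG
  set P' : Subgroup G :=
    (P : Subgroup (MulAction.stabilizer G x)).map (MulAction.stabilizer G x).subtype with hP'
  have hP'p : IsPGroup p P' := P.isPGroup'.map _
  have hfa : ∀ u ∈ P', u • a = a := by
    intro u hu
    ext i
    rw [Function.Embedding.smul_apply]
    exact (ha i) ⟨u, hu⟩
  have hfb : ∀ u ∈ P', u • b = b := by
    intro u hu
    ext i
    rw [Function.Embedding.smul_apply]
    exact (hb i) ⟨u, hu⟩
  have hP'b : P' ≤ MulAction.stabilizer G b := fun u hu => hfb u hu
  have hP'x : P' ≤ MulAction.stabilizer G x := by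
    rintro _ ⟨u, _, rfl⟩
    exact u.2
  obtain ⟨k, hk⟩ := MulAction.exists_smul_eq G x b
  have hcard : Nat.card (MulAction.stabilizer G b) = Nat.card (MulAction.stabilizer G x) := by
    rw [← hk, MulAction.stabilizer_smul_eq_stabilizer_map_conj]
    exact Nat.card_congr ((MulAction.stabilizer G x).equivMapOfInjective _
      (MulAut.conj k).injective).toEquiv.symm
  have hrel : ∀ S : Subgroup G, P' ≤ S → Nat.card P' * P'.relIndex S = Nat.card S := by
    intro S hS
    have h := Subgroup.card_mul_index (P'.subgroupOf S)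
    rw [Nat.card_congr (Subgroup.subgroupOfEquivOfLe hS).toEquiv] at h
    exact h
  have hidx : ¬ p ∣ P'.relIndex (MulAction.stabilizer G b) := by
    have h1 := hrel _ hP'b
    have h2 := hrel _ hP'x
    rw [hcard, ← h2] at h1
    have h3 : P'.relIndex (MulAction.stabilizer G b) = P'.relIndex (MulAction.stabilizer G x) :=
      Nat.eq_of_mul_eq_mul_left Nat.card_pos h1
    rw [h3]
    have h4 : P'.relIndex (MulAction.stabilizer G x)
        = (P : Subgroup (MulAction.stabilizer G x)).index := by
      unfold Subgroup.relIndex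
      have h5 : P'.subgroupOf (MulAction.stabilizer G x) = (P : Subgroup (MulAction.stabilizer G x)) :=
        Subgroup.comap_map_eq_self_of_injective (MulAction.stabilizer G x).subtype_injective _
      rw [h5]
    rw [h4]
    exact P.not_dvd_index
  obtain ⟨h, hh⟩ := MulAction.exists_smul_eq G a b
  have hQp : IsPGroup p (P'.map (MulAut.conj h).toMonoidHom) := hP'p.map _
  have hQb : P'.map (MulAut.conj h).toMonoidHom ≤ MulAction.stabilizer G b := by
    rintro _ ⟨u, hu, rfl⟩
    show (h * u * h⁻¹) • b = b
    rw [mul_smul, mul_smul, ← hh, inv_smul_smul, hfa u hu]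
  obtain ⟨c, hc, hcQ⟩ := exists_conj_le_of_not_dvd_relIndex (MulAction.stabilizer G b) P'
    (P'.map (MulAut.conj h).toMonoidHom) hP'p hidx hQp hQb
  refine ⟨c * h, ?_, ?_⟩
  · apply Subgroup.mem_normalizer_fintype
    intro n hn
    have h6 := hcQ (h * n * h⁻¹) ⟨n, hn, rfl⟩
    have e : c * h * n * (c * h)⁻¹ = c * (h * n * h⁻¹) * c⁻¹ := by group
    rw [e]
    exact h6
  · rw [mul_smul, hh]
    exact hc

end Cfsg.Agent.S4219
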