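import Cfsg.Statements.S4222
import Mathlib

set_option autoImplicit false
open Cfsg

namespace Cfsg.Agent.S4222

theorem result {T : Type*} [Group T] [Finite T] (N : Subgroup T) [N.Normal] (hz : Subgroup.center ↥N = ⊥) (ha : Function.Surjective (MulAut.conj : ↥N →* MulAut ↥N)) : (Subgroup.centralizer (N : Set T)).IsComplement' N := by
  apply Subgroup.isComplement'_of_disjoint_and_mul_eq_univ
  · rw [Subgroup.disjoint_def]
    intro x hxC hxN
    have hcen : (⟨x, hxN⟩ : N) ∈ Subgroup.center ↥N := by
      rw [Subgroup.mem_center_iff]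
      intro g
      apply Subtype.ext
      rw [Subgroup.mem_centralizer_iff] at hxC
      exact hxC g.1 g.2
    rw [hz, Subgroup.mem_bot] at hcen
    exact congrArg Subtype.val hcen
  · rw [Set.eq_univ_iff_forall]
    intro t
    obtain ⟨n, hn⟩ := ha (MulAut.conjNormal t)
    have key : ∀ m : N, (n : T) * m * (n : T)⁻¹ = t * m * t⁻¹ := by
      intro m
      have h1 := congrArg (fun φ : MulAut ↥N => ((φ m : N) : T)) hn
      simp only [MulAut.conjNormal_apply, MulAut.conj_apply] at h1
      simpa using h1
    refine ⟨t * (n : T)⁻¹, ?_, (n : T), n.2, by group⟩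
    show t * (n : T)⁻¹ ∈ Subgroup.centralizer (N : Set T)
    rw [Subgroup.mem_centralizer_iff]
    intro m hm
    have hm' : (n : T)⁻¹ * m * (n : T) ∈ N := by
      have := N.mul_mem (N.mul_mem (N.inv_mem n.2) hm) n.2
      exact this
    have h2 := key ⟨(n : T)⁻¹ * m * (n : T), hm'⟩
    simp only at h2
    have h3 : (n : T) * ((n : T)⁻¹ * m * (n : T)) * (n : T)⁻¹ = m := by group
    rw [h3] at h2
    nth_rewrite 1 [h2]
    group

end Cfsg.Agent.S4222
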