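import Cfsg.Statements.S4224
import Cfsg.Agent.Helper8.RegularP2

set_option autoImplicit false
open Cfsg

namespace Cfsg.Agent.S4224

/-- In a regular `p`-group, for all elements `a`, `b` and every power `q = p^k`: `a^q` commutes with `b` if and only if the commutator `a⁻¹b⁻¹ab` has `q`-th power equal to `1`. -/
theorem result {G : Type*} [Group G] [Finite G] {p : ℕ} [Fact p.Prime] (hG : Cfsg.IsRegularPGroup p G) (a b : G) (k : ℕ) : a ^ p ^ k * b = b * a ^ p ^ k ↔ (a⁻¹ * b⁻¹ * a * b) ^ p ^ k = 1 := by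
  have h := Cfsg.Agent.Helper8.RegP.reg_pow_eq_iff hG.1 (fun a b => hG.2 a b k) (b⁻¹ * a * b) a
  have e1 : (b⁻¹ * a * b) ^ p ^ k = b⁻¹ * a ^ p ^ k * b := by
    have e0 := conj_pow (a := b⁻¹) (b := a) (i := p ^ k)
    rwa [inv_inv] at e0
  have e2 : a⁻¹ * b⁻¹ * a * b = a⁻¹ * (b⁻¹ * a * b * a⁻¹) * a⁻¹⁻¹ := by group
  constructor
  · intro hc
    have h1 : (b⁻¹ * a * b * a⁻¹) ^ p ^ k = 1 := by
      apply h.1
      rw [e1, mul_assoc, hc, inv_mul_cancel_left]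
    rw [e2, conj_pow, h1, mul_one, mul_inv_cancel]
  · intro hc
    have h1 : (b⁻¹ * a * b * a⁻¹) ^ p ^ k = 1 := by
      rw [e2, conj_pow] at hc
      have e3 : (b⁻¹ * a * b * a⁻¹) ^ p ^ k =
          a * (a⁻¹ * (b⁻¹ * a * b * a⁻¹) ^ p ^ k * a⁻¹⁻¹) * a⁻¹ := by group
      rw [e3, hc, mul_one, mul_inv_cancel]
    have h2 := h.2 h1
    rw [e1] at h2
    calc a ^ p ^ k * b = b * (b⁻¹ * a ^ p ^ k * b) := by group
      _ = b * a ^ p ^ k := by rw [h2]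

end Cfsg.Agent.S4224
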