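import Cfsg.Statements.S4275
import Mathlib

set_option autoImplicit false
open Cfsg

namespace Cfsg.Agent.S4275

/-- Let G be a transitive group of permutations of a finite set Ω, let o ∈ Ω, and let α be an automorphism of G. Then α is induced by conjugation by a permutation of Ω normalizing G if and only if the image under α of the stabilizer of o fixes some point of Ω. -/
theorem result {Ω : Type*} [Fintype Ω] (G : Subgroup (Equiv.Perm Ω)) (htr : MulAction.IsPretransitive G Ω) (o : Ω) (α : G ≃* G) : (∃ σ : Equiv.Perm Ω, σ ∈ Subgroup.normalizer (G : Set (Equiv.Perm Ω)) ∧ ∀ g : G, ((α g : G) : Equiv.Perm Ω) = σ * (g : Equiv.Perm Ω) * σ⁻¹) ↔ ∃ ω : Ω, ∀ g ∈ (MulAction.stabilizer G o).map α.toMonoidHom, g • ω = ω := by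
  classical
  have hsmul : ∀ (g : G) (x : Ω), g • x = (g : Equiv.Perm Ω) x := fun g x => rfl
  constructor
  · rintro ⟨σ, -, hσ⟩
    refine ⟨σ o, ?_⟩
    rintro _ ⟨g, hg, rfl⟩
    have hg' : g • o = o := hg
    show (α g) • σ o = σ o
    rw [hsmul, hσ g]
    simp only [Equiv.Perm.mul_apply]
    have e1 : σ⁻¹ (σ o) = o := by simp
    rw [e1, ← hsmul, hg']
  · rintro ⟨ω, hω⟩
    have hfwd : ∀ g : G, g • o = o → (α g) • ω = ω := by
      intro g hg
      exact hω (α g) ⟨g, hg, rfl⟩
    -- stabilizers have the same order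
    have hidx : ∀ x : Ω, (MulAction.stabilizer G x).index = Nat.card Ω := by
      intro x
      rw [MulAction.index_stabilizer, MulAction.orbit_eq_univ, Set.ncard_univ]
    have hcard : Nat.card (MulAction.stabilizer G o) = Nat.card (MulAction.stabilizer G ω) := by
      have h1 := Subgroup.card_mul_index (MulAction.stabilizer G o)
      have h2 := Subgroup.card_mul_index (MulAction.stabilizer G ω)
      rw [hidx] at h1 h2
      have h3 : 0 < Nat.card Ω := Nat.card_pos_iff.2 ⟨⟨o⟩, inferInstance⟩
      have h4 : Nat.card (MulAction.stabilizer G o) * Nat.card Ω =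
          Nat.card (MulAction.stabilizer G ω) * Nat.card Ω := by rw [h1, h2]
      exact Nat.eq_of_mul_eq_mul_right h3 h4
    have hbij : Function.Bijective (fun g : MulAction.stabilizer G o =>
        (⟨α g, hfwd g g.2⟩ : MulAction.stabilizer G ω)) := by
      rw [Fintype.bijective_iff_injective_and_card]
      constructor
      · intro g h hgh
        have h1 : α (g : G) = α (h : G) := congrArg Subtype.val hgh
        exact Subtype.ext (α.injective h1)
      · rw [← Nat.card_eq_fintype_card, ← Nat.card_eq_fintype_card, hcard]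
    have hbwd : ∀ g : G, (α g) • ω = ω → g • o = o := by
      intro g hg
      obtain ⟨g₀, hg₀⟩ := hbij.2 ⟨α g, hg⟩
      have h1 : α (g₀ : G) = α g := congrArg Subtype.val hg₀
      have h2 : (g₀ : G) = g := α.injective h1
      rw [← h2]
      exact g₀.2
    have key : ∀ g h : G, g • o = h • o ↔ (α g) • ω = (α h) • ω := by
      intro g h
      constructor
      · intro hgh
        have h1 : (h⁻¹ * g) • o = o := by
          rw [mul_smul, hgh, inv_smul_smul]
        have h2 := hfwd _ h1
        rw [map_mul, map_inv, mul_smul, inv_smul_eq_iff] at h2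
        exact h2
      · intro hgh
        have h1 : (α (h⁻¹ * g)) • ω = ω := by
          rw [map_mul, map_inv, mul_smul, hgh, inv_smul_smul]
        have h2 := hbwd _ h1
        rw [mul_smul, inv_smul_eq_iff] at h2
        exact h2
    choose gx hgx using fun x : Ω => MulAction.exists_smul_eq G o x
    have hσ1 : ∀ g : G, (α (gx (g • o))) • ω = (α g) • ω := by
      intro g
      exact (key _ _).1 (hgx (g • o))
    have hinj : Function.Injective (fun x : Ω => (α (gx x)) • ω) := by
      intro x y hxy
      have h1 := (key _ _).2 hxy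
      rw [hgx, hgx] at h1
      exact h1
    have hbijσ : Function.Bijective (fun x : Ω => (α (gx x)) • ω) :=
      Finite.injective_iff_bijective.1 hinj
    obtain ⟨σ, hσdef⟩ : ∃ σ : Equiv.Perm Ω, ∀ x, σ x = (α (gx x)) • ω :=
      ⟨Equiv.ofBijective _ hbijσ, fun x => rfl⟩
    have hσo : ∀ g : G, σ (g • o) = (α g) • ω := by
      intro g
      rw [hσdef, hσ1]
    have hconj : ∀ (g : G) (x : Ω), σ (g • x) = (α g) • σ x := by
      intro g x
      rw [← hgx x, ← mul_smul, hσo, hσo, map_mul, mul_smul]
    have hconj' : ∀ g : G, ((α g : G) : Equiv.Perm Ω) = σ * (g : Equiv.Perm Ω) * σ⁻¹ := by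
      intro g
      apply Equiv.ext
      intro x
      simp only [Equiv.Perm.mul_apply]
      have e1 : σ (σ⁻¹ x) = x := by simp
      rw [← hsmul g, hconj, hsmul, e1]
    refine ⟨σ, ?_, hconj'⟩
    rw [Subgroup.mem_normalizer_iff]
    intro h
    constructor
    · intro hh
      rw [← hconj' ⟨h, hh⟩]
      exact (α ⟨h, hh⟩).2
    · intro hh
      have h1 := hconj' (α.symm ⟨σ * h * σ⁻¹, hh⟩)
      rw [MulEquiv.apply_symm_apply] at h1
      have h2 : h = ((α.symm ⟨σ * h * σ⁻¹, hh⟩ : G) : Equiv.Perm Ω) := by
        have h3 : σ * h * σ⁻¹ = σ * ((α.symm ⟨σ * h * σ⁻¹, hh⟩ : G) : Equiv.Perm Ω) * σ⁻¹ := h1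
        have h4 := mul_right_cancel h3
        exact mul_left_cancel h4
      rw [h2]
      exact (α.symm ⟨σ * h * σ⁻¹, hh⟩).2

end Cfsg.Agent.S4275
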