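import Cfsg.Statements.S4293
import Mathlib
import Cfsg.Agent.Helper7.FrobConstruct

set_option autoImplicit false
open Cfsg

namespace Cfsg.Agent.S4293

/-- The action of the units of a ring on a module, as automorphisms of the (multiplicative
version of the) additive group. -/
def modAct (Λ A : Type*) [Ring Λ] [AddCommGroup A] [Module Λ A] :
    Λˣ →* MulAut (Multiplicative A) where
  toFun u :=
    { toFun := fun v => Multiplicative.ofAdd ((u : Λ) • v.toAdd)
      invFun := fun v => Multiplicative.ofAdd ((↑u⁻¹ : Λ) • v.toAdd)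
      left_inv := fun v => by
        apply Multiplicative.toAdd.injective
        show (↑u⁻¹ : Λ) • ((u : Λ) • v.toAdd) = v.toAdd
        rw [smul_smul, Units.inv_mul, one_smul]
      right_inv := fun v => by
        apply Multiplicative.toAdd.injective
        show (u : Λ) • ((↑u⁻¹ : Λ) • v.toAdd) = v.toAdd
        rw [smul_smul, Units.mul_inv, one_smul]
      map_mul' := fun v w => by
        apply Multiplicative.toAdd.injective
        show (u : Λ) • (v.toAdd + w.toAdd) = (u : Λ) • v.toAdd + (u : Λ) • w.toAdd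
        exact smul_add _ _ _ }
  map_one' := by
    refine MulEquiv.ext (fun v => ?_)
    apply Multiplicative.toAdd.injective
    show ((1 : Λˣ) : Λ) • v.toAdd = v.toAdd
    rw [Units.val_one, one_smul]
  map_mul' u w := by
    refine MulEquiv.ext (fun v => ?_)
    apply Multiplicative.toAdd.injective
    show ((u * w : Λˣ) : Λ) • v.toAdd = (u : Λ) • ((w : Λ) • v.toAdd)
    rw [Units.val_mul, mul_smul]

theorem modAct_apply (Λ A : Type*) [Ring Λ] [AddCommGroup A] [Module Λ A] (u : Λˣ)
    (v : Multiplicative A) : (modAct Λ A u v).toAdd = (u : Λ) • v.toAdd := rfl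

/-- A finite group embedded in the units of a division ring is a Frobenius complement, given a
suitable prime. -/
theorem frob_of_units_hom {D : Type*} [DivisionRing D] {Q : Type} [Group Q] [Finite Q]
    [Nontrivial Q] (ι : Q →* Dˣ) (hι : Function.Injective ι) (p : ℕ) (hp : p.Prime)
    (hpord : ∀ h : Q, ¬ p ∣ orderOf h)
    (hp1 : ∀ μ : MonoidAlgebra ℤ Q,
      MonoidAlgebra.lift ℤ D Q ((Units.coeHom D).comp ι) μ * (p : D) ≠ 1) :
    ∃ (L : Type) (_ : Group L) (_ : Finite L) (C : Subgroup L),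
      Cfsg.IsFrobeniusComplement C ∧ Nonempty (C ≃* Q) := by
  classical
  let ev : MonoidAlgebra ℤ Q →ₐ[ℤ] D := MonoidAlgebra.lift ℤ D Q ((Units.coeHom D).comp ι)
  let J : Ideal (MonoidAlgebra ℤ Q) :=
    RingHom.ker ev.toRingHom ⊔ Ideal.span {(p : MonoidAlgebra ℤ Q)}
  have hker : ∀ x : MonoidAlgebra ℤ Q, ev x = 0 → ∀ y : MonoidAlgebra ℤ Q, x * y ∈ J := by
    intro x hx y
    refine Submodule.mem_sup_left ?_
    rw [RingHom.mem_ker]
    show ev (x * y) = 0
    rw [map_mul, hx, zero_mul]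
  have hpA : ∀ a : MonoidAlgebra ℤ Q ⧸ J, p • a = 0 := by
    intro a
    obtain ⟨y, rfl⟩ := Submodule.mkQ_surjective J a
    rw [← map_nsmul, Submodule.mkQ_apply, Submodule.Quotient.mk_eq_zero]
    refine Submodule.mem_sup_right ?_
    rw [nsmul_eq_mul, Nat.cast_comm]
    exact Ideal.mem_span_singleton'.2 ⟨y, rfl⟩
  haveI hfgΛ : AddGroup.FG (MonoidAlgebra ℤ Q) := Module.Finite.iff_addGroup_fg.1 inferInstance
  have hfg : AddGroup.FG (MonoidAlgebra ℤ Q ⧸ J) :=
    AddGroup.fg_of_surjective (f := (Submodule.mkQ J).toAddMonoidHom) (Submodule.mkQ_surjective J)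
  haveI : Module.Finite ℤ (MonoidAlgebra ℤ Q ⧸ J) := Module.Finite.iff_addGroup_fg.2 hfg
  have htors : Module.IsTorsion ℤ (MonoidAlgebra ℤ Q ⧸ J) := by
    intro a
    refine ⟨⟨(p : ℤ), mem_nonZeroDivisors_of_ne_zero (by exact_mod_cast hp.ne_zero)⟩, ?_⟩
    show (p : ℤ) • a = 0
    rw [natCast_zsmul]
    exact hpA a
  haveI : Finite (MonoidAlgebra ℤ Q ⧸ J) := Module.finite_of_fg_torsion _ htors
  have h1 : (Submodule.Quotient.mk (1 : MonoidAlgebra ℤ Q) : MonoidAlgebra ℤ Q ⧸ J) ≠ 0 := by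
    rw [Ne, Submodule.Quotient.mk_eq_zero]
    intro hmem
    obtain ⟨k, hk, y, hy, hky⟩ := Submodule.mem_sup.1 hmem
    obtain ⟨μ, rfl⟩ := Ideal.mem_span_singleton'.1 hy
    have h2 := congrArg ev hky
    have hk0 : ev k = 0 := RingHom.mem_ker.1 hk
    rw [map_add, map_mul, map_natCast, map_one, hk0, zero_add] at h2
    exact hp1 μ h2
  let ρ : Q →* MulAut (Multiplicative (MonoidAlgebra ℤ Q ⧸ J)) :=
    (modAct (MonoidAlgebra ℤ Q) (MonoidAlgebra ℤ Q ⧸ J)).comp
      (MonoidAlgebra.of ℤ Q).toHomUnits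
  have hfpf : ∀ h : Q, h ≠ 1 → ∀ w : Multiplicative (MonoidAlgebra ℤ Q ⧸ J),
      ρ h w = w → w = 1 := by
    intro h hh1 w hw
    apply Multiplicative.toAdd.injective
    show w.toAdd = 0
    have ha : (MonoidAlgebra.of ℤ Q h) • w.toAdd = w.toAdd := congrArg Multiplicative.toAdd hw
    generalize w.toAdd = a at ha
    have hpow : ∀ i : ℕ, (MonoidAlgebra.of ℤ Q h) ^ i • a = a := by
      intro i
      induction i with
      | zero => rw [pow_zero, one_smul]
      | succ i ih => rw [pow_succ, mul_smul, ha, ih]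
    have hevh : ev (MonoidAlgebra.of ℤ Q h) = ((ι h : Dˣ) : D) := MonoidAlgebra.lift_of _ h
    have hG : ev (∑ i ∈ Finset.range (orderOf h), (MonoidAlgebra.of ℤ Q h) ^ i) = 0 := by
      rw [map_sum]
      have h3 := geom_sum_mul ((ι h : Dˣ) : D) (orderOf h)
      have h4 : ((ι h : Dˣ) : D) ^ orderOf h = 1 := by
        rw [← Units.val_pow_eq_pow_val, ← map_pow, pow_orderOf_eq_one, map_one, Units.val_one]
      rw [h4, sub_self] at h3
      have h5 : ((ι h : Dˣ) : D) - 1 ≠ 0 := by
        intro h6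
        apply hh1
        apply hι
        rw [map_one]
        exact Units.ext (by rw [Units.val_one]; exact sub_eq_zero.1 h6)
      rcases mul_eq_zero.1 h3 with h6 | h6
      · simp only [map_pow, hevh]
        exact h6
      · exact absurd h6 h5
    have hGa : (∑ i ∈ Finset.range (orderOf h), (MonoidAlgebra.of ℤ Q h) ^ i) • a
        = orderOf h • a := by
      rw [Finset.sum_smul, Finset.sum_congr rfl (fun i _ => hpow i), Finset.sum_const,
        Finset.card_range]
    have hGa0 : (∑ i ∈ Finset.range (orderOf h), (MonoidAlgebra.of ℤ Q h) ^ i) • a = 0 := by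
      obtain ⟨y, rfl⟩ := Submodule.mkQ_surjective J a
      rw [Submodule.mkQ_apply, ← Submodule.Quotient.mk_smul, Submodule.Quotient.mk_eq_zero,
        smul_eq_mul]
      exact hker _ hG y
    rw [hGa] at hGa0
    have h7 : addOrderOf a ∣ orderOf h := addOrderOf_dvd_of_nsmul_eq_zero hGa0
    have h8 : addOrderOf a ∣ p := addOrderOf_dvd_of_nsmul_eq_zero (hpA a)
    have h9 : addOrderOf a = 1 := by
      rcases (Nat.dvd_prime hp).1 h8 with hh | hh
      · exact hh
      · rw [hh] at h7
        exact absurd h7 (hpord h)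
    exact AddMonoid.addOrderOf_eq_one_iff.1 h9
  haveI : Nontrivial (Multiplicative (MonoidAlgebra ℤ Q ⧸ J)) :=
    ⟨⟨Multiplicative.ofAdd (Submodule.Quotient.mk (1 : MonoidAlgebra ℤ Q)), 1,
      fun h => h1 (congrArg Multiplicative.toAdd h)⟩⟩
  obtain ⟨L, gL, f, C, hF, hiso, -⟩ :=
    Cfsg.Agent.Helper7.frobenius_of_fpf_action ρ inferInstance inferInstance hfpf
  exact ⟨L, gL, f, C, hF, hiso⟩

/-- A nontrivial finite subgroup of the multiplicative group of a division ring occurs as a Frobenius complement of some finite Frobenius group. -/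
theorem result {D : Type*} [DivisionRing D] (H : Subgroup Dˣ) [Finite H] (hH : H ≠ ⊥) :
    ∃ (L : Type) (_ : Group L) (_ : Finite L) (C : Subgroup L), Cfsg.IsFrobeniusComplement C ∧ Nonempty (H ≃* C) := by
  haveI : Small.{0} ↥H := Countable.toSmall _
  let e : Shrink.{0} ↥H ≃* ↥H := Shrink.mulEquiv
  haveI : Finite (Shrink.{0} ↥H) := Finite.of_equiv _ e.symm.toEquiv
  haveI : Nontrivial ↥H := (Subgroup.nontrivial_iff_ne_bot H).2 hH
  haveI : Nontrivial (Shrink.{0} ↥H) := e.toEquiv.nontrivial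
  let ι : Shrink.{0} ↥H →* Dˣ := H.subtype.comp e.toMonoidHom
  have hι : Function.Injective ι := H.subtype_injective.comp e.injective
  suffices hmain : ∃ p : ℕ, p.Prime ∧ (∀ h : Shrink.{0} ↥H, ¬ p ∣ orderOf h) ∧
      ∀ μ : MonoidAlgebra ℤ (Shrink.{0} ↥H),
        MonoidAlgebra.lift ℤ D (Shrink.{0} ↥H) ((Units.coeHom D).comp ι) μ * (p : D) ≠ 1 by
    obtain ⟨p, hp, hpord, hp1⟩ := hmain
    obtain ⟨L, gL, f, C, hF, ⟨hiso⟩⟩ := frob_of_units_hom ι hι p hp hpord hp1
    exact ⟨L, gL, f, C, hF, ⟨e.symm.trans hiso.symm⟩⟩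
  obtain ⟨q, hq⟩ := CharP.exists D
  rcases CharP.char_is_prime_or_zero D q with hqp | rfl
  · haveI : Fact q.Prime := ⟨hqp⟩
    refine ⟨q, hqp, ?_, ?_⟩
    · intro h hdvd
      have hord : orderOf (h ^ (orderOf h / q)) = q :=
        orderOf_pow_orderOf_div (orderOf_pos h).ne' hdvd
      have hx : (((ι (h ^ (orderOf h / q)) : Dˣ) : D)) ^ q = 1 := by
        have h0 := pow_orderOf_eq_one (h ^ (orderOf h / q))
        rw [hord] at h0
        rw [← Units.val_pow_eq_pow_val, ← map_pow, h0, map_one, Units.val_one]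
      have h2 := sub_pow_char_of_commute q
        (Commute.one_right (((ι (h ^ (orderOf h / q)) : Dˣ) : D)))
      rw [hx, one_pow, sub_self] at h2
      have h3 : ((ι (h ^ (orderOf h / q)) : Dˣ) : D) - 1 = 0 := pow_eq_zero_iff (hqp.ne_zero) |>.1 h2
      have h4 : h ^ (orderOf h / q) = 1 := by
        apply hι
        rw [map_one]
        exact Units.ext (by rw [Units.val_one]; exact sub_eq_zero.1 h3)
      rw [h4, orderOf_one] at hord
      exact hqp.one_lt.ne hord
    · intro μ h
      rw [CharP.cast_eq_zero D q, mul_zero] at h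
      exact zero_ne_one h
  · haveI : CharZero D := CharP.charP_to_charZero D
    obtain ⟨p, hpge, hp⟩ := Nat.exists_infinite_primes (Nat.card (Shrink.{0} ↥H) + 1)
    refine ⟨p, hp, ?_, ?_⟩
    · intro h hdvd
      have h1 : orderOf h ≤ Nat.card (Shrink.{0} ↥H) :=
        Nat.le_of_dvd Nat.card_pos (orderOf_dvd_natCard h)
      have h2 := Nat.le_of_dvd (orderOf_pos h) hdvd
      omega
    · intro μ hμ
      let ev : MonoidAlgebra ℤ (Shrink.{0} ↥H) →ₐ[ℤ] D :=
        MonoidAlgebra.lift ℤ D (Shrink.{0} ↥H) ((Units.coeHom D).comp ι)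
      have hμ' : ev μ * (p : D) = 1 := hμ
      let N : Submodule ℤ D := LinearMap.range ev.toLinearMap
      have hNfg : N.FG := by
        show (LinearMap.range ev.toLinearMap).FG
        rw [LinearMap.range_eq_map]
        exact Submodule.FG.map _ Module.Finite.fg_top
      have hin : N ≤ Ideal.span {(p : ℤ)} • N := by
        rintro x ⟨lam, rfl⟩
        have h1 : ev.toLinearMap lam = (p : ℤ) • ev (μ * lam) := by
          show ev lam = (p : ℤ) • ev (μ * lam)
          rw [map_mul, zsmul_eq_mul, Int.cast_natCast, ← mul_assoc, (Nat.cast_commute p (ev μ)).eq,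
            hμ', one_mul]
        rw [h1]
        exact Submodule.smul_mem_smul (Ideal.mem_span_singleton_self _) ⟨μ * lam, rfl⟩
      obtain ⟨r, hr1, hr0⟩ :=
        Submodule.exists_sub_one_mem_and_smul_eq_zero_of_fg_of_le_smul _ N hNfg hin
      have h1N : (1 : D) ∈ N := ⟨1, map_one ev⟩
      have h2 := hr0 1 h1N
      rw [zsmul_eq_mul, mul_one, Int.cast_eq_zero] at h2
      rw [h2, zero_sub, Ideal.mem_span_singleton] at hr1
      have h3 : (p : ℤ) ∣ 1 := (dvd_neg.1 hr1)
      have h4 : p ∣ 1 := Int.natCast_dvd_natCast.1 (by exact_mod_cast h3)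
      exact hp.one_lt.ne' (Nat.dvd_one.1 h4)

end Cfsg.Agent.S4293
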