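import Cfsg.Statements.S4296
import Mathlib
import Cfsg.Agent.Helper7.QuatSquare
import Cfsg.Agent.Helper7.FrobKer
import Cfsg.Agent.Helper7.FrobConj
import Cfsg.Agent.Helper7.FrobCompl
import Cfsg.Agent.Helper7.EqOrdSylow
import Cfsg.Agent.Lead.FrobInvol
import Cfsg.Agent.S0016

set_option autoImplicit false
open Cfsg

namespace Cfsg.Agent.S4296

/-- The quaternion relations inside a generalized quaternion group. -/
theorem quat_elems (n : ℕ) (hn : 1 ≤ n) : ∃ i j z : QuaternionGroup (2 ^ n),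
    i * i = z ∧ j * j = z ∧ z * z = 1 ∧ z ≠ 1 ∧ i * j = z * (j * i) := by
  obtain ⟨m, rfl⟩ : ∃ m, n = m + 1 := ⟨n - 1, by omega⟩
  have hcast : ((2 ^ (m + 1) : ℕ) : ZMod (2 * 2 ^ (m + 1)))
      = ((2 ^ m : ℕ) : ZMod (2 * 2 ^ (m + 1))) + ((2 ^ m : ℕ) : ZMod (2 * 2 ^ (m + 1))) := by
    rw [← Nat.cast_add]; congr 1; ring
  have hz0 : ((2 ^ (m + 1) : ℕ) : ZMod (2 * 2 ^ (m + 1)))
      + ((2 ^ (m + 1) : ℕ) : ZMod (2 * 2 ^ (m + 1))) = 0 := by
    rw [← Nat.cast_add, ← two_mul]; exact ZMod.natCast_self _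
  refine ⟨QuaternionGroup.a ((2 ^ m : ℕ) : ZMod (2 * 2 ^ (m + 1))), QuaternionGroup.xa 0,
    QuaternionGroup.a ((2 ^ (m + 1) : ℕ) : ZMod (2 * 2 ^ (m + 1))), ?_, ?_, ?_, ?_, ?_⟩
  · rw [QuaternionGroup.a_mul_a, hcast]
  · rw [QuaternionGroup.xa_mul_xa, add_zero, sub_zero]
  · rw [QuaternionGroup.a_mul_a, hz0, QuaternionGroup.a_zero]
  · rw [QuaternionGroup.one_def]
    intro h
    have h2 : ((2 ^ (m + 1) : ℕ) : ZMod (2 * 2 ^ (m + 1))) = 0 := by injection h
    rw [ZMod.natCast_eq_zero_iff] at h2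
    have h3 := Nat.le_of_dvd (by positivity) h2
    have h4 : 0 < 2 ^ (m + 1) := by positivity
    omega
  · rw [QuaternionGroup.a_mul_xa, QuaternionGroup.xa_mul_a, QuaternionGroup.a_mul_xa, zero_sub,
      zero_add]
    congr 1
    rw [hcast]; ring

/-- Let H be a Frobenius complement in a finite group, and suppose some Sylow subgroup of H is not cyclic. Then the number of elements of the Frobenius kernel (the identity together with the elements lying in no conjugate of H) is an odd perfect square. -/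
theorem result {L : Type*} [Group L] [Finite L] (H : Subgroup L) (hF : Cfsg.IsFrobeniusComplement H)
    (hZ : ∃ (p : ℕ) (_ : Fact p.Prime) (P : Sylow p H), ¬ IsCyclic P) :
    Odd (Nat.card (Cfsg.frobeniusKernel H)) ∧ IsSquare (Nat.card (Cfsg.frobeniusKernel H)) := by
  obtain ⟨K, hKset, hKn, hKH, hKHt, hcard, hcop, hKbot⟩ :=
    Cfsg.Agent.Helper7.frob_kernel_data H hF
  have hcardK : Nat.card (Cfsg.frobeniusKernel H) = Nat.card K := by rw [← hKset]; rfl
  obtain ⟨p, hp, P, hP⟩ := hZ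
  have hab : ∀ E : Subgroup ↥(P : Subgroup H), (∀ x ∈ E, ∀ y ∈ E, x * y = y * x) →
      IsCyclic E := by
    intro E hE
    let φ : ↥(P : Subgroup H) →* L := H.subtype.comp (P : Subgroup H).subtype
    have hφ : Function.Injective φ :=
      H.subtype_injective.comp (P : Subgroup H).subtype_injective
    let A : Subgroup L := E.map φ
    have hAH : A ≤ H := by
      rintro _ ⟨x, -, rfl⟩; exact (x : H).2
    have hAcomm : IsMulCommutative A := by
      refine ⟨⟨?_⟩⟩
      rintro ⟨_, x, hx, rfl⟩ ⟨_, y, hy, rfl⟩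
      apply Subtype.ext
      show φ x * φ y = φ y * φ x
      rw [← map_mul, ← map_mul, hE x hx y hy]
    have hAcyc : IsCyclic A := by
      refine Cfsg.Agent.Helper7.fpf_isCyclic A K ?_ hKbot ?_ ?_ (Or.inl hAcomm)
      · rw [Subgroup.normalizer_eq_top_iff.2 hKn]
        exact le_top
      · intro a ha ha1
        apply Cfsg.Agent.Helper7.frob_inf_centralizer H K hF hKset hKn a
        intro haK
        have h1 : a ∈ K ⊓ H := ⟨haK, hAH ha⟩
        rw [hKH, Subgroup.mem_bot] at h1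
        exact ha1 h1
      · exact isSolvable_of_comm (fun a b => hAcomm.is_comm.comm a b)
    have e : E ≃* A := E.equivMapOfInjective φ hφ
    exact isCyclic_of_surjective e.symm e.symm.surjective
  have hPp : IsPGroup p ↥(P : Subgroup H) := P.2
  have huniq := Cfsg.Agent.Helper7.unique_subgroup_prime_of_abelian_cyclic p hPp hab
  rcases Cfsg.Agent.S0016.result p hPp huniq with hcyc | ⟨hp2, n, ⟨e⟩⟩
  · exact absurd hcyc hP
  have hn : 1 ≤ n := by
    by_contra h
    have hn0 : n = 0 := by omega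
    subst hn0
    apply hP
    haveI : IsCyclic (QuaternionGroup (2 ^ 0)) := by
      rw [pow_zero]; exact QuaternionGroup.quaternionGroup_one_isCyclic
    exact isCyclic_of_surjective e.symm e.symm.surjective
  obtain ⟨i₀, j₀, z₀, hii, hjj, hzz, hz1, hij⟩ := quat_elems n hn
  let φ : QuaternionGroup (2 ^ n) →* L :=
    (H.subtype.comp (P : Subgroup H).subtype).comp e.symm.toMonoidHom
  have hφ : Function.Injective φ :=
    (H.subtype_injective.comp (P : Subgroup H).subtype_injective).comp e.symm.injective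
  have hφH : ∀ q, φ q ∈ H := fun q => ((e.symm q : ↥(P : Subgroup H)) : H).2
  have hii' : φ i₀ * φ i₀ = φ z₀ := by rw [← map_mul, hii]
  have hjj' : φ j₀ * φ j₀ = φ z₀ := by rw [← map_mul, hjj]
  have hz1' : φ z₀ ≠ 1 := fun h => hz1 (hφ (h.trans (map_one φ).symm))
  have hzz' : φ z₀ * φ z₀ = 1 := by rw [← map_mul, hzz, map_one]
  have hij' : φ i₀ * φ j₀ = φ z₀ * (φ j₀ * φ i₀) := by rw [← map_mul, hij, map_mul, map_mul]
  generalize φ i₀ = i at hii' hij'
  generalize φ j₀ = j at hjj' hij'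
  have hzH : φ z₀ ∈ H := hφH z₀
  generalize φ z₀ = z at hii' hjj' hz1' hzz' hij' hzH
  have hinv : ∀ k ∈ K, z * k * z⁻¹ = k⁻¹ := by
    intro k hk
    exact Cfsg.Agent.Lead.frob_invol_inverts H hF z hzH hz1' hzz' (by rw [← hKset]; exact hk)
  have hcomm : ∀ x ∈ K, ∀ y ∈ K, x * y = y * x := fun x hx y hy =>
    Cfsg.Agent.Lead.frob_invol_kernel_comm H hF z hzH hz1' hzz'
      (by rw [← hKset]; exact hx) (by rw [← hKset]; exact hy)
  have hodd : Odd (Nat.card K) := by
    have h2 : 2 ∣ Nat.card H := by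
      have ho : orderOf (⟨z, hzH⟩ : H) = 2 := by
        apply orderOf_eq_prime
        · apply Subtype.ext
          simp [pow_two, hzz']
        · intro h; exact hz1' (congrArg Subtype.val h)
      rw [← ho]; exact orderOf_dvd_natCard _
    rw [← Nat.not_even_iff_odd, even_iff_two_dvd]
    intro h3
    have h4 := Nat.dvd_gcd h3 h2
    rw [hcop] at h4
    omega
  refine ⟨hcardK ▸ hodd, ?_⟩
  rw [hcardK]
  letI : CommGroup ↥K :=
    { (inferInstance : Group ↥K) with
      mul_comm := fun x y => Subtype.ext (hcomm x x.2 y y.2) }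
  let I : ↥K →* ↥K := ((MulAut.conj i).toMonoidHom.comp K.subtype).codRestrict K
    (fun v => hKn.conj_mem v v.2 i)
  let J : ↥K →* ↥K := ((MulAut.conj j).toMonoidHom.comp K.subtype).codRestrict K
    (fun v => hKn.conj_mem v v.2 j)
  refine Cfsg.Agent.Helper7.quat_square (Nat.card K) ↥K I J ?_ ?_ ?_ hodd le_rfl
  · intro v
    apply Subtype.ext
    show i * (i * v * i⁻¹) * i⁻¹ = (v : L)⁻¹
    rw [← hinv v v.2, ← hii']; group
  · intro v
    apply Subtype.ext
    show j * (j * v * j⁻¹) * j⁻¹ = (v : L)⁻¹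
    rw [← hinv v v.2, ← hjj']; group
  · intro v
    apply Subtype.ext
    show i * (j * v * j⁻¹) * i⁻¹ = (j * (i * v * i⁻¹) * j⁻¹)⁻¹
    have h1 : j * (i * (v : L) * i⁻¹) * j⁻¹ ∈ K := hKn.conj_mem _ (hKn.conj_mem _ v.2 i) j
    rw [← hinv _ h1]
    have h2 : i * (j * v * j⁻¹) * i⁻¹ = (i * j) * v * (i * j)⁻¹ := by group
    rw [h2, hij']; group

end Cfsg.Agent.S4296
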