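import Cfsg.Statements.S4295
import Mathlib
import Cfsg.Agent.Helper7.FrobConstruct
import Cfsg.Agent.Helper7.FrobKer
import Cfsg.Agent.S4296

set_option autoImplicit false
open Cfsg

namespace Cfsg.Agent.S4295

/-- Quaternion data on an abelian group of order `m`. -/
def QData (m : ℕ) : Prop :=
  ∃ (A : Type) (_ : CommGroup A) (_ : Finite A) (I J : A →* A), Nat.card A = m ∧
    (∀ v, I (I v) = v⁻¹) ∧ (∀ v, J (J v) = v⁻¹) ∧ (∀ v, I (J v) = (J (I v))⁻¹)

theorem qdata_prime (p : ℕ) [Fact p.Prime] : QData (p ^ 2) := by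
  obtain ⟨u, v, huv⟩ := ZMod.sq_add_sq p (-1 : ZMod p)
  let Ia : ZMod p × ZMod p →+ ZMod p × ZMod p :=
    AddMonoidHom.mk' (fun w => (u * w.1 + v * w.2, v * w.1 - u * w.2)) (by
      intro a b
      ext
      · simp only [Prod.fst_add, Prod.snd_add]; ring
      · simp only [Prod.fst_add, Prod.snd_add]; ring)
  let Ja : ZMod p × ZMod p →+ ZMod p × ZMod p :=
    AddMonoidHom.mk' (fun w => (-w.2, w.1)) (by
      intro a b
      ext
      · simp only [Prod.fst_add, Prod.snd_add]; ring
      · simp only [Prod.fst_add, Prod.snd_add])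
  refine ⟨Multiplicative (ZMod p × ZMod p), inferInstance, inferInstance,
    AddMonoidHom.toMultiplicative Ia, AddMonoidHom.toMultiplicative Ja, ?_, ?_, ?_, ?_⟩
  · rw [Nat.card_congr Multiplicative.toAdd, Nat.card_prod, Nat.card_zmod, pow_two]
  · intro w
    apply Multiplicative.toAdd.injective
    show Ia (Ia w.toAdd) = -w.toAdd
    ext
    · show u * (u * w.toAdd.1 + v * w.toAdd.2) + v * (v * w.toAdd.1 - u * w.toAdd.2)
        = -w.toAdd.1
      linear_combination (w.toAdd.1) * huv
    · show v * (u * w.toAdd.1 + v * w.toAdd.2) - u * (v * w.toAdd.1 - u * w.toAdd.2)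
        = -w.toAdd.2
      linear_combination (w.toAdd.2) * huv
  · intro w
    apply Multiplicative.toAdd.injective
    show Ja (Ja w.toAdd) = -w.toAdd
    ext
    · rfl
    · rfl
  · intro w
    apply Multiplicative.toAdd.injective
    show Ia (Ja w.toAdd) = -(Ja (Ia w.toAdd))
    ext
    · show u * (-w.toAdd.2) + v * w.toAdd.1 = -(-(v * w.toAdd.1 - u * w.toAdd.2))
      ring
    · show v * (-w.toAdd.2) - u * w.toAdd.1 = -(u * w.toAdd.1 + v * w.toAdd.2)
      ring

theorem qdata_mul {m1 m2 : ℕ} (h1 : QData m1) (h2 : QData m2) : QData (m1 * m2) := by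
  obtain ⟨A1, _, _, I1, J1, hc1, hI1, hJ1, hIJ1⟩ := h1
  obtain ⟨A2, _, _, I2, J2, hc2, hI2, hJ2, hIJ2⟩ := h2
  refine ⟨A1 × A2, inferInstance, inferInstance, I1.prodMap I2, J1.prodMap J2, ?_, ?_, ?_, ?_⟩
  · rw [Nat.card_prod, hc1, hc2]
  · intro v; exact Prod.ext (hI1 v.1) (hI2 v.2)
  · intro v; exact Prod.ext (hJ1 v.1) (hJ2 v.2)
  · intro v; exact Prod.ext (hIJ1 v.1) (hIJ2 v.2)

theorem qdata_sq (k : ℕ) (hk1 : 1 < k) : QData (k ^ 2) := by
  induction k using Nat.strong_induction_on with
  | _ k ih =>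
    have hk0 : k ≠ 1 := by omega
    have hp := Nat.minFac_prime hk0
    haveI : Fact (k.minFac).Prime := ⟨hp⟩
    obtain ⟨k', hk'⟩ := Nat.minFac_dvd k
    have hbase := qdata_prime k.minFac
    by_cases h1 : k' = 1
    · rw [h1, mul_one] at hk'
      rw [← hk'] at hbase
      exact hbase
    · have hk'pos : 0 < k' := by
        rcases Nat.eq_zero_or_pos k' with h | h
        · rw [h, mul_zero] at hk'; omega
        · exact h
      have hlt : k' < k := by
        have h2 := hp.two_le
        nlinarith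
      have h3 := qdata_mul hbase (ih k' hlt (by omega))
      rw [← mul_pow, ← hk'] at h3
      exact h3

theorem frob_of_qdata (m : ℕ) (hm : Odd m) (hm1 : 1 < m) (h : QData m) :
    ∃ (L : Type) (_ : Group L) (_ : Finite L) (H : Subgroup L), Cfsg.IsFrobeniusComplement H ∧
        Nonempty (H ≃* QuaternionGroup 2) ∧ Nat.card (Cfsg.frobeniusKernel H) = m := by
  obtain ⟨A, _, _, I, J, hc, hI, hJ, hIJ⟩ := h
  have hIJI : ∀ v, I (J (I v)) = J v := by
    intro v
    have h1 := hIJ (I v)
    rw [hI, map_inv, inv_inv] at h1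
    exact h1
  let Iu : MulAut A :=
    { toFun := I
      invFun := fun v => I v⁻¹
      left_inv := fun v => by
        show I (I v)⁻¹ = v
        rw [map_inv, hI, inv_inv]
      right_inv := fun v => by
        show I (I v⁻¹) = v
        rw [hI, inv_inv]
      map_mul' := map_mul I }
  let Ju : MulAut A :=
    { toFun := J
      invFun := fun v => J v⁻¹
      left_inv := fun v => by
        show J (J v)⁻¹ = v
        rw [map_inv, hJ, inv_inv]
      right_inv := fun v => by
        show J (J v⁻¹) = v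
        rw [hJ, inv_inv]
      map_mul' := map_mul J }
  have hIu2 : ∀ v, (Iu ^ 2) v = v⁻¹ := by
    intro v
    rw [pow_two]
    exact hI v
  have hx : Iu ^ (2 * 2) = 1 := by
    ext v
    rw [pow_mul]
    show ((Iu ^ 2) ^ 2) v = v
    rw [pow_two, MulAut.mul_apply, hIu2, hIu2, inv_inv]
  have hy : Ju * Ju = Iu ^ 2 := by
    ext v
    rw [hIu2]
    exact hJ v
  have hxy : Ju * Iu * Ju⁻¹ = Iu⁻¹ := by
    have h1 : Iu * Ju * Iu = Ju := by
      ext v
      exact hIJI v
    calc Ju * Iu * Ju⁻¹ = Iu⁻¹ * (Iu * Ju * Iu) * Ju⁻¹ := by group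
      _ = Iu⁻¹ := by rw [h1]; group
  let ρ : QuaternionGroup 2 →* MulAut A := Cfsg.Agent.Helper7.quatLift 2 Iu Ju hx hy hxy
  have hodd1 : ∀ a : A, a⁻¹ = a → a = 1 := by
    intro a ha
    have h2 : a ^ 2 = 1 := by
      rw [pow_two]; nth_rewrite 1 [← ha]; exact inv_mul_cancel a
    have h3 : orderOf a ∣ 2 := orderOf_dvd_of_pow_eq_one h2
    have h4 : orderOf a ∣ m := hc ▸ orderOf_dvd_natCard a
    have h5 : orderOf a = 1 := by
      rcases (Nat.dvd_prime Nat.prime_two).1 h3 with h | h
      · exact h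
      · rw [h] at h4
        exact absurd (even_iff_two_dvd.2 h4) (Nat.not_even_iff_odd.2 hm)
    exact orderOf_eq_one_iff.1 h5
  have hz : ∀ a : A, ρ (QuaternionGroup.a 2) a = a⁻¹ := by
    intro a
    show (Iu ^ (2 : ZMod (2 * 2)).val) a = a⁻¹
    have h2 : (2 : ZMod (2 * 2)).val = 2 := rfl
    rw [h2]
    exact hIu2 a
  have hq : ∀ q : QuaternionGroup 2, q ≠ 1 →
      q = QuaternionGroup.a 2 ∨ q * q = QuaternionGroup.a 2 := by decide
  have hAnt : Nontrivial A := Finite.one_lt_card_iff_nontrivial.1 (by rw [hc]; exact hm1)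
  have hfpf : ∀ q : QuaternionGroup 2, q ≠ 1 → ∀ a : A, ρ q a = a → a = 1 := by
    intro q hq1 a ha
    rcases hq q hq1 with rfl | h2
    · exact hodd1 a ((hz a).symm.trans ha)
    · have h3 : ρ (q * q) a = a := by
        rw [map_mul, MulAut.mul_apply, ha, ha]
      rw [h2, hz] at h3
      exact hodd1 a h3
  obtain ⟨L, g, f, H, hF, hiso, hk⟩ :=
    Cfsg.Agent.Helper7.frobenius_of_fpf_action ρ hAnt inferInstance hfpf
  exact ⟨L, g, f, H, hF, hiso, hk.trans hc⟩

/-- For a natural number m the following are equivalent: (a) some finite group has a Frobenius complement isomorphic to the quaternion group of order 8 whose Frobenius kernel (the identity together with the elements lying in no conjugate of the complement) has exactly m elements; (b) m is an odd perfect square greater than 1. -/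
theorem result (m : ℕ) :
    (∃ (L : Type) (_ : Group L) (_ : Finite L) (H : Subgroup L), Cfsg.IsFrobeniusComplement H ∧
        Nonempty (H ≃* QuaternionGroup 2) ∧ Nat.card (Cfsg.frobeniusKernel H) = m) ↔
    (Odd m ∧ IsSquare m ∧ 1 < m) := by
  constructor
  · rintro ⟨L, _, _, H, hF, ⟨e⟩, hm⟩
    have hcardH : Nat.card H = 8 := by
      rw [Nat.card_congr e.toEquiv, Nat.card_eq_fintype_card, QuaternionGroup.card]
    haveI : Fact (Nat.Prime 2) := ⟨Nat.prime_two⟩
    obtain ⟨P⟩ : Nonempty (Sylow 2 H) := inferInstance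
    have hP : ¬ IsCyclic P := by
      intro hcyc
      have hPcard : Nat.card P = 8 := by
        rw [Sylow.card_eq_multiplicity, hcardH]
        have h3 : (8 : ℕ).factorization 2 = 3 := by
          rw [show (8 : ℕ) = 2 ^ 3 by norm_num, Nat.Prime.factorization_pow Nat.prime_two]
          simp
        rw [h3]
        norm_num
      have hPtop : (P : Subgroup H) = ⊤ :=
        Subgroup.eq_top_of_card_eq _ (hPcard.trans hcardH.symm)
      have hmem : ∀ x : H, x ∈ (P : Subgroup H) := fun x => by rw [hPtop]; trivial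
      obtain ⟨g, hg⟩ := hcyc.exists_generator
      have hcomm : ∀ a b : H, a * b = b * a := by
        intro a b
        obtain ⟨s, hs⟩ := Subgroup.mem_zpowers_iff.1 (hg ⟨a, hmem a⟩)
        obtain ⟨t, ht⟩ := Subgroup.mem_zpowers_iff.1 (hg ⟨b, hmem b⟩)
        have hs' : (g : H) ^ s = a := by simpa using congrArg Subtype.val hs
        have ht' : (g : H) ^ t = b := by simpa using congrArg Subtype.val ht
        rw [← hs', ← ht', ← zpow_add, ← zpow_add, add_comm]
      have h4 := hcomm (e.symm (QuaternionGroup.a 1)) (e.symm (QuaternionGroup.xa 0))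
      rw [← map_mul, ← map_mul] at h4
      have h5 := e.symm.injective h4
      revert h5
      decide
    have h6 := Cfsg.Agent.S4296.result H hF ⟨2, ⟨Nat.prime_two⟩, P, hP⟩
    rw [hm] at h6
    refine ⟨h6.1, h6.2, ?_⟩
    obtain ⟨K, hKset, -, -, -, -, -, hKbot⟩ := Cfsg.Agent.Helper7.frob_kernel_data H hF
    have hcardK : Nat.card (Cfsg.frobeniusKernel H) = Nat.card K := by rw [← hKset]; rfl
    rw [← hm, hcardK]
    exact (Subgroup.one_lt_card_iff_ne_bot K).2 hKbot
  · rintro ⟨hodd, ⟨k, rfl⟩, h1⟩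
    have hk1 : 1 < k := by nlinarith
    have h2 := qdata_sq k hk1
    rw [pow_two] at h2
    exact frob_of_qdata (k * k) hodd h1 h2

end Cfsg.Agent.S4295
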