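import Cfsg.Statements.S4297
import Mathlib
import Cfsg.Agent.Helper7.FrobConstruct

set_option autoImplicit false
open Cfsg

namespace Cfsg.Agent.S4297

section Aut

variable (F : Type) [Field F]

/-- The diagonal automorphism `(v₁, v₂) ↦ (c v₁, c⁻¹ v₂)`. -/
def dAut (c : Fˣ) : MulAut (Multiplicative (F × F)) where
  toFun w := Multiplicative.ofAdd ((c : F) * w.toAdd.1, ((c⁻¹ : Fˣ) : F) * w.toAdd.2)
  invFun w := Multiplicative.ofAdd (((c⁻¹ : Fˣ) : F) * w.toAdd.1, (c : F) * w.toAdd.2)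
  left_inv w := by
    apply Multiplicative.toAdd.injective
    refine Prod.ext ?_ ?_
    · show ((c⁻¹ : Fˣ) : F) * ((c : F) * w.toAdd.1) = w.toAdd.1
      rw [← mul_assoc, Units.inv_mul, one_mul]
    · show (c : F) * (((c⁻¹ : Fˣ) : F) * w.toAdd.2) = w.toAdd.2
      rw [← mul_assoc, Units.mul_inv, one_mul]
  right_inv w := by
    apply Multiplicative.toAdd.injective
    refine Prod.ext ?_ ?_
    · show (c : F) * (((c⁻¹ : Fˣ) : F) * w.toAdd.1) = w.toAdd.1
      rw [← mul_assoc, Units.mul_inv, one_mul]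
    · show ((c⁻¹ : Fˣ) : F) * ((c : F) * w.toAdd.2) = w.toAdd.2
      rw [← mul_assoc, Units.inv_mul, one_mul]
  map_mul' w1 w2 := by
    apply Multiplicative.toAdd.injective
    refine Prod.ext ?_ ?_
    · show (c : F) * (w1.toAdd.1 + w2.toAdd.1) = (c : F) * w1.toAdd.1 + (c : F) * w2.toAdd.1
      ring
    · show ((c⁻¹ : Fˣ) : F) * (w1.toAdd.2 + w2.toAdd.2)
        = ((c⁻¹ : Fˣ) : F) * w1.toAdd.2 + ((c⁻¹ : Fˣ) : F) * w2.toAdd.2
      ring

theorem dAut_apply (c : Fˣ) (w : Multiplicative (F × F)) :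
    dAut F c w = Multiplicative.ofAdd ((c : F) * w.toAdd.1, ((c⁻¹ : Fˣ) : F) * w.toAdd.2) := rfl

/-- `dAut` as a homomorphism. -/
def dHom : Fˣ →* MulAut (Multiplicative (F × F)) where
  toFun := dAut F
  map_one' := by
    refine MulEquiv.ext (fun w => ?_)
    apply Multiplicative.toAdd.injective
    refine Prod.ext ?_ ?_
    · show ((1 : Fˣ) : F) * w.toAdd.1 = w.toAdd.1
      rw [Units.val_one, one_mul]
    · show (((1 : Fˣ)⁻¹ : Fˣ) : F) * w.toAdd.2 = w.toAdd.2
      rw [inv_one, Units.val_one, one_mul]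
  map_mul' c d := by
    refine MulEquiv.ext (fun w => ?_)
    apply Multiplicative.toAdd.injective
    refine Prod.ext ?_ ?_
    · show ((c * d : Fˣ) : F) * w.toAdd.1 = (c : F) * ((d : F) * w.toAdd.1)
      rw [Units.val_mul, mul_assoc]
    · show (((c * d)⁻¹ : Fˣ) : F) * w.toAdd.2
        = ((c⁻¹ : Fˣ) : F) * (((d⁻¹ : Fˣ) : F) * w.toAdd.2)
      rw [mul_inv, Units.val_mul, mul_assoc]

theorem dHom_apply (c : Fˣ) (w : Multiplicative (F × F)) :
    dHom F c w = Multiplicative.ofAdd ((c : F) * w.toAdd.1, ((c⁻¹ : Fˣ) : F) * w.toAdd.2) := rfl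

/-- The automorphism `(v₁, v₂) ↦ (-v₂, v₁)`. -/
def yAut : MulAut (Multiplicative (F × F)) where
  toFun w := Multiplicative.ofAdd (-w.toAdd.2, w.toAdd.1)
  invFun w := Multiplicative.ofAdd (w.toAdd.2, -w.toAdd.1)
  left_inv w := by
    apply Multiplicative.toAdd.injective
    refine Prod.ext ?_ ?_
    · rfl
    · exact neg_neg _
  right_inv w := by
    apply Multiplicative.toAdd.injective
    refine Prod.ext ?_ ?_
    · exact neg_neg _
    · rfl
  map_mul' w1 w2 := by
    apply Multiplicative.toAdd.injective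
    refine Prod.ext ?_ ?_
    · exact neg_add _ _
    · rfl

theorem yAut_apply (w : Multiplicative (F × F)) :
    yAut F w = Multiplicative.ofAdd (-w.toAdd.2, w.toAdd.1) := rfl

end Aut

/-- For every n ≥ 2 the dicyclic group of order 4n (generated by an element a of order 2n and an element x with x² = aⁿ and x a x⁻¹ = a⁻¹) occurs as a Frobenius complement of some finite Frobenius group. -/
theorem result (n : ℕ) (hn : 2 ≤ n) :
    ∃ (L : Type) (_ : Group L) (_ : Finite L) (H : Subgroup L), Cfsg.IsFrobeniusComplement H ∧ Nonempty (H ≃* QuaternionGroup n) := by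
  haveI : NeZero n := ⟨by omega⟩
  obtain ⟨p, hp, hp2, hpmod⟩ := Nat.exists_prime_gt_modEq_one (k := 2 * n) 2 (by omega)
  haveI : Fact p.Prime := ⟨hp⟩
  have hdvd : 2 * n ∣ p - 1 := (Nat.modEq_iff_dvd' hp.one_le).1 hpmod.symm
  -- an element of order 2n
  obtain ⟨ζ, hζ⟩ : ∃ ζ : (ZMod p)ˣ, orderOf ζ = 2 * n := by
    obtain ⟨g, hg⟩ := IsCyclic.exists_ofOrder_eq_natCard (α := (ZMod p)ˣ)
    rw [Nat.card_eq_fintype_card, ZMod.card_units] at hg
    obtain ⟨k, hk⟩ := hdvd
    have hk0 : k ≠ 0 := by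
      rintro rfl
      have := hp.two_le
      omega
    refine ⟨g ^ k, ?_⟩
    rw [orderOf_pow_of_dvd hk0 (by rw [hg, hk]; exact Dvd.intro_left _ rfl), hg, hk]
    exact Nat.mul_div_cancel _ (Nat.pos_of_ne_zero hk0)
  have hζ2n : ζ ^ (2 * n) = 1 := by rw [← hζ]; exact pow_orderOf_eq_one ζ
  have hζn : ζ ^ n = -1 := by
    have h1 : ((ζ ^ n : (ZMod p)ˣ) : ZMod p) ^ 2 = 1 := by
      rw [← Units.val_pow_eq_pow_val, ← pow_mul, mul_comm, hζ2n, Units.val_one]
    rcases sq_eq_one_iff.1 h1 with h | h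
    · exfalso
      have h2 : ζ ^ n = 1 := Units.ext h
      have h3 := orderOf_dvd_of_pow_eq_one h2
      rw [hζ] at h3
      have := Nat.le_of_dvd (by omega) h3
      omega
    · exact Units.ext (by rw [h, Units.val_neg, Units.val_one])
  have h2ne : (2 : ZMod p) ≠ 0 := by
    intro h
    have h1 : ((2 : ℕ) : ZMod p) = 0 := by exact_mod_cast h
    rw [ZMod.natCast_eq_zero_iff] at h1
    have := Nat.le_of_dvd (by norm_num) h1
    omega
  have hx : (dHom (ZMod p) ζ) ^ (2 * n) = 1 := by rw [← map_pow, hζ2n, map_one]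
  have hy : yAut (ZMod p) * yAut (ZMod p) = (dHom (ZMod p) ζ) ^ n := by
    rw [← map_pow, hζn]
    refine MulEquiv.ext (fun w => ?_)
    apply Multiplicative.toAdd.injective
    refine Prod.ext ?_ ?_
    · show -w.toAdd.1 = ((-1 : (ZMod p)ˣ) : ZMod p) * w.toAdd.1
      rw [Units.val_neg, Units.val_one, neg_one_mul]
    · show -w.toAdd.2 = (((-1 : (ZMod p)ˣ)⁻¹ : (ZMod p)ˣ) : ZMod p) * w.toAdd.2
      rw [inv_neg, inv_one, Units.val_neg, Units.val_one, neg_one_mul]
  have hxy : yAut (ZMod p) * dHom (ZMod p) ζ * (yAut (ZMod p))⁻¹ = (dHom (ZMod p) ζ)⁻¹ := by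
    have h1 : yAut (ZMod p) * dHom (ZMod p) ζ = dHom (ZMod p) ζ⁻¹ * yAut (ZMod p) := by
      refine MulEquiv.ext (fun w => ?_)
      apply Multiplicative.toAdd.injective
      refine Prod.ext ?_ ?_
      · show -(((ζ⁻¹ : (ZMod p)ˣ) : ZMod p) * w.toAdd.2)
          = ((ζ⁻¹ : (ZMod p)ˣ) : ZMod p) * (-w.toAdd.2)
        rw [mul_neg]
      · show (ζ : ZMod p) * w.toAdd.1 = (((ζ⁻¹)⁻¹ : (ZMod p)ˣ) : ZMod p) * w.toAdd.1
        rw [inv_inv]
    rw [h1, mul_inv_cancel_right, map_inv]
  let ρ : QuaternionGroup n →* MulAut (Multiplicative (ZMod p × ZMod p)) :=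
    Cfsg.Agent.Helper7.quatLift n (dHom (ZMod p) ζ) (yAut (ZMod p)) hx hy hxy
  have hneg : ∀ w : Multiplicative (ZMod p × ZMod p), ρ (QuaternionGroup.a n) w = w → w = 1 := by
    intro w hw
    have h1 : ρ (QuaternionGroup.a n) = dHom (ZMod p) (-1) := by
      show (dHom (ZMod p) ζ) ^ ((n : ZMod (2 * n))).val = _
      rw [ZMod.val_natCast, Nat.mod_eq_of_lt (by omega), ← map_pow, hζn]
    rw [h1, dHom_apply] at hw
    have hw' := congrArg Multiplicative.toAdd hw
    have e1 : ((-1 : (ZMod p)ˣ) : ZMod p) * w.toAdd.1 = w.toAdd.1 := congrArg Prod.fst hw'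
    have e2 : (((-1 : (ZMod p)ˣ)⁻¹ : (ZMod p)ˣ) : ZMod p) * w.toAdd.2 = w.toAdd.2 :=
      congrArg Prod.snd hw'
    rw [Units.val_neg, Units.val_one, neg_one_mul] at e1
    rw [inv_neg, inv_one, Units.val_neg, Units.val_one, neg_one_mul] at e2
    have z1 : w.toAdd.1 = 0 := by
      have : (2 : ZMod p) * w.toAdd.1 = 0 := by linear_combination -e1
      rcases mul_eq_zero.1 this with h | h
      · exact absurd h h2ne
      · exact h
    have z2 : w.toAdd.2 = 0 := by
      have : (2 : ZMod p) * w.toAdd.2 = 0 := by linear_combination -e2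
      rcases mul_eq_zero.1 this with h | h
      · exact absurd h h2ne
      · exact h
    apply Multiplicative.toAdd.injective
    exact Prod.ext z1 z2
  have hfpf : ∀ q : QuaternionGroup n, q ≠ 1 →
      ∀ w : Multiplicative (ZMod p × ZMod p), ρ q w = w → w = 1 := by
    rintro (i | i) hq1 w hw
    · have hi : i ≠ 0 := by
        rintro rfl
        exact hq1 QuaternionGroup.a_zero
      have hval0 : i.val ≠ 0 := by
        intro h
        exact hi ((ZMod.val_eq_zero i).1 h)
      have hvallt : i.val < orderOf ζ := by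
        rw [hζ]; exact ZMod.val_lt i
      have hc : ζ ^ i.val ≠ 1 := pow_ne_one_of_lt_orderOf hval0 hvallt
      have h1 : ρ (QuaternionGroup.a i) = dHom (ZMod p) (ζ ^ i.val) := by
        show (dHom (ZMod p) ζ) ^ i.val = _
        rw [← map_pow]
      rw [h1, dHom_apply] at hw
      have hw' := congrArg Multiplicative.toAdd hw
      have e1 : ((ζ ^ i.val : (ZMod p)ˣ) : ZMod p) * w.toAdd.1 = w.toAdd.1 :=
        congrArg Prod.fst hw'
      have e2 : (((ζ ^ i.val)⁻¹ : (ZMod p)ˣ) : ZMod p) * w.toAdd.2 = w.toAdd.2 :=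
        congrArg Prod.snd hw'
      have hc' : ((ζ ^ i.val : (ZMod p)ˣ) : ZMod p) - 1 ≠ 0 := by
        intro h
        exact hc (Units.ext (by rw [Units.val_one]; exact sub_eq_zero.1 h))
      have z1 : w.toAdd.1 = 0 := by
        have : (((ζ ^ i.val : (ZMod p)ˣ) : ZMod p) - 1) * w.toAdd.1 = 0 := by
          linear_combination e1
        rcases mul_eq_zero.1 this with h | h
        · exact absurd h hc'
        · exact h
      have z2 : w.toAdd.2 = 0 := by
        have e3 : w.toAdd.2 = ((ζ ^ i.val : (ZMod p)ˣ) : ZMod p) * w.toAdd.2 := by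
          have e4 : ((ζ ^ i.val : (ZMod p)ˣ) : ZMod p)
              * ((((ζ ^ i.val)⁻¹ : (ZMod p)ˣ) : ZMod p) * w.toAdd.2)
              = ((ζ ^ i.val : (ZMod p)ˣ) : ZMod p) * w.toAdd.2 := by rw [e2]
          rw [← mul_assoc, Units.mul_inv, one_mul] at e4
          exact e4
        have : (((ζ ^ i.val : (ZMod p)ˣ) : ZMod p) - 1) * w.toAdd.2 = 0 := by
          linear_combination -e3
        rcases mul_eq_zero.1 this with h | h
        · exact absurd h hc'
        · exact h
      apply Multiplicative.toAdd.injective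
      exact Prod.ext z1 z2
    · apply hneg w
      have h1 : QuaternionGroup.xa i * QuaternionGroup.xa i
          = (QuaternionGroup.a n : QuaternionGroup n) := by
        rw [QuaternionGroup.xa_mul_xa, add_sub_cancel_right]
      rw [← h1, map_mul, MulAut.mul_apply, hw, hw]
  haveI : Nontrivial (Multiplicative (ZMod p × ZMod p)) := by
    refine ⟨⟨Multiplicative.ofAdd (1, 0), 1, ?_⟩⟩
    intro h
    have h1 := congrArg (fun w => (Multiplicative.toAdd w).1) h
    exact one_ne_zero h1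
  obtain ⟨L, g, f, H, hF, hiso, -⟩ :=
    Cfsg.Agent.Helper7.frobenius_of_fpf_action ρ inferInstance inferInstance hfpf
  exact ⟨L, g, f, H, hF, hiso⟩

end Cfsg.Agent.S4297
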