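import Cfsg.Statements.S4300
import Mathlib

set_option autoImplicit false
open Cfsg

namespace Cfsg.Agent.S4300

theorem result {G : Type*} [Group G] {X : Type*} [MulAction G X] [FaithfulSMul G X]
    (hprim : MulAction.IsPreprimitive G X) (x : X) (hsimple : IsSimpleGroup (MulAction.stabilizer G x)) :
    IsSimpleGroup G ∨ ∃ N : Subgroup G, N.Normal ∧ N ≠ ⊥ ∧ N ≠ ⊤ ∧
      MulAction.IsPretransitive N X ∧ ∀ y : X, MulAction.stabilizer N y = ⊥ := by
  by_cases hs : IsSimpleGroup G
  · exact Or.inl hs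
  right
  haveI := hprim
  haveI : Nontrivial G := by
    obtain ⟨a, b, hab⟩ := hsimple.toNontrivial
    exact ⟨⟨a.1, b.1, fun h => hab (Subtype.ext h)⟩⟩
  have hex : ∃ N : Subgroup G, N.Normal ∧ N ≠ ⊥ ∧ N ≠ ⊤ := by
    by_contra hcon
    apply hs
    refine IsSimpleGroup.mk (fun N hN => ?_)
    by_contra h
    push Not at h
    exact hcon ⟨N, hN, h.1, h.2⟩
  obtain ⟨N, hN, hbot, htop⟩ := hex
  haveI := hN
  have hfix : MulAction.fixedPoints N X ≠ Set.univ := by
    intro h
    apply hbot
    rw [Subgroup.eq_bot_iff_forall]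
    intro n hn
    apply FaithfulSMul.eq_of_smul_eq_smul (α := X)
    intro y
    rw [one_smul]
    have : y ∈ MulAction.fixedPoints N X := by rw [h]; trivial
    exact this ⟨n, hn⟩
  have htrans : MulAction.IsPretransitive N X :=
    MulAction.IsQuasiPreprimitive.isPretransitive_of_normal hfix
  refine ⟨N, hN, hbot, htop, htrans, ?_⟩
  have hnorm : (N.subgroupOf (MulAction.stabilizer G x)).Normal := inferInstance
  rcases hsimple.eq_bot_or_eq_top_of_normal _ hnorm with h | h
  · intro y
    rw [Subgroup.eq_bot_iff_forall]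
    rintro ⟨n, hn⟩ hny
    obtain ⟨⟨m, hm⟩, hmx⟩ := MulAction.exists_smul_eq N x y
    have hmx' : m • x = y := hmx
    have hny' : n • y = y := hny
    have h1 : m⁻¹ * n * m ∈ MulAction.stabilizer G x := by
      rw [MulAction.mem_stabilizer_iff, mul_smul, mul_smul, hmx', hny', ← hmx', inv_smul_smul]
    have h2 : m⁻¹ * n * m ∈ N := N.mul_mem (N.mul_mem (N.inv_mem hm) hn) hm
    have h3 : (⟨m⁻¹ * n * m, h1⟩ : MulAction.stabilizer G x) ∈
        N.subgroupOf (MulAction.stabilizer G x) := Subgroup.mem_subgroupOf.2 h2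
    rw [h, Subgroup.mem_bot] at h3
    have h4 : m⁻¹ * n * m = 1 := congrArg Subtype.val h3
    apply Subtype.ext
    show n = 1
    have h5 : n = m * (m⁻¹ * n * m) * m⁻¹ := by group
    rw [h5, h4]
    group
  · exfalso
    apply htop
    rw [Subgroup.subgroupOf_eq_top] at h
    rw [eq_top_iff]
    intro g _
    obtain ⟨⟨m, hm⟩, hmx⟩ := MulAction.exists_smul_eq N x (g • x)
    have hmx' : m • x = g • x := hmx
    have h1 : m⁻¹ * g ∈ MulAction.stabilizer G x := by
      rw [MulAction.mem_stabilizer_iff, mul_smul, ← hmx', inv_smul_smul]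
    have h5 : g = m * (m⁻¹ * g) := by group
    rw [h5]
    exact N.mul_mem hm (h h1)

end Cfsg.Agent.S4300
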