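import Cfsg.Statements.S4421
import Mathlib

set_option autoImplicit false
open Cfsg

namespace Cfsg.Agent.S4421

variable {G : Type*} [Group G]

theorem map_conj_map_conj (A : Subgroup G) (a b : G) :
    (A.map (MulAut.conj a).toMonoidHom).map (MulAut.conj b).toMonoidHom
      = A.map (MulAut.conj (b * a)).toMonoidHom := by
  rw [Subgroup.map_map]
  congr 1
  ext x
  simp [mul_assoc]

theorem map_conj_one (A : Subgroup G) : A.map (MulAut.conj (1 : G)).toMonoidHom = A := by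
  ext x
  simp

theorem mem_norm_iff (A : Subgroup G) (x : G) :
    x ∈ Subgroup.normalizer (A : Set G) ↔ A.map (MulAut.conj x).toMonoidHom = A := by
  rw [Subgroup.mem_normalizer_iff_map_conj_eq]
  rfl

theorem result {G : Type*} [Group G] [Finite G] (A S H : Subgroup G)
    (hAS : A ≤ S) (hSH : S ≤ H)
    (h1 : ∀ g : G, A.map (MulAut.conj g).toMonoidHom ≤ S → ∃ s ∈ S, A.map (MulAut.conj g).toMonoidHom = A.map (MulAut.conj s).toMonoidHom)
    (h2 : ∀ g : G, S.map (MulAut.conj g).toMonoidHom ≤ H → ∃ y ∈ H, S.map (MulAut.conj g).toMonoidHom = S.map (MulAut.conj y).toMonoidHom)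
    (h3 : ∀ x ∈ Subgroup.normalizer (A : Set G), S.map (MulAut.conj x).toMonoidHom ≤ H) :
    ∀ x ∈ Subgroup.normalizer (A : Set G), ∃ y ∈ H ⊓ Subgroup.normalizer (A : Set G),
      ∃ z ∈ Subgroup.normalizer (S : Set G) ⊓ Subgroup.normalizer (A : Set G), x = y * z := by
  intro x hx
  obtain ⟨y₀, hy₀, e1⟩ := h2 x (h3 x hx)
  have hn : S.map (MulAut.conj (y₀⁻¹ * x)).toMonoidHom = S := by
    rw [← map_conj_map_conj, e1, map_conj_map_conj, inv_mul_cancel, map_conj_one]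
  have hAn : A.map (MulAut.conj (y₀⁻¹ * x)).toMonoidHom ≤ S := by
    have := Subgroup.map_mono (f := (MulAut.conj (y₀⁻¹ * x)).toMonoidHom) hAS
    rw [hn] at this
    exact this
  obtain ⟨s, hs, e2⟩ := h1 _ hAn
  have hzA : A.map (MulAut.conj (s⁻¹ * (y₀⁻¹ * x))).toMonoidHom = A := by
    rw [← map_conj_map_conj, e2, map_conj_map_conj, inv_mul_cancel, map_conj_one]
  have hsS : s⁻¹ ∈ Subgroup.normalizer (S : Set G) := Subgroup.le_normalizer (S.inv_mem hs)
  have hzS : S.map (MulAut.conj (s⁻¹ * (y₀⁻¹ * x))).toMonoidHom = S := by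
    rw [← map_conj_map_conj, hn]
    exact (mem_norm_iff S s⁻¹).1 hsS
  have hzA' : s⁻¹ * (y₀⁻¹ * x) ∈ Subgroup.normalizer (A : Set G) := (mem_norm_iff A _).2 hzA
  have hzS' : s⁻¹ * (y₀⁻¹ * x) ∈ Subgroup.normalizer (S : Set G) := (mem_norm_iff S _).2 hzS
  have hy : y₀ * s = x * (s⁻¹ * (y₀⁻¹ * x))⁻¹ := by group
  refine ⟨y₀ * s, ⟨H.mul_mem hy₀ (hSH hs), ?_⟩, s⁻¹ * (y₀⁻¹ * x), ⟨hzS', hzA'⟩, by group⟩
  show y₀ * s ∈ Subgroup.normalizer (A : Set G)
  rw [hy]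
  exact Subgroup.mul_mem _ hx (Subgroup.inv_mem _ hzA')

end Cfsg.Agent.S4421
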