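import Cfsg.Statements.S4422
import Mathlib

set_option autoImplicit false
open Cfsg

namespace Cfsg.Agent.S4422

theorem cast_pow_sub_one (q p d : ℕ) (hq : 1 ≤ q) :
    (((q ^ d - 1 : ℕ) : ZMod p) = 0) ↔ ((q : ZMod p) ^ d = 1) := by
  have h1 : 1 ≤ q ^ d := Nat.one_le_pow _ _ hq
  rw [Nat.cast_sub h1, Nat.cast_pow, Nat.cast_one, sub_eq_zero]

theorem prime_case (q e m : ℕ) (hq : 2 ≤ q) (he : 1 ≤ e)
    (hm : m ∣ q ^ e - 1) (hcop : ∀ i : ℕ, 1 ≤ i → i < e → Nat.Coprime m (q ^ i - 1))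
    (p : ℕ) (hp : p.Prime) (hpm : p ∣ m) : p ≡ 1 [MOD e] := by
  haveI : Fact p.Prime := ⟨hp⟩
  have hq1 : 1 ≤ q := by omega
  have hpe : p ∣ q ^ e - 1 := hpm.trans hm
  have h1 : (q : ZMod p) ^ e = 1 := by
    rw [← cast_pow_sub_one q p e hq1, ZMod.natCast_eq_zero_iff]
    exact hpe
  have hq0 : (q : ZMod p) ≠ 0 := by
    intro h0
    rw [h0, zero_pow (by omega)] at h1
    exact zero_ne_one h1
  have hd : orderOf (q : ZMod p) ∣ e := orderOf_dvd_of_pow_eq_one h1
  have hdpos : 0 < orderOf (q : ZMod p) := by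
    apply Nat.pos_of_ne_zero
    intro h0
    rw [h0] at hd
    have := Nat.eq_zero_of_zero_dvd hd
    omega
  have hde : orderOf (q : ZMod p) = e := by
    by_contra hne
    have hlt : orderOf (q : ZMod p) < e := lt_of_le_of_ne (Nat.le_of_dvd (by omega) hd) hne
    have hc := hcop _ hdpos hlt
    have h2 : p ∣ q ^ orderOf (q : ZMod p) - 1 := by
      rw [← ZMod.natCast_eq_zero_iff, cast_pow_sub_one q p _ hq1]
      exact pow_orderOf_eq_one _
    have h3 : p ∣ Nat.gcd m (q ^ orderOf (q : ZMod p) - 1) := Nat.dvd_gcd hpm h2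
    rw [hc] at h3
    exact hp.one_lt.ne' (Nat.dvd_one.1 h3)
  have h4 : e ∣ p - 1 := by
    rw [← hde]
    exact ZMod.orderOf_dvd_card_sub_one hq0
  exact ((Nat.modEq_iff_dvd' hp.one_lt.le).2 h4).symm

theorem all_primes (e : ℕ) : ∀ m : ℕ, m ≠ 0 → (∀ p : ℕ, p.Prime → p ∣ m → p ≡ 1 [MOD e]) →
    m ≡ 1 [MOD e] := by
  intro m
  induction m using Nat.recOnMul with
  | zero => intro h; exact absurd rfl h
  | one => intro _ _; rfl
  | prime p hp => intro _ h; exact h p hp dvd_rfl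
  | mul a b iha ihb =>
    intro hab h
    have ha : a ≠ 0 := fun h0 => hab (by rw [h0, zero_mul])
    have hb : b ≠ 0 := fun h0 => hab (by rw [h0, mul_zero])
    have h1 := iha ha (fun p hp hpa => h p hp (hpa.trans (dvd_mul_right a b)))
    have h2 := ihb hb (fun p hp hpb => h p hp (hpb.trans (dvd_mul_left b a)))
    have := Nat.ModEq.mul h1 h2
    simpa using this

theorem result (q e m : ℕ) (hq : 2 ≤ q) (he : 1 ≤ e)
    (hm : m ∣ q ^ e - 1) (hcop : ∀ i : ℕ, 1 ≤ i → i < e → Nat.Coprime m (q ^ i - 1)) :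
    m % e = 1 % e := by
  have hm0 : m ≠ 0 := by
    rintro rfl
    have h1 : 2 ≤ q ^ e := le_trans hq (Nat.le_self_pow (by omega) q)
    have := Nat.eq_zero_of_zero_dvd hm
    omega
  exact all_primes e m hm0 (fun p hp hpm => prime_case q e m hq he hm hcop p hp hpm)

end Cfsg.Agent.S4422
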