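import Mathlib
import Cfsg.Agent.Helper2.NormSyl
import Cfsg.Agent.Helper7.Solvable
import Cfsg.Statements.S4493

set_option autoImplicit false
open Cfsg

namespace Cfsg.Agent.S4493

/-- Let G be a finite solvable group and p a prime. Then G has a normal abelian Sylow p-subgroup if and only if no irreducible character degree of G is divisible by p. -/
theorem result {G : Type*} [Group G] [Finite G] (hsolv : Group.IsSolvable G) (p : ℕ) (hp : p.Prime) : (∃ P : Subgroup G, P.Normal ∧ (∀ x ∈ P, ∀ y ∈ P, x * y = y * x) ∧ IsPGroup p P ∧ ¬ p ∣ P.index) ↔ ∀ χ : Cfsg.IrrCharacter G, ¬ p ∣ Cfsg.charDegree (χ : G → ℂ) := by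
  haveI : Fact p.Prime := ⟨hp⟩
  constructor
  · rintro ⟨P, hPn, hab, hPp, hidx⟩ χ
    haveI := hPn
    exact Cfsg.Agent.Helper2.NormSyl.forward p P hab hidx χ
  · intro h
    have hdeg := Cfsg.Agent.Helper2.NormSyl.deg_conv p h
    obtain ⟨Q, hQn, hQp, hQidx⟩ := Cfsg.Agent.Helper2.NormSyl.exists_normal_sylow p
      (fun (H : Type _) [Group H] => Group.IsSolvable H)
      (by
        intro H _ _ _ hH
        haveI := hH
        obtain ⟨r, K, hr, hKn, hKbot, hKexp, hKab⟩ :=
          Cfsg.Agent.Helper7.exists_normal_exponent_prime (G := H)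
        haveI := hKn
        haveI : Fact r.Prime := ⟨hr⟩
        have hKr : IsPGroup r K := by
          intro x
          refine ⟨1, ?_⟩
          rw [pow_one]
          apply Subtype.ext
          rw [Subgroup.coe_pow]
          exact hKexp x x.2
        obtain ⟨m, hm⟩ := IsPGroup.iff_card.mp hKr
        refine ⟨K, hKn, hKbot, ?_, inferInstance⟩
        by_cases hrp : r = p
        · left
          exact ⟨m, by rw [hm, hrp]⟩
        · right
          rw [hm]
          exact Nat.Coprime.pow_left m ((Nat.coprime_primes hr hp).mpr hrp))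
      (Nat.card G) G le_rfl hsolv hdeg
    haveI := hQn
    have hab := Cfsg.Agent.Helper2.NormSyl.abelian_of_normal p Q hQp hdeg
    exact ⟨Q, hQn, fun x hx y hy => congrArg Subtype.val (hab ⟨x, hx⟩ ⟨y, hy⟩), hQp, hQidx⟩


end Cfsg.Agent.S4493
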