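import Cfsg.Statements.S4495
import Mathlib
import Cfsg.Agent.Helper7.SelfCentP2

set_option autoImplicit false
open Cfsg

namespace Cfsg.Agent.S4495

open Cfsg.Agent.Helper7

/-- Let the finite group G contain an element x of prime order p with C_G(x) = ⟨x⟩, and let t be the number of conjugacy classes of elements of order p. If t ≠ p − 1 then the commutator subgroup has index at most (p − 1)/t; if t = p − 1 it has index exactly p. -/
theorem result {G : Type*} [Group G] [Finite G] (p : ℕ) (hp : p.Prime) (x : G) (hx : orderOf x = p) (hC : Subgroup.centralizer ({x} : Set G) = Subgroup.zpowers x) (t : ℕ) (ht : Nat.card {C : ConjClasses G // ∃ g ∈ C.carrier, orderOf g = p} = t) : (t ≠ p - 1 → (commutator G).index * t ≤ p - 1) ∧ (t = p - 1 → (commutator G).index = p) := by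
  haveI : Fact p.Prime := ⟨hp⟩
  have hcount := scp_count p x hx hC
  rw [ht] at hcount
  have hp1 : 0 < p - 1 := Nat.sub_pos_of_lt hp.one_lt
  have hcardP : Nat.card (Subgroup.zpowers x) = p := by rw [Nat.card_zpowers, hx]
  constructor
  · intro htne
    have hN : Subgroup.normalizer ((Subgroup.zpowers x : Subgroup G) : Set G) ≠ Subgroup.zpowers x := by
      intro h
      rw [h, hcardP] at hcount
      apply htne
      have : p * t = p * (p - 1) := by rw [mul_comm]; exact hcount
      exact Nat.eq_of_mul_eq_mul_left hp.pos this
    have hxG := scp_mem_commutator_of_normalizer_ne p x hx hC hN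
    have hle := scp_index_commutator_mul_le p x hx hC hxG
    have h1 : (commutator G).index * t * p ≤ (p - 1) * p := by
      calc (commutator G).index * t * p = t * ((commutator G).index * p) := by ring
        _ ≤ t * Nat.card (Subgroup.normalizer ((Subgroup.zpowers x : Subgroup G) : Set G)) :=
          Nat.mul_le_mul_left _ hle
        _ = (p - 1) * p := by rw [hcount, mul_comm]
    exact Nat.le_of_mul_le_mul_right h1 hp.pos
  · intro hteq
    have hN : Subgroup.normalizer ((Subgroup.zpowers x : Subgroup G) : Set G) = Subgroup.zpowers x := by
      symm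
      apply Subgroup.eq_of_le_of_card_ge Subgroup.le_normalizer
      rw [hcardP]
      rw [hteq] at hcount
      have : (p - 1) * Nat.card (Subgroup.normalizer ((Subgroup.zpowers x : Subgroup G) : Set G))
          = (p - 1) * p := by rw [hcount, mul_comm]
      exact (Nat.eq_of_mul_eq_mul_left hp1 this).le
    exact (scp_commutator_of_normalizer_eq p x hx hC hN).2

end Cfsg.Agent.S4495
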