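import Cfsg.Statements.S4636

set_option autoImplicit false
open scoped Pointwise
open Cfsg

namespace Cfsg.Agent.S4636

theorem eq_of_card_eq_of_le_cyclic {G : Type*} [Group G] [Finite G] (P : Subgroup G) [IsCyclic P]
    (H K : Subgroup G) (hH : H ≤ P) (hK : K ≤ P) (n : ℕ) (hn : 0 < n)
    (hHn : Nat.card H = n) (hKn : Nat.card K = n) : H = K := by
  classical
  haveI := Fintype.ofFinite P
  have hT : (Finset.univ.filter (fun a : P => a ^ n = 1)).card ≤ n :=
    IsCyclic.card_pow_eq_one_le hn
  have key : ∀ L : Subgroup G, L ≤ P → Nat.card L = n →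
      ((L.subgroupOf P : Subgroup P) : Set P) = {a : P | a ^ n = 1} := by
    intro L hL hLn
    apply Set.eq_of_subset_of_ncard_le
    · intro x hx
      have hx' : (x : G) ∈ L := hx
      have h1 : (⟨(x : G), hx'⟩ : L) ^ Nat.card L = 1 := pow_card_eq_one'
      rw [hLn] at h1
      have h2 : ((x : G)) ^ n = 1 := by
        have := congrArg (fun y : L => (y : G)) h1
        simpa using this
      show x ^ n = 1
      exact Subtype.ext (by simpa using h2)
    · have h3 : Set.ncard ((L.subgroupOf P : Subgroup P) : Set P) = n := by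
        rw [← hLn]
        have := Nat.card_congr (Subgroup.subgroupOfEquivOfLe hL).toEquiv
        rw [← this]
        rfl
      rw [h3]
      have h4 : Set.ncard {a : P | a ^ n = 1} = (Finset.univ.filter (fun a : P => a ^ n = 1)).card := by
        rw [← Set.ncard_coe_finset]
        congr 1
        ext a
        simp
      rw [h4]
      exact hT
    · exact Set.toFinite _
  have h5 := (key H hH hHn).trans (key K hK hKn).symm
  have h6 : H.subgroupOf P = K.subgroupOf P := SetLike.coe_injective h5
  rw [Subgroup.subgroupOf_inj, inf_eq_left.mpr hH, inf_eq_left.mpr hK] at h6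
  exact h6

/-- Let P be a nontrivial cyclic p-subgroup of the finite group G and Z its subgroup of order p. For every x outside N_G(Z), P meets its conjugate xPx⁻¹ trivially; consequently N_G(Q) ≤ N_G(Z) for every nontrivial subgroup Q of P. -/
theorem result {G : Type*} [Group G] [Finite G] (p : ℕ) [Fact p.Prime] (P : Subgroup G) (hP : IsPGroup p P) (hP1 : P ≠ ⊥) (hcyc : IsCyclic P) (Z : Subgroup G) (hZ : Z ≤ P) (hZcard : Nat.card Z = p) : (∀ x : G, x ∉ Subgroup.normalizer (Z : Set G) → P ⊓ MulAut.conj x • P = ⊥) ∧ ∀ Q : Subgroup G, Q ≤ P → Q ≠ ⊥ → Subgroup.normalizer (Q : Set G) ≤ Subgroup.normalizer (Z : Set G) := by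
  have hp : p.Prime := Fact.out
  -- every nontrivial subgroup of P contains Z
  have hsub : ∀ D : Subgroup G, D ≤ P → D ≠ ⊥ → Z ≤ D := by
    intro D hD hD1
    have hDp : IsPGroup p D := hP.to_le hD
    have hcard : p ∣ Nat.card D := by
      obtain ⟨n, hn⟩ := IsPGroup.iff_card.mp hDp
      rcases Nat.eq_zero_or_pos n with h0 | hpos
      · exfalso
        apply hD1
        rw [h0, pow_zero] at hn
        exact (Subgroup.eq_bot_iff_card D).mpr hn
      · rw [hn]
        exact dvd_pow_self p (Nat.pos_iff_ne_zero.mp hpos)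
    obtain ⟨d, hd⟩ := exists_prime_orderOf_dvd_card' p hcard
    have h1 : Nat.card (Subgroup.zpowers (d : G)) = p := by
      rw [Nat.card_zpowers, Subgroup.orderOf_coe, hd]
    have h2 : Subgroup.zpowers (d : G) ≤ D := by
      rw [Subgroup.zpowers_le]
      exact d.2
    have h3 : Subgroup.zpowers (d : G) = Z :=
      eq_of_card_eq_of_le_cyclic P _ _ (h2.trans hD) hZ p hp.pos h1 hZcard
    rw [← h3]
    exact h2
  -- conjugates of Z inside P equal Z
  have hconj : ∀ x : G, MulAut.conj x • Z ≤ P → MulAut.conj x • Z = Z := by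
    intro x hx
    apply eq_of_card_eq_of_le_cyclic P _ _ hx hZ p hp.pos _ hZcard
    rw [← hZcard]
    exact Nat.card_congr (Subgroup.equivSMul (MulAut.conj x) Z).toEquiv.symm
  have hnorm : ∀ x : G, MulAut.conj x • Z = Z → x ∈ Subgroup.normalizer (Z : Set G) := by
    intro x hx
    have hx' : MulAut.conj x ∈ MulAction.stabilizer (MulAut G) Z := hx
    rw [Subgroup.mem_normalizer_iff]
    intro h
    constructor
    · intro hh
      have : MulAut.conj x • h ∈ MulAut.conj x • Z := Subgroup.smul_mem_pointwise_smul h _ Z hh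
      rw [hx] at this
      simpa [MulAut.smul_def] using this
    · intro hh
      have h2 : x * h * x⁻¹ ∈ MulAut.conj x • Z := by rw [hx]; exact hh
      obtain ⟨z, hz, hzeq⟩ := h2
      have : z = h := by
        have h3 : x * z * x⁻¹ = x * h * x⁻¹ := by simpa [MulAut.smul_def] using hzeq
        exact mul_left_cancel (mul_right_cancel h3)
      rw [← this]
      exact hz
  constructor
  · intro x hx
    by_contra hne
    apply hx
    apply hnorm
    apply hconj
    -- Z ≤ P ⊓ x • P, and also x • Z ≤ P ⊓ x • P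
    have hcycx : IsCyclic (MulAut.conj x • P : Subgroup G) :=
      (Subgroup.equivSMul (MulAut.conj x) P).isCyclic.mp hcyc
    have hD1 : Z ≤ P ⊓ MulAut.conj x • P := hsub _ inf_le_left hne
    have hZx : Z ≤ MulAut.conj x • P := hD1.trans inf_le_right
    have hxZ : MulAut.conj x • Z ≤ MulAut.conj x • P := Subgroup.pointwise_smul_le_pointwise_smul_iff.mpr hZ
    have hcard2 : Nat.card (MulAut.conj x • Z : Subgroup G) = p := by
      rw [← hZcard]
      exact Nat.card_congr (Subgroup.equivSMul (MulAut.conj x) Z).toEquiv.symm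
    have : MulAut.conj x • Z = Z :=
      @eq_of_card_eq_of_le_cyclic G _ _ (MulAut.conj x • P) hcycx _ _ hxZ hZx p hp.pos hcard2 hZcard
    rw [this]
    exact hZ
  · intro Q hQ hQ1 g hg
    apply hnorm
    apply hconj
    have hZQ : Z ≤ Q := hsub Q hQ hQ1
    intro y hy
    obtain ⟨z, hz, rfl⟩ := hy
    apply hQ
    have := (Subgroup.mem_normalizer_iff.mp hg z).mp (hZQ hz)
    simpa [MulAut.smul_def] using this

end Cfsg.Agent.S4636
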