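import Mathlib
import Cfsg.Agent.Lead.CharCore2
import Cfsg.Statements.S4665

set_option autoImplicit false
open Cfsg

namespace Cfsg.Agent.S4665

/-- Fix a prime p, a maximal ideal M of the algebraic integers containing p, and a p-block B of the finite group G, and let p^a be the p-part of the order of G. Let χ be an integer combination of the irreducible characters in B. If the function that agrees with χ on p-regular elements and vanishes on p-singular elements is again an integer combination of the irreducible characters in B, then p^a divides χ(1). -/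
theorem result {G : Type*} [Group G] [Fintype G] (p : ℕ) [Fact p.Prime] (M : Ideal Cfsg.AlgInt) (hM : Cfsg.IsPModular p M) (B : Set (Cfsg.IrrCharacter G)) (hB : Cfsg.IsPBlock M B) (χ : G → ℂ) (hχ : (∃ n : Cfsg.IrrCharacter G → ℤ, ∀ g : G, χ g = ∑ᶠ ψ ∈ B, (n ψ : ℂ) * (ψ : G → ℂ) g)) (h0 : (∃ n : Cfsg.IrrCharacter G → ℤ, ∀ g : G, Cfsg.pRegularPart p χ g = ∑ᶠ ψ ∈ B, (n ψ : ℂ) * (ψ : G → ℂ) g)) : ∃ k : ℤ, χ 1 = (p ^ (Nat.card G).factorization p : ℂ) * k := by
  classical
  obtain ⟨n, hn⟩ := h0
  haveI : Finite (Cfsg.IrrCharacter G) := Cfsg.Agent.Lead.finite_irrCharacter G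
  obtain ⟨P⟩ : Nonempty (Sylow p G) := inferInstance
  have hPcard : Nat.card (P : Subgroup G) = p ^ (Nat.card G).factorization p :=
    P.card_eq_multiplicity
  have hPne : (Nat.card (P : Subgroup G) : ℂ) ≠ 0 := by exact_mod_cast Nat.card_pos.ne'
  have key : ∀ ψ : Cfsg.IrrCharacter G, ∃ m : ℕ,
      ∑ x : (P : Subgroup G), (ψ : G → ℂ) x = (Nat.card (P : Subgroup G) : ℂ) * m := by
    intro ψ
    obtain ⟨d, ρ, -, hρ⟩ := ψ.2
    haveI : Invertible (Nat.card (P : Subgroup G) : ℂ) := invertibleOfNonzero hPne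
    have h := Representation.card_inv_mul_sum_char_eq_finrank
      (ρ.comp (P : Subgroup G).subtype)
    refine ⟨Module.finrank ℂ (Representation.invariants (ρ.comp (P : Subgroup G).subtype)), ?_⟩
    rw [← h, ← mul_assoc, mul_inv_cancel₀ hPne, one_mul]
    refine Finset.sum_congr rfl (fun x _ => ?_)
    rw [← hρ]
    rfl
  choose m hm using key
  have hreg1 : Cfsg.IsPRegular p (1 : G) := by
    unfold Cfsg.IsPRegular
    rw [orderOf_one, Nat.dvd_one]
    exact (Fact.out : p.Prime).one_lt.ne'
  have h1 : ∑ x : (P : Subgroup G), Cfsg.pRegularPart p χ x = χ 1 := by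
    rw [Finset.sum_eq_single (1 : (P : Subgroup G))]
    · show Cfsg.pRegularPart p χ (1 : G) = χ 1
      unfold Cfsg.pRegularPart
      exact if_pos hreg1
    · intro x _ hx
      have hns : ¬ Cfsg.IsPRegular p (x : G) := by
        unfold Cfsg.IsPRegular
        rw [not_not]
        obtain ⟨k, hk⟩ := (IsPGroup.iff_orderOf.mp P.2) x
        rw [Subgroup.orderOf_coe, hk]
        have hk0 : k ≠ 0 := by
          intro h0
          rw [h0, pow_zero, orderOf_eq_one_iff] at hk
          exact hx hk
        exact dvd_pow_self p hk0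
      unfold Cfsg.pRegularPart
      exact if_neg hns
    · intro h
      exact absurd (Finset.mem_univ _) h
  refine ⟨∑ ψ ∈ (Set.toFinite B).toFinset, n ψ * (m ψ : ℤ), ?_⟩
  rw [← h1]
  have hc : (p ^ (Nat.card G).factorization p : ℂ) = (Nat.card (P : Subgroup G) : ℂ) := by
    rw [hPcard]
    push_cast
    rfl
  rw [hc]
  calc ∑ x : (P : Subgroup G), Cfsg.pRegularPart p χ x
      = ∑ x : (P : Subgroup G), ∑ ψ ∈ (Set.toFinite B).toFinset,
          (n ψ : ℂ) * (ψ : G → ℂ) x := by
        refine Finset.sum_congr rfl (fun x _ => ?_)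
        rw [hn x, finsum_mem_eq_finite_toFinset_sum _ (Set.toFinite B)]
    _ = ∑ ψ ∈ (Set.toFinite B).toFinset,
          (n ψ : ℂ) * ∑ x : (P : Subgroup G), (ψ : G → ℂ) x := by
        rw [Finset.sum_comm]
        refine Finset.sum_congr rfl (fun ψ _ => ?_)
        rw [Finset.mul_sum]
    _ = (Nat.card (P : Subgroup G) : ℂ) *
          ((∑ ψ ∈ (Set.toFinite B).toFinset, n ψ * (m ψ : ℤ) : ℤ) : ℂ) := by
        push_cast
        rw [Finset.mul_sum]
        refine Finset.sum_congr rfl (fun ψ _ => ?_)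
        rw [hm ψ]
        ring


end Cfsg.Agent.S4665
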