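import Mathlib
import Cfsg.Agent.Helper2.NormSyl
import Cfsg.Agent.Helper4.HH123
import Cfsg.Agent.Helper6.PSolvHall
import Cfsg.Statements.S4713

set_option autoImplicit false
open Cfsg

namespace Cfsg.Agent.S4713

/-- Let p be a prime and G a finite p-solvable group. Then G has a normal abelian Sylow p-subgroup if and only if the degree of every irreducible character of G is prime to p. -/
theorem result {G : Type*} [Group G] [Finite G] (p : ℕ) [Fact p.Prime] (hsolv : Cfsg.IsPSolvable p G) (P : Sylow p G) : ((P : Subgroup G).Normal ∧ IsMulCommutative P) ↔ ∀ χ : Cfsg.IrrCharacter G, ¬ p ∣ Cfsg.charDegree (χ : G → ℂ) := by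
  constructor
  · rintro ⟨hPn, hPc⟩ χ
    haveI := hPn
    exact Cfsg.Agent.Helper2.NormSyl.forward p (P : Subgroup G)
      (fun a ha b hb => Cfsg.Agent.Helper2.comm_of_isMulCommutative hPc ha hb) P.not_dvd_index χ
  · intro h
    have hdeg := Cfsg.Agent.Helper2.NormSyl.deg_conv p h
    obtain ⟨Q, hQn, hQp, hQidx⟩ := Cfsg.Agent.Helper2.NormSyl.exists_normal_sylow p
      (fun (H : Type _) [Group H] => Cfsg.IsPSolvable p H)
      (by
        intro H _ _ _ hH
        obtain ⟨N, hNn, hNbot, hNtype⟩ := Cfsg.Agent.Helper6.exists_normal_of_isPSolvable hH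
        haveI := hNn
        exact ⟨N, hNn, hNbot, hNtype, Cfsg.Agent.Helper4.isPSolvable_quotient hH N⟩)
      (Nat.card G) G le_rfl hsolv hdeg
    have hPQ : (P : Subgroup G) = Q := by
      have hQ'n : ((hQp.toSylow hQidx : Sylow p G) : Subgroup G).Normal := by
        rw [IsPGroup.toSylow_coe]
        exact hQn
      haveI := Sylow.unique_of_normal (hQp.toSylow hQidx) hQ'n
      have h1 : P = hQp.toSylow hQidx := Subsingleton.elim _ _
      rw [h1]
      exact IsPGroup.toSylow_coe hQp hQidx
    haveI := hQn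
    have hab := Cfsg.Agent.Helper2.NormSyl.abelian_of_normal p Q hQp hdeg
    rw [hPQ]
    exact ⟨hQn, ⟨⟨hab⟩⟩⟩


end Cfsg.Agent.S4713
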