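import Cfsg.Statements.S5032
import Cfsg.Agent.Helper8.RootLine2

set_option autoImplicit false
open Cfsg

namespace Cfsg.Agent.S5032

/-- Let S be a set of abstract root subgroups of G with more than one member. Then the graph of rank one pairs on S is connected if and only if S is a single conjugacy class of G and some member of S has a rank one partner in S. -/
theorem result {G : Type*} [Group G] {S : Set (Subgroup G)} (hS : Cfsg.IsRootSubgroupSet S) (h2 : ∃ A ∈ S, ∃ B ∈ S, A ≠ B) :
    Cfsg.IsConnectedFamily (Cfsg.FAdj S) S ↔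
      (Cfsg.IsConjClassOfSubgroups S ∧ ∃ A ∈ S, ¬ Cfsg.IsIsolatedIn (Cfsg.FAdj S) S A) := by
  constructor
  · intro hconn
    refine ⟨⟨?_, ?_⟩, ?_⟩
    · obtain ⟨A, hA, -⟩ := h2
      exact ⟨A, hA⟩
    · intro A hA B hB
      exact Helper8.conj_of_reach (hconn A hA B hB)
    · obtain ⟨A, hA, B, hB, hAB⟩ := h2
      refine ⟨A, hA, ?_⟩
      obtain ⟨D, hD, hAD⟩ :=
        Helper8.partner_of_component ⟨B, ⟨hB, hconn A hA B hB⟩, hAB.symm⟩
      exact Helper8.not_isolated_of_partner hA hD hAD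
  · rintro ⟨⟨-, hconj⟩, A₀, hA₀, hni₀⟩
    have hni : ∀ X ∈ S, ¬ IsIsolatedIn (FAdj S) S X := by
      intro X hX
      obtain ⟨g, rfl⟩ := hconj A₀ hA₀ X hX
      exact Helper8.not_isolated_conj hS hni₀ hA₀ g
    intro A hA B hB
    obtain ⟨g, rfl⟩ := hconj A hA B hB
    exact Helper8.connected_of_class hS hni A hA g

end Cfsg.Agent.S5032
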