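import Cfsg.Statements.S5057
import Mathlib

set_option autoImplicit false
open Cfsg

namespace Cfsg.Agent.S5057

abbrev Q (a b : Equiv.Perm (Fin 6)) : Prop :=
  a * b = b * a ∨ (a * b) ^ 3 = 1 ∨ (a * b) ^ 5 = 1 ∨ ((a * b) ^ 4 = 1 ∧ (a * b) ^ 2 ≠ 1)

set_option maxHeartbeats 0 in
lemma B1 : ∀ b : Equiv.Perm (Fin 6), b * b = 1 → b ≠ 1 → Equiv.Perm.sign b = 1 →
    Q (Equiv.swap 0 1 * Equiv.swap 2 3) b := by
  decide +kernel

set_option maxHeartbeats 0 in
lemma B2 : ∀ b : Equiv.Perm (Fin 6), b * b = 1 → b ≠ 1 → Equiv.Perm.sign b = 1 →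
    ∃ g : Equiv.Perm (Fin 6), Equiv.Perm.sign g = 1 ∧ b = g * (Equiv.swap 0 1 * Equiv.swap 2 3) * g⁻¹ := by
  decide +kernel

lemma Qconj (g x y : Equiv.Perm (Fin 6)) (h : Q x y) : Q (g * x * g⁻¹) (g * y * g⁻¹) := by
  have hmul : g * x * g⁻¹ * (g * y * g⁻¹) = g * (x * y) * g⁻¹ := by group
  have hmul' : g * y * g⁻¹ * (g * x * g⁻¹) = g * (y * x) * g⁻¹ := by group
  unfold Q
  rw [hmul, hmul', conj_pow, conj_pow, conj_pow, conj_pow]
  rcases h with h | h | h | ⟨h, h'⟩
  · left; rw [h]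
  · right; left; rw [h]; group
  · right; right; left; rw [h]; group
  · right; right; right
    refine ⟨by rw [h]; group, ?_⟩
    intro hc
    apply h'
    have h2 := congrArg (fun t => g⁻¹ * t * g) hc
    simpa [mul_assoc] using h2

lemma inv_facts (g : ↥(alternatingGroup (Fin 6))) (hg : orderOf g = 2) :
    (g : Equiv.Perm (Fin 6)) * g = 1 ∧ (g : Equiv.Perm (Fin 6)) ≠ 1 ∧ Equiv.Perm.sign (g : Equiv.Perm (Fin 6)) = 1 := by
  have h1 : g ^ 2 = 1 := by rw [← hg]; exact pow_orderOf_eq_one g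
  have h2 : g ≠ 1 := by
    intro h
    rw [h, orderOf_one] at hg
    omega
  refine ⟨?_, ?_, Equiv.Perm.mem_alternatingGroup.mp g.2⟩
  · have h3 := congrArg Subtype.val h1
    simpa [pow_two] using h3
  · intro h
    exact h2 (Subtype.ext h)

lemma Q_of_mem (d e : ↥(alternatingGroup (Fin 6))) (hd : orderOf d = 2) (he : orderOf e = 2) :
    Q (d : Equiv.Perm (Fin 6)) (e : Equiv.Perm (Fin 6)) := by
  obtain ⟨d1, d2, d3⟩ := inv_facts d hd
  obtain ⟨e1, e2, e3⟩ := inv_facts e he
  obtain ⟨g, hg, hdg⟩ := B2 _ d1 d2 d3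
  have hy1 : (g⁻¹ * (e : Equiv.Perm (Fin 6)) * g) * (g⁻¹ * (e : Equiv.Perm (Fin 6)) * g) = 1 := by
    have : (g⁻¹ * (e : Equiv.Perm (Fin 6)) * g) * (g⁻¹ * (e : Equiv.Perm (Fin 6)) * g) = g⁻¹ * ((e : Equiv.Perm (Fin 6)) * e) * g := by group
    rw [this, e1]; group
  have hy2 : g⁻¹ * (e : Equiv.Perm (Fin 6)) * g ≠ 1 := by
    intro hc
    apply e2
    have h2 := congrArg (fun t => g * t * g⁻¹) hc
    simpa [mul_assoc] using h2
  have hy3 : Equiv.Perm.sign (g⁻¹ * (e : Equiv.Perm (Fin 6)) * g) = 1 := by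
    simp [Equiv.Perm.sign_mul, hg, e3]
  have hQ := Qconj g _ _ (B1 _ hy1 hy2 hy3)
  rw [← hdg] at hQ
  have hback : g * (g⁻¹ * (e : Equiv.Perm (Fin 6)) * g) * g⁻¹ = e := by group
  rw [hback] at hQ
  exact hQ

/-- The involutions of the alternating group of degree 6 form a class of root involutions (a single conjugacy class of involutions generating the group, any two of which commute, have product of odd order, or have product of order 4 whose square is again an involution of the class), and the product of any two of them has order at most 5. -/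
theorem result :
    Cfsg.IsRootInvolutionClass {g : ↥(alternatingGroup (Fin 6)) | orderOf g = 2} ∧
    ∀ d ∈ {g : ↥(alternatingGroup (Fin 6)) | orderOf g = 2}, ∀ e ∈ {g : ↥(alternatingGroup (Fin 6)) | orderOf g = 2},
      orderOf (d * e) ≤ 5 := by
  classical
  haveI : Fact (Nat.Prime 2) := ⟨Nat.prime_two⟩
  -- transfer of power equations
  have hpow : ∀ (d e : ↥(alternatingGroup (Fin 6))) (k : ℕ), ((d : Equiv.Perm (Fin 6)) * e) ^ k = 1 ↔ (d * e) ^ k = 1 := by
    intro d e k
    constructor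
    · intro h; apply Subtype.ext; simpa using h
    · intro h; have h2 := congrArg Subtype.val h; simpa using h2
  -- a specific element of D
  have ha0 : Equiv.Perm.sign (Equiv.swap (0 : Fin 6) 1 * Equiv.swap 2 3) = 1 := by decide
  have ha0D : orderOf (⟨Equiv.swap (0 : Fin 6) 1 * Equiv.swap 2 3, Equiv.Perm.mem_alternatingGroup.mpr ha0⟩ : ↥(alternatingGroup (Fin 6))) = 2 := by
    apply orderOf_eq_prime
    · apply Subtype.ext
      show (Equiv.swap (0 : Fin 6) 1 * Equiv.swap 2 3) ^ 2 = 1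
      decide
    · intro h
      have h2 := congrArg Subtype.val h
      revert h2
      show ¬ (Equiv.swap (0 : Fin 6) 1 * Equiv.swap 2 3 = 1)
      decide
  have hconjmem : ∀ d ∈ {g : ↥(alternatingGroup (Fin 6)) | orderOf g = 2}, ∀ g : ↥(alternatingGroup (Fin 6)), g * d * g⁻¹ ∈ {g : ↥(alternatingGroup (Fin 6)) | orderOf g = 2} := by
    intro d hd g
    show orderOf (g * d * g⁻¹) = 2
    have h1 := (MulAut.conj g).orderOf_eq d
    rw [MulAut.conj_apply] at h1
    rw [h1]
    exact hd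
  refine ⟨⟨⟨fun d hd => hd, ?_, hconjmem, ?_⟩, ⟨_, ha0D⟩, ?_⟩, ?_⟩
  · -- generation
    haveI : IsSimpleGroup ↥(alternatingGroup (Fin 6)) := alternatingGroup.isSimpleGroup (by simp)
    have hle : Subgroup.normalClosure {g : ↥(alternatingGroup (Fin 6)) | orderOf g = 2} ≤ Subgroup.closure {g : ↥(alternatingGroup (Fin 6)) | orderOf g = 2} := by
      apply Subgroup.closure_mono
      intro z hz
      rw [Group.mem_conjugatesOfSet_iff] at hz
      obtain ⟨a, ha, haz⟩ := hz
      obtain ⟨c, hc⟩ := isConj_iff.mp haz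
      rw [← hc]
      exact hconjmem a ha c
    have hne : Subgroup.normalClosure {g : ↥(alternatingGroup (Fin 6)) | orderOf g = 2} ≠ ⊥ := by
      intro hbot
      have hmem : (⟨Equiv.swap (0 : Fin 6) 1 * Equiv.swap 2 3, Equiv.Perm.mem_alternatingGroup.mpr ha0⟩ : ↥(alternatingGroup (Fin 6))) ∈ Subgroup.normalClosure {g : ↥(alternatingGroup (Fin 6)) | orderOf g = 2} :=
        Subgroup.subset_normalClosure ha0D
      rw [hbot, Subgroup.mem_bot] at hmem
      rw [hmem, orderOf_one] at ha0D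
      omega
    have htop := (Subgroup.normalClosure_normal.eq_bot_or_eq_top).resolve_left hne
    rw [htop] at hle
    exact top_le_iff.mp hle
  · -- pair
    intro a ha b hb
    have hQ := Q_of_mem a b ha hb
    obtain ⟨a1, a2, a3⟩ := inv_facts a ha
    obtain ⟨b1, b2, b3⟩ := inv_facts b hb
    rcases hQ with h | h | h | ⟨h, h'⟩
    · left
      apply Subtype.ext
      exact h
    · right; left
      have h3 := (hpow a b 3).mp h
      have hdvd := orderOf_dvd_of_pow_eq_one h3
      rcases (Nat.dvd_prime Nat.prime_three).mp hdvd with h1 | h1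
      · rw [h1]; exact odd_one
      · rw [h1]; decide
    · right; left
      have h5 := (hpow a b 5).mp h
      have hdvd := orderOf_dvd_of_pow_eq_one h5
      rcases (Nat.dvd_prime Nat.prime_five).mp hdvd with h1 | h1
      · rw [h1]; exact odd_one
      · rw [h1]; decide
    · right; right
      have h4 := (hpow a b 4).mp h
      have h2 : (a * b) ^ 2 ≠ 1 := fun hc => h' ((hpow a b 2).mpr hc)
      refine ⟨?_, ?_⟩
      · exact orderOf_eq_prime_pow (p := 2) (n := 1) (by simpa using h2) (by simpa using h4)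
      · show orderOf ((a * b) ^ 2) = 2
        apply orderOf_eq_prime
        · rw [← pow_mul]; exact h4
        · exact h2
  · -- conjugacy
    intro a ha b hb
    obtain ⟨a1, a2, a3⟩ := inv_facts a ha
    obtain ⟨b1, b2, b3⟩ := inv_facts b hb
    obtain ⟨g₁, hg₁, e₁⟩ := B2 _ a1 a2 a3
    obtain ⟨g₂, hg₂, e₂⟩ := B2 _ b1 b2 b3
    have hmem : g₂ * g₁⁻¹ ∈ alternatingGroup (Fin 6) := by
      rw [Equiv.Perm.mem_alternatingGroup]
      simp [Equiv.Perm.sign_mul, hg₁, hg₂]
    refine ⟨⟨g₂ * g₁⁻¹, hmem⟩, ?_⟩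
    apply Subtype.ext
    show (b : Equiv.Perm (Fin 6)) = (g₂ * g₁⁻¹) * (a : Equiv.Perm (Fin 6)) * (g₂ * g₁⁻¹)⁻¹
    rw [e₁, e₂]
    group
  · -- order bound
    intro d hd e he
    have hQ := Q_of_mem d e hd he
    obtain ⟨d1, d2, d3⟩ := inv_facts d hd
    obtain ⟨e1, e2, e3⟩ := inv_facts e he
    rcases hQ with h | h | h | ⟨h, h'⟩
    · have h2 : ((d : Equiv.Perm (Fin 6)) * e) ^ 2 = 1 := by
        rw [pow_two]
        nth_rewrite 2 [h]
        rw [mul_assoc, ← mul_assoc (e : Equiv.Perm (Fin 6)) e d, e1, one_mul, d1]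
      have hdvd := orderOf_dvd_of_pow_eq_one ((hpow d e 2).mp h2)
      exact (Nat.le_of_dvd (by norm_num) hdvd).trans (by norm_num)
    · have hdvd := orderOf_dvd_of_pow_eq_one ((hpow d e 3).mp h)
      exact (Nat.le_of_dvd (by norm_num) hdvd).trans (by norm_num)
    · have hdvd := orderOf_dvd_of_pow_eq_one ((hpow d e 5).mp h)
      exact Nat.le_of_dvd (by norm_num) hdvd
    · have hdvd := orderOf_dvd_of_pow_eq_one ((hpow d e 4).mp h)
      exact (Nat.le_of_dvd (by norm_num) hdvd).trans (by norm_num)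

end Cfsg.Agent.S5057
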