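import Cfsg.Statements.S5084
import Cfsg.Agent.Helper8.FusionNormal

set_option autoImplicit false
open Cfsg

namespace Cfsg.Agent.S5084

/-- In a saturated fusion system over a finite p-group S, a subgroup Q is central in the system if and only if Q ≤ S and no element of Q is conjugate in the system to any element other than itself. -/
theorem result {Ω : Type*} [Group Ω] {S : Subgroup Ω} [Finite S] (p : ℕ) [Fact p.Prime] (hS : IsPGroup p S) (F : Cfsg.FusionSystem S) (hF : F.IsSaturated p) (Q : Subgroup Ω) : F.IsCentral Q ↔ (Q ≤ S ∧ ∀ x ∈ Q, ∀ y : Ω, F.IsConjElt x y → y = x) := by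
  constructor
  · intro h
    exact ⟨h.1, Helper8.conj_trivial_of_central F h⟩
  · rintro ⟨hQS, h⟩
    exact Helper8.central_of_conj_trivial p hS F hF Q hQS h

end Cfsg.Agent.S5084
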