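import Cfsg.Statements.S5089
import Cfsg.Agent.Helper8.FusionChain
import Cfsg.Agent.S5145

set_option autoImplicit false
open Cfsg

namespace Cfsg.Agent.S5089

/-- A saturated fusion system over a finite p-group has a nontrivial subgroup that is normal in the system (O_p(F) ≠ 1) if and only if some nontrivial abelian subgroup is strongly closed in the system. -/
theorem result {Ω : Type*} [Group Ω] {S : Subgroup Ω} [Finite S] (p : ℕ) [Fact p.Prime] (hS : IsPGroup p S) (F : Cfsg.FusionSystem S) (hF : F.IsSaturated p) : F.core ≠ ⊥ ↔ ∃ Q : Subgroup Ω, Q ≠ ⊥ ∧ IsMulCommutative Q ∧ F.StronglyClosed Q := by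
  constructor
  · intro hne
    have hcore := Cfsg.Agent.S5145.result F
    have hcS := hcore.1
    have : Finite F.core := Helper8.finite_of_le_finite hcS
    have hcp : IsPGroup p F.core := hS.to_le hcS
    haveI : Nontrivial F.core := (Subgroup.nontrivial_iff_ne_bot _).mpr hne
    have hZ : Nontrivial (Subgroup.center F.core) := hcp.center_nontrivial
    refine ⟨(Subgroup.center F.core).map F.core.subtype, ?_, ?_, ?_⟩
    · intro h
      rw [Subgroup.map_eq_bot_iff_of_injective _ F.core.subtype_injective] at h
      exact (Subgroup.nontrivial_iff_ne_bot _).mp hZ h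
    · rw [isMulCommutative_iff]
      rintro ⟨_, a, ha, rfl⟩ ⟨_, b, hb, rfl⟩
      apply Subtype.ext
      show (a : Ω) * b = b * a
      have h1 := Subgroup.mem_center_iff.mp hb a
      exact congrArg Subtype.val h1
    · apply Helper8.stronglyClosed_of_normal
      apply Cfsg.Agent.S5085.result F F.core _ hcore (Subgroup.map_subtype_le _)
      have h1 : ((Subgroup.center F.core).map F.core.subtype).subgroupOf F.core
          = Subgroup.center F.core :=
        Subgroup.comap_map_eq_self_of_injective F.core.subtype_injective _
      rw [h1]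
      infer_instance
  · rintro ⟨Q, hne, hcomm, hsc⟩
    have hN : F.IsNormal Q := by
      apply Helper8.normal_of_chain p hS F hF Q 1 ![⊥, Q] rfl rfl
      intro i
      have hi : i = 0 := Subsingleton.elim _ _
      subst hi
      refine ⟨hsc, ?_⟩
      show ⁅Q, Q⁆ ≤ ⊥
      rw [Subgroup.commutator_le]
      intro a ha b hb
      rw [Subgroup.mem_bot, commutatorElement_eq_one_iff_commute]
      have h1 := (isMulCommutative_iff.mp hcomm) ⟨a, ha⟩ ⟨b, hb⟩
      exact congrArg Subtype.val h1
    intro hcore
    apply hne
    have h2 : Q ≤ F.core := le_sSup hN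
    rw [hcore] at h2
    exact le_bot_iff.mp h2

end Cfsg.Agent.S5089
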