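import Cfsg.Statements.S5100
import Cfsg.Agent.Helper8.GroupFusion

set_option autoImplicit false
open Cfsg

namespace Cfsg.Agent.S5100

/-- In the fusion system of a finite group G on a Sylow p-subgroup S, a subgroup P ≤ S is fully normalized if and only if N_S(P) is a Sylow p-subgroup of N_G(P). -/
theorem result {G : Type*} [Group G] [Finite G] (p : ℕ) [Fact p.Prime] (S : Sylow p G) (P : Subgroup G) (hP : P ≤ S) : (Cfsg.groupFusionSystem (S : Subgroup G)).IsFullyNormalized P ↔ ∃ R : Sylow p ↥(Subgroup.normalizer (P : Set G)), (R : Subgroup ↥(Subgroup.normalizer (P : Set G))) = (Cfsg.FusionSystem.normalizerIn (S : Subgroup G) P).subgroupOf (Subgroup.normalizer (P : Set G)) := by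
  have hle : Cfsg.FusionSystem.normalizerIn (S : Subgroup G) P ≤ Subgroup.normalizer (P : Set G) :=
    inf_le_right
  have hp : IsPGroup p (Cfsg.FusionSystem.normalizerIn (S : Subgroup G) P : Subgroup G) :=
    S.isPGroup'.to_le inf_le_left
  rw [Cfsg.Agent.Helper8.isSylowIn_iff hle hp]
  have key := Cfsg.Agent.Helper8.fully_iff (fun P : Subgroup G => Subgroup.normalizer (P : Set G))
    (fun g P => Cfsg.Agent.Helper8.normalizer_cj g P) (fun P => le_rfl) S P hP
  constructor
  · intro h
    exact key.mp h.2
  · intro h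
    exact ⟨hP, key.mpr h⟩

end Cfsg.Agent.S5100
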