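import Cfsg.Statements.S5102

set_option autoImplicit false
open Cfsg

namespace Cfsg.Agent.S5102

/-- A normal p-subgroup of a finite group G is normal in the fusion system of G on a Sylow p-subgroup. -/
theorem result {G : Type*} [Group G] [Finite G] (p : ℕ) [Fact p.Prime] (S : Sylow p G) (R : Subgroup G) [R.Normal] (hR : IsPGroup p R) : (Cfsg.groupFusionSystem (S : Subgroup G)).IsNormal R := by
  have hRS : R ≤ (S : Subgroup G) := hR.le_sylow_of_normal S
  have hRn : R.Normal := inferInstance
  refine ⟨hRS, ?_⟩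
  rintro P φ ⟨hP, hφS, g, hg⟩
  refine ⟨conjHom (P ⊔ R) g, ⟨sup_le hP hRS, ?_, g, fun x => rfl⟩, ?_, ?_⟩
  · intro x
    have : P ⊔ R ≤ (S : Subgroup G).comap (MulAut.conj g).toMonoidHom := by
      apply sup_le
      · intro y hy
        show g * y * g⁻¹ ∈ (S : Subgroup G)
        rw [← hg ⟨y, hy⟩]
        exact hφS _
      · intro y hy
        show g * y * g⁻¹ ∈ (S : Subgroup G)
        exact hRS (hRn.conj_mem y hy g)
    exact this x.2
  · intro x
    exact (hg x).symm
  · ext z
    constructor
    · rintro ⟨y, hy, rfl⟩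
      exact hRn.conj_mem y hy g
    · intro hz
      have h1 : g⁻¹ * z * g ∈ R := by
        have := hRn.conj_mem z hz g⁻¹
        simpa using this
      refine ⟨⟨g⁻¹ * z * g, (le_sup_right : R ≤ P ⊔ R) h1⟩, h1, ?_⟩
      show g * (g⁻¹ * z * g) * g⁻¹ = z
      group

end Cfsg.Agent.S5102
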