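import Cfsg.Statements.S5119
import Cfsg.Agent.Helper8.FusionInv4

set_option autoImplicit false
open Cfsg

namespace Cfsg.Agent.S5119

/-- Let F be a saturated fusion system over a finite p-group S and E a subsystem of F over a subgroup T that is strongly closed in F. Then E is invariant in F (invariance under Aut_F(T) plus the Frattini condition) if and only if the strong invariance condition holds: for P ≤ Q ≤ T, every map φ of E from P into Q and every map ψ of F with source Q, the transported map ψ φ ψ⁻¹ on ψ(P) is a map of E. -/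
theorem result {Ω : Type*} [Group Ω] {S : Subgroup Ω} [Finite S] (p : ℕ) [Fact p.Prime] (hS : IsPGroup p S) (F : Cfsg.FusionSystem S) (hF : F.IsSaturated p) {T : Subgroup Ω} (E : Cfsg.FusionSystem T) (hE : E.IsSubsystemOf F) (hT : F.StronglyClosed T) : E.IsInvariantIn F ↔ ∀ (P Q : Subgroup Ω) (hPQ : P ≤ Q) (_ : Q ≤ T) (φ : P →* Ω) (_ : φ ∈ E.Hom P) (hφQ : ∀ x : P, φ x ∈ Q) (ψ : Q →* Ω) (_ : ψ ∈ F.Hom Q), ∃ χ ∈ E.Hom ((P.subgroupOf Q).map ψ), ∀ (x : P) (hx : ψ (Subgroup.inclusion hPQ x) ∈ (P.subgroupOf Q).map ψ), χ ⟨ψ (Subgroup.inclusion hPQ x), hx⟩ = ψ ⟨φ x, hφQ x⟩ := by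
  constructor
  · rintro ⟨hsub, hsc, hconj, hfrat⟩ P Q hPQ hQT φ hφ hφQ ψ hψ
    obtain ⟨α, hα, ψ₀, hψ₀, hψeq⟩ := hfrat Q hQT ψ hψ
    have hρ := Cfsg.Agent.Helper8.restrict_mem E hψ₀ hPQ
    obtain ⟨ι, hι, hιinv, hιr⟩ := Cfsg.Agent.Helper8.inv_mem' E hρ rfl
    have h1 : ∀ y : (ψ₀.comp (Subgroup.inclusion hPQ)).range, ι y ∈ P := by
      intro y
      have h0 : ι y ∈ ι.range := ⟨y, rfl⟩
      rw [hιr] at h0
      exact h0
    have hθ₁ := E.comp_mem hι hφ h1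
    have h2 : ∀ y, (φ.comp (ι.codRestrict P h1)) y ∈ Q := fun y => hφQ _
    have hθ := E.comp_mem hθ₁ hψ₀ h2
    have hP₀T : (ψ₀.comp (Subgroup.inclusion hPQ)).range ≤ T := Cfsg.Agent.Helper8.range_le E hρ
    obtain ⟨χ, hχ, hχc⟩ := hconj _ hP₀T _ hθ α hα
    have hψ₀T : ∀ x : Q, ψ₀ x ∈ T := Cfsg.Agent.Helper8.hom_mem E hψ₀
    have hle : (P.subgroupOf Q).map ψ ≤
        Cfsg.Agent.Helper8.img α (ψ₀.comp (Subgroup.inclusion hPQ)).range := by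
      rintro _ ⟨x, hx, rfl⟩
      rw [hψeq x (hψ₀T x)]
      exact ⟨⟨ψ₀ x, hψ₀T x⟩, ⟨⟨x, hx⟩, rfl⟩, rfl⟩
    refine ⟨χ.comp (Subgroup.inclusion hle), Cfsg.Agent.Helper8.restrict_mem E hχ hle,
      fun x hx => ?_⟩
    have hθT := Cfsg.Agent.Helper8.hom_mem E hθ
      ⟨ψ₀ (Subgroup.inclusion hPQ x), ⟨x, rfl⟩⟩
    have e1 := hχc ⟨ψ₀ (Subgroup.inclusion hPQ x), ⟨x, rfl⟩⟩ hθT
      (Cfsg.Agent.Helper8.apply_mem_img α hP₀T _)
    have hιx : (ι.codRestrict P h1) ⟨ψ₀ (Subgroup.inclusion hPQ x), ⟨x, rfl⟩⟩ = x :=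
      Subtype.ext (hιinv x _)
    have hθx : (ψ₀.comp ((φ.comp (ι.codRestrict P h1)).codRestrict Q h2))
        ⟨ψ₀ (Subgroup.inclusion hPQ x), ⟨x, rfl⟩⟩ = ψ₀ ⟨φ x, hφQ x⟩ := by
      show ψ₀ _ = ψ₀ _
      congr 1
      exact Subtype.ext (congrArg φ hιx)
    have e2 : ((α ⟨(ψ₀.comp ((φ.comp (ι.codRestrict P h1)).codRestrict Q h2))
        ⟨ψ₀ (Subgroup.inclusion hPQ x), ⟨x, rfl⟩⟩, hθT⟩ : T) : Ω) = ψ ⟨φ x, hφQ x⟩ := by
      rw [hψeq ⟨φ x, hφQ x⟩ (hψ₀T _)]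
      congr 2
      exact Subtype.ext hθx
    show χ ⟨ψ (Subgroup.inclusion hPQ x), hle hx⟩ = ψ ⟨φ x, hφQ x⟩
    rw [← e2, ← e1]
    congr 1
    exact Subtype.ext (hψeq _ (hψ₀T _))
  · intro hs
    have hTS := hT.1
    have hc : Cfsg.Agent.Helper8.ConjInv F E := by
      intro P hPT φ hφ α hα
      obtain ⟨χ, hχ, hχc⟩ := hs P T hPT le_rfl φ hφ (Cfsg.Agent.Helper8.hom_mem E hφ)
        (T.subtype.comp α.toMonoidHom) ((Cfsg.Agent.Helper8.mem_autGroup_iff F hTS α).mp hα)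
      exact ⟨χ, hχ, fun x hφx hαx => hχc x hαx⟩
    have hn : ∀ Q : Subgroup Ω, Q ≤ T → ∀ β ∈ F.autGroup Q, ∀ γ ∈ E.autGroup Q,
        β * γ * β⁻¹ ∈ E.autGroup Q := by
      intro Q hQT β hβ γ hγ
      have hQS := hQT.trans hTS
      obtain ⟨χ, hχ, hχc⟩ := hs Q Q le_rfl hQT (Q.subtype.comp γ.toMonoidHom)
        ((Cfsg.Agent.Helper8.mem_autGroup_iff E hQT γ).mp hγ) (fun x => (γ x).2)
        (Q.subtype.comp β.toMonoidHom) ((Cfsg.Agent.Helper8.mem_autGroup_iff F hQS β).mp hβ)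
      have hle : Q ≤ (Q.subgroupOf Q).map (Q.subtype.comp β.toMonoidHom) := by
        intro y hy
        refine ⟨β⁻¹ ⟨y, hy⟩, (β⁻¹ ⟨y, hy⟩).2, ?_⟩
        show ((β (β⁻¹ ⟨y, hy⟩) : Q) : Ω) = y
        rw [MulAut.apply_inv_self]
      rw [Cfsg.Agent.Helper8.mem_autGroup_iff E hQT]
      refine Cfsg.Agent.Helper8.restrict_mem' E hχ hle
        (χ := Q.subtype.comp (β * γ * β⁻¹).toMonoidHom) (fun y => ?_)
      have hmem : (Q.subtype.comp β.toMonoidHom) (Subgroup.inclusion le_rfl (β⁻¹ y)) ∈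
          (Q.subgroupOf Q).map (Q.subtype.comp β.toMonoidHom) :=
        ⟨β⁻¹ y, (β⁻¹ y).2, rfl⟩
      have h1 := hχc (β⁻¹ y) hmem
      have h2 : ((β (γ (β⁻¹ y)) : Q) : Ω) =
          χ ⟨(Q.subtype.comp β.toMonoidHom) (Subgroup.inclusion le_rfl (β⁻¹ y)), hmem⟩ := h1.symm
      show ((β (γ (β⁻¹ y)) : Q) : Ω) = χ ⟨y, hle y.2⟩
      rw [h2]
      congr 1
      apply Subtype.ext
      show ((β (β⁻¹ y) : Q) : Ω) = y
      rw [MulAut.apply_inv_self]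
    exact ⟨hE, hT, hc, fun P hPT φ hφ =>
      Cfsg.Agent.Helper8.frattini_of_normal_aut p hS F hF hT E hE hc
        (fun Q hQT _ => hn Q hQT) P hPT hφ⟩

end Cfsg.Agent.S5119
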