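import Cfsg.Statements.S5120
import Cfsg.Agent.Helper8.FusionInv5

set_option autoImplicit false
open Cfsg

namespace Cfsg.Agent.S5120

/-- Let F be a saturated fusion system over a finite p-group S and T a subgroup of S containing the hyperfocal subgroup of F and normal in S. Then every saturated subsystem of F over T of p-power index is a normal subsystem of F. -/
theorem result {Ω : Type*} [Group Ω] {S : Subgroup Ω} [Finite S] (p : ℕ) [Fact p.Prime] (hS : IsPGroup p S) (F : Cfsg.FusionSystem S) (hF : F.IsSaturated p) (T : Subgroup Ω) (hTS : T ≤ S) (hTn : (T.subgroupOf S).Normal) (hT : F.hyperfocalSubgroup p ≤ T) (E : Cfsg.FusionSystem T) (hEs : E.IsSaturated p) (hEi : E.HasPPowerIndexIn F p) : E.IsNormalIn F p := by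
  have hTn' : ∀ g ∈ S, ∀ x ∈ T, g * x * g⁻¹ ∈ T := by
    intro g hg x hx
    have h1 := hTn.conj_mem (⟨x, hTS hx⟩ : S) (show (⟨x, hTS hx⟩ : S) ∈ T.subgroupOf S from hx)
      ⟨g, hg⟩
    exact h1
  have hsc := Cfsg.Agent.Helper8.stronglyClosed_of_hyperfocal_le p hS F hF hTS hTn' hT
  have hc := Cfsg.Agent.Helper8.conjInv_of_pPowerIndex p hS F hTS E hEs hEi
  refine ⟨⟨hEs, hF, hEi.1, hsc, hc, fun P hPT φ hφ =>
    Cfsg.Agent.Helper8.frattini_of_pPowerIndex p hS F hF hsc E hEi hc P hPT hφ⟩, fun α hα => ?_⟩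
  exact Cfsg.Agent.Helper8.goodExt_of_pPowerIndex p hS F hF hsc hT E hEs hEi.1 hα

end Cfsg.Agent.S5120
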