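import Cfsg.Statements.S5130
import Cfsg.Agent.Helper8.FusionDirect3

set_option autoImplicit false
open Cfsg

namespace Cfsg.Agent.S5130

/-- Let F be a saturated fusion system over a finite p-group S that is the direct product of two subgroups S₁ and S₂, each strongly closed in F. Let R be the full subsystem of F over S₁ (all maps of F between subgroups of S₁) and R′ the subsystem over S₁ of those maps that extend to the subgroup generated with S₂ fixing S₂ elementwise. Then R and R′ are saturated, R′ is normal in F and in R, and R is weakly normal in F. -/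
theorem result {Ω : Type*} [Group Ω] {S : Subgroup Ω} [Finite S] (p : ℕ) [Fact p.Prime] (hS : IsPGroup p S) (F : Cfsg.FusionSystem S) (hF : F.IsSaturated p) (S₁ S₂ : Subgroup Ω) (hprod : Cfsg.IsInternalDirectProduct S₁ S₂ S) (h₁ : F.StronglyClosed S₁) (h₂ : F.StronglyClosed S₂) (R R' : Cfsg.FusionSystem S₁) (hR : ∀ P : Subgroup Ω, P ≤ S₁ → R.Hom P = F.Hom P) (hR' : ∀ P : Subgroup Ω, P ≤ S₁ → R'.Hom P = F.centralizerHom S₂ P) : R.IsSaturated p ∧ R'.IsSaturated p ∧ R'.IsNormalIn F p ∧ R'.IsNormalIn R p ∧ R.IsWeaklyNormalIn F p := by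
  obtain ⟨-, -, hcomm, -, hsup⟩ := hprod
  exact ⟨Cfsg.Agent.Helper8.saturated_of_complement p hS F hF h₁ hcomm (le_of_eq hsup.symm) R hR,
    Cfsg.Agent.Helper8.centralizer_full_saturated p hS F hF h₁ h₂ hcomm hsup R' hR',
    Cfsg.Agent.Helper8.centralizer_full_isNormalIn p hS F hF h₁ h₂ hcomm hsup R' hR',
    Cfsg.Agent.Helper8.centralizer_full_isNormalIn_full p hS F hF h₁ h₂ hcomm hsup R R' hR hR',
    Cfsg.Agent.Helper8.full_isWeaklyNormalIn p hS F hF h₁ hcomm hsup R hR⟩

end Cfsg.Agent.S5130
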