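import Cfsg.Statements.S5345
import Mathlib
import Cfsg.Agent.Helper9.SylowConj

set_option autoImplicit false
open Cfsg

namespace Cfsg.Agent.S5345

/-- Let D be a conjugation-invariant generating set of 3-transpositions of a finite group G and T a Sylow 2-subgroup of G. Then the members of D lying in T generate an abelian subgroup, and their number is the width of D (the largest number of pairwise commuting members of D). -/
theorem result {G : Type*} [Group G] [Finite G] {D : Set G} (hD : Cfsg.IsThreeTranspositionGroup D) (T : Sylow 2 G) : IsMulCommutative (Subgroup.closure {d : G | d ∈ D ∧ d ∈ T}) ∧ {d : G | d ∈ D ∧ d ∈ T}.ncard = Cfsg.commutingWidth D := by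
  classical
  obtain ⟨⟨hord, h23⟩, hconj, _⟩ := hD
  have hsq : ∀ d ∈ D, d * d = 1 := by
    intro d hd
    have := pow_orderOf_eq_one d
    rw [hord d hd, pow_two] at this
    exact this
  have hinv : ∀ d ∈ D, d⁻¹ = d := fun d hd => inv_eq_of_mul_eq_one_left (hsq d hd)
  set X : Set G := {d : G | d ∈ D ∧ d ∈ T} with hX
  -- members of X commute pairwise
  have hXcomm : ∀ a ∈ X, ∀ b ∈ X, a * b = b * a := by
    rintro a ⟨haD, haT⟩ b ⟨hbD, hbT⟩
    have habT : a * b ∈ (T : Subgroup G) := (T : Subgroup G).mul_mem haT hbT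
    obtain ⟨k, hk⟩ := (IsPGroup.iff_orderOf.mp T.isPGroup') ⟨a * b, habT⟩
    rw [Subgroup.orderOf_mk] at hk
    have h2 : (a * b) ^ 2 = 1 := by
      rcases h23 a haD b hbD with h | h
      · exact h
      · have hdvd := orderOf_dvd_of_pow_eq_one h
        rw [hk] at hdvd
        rcases Nat.eq_zero_or_pos k with hk0 | hkpos
        · rw [hk0, pow_zero] at hk
          rw [orderOf_eq_one_iff.mp hk, one_pow]
        · exfalso
          have : 2 ∣ 3 := (dvd_pow_self 2 (Nat.pos_iff_ne_zero.mp hkpos)).trans hdvd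
          omega
    have h3 : a * b * (a * b) = 1 := by rw [← pow_two]; exact h2
    calc a * b = (a * b) * (b * b) * (a * a) := by rw [hsq a haD, hsq b hbD, mul_one, mul_one]
      _ = (a * b * (a * b))⁻¹ * (a * b) * (b * b) * (a * a) := by rw [h3]; group
      _ = b⁻¹ * a⁻¹ * (b * b) * (a * a) := by group
      _ = b * a := by rw [hinv a haD, hinv b hbD, hsq a haD, hsq b hbD]; group
  refine ⟨?_, ?_⟩
  · exact Subgroup.isMulCommutative_closure hXcomm
  · -- width
    have hXfin : X.Finite := Set.toFinite X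
    have hmem : X.ncard ∈ {n : ℕ | ∃ E : Set G, E ⊆ D ∧ E.Finite ∧ (∀ a ∈ E, ∀ b ∈ E, Commute a b) ∧ E.ncard = n} :=
      ⟨X, fun d hd => hd.1, hXfin, fun a ha b hb => hXcomm a ha b hb, rfl⟩
    have hub : ∀ n ∈ {n : ℕ | ∃ E : Set G, E ⊆ D ∧ E.Finite ∧ (∀ a ∈ E, ∀ b ∈ E, Commute a b) ∧ E.ncard = n}, n ≤ X.ncard := by
      rintro n ⟨E, hED, hEfin, hEc, rfl⟩
      have hP : IsPGroup 2 (Subgroup.closure E) :=
        Cfsg.Agent.Helper9.isPGroup_two_closure_of_commute (fun e he => hsq e (hED he)) (fun a ha b hb => hEc a ha b hb)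
      obtain ⟨g, hg⟩ := Cfsg.Agent.Helper9.exists_conj_mem_sylow9 T hP
      apply Set.ncard_le_ncard_of_injOn (fun e => g * e * g⁻¹)
      · intro e he
        exact ⟨hconj g e (hED he), hg e (Subgroup.subset_closure he)⟩
      · intro a _ b _ hab
        simpa using hab
    exact le_antisymm (le_csSup ⟨X.ncard, hub⟩ hmem) (csSup_le ⟨_, hmem⟩ hub)


end Cfsg.Agent.S5345
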