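import Cfsg.Statements.S5347
import Mathlib

set_option autoImplicit false
open Cfsg

namespace Cfsg.Agent.S5347

/-- Let D be a conjugation-invariant generating set of 3-transpositions of a finite group G, p a prime bigger than 3, and P a p-subgroup of G. If a member d of D normalizes P then d centralizes P. -/
theorem result {G : Type*} [Group G] [Finite G] {D : Set G} (hD : Cfsg.IsThreeTranspositionGroup D) {p : ℕ} (hp : p.Prime) (hp3 : 3 < p) (P : Subgroup G) (hP : IsPGroup p P) {d : G} (hd : d ∈ D) (hnorm : d ∈ Subgroup.normalizer (P : Set G)) : ∀ x ∈ P, Commute d x := by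
  obtain ⟨⟨hord, h23⟩, hconj, _⟩ := hD
  haveI : Fact p.Prime := ⟨hp⟩
  intro x hx
  have hd2 : d * d = 1 := by
    have := pow_orderOf_eq_one d
    rw [hord d hd, pow_two] at this
    exact this
  have hdinv : d⁻¹ = d := inv_eq_of_mul_eq_one_left hd2
  have he : x * d * x⁻¹ ∈ D := hconj x d hd
  -- d * (x d x⁻¹) = (d x d⁻¹) x⁻¹ ∈ P
  have hdx : d * x * d⁻¹ ∈ P := by
    have := (Subgroup.mem_normalizer_iff.mp hnorm x).mp hx
    exact this
  have hmem : d * (x * d * x⁻¹) ∈ P := by
    have h1 : d * (x * d * x⁻¹) = (d * x * d⁻¹) * x⁻¹ := by rw [hdinv]; group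
    rw [h1]
    exact P.mul_mem hdx (P.inv_mem hx)
  obtain ⟨k, hk⟩ := (IsPGroup.iff_orderOf.mp hP) ⟨d * (x * d * x⁻¹), hmem⟩
  rw [Subgroup.orderOf_mk] at hk
  have hone : d * (x * d * x⁻¹) = 1 := by
    rcases h23 d hd _ he with h | h
    · have hdvd := orderOf_dvd_of_pow_eq_one h
      rw [hk] at hdvd
      rcases Nat.eq_zero_or_pos k with hk0 | hkpos
      · rw [hk0, pow_zero] at hk
        exact orderOf_eq_one_iff.mp hk
      · exfalso
        have : p ∣ 2 := (dvd_pow_self p (Nat.pos_iff_ne_zero.mp hkpos)).trans hdvd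
        have := Nat.le_of_dvd (by norm_num) this
        omega
    · have hdvd := orderOf_dvd_of_pow_eq_one h
      rw [hk] at hdvd
      rcases Nat.eq_zero_or_pos k with hk0 | hkpos
      · rw [hk0, pow_zero] at hk
        exact orderOf_eq_one_iff.mp hk
      · exfalso
        have : p ∣ 3 := (dvd_pow_self p (Nat.pos_iff_ne_zero.mp hkpos)).trans hdvd
        have := Nat.le_of_dvd (by norm_num) this
        omega
  -- d x d x⁻¹ = 1 → d x = x d
  show d * x = x * d
  have h2 : d * x * d = x := by
    have := congrArg (fun t => t * x) hone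
    simpa [mul_assoc] using this
  calc d * x = d * x * (d * d) := by rw [hd2, mul_one]
    _ = (d * x * d) * d := by group
    _ = x * d := by rw [h2]


end Cfsg.Agent.S5347
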