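import Cfsg.Statements.S5348
import Mathlib

set_option autoImplicit false
open Cfsg

namespace Cfsg.Agent.S5348

/-- Let D be a conjugation-invariant generating set of 3-transpositions of a finite group G and d a member of D. Let V be the set of members of D commuting with exactly the same members of D as d, and W the set of members w of D such that the members of D other than w commuting with w are precisely the members of D other than d commuting with d. Then V = {d} or W = {d}. -/
theorem result {G : Type*} [Group G] [Finite G] {D : Set G} (hD : Cfsg.IsThreeTranspositionGroup D) {d : G} (hd : d ∈ D) : {v : G | v ∈ D ∧ ∀ e ∈ D, Commute v e ↔ Commute d e} = {d} ∨ {w : G | w ∈ D ∧ {y : G | y ∈ D ∧ y ≠ d ∧ Commute d y} = {y : G | y ∈ D ∧ y ≠ w ∧ Commute w y}} = {d} := by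
  by_cases hV : {v : G | v ∈ D ∧ ∀ e ∈ D, Commute v e ↔ Commute d e} = {d}
  · exact Or.inl hV
  · right
    -- there is v ∈ V with v ≠ d
    have hdV : d ∈ {v : G | v ∈ D ∧ ∀ e ∈ D, Commute v e ↔ Commute d e} := ⟨hd, fun e _ => Iff.rfl⟩
    obtain ⟨v, hvV, hvd⟩ : ∃ v ∈ {v : G | v ∈ D ∧ ∀ e ∈ D, Commute v e ↔ Commute d e}, v ≠ d := by
      by_contra hcon
      push Not at hcon
      apply hV
      ext v
      constructor
      · intro hv; exact hcon v hv
      · intro hv
        rw [Set.mem_singleton_iff] at hv
        rw [hv]; exact hdV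
    obtain ⟨hvD, hvc⟩ := hvV
    have hvd' : Commute d v := ((hvc d hd).mpr (Commute.refl d)).symm
    ext w
    constructor
    · rintro ⟨hwD, hw⟩
      rw [Set.mem_singleton_iff]
      by_contra hwd
      -- w does not commute with d
      have hnc : ¬ Commute w d := by
        intro hc
        have : d ∈ {y : G | y ∈ D ∧ y ≠ w ∧ Commute w y} := ⟨hd, fun h => hwd h.symm, hc⟩
        rw [← hw] at this
        exact this.2.1 rfl
      have hv1 : v ∈ {y : G | y ∈ D ∧ y ≠ d ∧ Commute d y} := ⟨hvD, hvd, hvd'⟩
      rw [hw] at hv1
      have hwv : Commute v w := hv1.2.2.symm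
      have := (hvc w hwD).mp hwv
      exact hnc this.symm
    · intro hw
      rw [Set.mem_singleton_iff] at hw
      rw [hw]
      exact ⟨hd, rfl⟩


end Cfsg.Agent.S5348
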