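import Cfsg.Statements.S5358
import Mathlib

set_option autoImplicit false
open scoped MatrixGroups
open Cfsg

namespace Cfsg.Agent.S5358

/-- Let Q be a non-degenerate quadratic form on the n-dimensional coordinate space over the field with three elements and u, v vectors of the same non-zero norm Q(u) = Q(v) spanning different lines (v ≠ u and v ≠ −u). Then the reflection matrices of u and v commute if and only if u and v are orthogonal for the polar form of Q. -/
theorem result (n : ℕ) (Q : QuadraticForm (ZMod 3) (Fin n → ZMod 3)) (hQ : (QuadraticMap.polarBilin Q).Nondegenerate) (u v : Fin n → ZMod 3) (hu : Q u ≠ 0) (huv : Q u = Q v) (h1 : v ≠ u) (h2 : v ≠ -u) : Commute (Cfsg.reflectionMatrix (⇑Q) u) (Cfsg.reflectionMatrix (⇑Q) v) ↔ QuadraticMap.polar (⇑Q) u v = 0 := by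
  classical
  have haux : ∀ X Y : Matrix (Fin n) (Fin n) (ZMod 3), Commute X Y → Commute (1 - X) (1 - Y) :=
    fun X Y h => Commute.sub_left (Commute.sub_right (Commute.one_right 1) (Commute.one_left Y))
      (Commute.sub_right (Commute.one_right X) h)
  have hdot : ∀ x y : Fin n → ZMod 3,
      Cfsg.polarVec (⇑Q) x ⬝ᵥ y = QuadraticMap.polar (⇑Q) x y := by
    intro x y
    have h1 : y = ∑ j, y j • (Pi.single j (1 : ZMod 3) : Fin n → ZMod 3) := by
      ext i
      simp [Finset.sum_apply, Pi.single_apply]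
    have h2 : QuadraticMap.polar (⇑Q) x y = QuadraticMap.polarBilin Q x y := rfl
    rw [h2]
    conv_rhs => rw [h1]
    rw [map_sum]
    simp only [dotProduct, Cfsg.polarVec, map_smul, smul_eq_mul]
    refine Finset.sum_congr rfl (fun j _ => ?_)
    rw [mul_comm]
    rfl
  have hQv : Q v ≠ 0 := huv ▸ hu
  obtain ⟨a, ha⟩ : ∃ a, a = (Q u)⁻¹ := ⟨_, rfl⟩
  have ha0 : a ≠ 0 := by
    rw [ha]
    exact inv_ne_zero hu
  have hβ : QuadraticMap.polar (⇑Q) v u = QuadraticMap.polar (⇑Q) u v :=
    QuadraticMap.polar_comm _ _ _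
  have hUV : Matrix.vecMulVec u (Cfsg.polarVec (⇑Q) u) * Matrix.vecMulVec v (Cfsg.polarVec (⇑Q) v)
      = QuadraticMap.polar (⇑Q) u v • Matrix.vecMulVec u (Cfsg.polarVec (⇑Q) v) := by
    rw [Matrix.vecMulVec_mul_vecMulVec, hdot, Matrix.vecMulVec_smul]
  have hVU : Matrix.vecMulVec v (Cfsg.polarVec (⇑Q) v) * Matrix.vecMulVec u (Cfsg.polarVec (⇑Q) u)
      = QuadraticMap.polar (⇑Q) u v • Matrix.vecMulVec v (Cfsg.polarVec (⇑Q) u) := by
    rw [Matrix.vecMulVec_mul_vecMulVec, hdot, hβ, Matrix.vecMulVec_smul]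
  have hcomm : Commute (Cfsg.reflectionMatrix (⇑Q) u) (Cfsg.reflectionMatrix (⇑Q) v) ↔
      Matrix.vecMulVec u (Cfsg.polarVec (⇑Q) u) * Matrix.vecMulVec v (Cfsg.polarVec (⇑Q) v) =
        Matrix.vecMulVec v (Cfsg.polarVec (⇑Q) v) * Matrix.vecMulVec u (Cfsg.polarVec (⇑Q) u) := by
    unfold Cfsg.reflectionMatrix
    rw [← huv, ← ha]
    constructor
    · intro h
      have h1 := haux _ _ h
      rw [sub_sub_cancel, sub_sub_cancel] at h1
      have h2 := (h1.smul_left a⁻¹).smul_right a⁻¹
      rw [smul_smul, smul_smul, inv_mul_cancel₀ ha0, one_smul, one_smul] at h2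
      exact h2
    · intro h
      have h1 : Commute (Matrix.vecMulVec u (Cfsg.polarVec (⇑Q) u))
          (Matrix.vecMulVec v (Cfsg.polarVec (⇑Q) v)) := h
      exact haux _ _ ((h1.smul_left a).smul_right a)
  rw [hcomm, hUV, hVU]
  constructor
  · intro h
    by_contra hβ0
    have hX := smul_right_injective _ hβ0 h
    have hj : ∃ j, Cfsg.polarVec (⇑Q) v j ≠ 0 := by
      by_contra hne
      push_neg at hne
      apply hQv
      have hv0 : v = 0 := by
        apply hQ.1 v
        intro y
        show QuadraticMap.polar (⇑Q) v y = 0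
        rw [← hdot]
        simp [dotProduct, hne]
      rw [hv0, map_zero]
    obtain ⟨j, hj⟩ := hj
    obtain ⟨c, hc⟩ : ∃ c : ZMod 3, u = c • v := by
      refine ⟨Cfsg.polarVec (⇑Q) u j / Cfsg.polarVec (⇑Q) v j, ?_⟩
      ext i
      have hY := congrFun (congrFun hX i) j
      rw [Matrix.vecMulVec_apply, Matrix.vecMulVec_apply] at hY
      rw [Pi.smul_apply, smul_eq_mul]
      field_simp
      rw [hY]
      ring
    have h3 : ∀ c : ZMod 3, c = 0 ∨ c = 1 ∨ c = -1 := by decide
    rcases h3 c with h4 | h4 | h4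
    · apply hu
      rw [hc, h4, zero_smul, map_zero]
    · apply h1
      rw [hc, h4, one_smul]
    · apply h2
      rw [hc, h4]
      simp
  · intro h
    rw [h, zero_smul, zero_smul]


end Cfsg.Agent.S5358
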