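import Cfsg.Statements.S5363
import Cfsg.Agent.Helper9.Dihedral

set_option autoImplicit false
open Cfsg

namespace Cfsg.Agent.S5363

/-- Let D be a conjugation-invariant set of involutions of a finite group G. Then every product of two members of D has odd order or order 2 if and only if, for every a in D and every b in D different from a and commuting with a, the members of D commuting with a b are exactly those commuting with both a and b. -/
theorem result {G : Type*} [Group G] [Finite G] {D : Set G} (hinv : ∀ d ∈ D, orderOf d = 2) (hconj : ∀ g : G, ∀ d ∈ D, g * d * g⁻¹ ∈ D) : (∀ a ∈ D, ∀ b ∈ D, Odd (orderOf (a * b)) ∨ orderOf (a * b) = 2) ↔ ∀ a ∈ D, ∀ b ∈ D, b ≠ a → Commute a b → {y : G | y ∈ D ∧ Commute (a * b) y} = {y : G | y ∈ D ∧ Commute a y} ∩ {y : G | y ∈ D ∧ Commute b y} := by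
  have hsq : ∀ d ∈ D, d * d = 1 := fun d hd => Cfsg.Agent.Helper9.sq_of_orderOf_two (hinv d hd)
  have hpow : ∀ (y : G) (n : ℕ), y ^ (2 * n + 1) * y = (y * y) ^ (n + 1) := by
    intro y n
    rw [← pow_succ, ← pow_two, ← pow_mul]
    congr 1
  constructor
  · intro h a ha b hb hne hab
    have haa := hsq a ha
    have hbb := hsq b hb
    have hab' : a * b = b * a := hab
    ext y
    simp only [Set.mem_setOf_eq, Set.mem_inter_iff]
    constructor
    · rintro ⟨hy, hc⟩
      have hyy := hsq y hy
      have hc' : a * b * y = y * (a * b) := hc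
      have h1 : Commute a y → Commute b y := by
        intro h1
        show b * y = y * b
        calc b * y = a * (a * b * y) := by rw [← mul_assoc, ← mul_assoc, haa, one_mul]
          _ = a * (y * (a * b)) := by rw [hc']
          _ = a * y * a * b := by simp only [mul_assoc]
          _ = y * a * a * b := by rw [h1.eq]
          _ = y * b := by rw [mul_assoc y a a, haa, mul_one]
      have h2 : Commute b y → Commute a y := by
        intro h2
        show a * y = y * a
        calc a * y = a * b * (b * y) := by rw [← mul_assoc, mul_assoc a b b, hbb, mul_one]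
          _ = a * b * (y * b) := by rw [h2.eq]
          _ = a * b * y * b := by rw [← mul_assoc]
          _ = y * (a * b) * b := by rw [hc']
          _ = y * a := by rw [mul_assoc y, mul_assoc a b b, hbb, mul_one]
      have hB : ∀ c ∈ D, orderOf (c * y) = 2 → Commute c y := by
        intro c hcD ho
        have h3 := Cfsg.Agent.Helper9.inv_of_sq (Cfsg.Agent.Helper9.sq_of_orderOf_two ho)
        rw [mul_inv_rev, Cfsg.Agent.Helper9.inv_of_sq hyy, Cfsg.Agent.Helper9.inv_of_sq (hsq c hcD)] at h3
        exact h3.symm
      rcases h a ha y hy with ⟨t, ht⟩ | hay2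
      · rcases h b hb y hy with ⟨s, hs⟩ | hby2
        · exfalso
          have hayp : (a * y) ^ (2 * t + 1) = 1 := by rw [← ht]; exact pow_orderOf_eq_one _
          have hbyp : (b * y) ^ (2 * s + 1) = 1 := by rw [← hs]; exact pow_orderOf_eq_one _
          have hbyb : b * y * b = a * y * a := by
            calc b * y * b = a * (a * b * y) * b := by rw [← mul_assoc, ← mul_assoc, haa, one_mul]
              _ = a * (y * (a * b)) * b := by rw [hc']
              _ = a * y * a := by
                simp only [mul_assoc]
                rw [hbb, mul_one]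
          have hsqeq : b * y * (b * y) = a * y * (a * y) := by
            calc b * y * (b * y) = b * y * b * y := by rw [← mul_assoc]
              _ = a * y * a * y := by rw [hbyb]
              _ = a * y * (a * y) := by rw [mul_assoc (a * y) a y]
          have hay_eq : (a * y * (a * y)) ^ (t + 1) = a * y := by
            rw [← hpow, hayp, one_mul]
          have hby_eq : (a * y * (a * y)) ^ (s + 1) = b * y := by
            rw [← hsqeq, ← hpow, hbyp, one_mul]
          have hu : (a * y * (a * y)) ^ (2 * t + 1) = 1 := by
            rw [← pow_two, ← pow_mul, mul_comm, pow_mul, hayp, one_pow]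
          have hw : b * a = (a * y * (a * y)) ^ (s + 1) * ((a * y * (a * y)) ^ (t + 1))⁻¹ := by
            rw [hby_eq, hay_eq, mul_inv_rev, Cfsg.Agent.Helper9.inv_of_sq hyy,
              Cfsg.Agent.Helper9.inv_of_sq haa, mul_assoc, ← mul_assoc y y a, hyy, one_mul]
          have hw2 : (b * a) ^ (2 * t + 1) = 1 := by
            rw [hw, ← zpow_natCast (a * y * (a * y)) (s + 1), ← zpow_natCast (a * y * (a * y)) (t + 1),
              ← zpow_neg, ← zpow_add, ← zpow_natCast, ← zpow_mul, mul_comm, zpow_mul, zpow_natCast, hu,
              one_zpow]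
          have hww : (b * a) * (b * a) = 1 := by
            calc b * a * (b * a) = b * (a * b) * a := by simp only [mul_assoc]
              _ = b * (b * a) * a := by rw [hab']
              _ = 1 := by rw [← mul_assoc, hbb, one_mul, haa]
          have hw1 : b * a = 1 := by
            have h5 : (b * a) ^ (2 * t + 1) = b * a := by
              rw [pow_succ, pow_mul, pow_two, hww, one_pow, one_mul]
            rw [← h5, hw2]
          apply hne
          have h6 := mul_eq_one_iff_eq_inv.mp hw1
          rw [Cfsg.Agent.Helper9.inv_of_sq haa] at h6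
          exact h6
        · have hcb := hB b hb hby2
          exact ⟨⟨hy, h2 hcb⟩, ⟨hy, hcb⟩⟩
      · have hca := hB a ha hay2
        exact ⟨⟨hy, hca⟩, ⟨hy, h1 hca⟩⟩
    · rintro ⟨⟨hy, hca⟩, ⟨-, hcb⟩⟩
      exact ⟨hy, hca.mul_left hcb⟩
  · intro H a ha b hb
    have haa := hsq a ha
    have hbb := hsq b hb
    rcases Nat.even_or_odd' (orderOf (a * b)) with ⟨m, hm | hm⟩
    · right
      by_contra hne2
      have hpos : 0 < orderOf (a * b) := orderOf_pos _
      have hm2 : 2 ≤ m := by omega
      have hr : (a * b) ^ (2 * m) = 1 := by rw [← hm]; exact pow_orderOf_eq_one _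
      have hu1 : (a * b) ^ m ≠ 1 := pow_ne_one_of_lt_orderOf (by omega) (by omega)
      have hau : a * (a * b) ^ m = (a * b) ^ m * a := Cfsg.Agent.Helper9.dih_pow_comm_a haa hbb m hr
      have hbu : b * (a * b) ^ m = (a * b) ^ m * b := Cfsg.Agent.Helper9.dih_pow_comm_b haa hbb m hr
      have hauD : a * (a * b) ^ m ∈ D := by
        rcases Cfsg.Agent.Helper9.dih_mul_pow_conj haa hbb m with ⟨c, hc⟩ | ⟨c, hc⟩
        · rw [← hc]; exact hconj c a ha
        · rw [← hc]; exact hconj c b hb
      have hne : a * (a * b) ^ m ≠ a := by
        intro h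
        apply hu1
        have h2 : a * (a * b) ^ m = a * 1 := by rw [mul_one]; exact h
        exact mul_left_cancel h2
      have hcomm : Commute a (a * (a * b) ^ m) := by
        show a * (a * (a * b) ^ m) = a * (a * b) ^ m * a
        rw [mul_assoc, hau]
      have hE := H a ha _ hauD hne hcomm
      have e : a * (a * (a * b) ^ m) = (a * b) ^ m := by rw [← mul_assoc, haa, one_mul]
      rw [e] at hE
      have hbmem : b ∈ {y : G | y ∈ D ∧ Commute ((a * b) ^ m) y} := ⟨hb, hbu.symm⟩
      rw [hE] at hbmem
      have hcab : a * b = b * a := hbmem.1.2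
      have h2 : (a * b) ^ 2 = 1 := by
        rw [pow_two]
        calc a * b * (a * b) = a * (b * a) * b := by simp only [mul_assoc]
          _ = a * (a * b) * b := by rw [hcab]
          _ = 1 := by rw [← mul_assoc, haa, one_mul, hbb]
      have h3 := orderOf_dvd_of_pow_eq_one h2
      have h4 := Nat.le_of_dvd (by norm_num) h3
      omega
    · left
      exact ⟨m, hm⟩

end Cfsg.Agent.S5363
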