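import Cfsg.Statements.S5364
import Mathlib

set_option autoImplicit false
open Cfsg

namespace Cfsg.Agent.S5364

/-- Let D be a conjugation-invariant set of involutions of a finite group G and t an involution in the centre of G such that d t does not lie in D for any d in D. If the images of the members of D in G modulo the subgroup generated by t satisfy the 3-transposition order conditions (each has order 2 and any two have product of order at most 3), then so do the members of D. -/
theorem result {G : Type*} [Group G] [Finite G] {D : Set G} (hinv : ∀ d ∈ D, orderOf d = 2) (hconj : ∀ g : G, ∀ d ∈ D, g * d * g⁻¹ ∈ D) (t : G) (ht : orderOf t = 2) (htZ : t ∈ Subgroup.center G) (hDt : ∀ d ∈ D, d * t ∉ D) [(Subgroup.zpowers t).Normal] (himg : Cfsg.IsThreeTranspositionSet ((QuotientGroup.mk : G → G ⧸ Subgroup.zpowers t) '' D)) : Cfsg.IsThreeTranspositionSet D := by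
  obtain ⟨himg1, himg2⟩ := himg
  have hsq : ∀ d ∈ D, d * d = 1 := by
    intro d hd
    have := pow_orderOf_eq_one d
    rw [hinv d hd, pow_two] at this
    exact this
  have hdinv : ∀ d ∈ D, d⁻¹ = d := fun d hd => inv_eq_of_mul_eq_one_left (hsq d hd)
  have htc : ∀ g : G, g * t = t * g := fun g => Subgroup.mem_center_iff.mp htZ g
  have ht2 : t * t = 1 := by
    have := pow_orderOf_eq_one t
    rw [ht, pow_two] at this
    exact this
  -- elements of zpowers t are 1 or t
  have hzp : ∀ x ∈ Subgroup.zpowers t, x = 1 ∨ x = t := by
    intro x hx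
    obtain ⟨k, rfl⟩ := Subgroup.mem_zpowers_iff.mp hx
    rcases Int.even_or_odd k with ⟨m, hm⟩ | ⟨m, hm⟩
    · left
      rw [hm, ← two_mul, zpow_mul, zpow_ofNat, pow_two, ht2, one_zpow]
    · right
      rw [hm, zpow_add, zpow_mul, zpow_ofNat, pow_two, ht2, one_zpow, one_mul, zpow_one]
  refine ⟨hinv, ?_⟩
  intro d hd e he
  have hq := himg2 (QuotientGroup.mk d) ⟨d, hd, rfl⟩ (QuotientGroup.mk e) ⟨e, he, rfl⟩
  rcases hq with h | h
  · left
    have h' : ((d * e) ^ 2 : G) ∈ Subgroup.zpowers t := by
      rw [← QuotientGroup.eq_one_iff]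
      exact_mod_cast h
    rcases hzp _ h' with h1 | h1
    · exact h1
    · exfalso
      -- e d e = d t
      have h2 : e * d * e⁻¹ = d * t := by
        rw [hdinv e he]
        have : d * e * (d * e) = t := by rw [← pow_two]; exact h1
        calc e * d * e = (d * d) * (e * d * e) := by rw [hsq d hd, one_mul]
          _ = d * (d * e * (d * e)) := by group
          _ = d * t := by rw [this]
      exact hDt d hd (h2 ▸ hconj e d hd)
  · right
    have h' : ((d * e) ^ 3 : G) ∈ Subgroup.zpowers t := by
      rw [← QuotientGroup.eq_one_iff]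
      exact_mod_cast h
    rcases hzp _ h' with h1 | h1
    · exact h1
    · exfalso
      -- y = d (e d e) d ∈ D and y e = t
      have hy : d * (e * d * e⁻¹) * d⁻¹ ∈ D := hconj d _ (hconj e d hd)
      have h2 : d * (e * d * e⁻¹) * d⁻¹ = e * t := by
        rw [hdinv e he, hdinv d hd]
        have : d * e * (d * e) * (d * e) = t := by
          rw [← h1]; simp [pow_succ]
        calc d * (e * d * e) * d = (d * e * (d * e) * (d * e)) * e := by
              rw [show d * e * (d * e) * (d * e) * e = d * (e * d * e) * d * (e * e) by group, hsq e he, mul_one]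
          _ = t * e := by rw [this]
          _ = e * t := (htc e).symm
      exact hDt e he (h2 ▸ hy)


end Cfsg.Agent.S5364
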