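import Cfsg.Statements.S5393
import Mathlib
import Cfsg.Agent.Helper1.Golay10
open Cfsg Cfsg.Agent.Helper1.Golay
open scoped Pointwise

set_option autoImplicit false
open Cfsg

namespace Cfsg.Agent.S5393

/-- The length-24 code built from the squares modulo 23 contains the all-ones word, and the code modulo the all-ones word is an irreducible module over the field with two elements for the code's automorphism group: a subspace of the code that contains the all-ones word and is invariant under every coordinate permutation preserving the code is either the span of the all-ones word or the whole code. -/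
theorem result : (fun _ : Cfsg.GolayPt => (1 : ZMod 2)) ∈ Cfsg.golayCode ∧ ∀ W : Submodule (ZMod 2) (Cfsg.GolayPt → ZMod 2), (fun _ => (1 : ZMod 2)) ∈ W → W ≤ Cfsg.golayCode → (∀ σ ∈ Cfsg.M24, ∀ w ∈ W, (fun p => w (σ.symm p)) ∈ W) → W = Submodule.span (ZMod 2) {fun _ => (1 : ZMod 2)} ∨ W = Cfsg.golayCode := by
  refine ⟨Submodule.subset_span (Or.inr rfl), ?_⟩
  intro W h1 hW hinv
  by_cases hsp : W = Submodule.span (ZMod 2) {fun _ => (1 : ZMod 2)}
  · exact Or.inl hsp
  right
  apply le_antisymm hW
  have hperm : ∀ (g : M24) (w : GolayPt → ZMod 2), w ∈ W →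
      ∀ v : GolayPt → ZMod 2, support₂ v = g • support₂ w → v ∈ W := by
    intro g w hw v hv
    have h2 := hinv g.1 g.2 w hw
    have h3 : support₂ (fun p => w ((g.1).symm p)) = g • support₂ w := by
      have h4 := inv_smul_support₂ (g.1⁻¹) w
      rw [inv_inv] at h4
      exact h4.symm
    rw [← h3] at hv
    rw [support₂_injective hv]
    exact h2
  have hoct : ∀ w ∈ W, hammingNorm w = 8 → golayCode ≤ W := by
    intro w hw h8
    refine le_trans golayCode_le_span_octWords ?_
    rw [Submodule.span_le]
    rintro v ⟨hv, hv8⟩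
    obtain ⟨g, hg⟩ := octads_transitive (support₂ w) (support₂ v)
      ⟨⟨w, hW hw, rfl⟩, by rw [card_support₂, h8]⟩ ⟨⟨v, hv, rfl⟩, by rw [card_support₂, hv8]⟩
    exact hperm g w hw v hg.symm
  have hex : ∃ w ∈ W, w ≠ 0 ∧ w ≠ (fun _ => (1 : ZMod 2)) := by
    by_contra hcon
    push_neg at hcon
    apply hsp
    apply le_antisymm
    · intro w hw
      by_cases h0 : w = 0
      · rw [h0]
        exact Submodule.zero_mem _
      · rw [hcon w hw h0]
        exact Submodule.subset_span rfl
    · rw [Submodule.span_le]
      rintro _ rfl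
      exact h1
  obtain ⟨w, hw, hw0, hw1⟩ := hex
  have hsupp1 : support₂ (fun _ : GolayPt => (1 : ZMod 2)) = Finset.univ := by
    ext a
    rw [mem_support₂]
    simp
  rcases hammingNorm_eq w (hW hw) with h | h | h | h | h
  · exfalso
    apply hw0
    apply support₂_injective
    rw [← card_support₂, Finset.card_eq_zero] at h
    rw [h]
    ext a
    rw [mem_support₂]
    simp
  · exact hoct w hw h
  · have hd : support₂ w ∈ dodecads := ⟨⟨w, hW hw, rfl⟩, by rw [card_support₂, h]⟩
    obtain ⟨g1, hg1⟩ := dodecads_transitive _ _ hd baseDodecad_mem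
    have hd14 : support₂ (ofBits (comb 14)) ∈ dodecads :=
      ⟨⟨_, ofBits_comb_mem 14, rfl⟩, by
        rw [card_support₂, hammingNorm_ofBits]
        decide +kernel⟩
    obtain ⟨g2, hg2⟩ := dodecads_transitive _ _ hd hd14
    have m1 := hperm g1 w hw _ hg1.symm
    have m2 := hperm g2 w hw _ hg2.symm
    have m3 : ofBits (comb 15) ∈ W := by
      have e : comb 15 = comb 1 ^^^ comb 14 := by decide +kernel
      rw [e, ofBits_xor]
      exact Submodule.add_mem _ m1 m2
    exact hoct _ m3 (by rw [hammingNorm_ofBits]; decide +kernel)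
  · have m : w + (fun _ => (1 : ZMod 2)) ∈ W := Submodule.add_mem _ hw h1
    apply hoct _ m
    rw [← card_support₂, support₂_add, hsupp1]
    have e : symmDiff (support₂ w) Finset.univ = (support₂ w)ᶜ := by
      ext a
      simp [Finset.mem_symmDiff]
    rw [e, Finset.card_compl, card_support₂, h, card_golayPt]
  · exfalso
    apply hw1
    apply support₂_injective
    rw [hsupp1]
    apply Finset.eq_univ_of_card
    rw [card_support₂, h, card_golayPt]


end Cfsg.Agent.S5393
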