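import Cfsg.Statements.S5394
import Mathlib
import Cfsg.Agent.Helper9.M24Invol
open Cfsg.Agent.Helper9 Cfsg.Agent.Helper1.Golay
open scoped Pointwise

set_option autoImplicit false
open Cfsg

namespace Cfsg.Agent.S5394

/-- The automorphism group of the length-24 code built from the squares modulo 23 has exactly two conjugacy classes of involutions: an involution either fixes exactly the eight points of an octad or has no fixed points, both kinds occur, and any two involutions of the same kind are conjugate in the group. -/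
theorem result : (∀ g ∈ Cfsg.M24, orderOf g = 2 → (Finset.univ.filter fun p => g p = p) ∈ Cfsg.octads ∨ ∀ p, g p ≠ p) ∧ (∃ g ∈ Cfsg.M24, orderOf g = 2 ∧ (Finset.univ.filter fun p => g p = p) ∈ Cfsg.octads) ∧ (∃ g ∈ Cfsg.M24, orderOf g = 2 ∧ ∀ p, g p ≠ p) ∧ ∀ g ∈ Cfsg.M24, ∀ h ∈ Cfsg.M24, orderOf g = 2 → orderOf h = 2 → ((∀ p, g p ≠ p) ↔ (∀ p, h p ≠ p)) → ∃ k ∈ Cfsg.M24, k * g * k⁻¹ = h := by
  classical
  have f2 : Fact (Nat.Prime 2) := ⟨by norm_num⟩
  have hsq : ∀ g : Equiv.Perm GolayPt, orderOf g = 2 → g * g = 1 ∧ g ≠ 1 := by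
    intro g ho
    constructor
    · have h := pow_orderOf_eq_one g
      rw [ho, pow_two] at h
      exact h
    · intro h
      rw [h, orderOf_one] at ho
      norm_num at ho
  have hord : ∀ g : Equiv.Perm GolayPt, g * g = 1 → g ≠ 1 → orderOf g = 2 := by
    intro g h1 h2
    exact orderOf_eq_prime (by rw [pow_two]; exact h1) h2
  have part1 : ∀ g ∈ Cfsg.M24, orderOf g = 2 →
      (Finset.univ.filter fun p => g p = p) ∈ Cfsg.octads ∨ ∀ p, g p ≠ p := by
    intro g hg ho
    obtain ⟨h1, h2⟩ := hsq g ho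
    rcases invol_fix hg (by rw [pow_two]; exact h1) h2 with h | h
    · right
      intro p hp
      have hmem : p ∈ (Finset.univ.filter fun a => g a = a) := by
        rw [Finset.mem_filter]
        exact ⟨Finset.mem_univ _, hp⟩
      rw [h] at hmem
      exact absurd hmem (Finset.notMem_empty _)
    · left
      exact h
  refine ⟨part1, ?_, ?_, ?_⟩
  · have hO := baseOctad_mem
    obtain ⟨hc, hsq'⟩ := octad_fixGrp _ hO
    have hnt : Nontrivial ↥(fixGrp (support₂ (ofBits (comb 15)))) := by
      rw [← Finite.one_lt_card_iff_nontrivial, hc]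
      norm_num
    obtain ⟨⟨g, hg⟩, hg1⟩ := exists_ne (1 : ↥(fixGrp (support₂ (ofBits (comb 15)))))
    have hg1' : g ≠ 1 := fun h => hg1 (Subtype.ext h)
    have hg' := (mem_fixGrp _ _).mp hg
    have ho : orderOf g = 2 := hord g (hsq' g hg) hg1'
    refine ⟨g, hg'.1, ho, ?_⟩
    rcases part1 g hg'.1 ho with h | h
    · exact h
    · exfalso
      obtain ⟨p, hp⟩ : (support₂ (ofBits (comb 15))).Nonempty := by
        rw [← Finset.card_pos, hO.2]
        norm_num
      exact h p (hg'.2 p hp)
  · have h0 : ∀ p : GolayPt, projInv p ≠ p := by decide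
    have hpp : ∀ p : GolayPt, projInv (projInv p) = p := by decide
    refine ⟨projInv, projInv_mem_M24, hord _ (Equiv.ext hpp) ?_, h0⟩
    intro h
    exact h0 none (by rw [h]; rfl)
  · intro g hg h hh hog hoh hiff
    obtain ⟨g2, g1⟩ := hsq g hog
    obtain ⟨h2, h1⟩ := hsq h hoh
    rcases part1 g hg hog with hgO | hgf
    · have hnf : ¬ ∀ p, g p ≠ p := by
        intro hall
        obtain ⟨p, hp⟩ : (Finset.univ.filter fun p => g p = p).Nonempty := by
          rw [← Finset.card_pos, hgO.2]
          norm_num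
        rw [Finset.mem_filter] at hp
        exact hall p hp.2
      rcases part1 h hh hoh with hhO | hhf
      · exact conj_octad_invol hg hh g1 h1 hgO hhO (fun p hp => (Finset.mem_filter.mp hp).2)
          (fun p hp => (Finset.mem_filter.mp hp).2)
      · exact absurd (hiff.mpr hhf) hnf
    · exact conj_fpf_invol hg hh g2 h2 hgf (hiff.mp hgf)


end Cfsg.Agent.S5394
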