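import Cfsg.Statements.S5395
import Cfsg.Agent.Helper5.Extraspecial

set_option autoImplicit false
open Cfsg

namespace Cfsg.Agent.S5395

open scoped commutatorElement

/-- For a finite extraspecial 2-group E, an automorphism of E that induces the identity on E modulo its centre is inner (so these automorphisms form exactly the inner automorphism group, an elementary abelian 2-group of order |E|/2). -/
theorem result {E : Type*} [Group E] [Finite E] (hE : Cfsg.IsExtraspecial 2 E) (φ : E ≃* E) (hφ : ∀ x : E, φ x * x⁻¹ ∈ Subgroup.center E) : ∃ g : E, ∀ x : E, φ x = g * x * g⁻¹ := by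
  classical
  obtain ⟨⟨hE2, hfr, hcomm⟩, hZ⟩ := hE
  have hc : ∀ x y : E, ⁅x, y⁆ ∈ Subgroup.center E := by
    intro x y
    rw [← hcomm]
    exact Subgroup.commutator_mem_commutator (Subgroup.mem_top x) (Subgroup.mem_top y)
  -- uniqueness of the non-identity central element
  have huniq : ∀ a b : E, a ∈ Subgroup.center E → b ∈ Subgroup.center E → a ≠ 1 → b ≠ 1 → a = b := by
    intro a b ha hb ha1 hb1
    obtain ⟨y, -, hy⟩ := (Nat.card_eq_two_iff' (1 : Subgroup.center E)).mp hZ
    have h1 := hy ⟨a, ha⟩ (fun h => ha1 (congrArg Subtype.val h))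
    have h2 := hy ⟨b, hb⟩ (fun h => hb1 (congrArg Subtype.val h))
    have := h1.trans h2.symm
    exact congrArg Subtype.val this
  let μ : E →* E :=
    { toFun := fun x => φ x * x⁻¹
      map_one' := by simp
      map_mul' := by
        intro x y
        have h1 := Subgroup.mem_center_iff.mp (hφ y)
        calc φ (x * y) * (x * y)⁻¹ = φ x * ((φ y * y⁻¹) * x⁻¹) := by
              rw [map_mul, mul_inv_rev]; group
          _ = φ x * (x⁻¹ * (φ y * y⁻¹)) := by rw [h1 x⁻¹]
          _ = φ x * x⁻¹ * (φ y * y⁻¹) := by group }
  have hμ : ∀ x, μ x = φ x * x⁻¹ := fun x => rfl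
  have hker : ∀ x, x ∈ μ.ker ↔ φ x = x := by
    intro x
    rw [MonoidHom.mem_ker, hμ, mul_inv_eq_one]
  by_cases htriv : ∀ x, μ x = 1
  · refine ⟨1, fun x => ?_⟩
    have := (hker x).mp (MonoidHom.mem_ker.mpr (htriv x))
    rw [this]; simp
  · push Not at htriv
    have hcard := (Cfsg.Agent.Helper5.card_ker_mul_two μ (Subgroup.center E) hZ hφ htriv).1
    have hZK : Subgroup.center E ≤ μ.ker := by
      intro z hz
      rw [hker]
      by_cases hz1 : z = 1
      · rw [hz1, map_one]
      · have hchar : (Subgroup.center E).Characteristic := inferInstance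
        have h1 : φ z ∈ Subgroup.center E := by
          have h2 := Subgroup.characteristic_iff_map_eq.mp hchar φ
          rw [← h2]
          exact ⟨z, hz, rfl⟩
        have h3 : φ z ≠ 1 := by
          intro h
          apply hz1
          have : φ z = φ 1 := by rw [h, map_one]
          exact φ.injective this
        exact huniq _ _ h1 hz h3 hz1
    have h2 := Cfsg.Agent.Helper5.two_card_eq_card_mul_centralizer hc hZ μ.ker hZK
    have hKpos : 0 < Nat.card μ.ker := Nat.card_pos
    have hC4 : Nat.card (Subgroup.centralizer (μ.ker : Set E)) = 4 := by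
      rw [← hcard] at h2
      have h3 : Nat.card μ.ker * 4 = Nat.card μ.ker * Nat.card (Subgroup.centralizer (μ.ker : Set E)) := by
        rw [← h2]; ring
      exact (Nat.eq_of_mul_eq_mul_left hKpos h3).symm
    have hex : ∃ g ∈ Subgroup.centralizer (μ.ker : Set E), g ∉ Subgroup.center E := by
      by_contra hcon
      push Not at hcon
      have hle : Subgroup.centralizer (μ.ker : Set E) ≤ Subgroup.center E := hcon
      have := Subgroup.card_le_of_le hle
      rw [hC4, hZ] at this
      omega
    obtain ⟨g, hgC, hgZ⟩ := hex
    have hidx : μ.ker.index = 2 := by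
      have h3 := Subgroup.card_mul_index μ.ker
      rw [← hcard] at h3
      exact Nat.eq_of_mul_eq_mul_left hKpos h3
    refine ⟨g, fun x => ?_⟩
    by_cases hx : x ∈ μ.ker
    · rw [(hker x).mp hx]
      have := Subgroup.mem_centralizer_iff.mp hgC x hx
      rw [← this]; group
    · -- ⁅g, x⁆ ≠ 1
      have h1 : ⁅g, x⁆ ≠ 1 := by
        intro hcomm1
        apply hgZ
        rw [Subgroup.mem_center_iff]
        intro y
        have hgx : g * x = x * g := commutatorElement_eq_one_iff_mul_comm.mp hcomm1
        by_cases hy : y ∈ μ.ker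
        · exact Subgroup.mem_centralizer_iff.mp hgC y hy
        · -- x⁻¹ * y ∈ ker
          have hxy : x⁻¹ * y ∈ μ.ker := by
            rw [Subgroup.mul_mem_iff_of_index_two hidx]
            constructor
            · intro h; exact absurd (inv_mem_iff.mp h) hx
            · intro h; exact absurd h hy
          have h3 := Subgroup.mem_centralizer_iff.mp hgC _ hxy
          calc y * g = x * ((x⁻¹ * y) * g) := by group
            _ = x * (g * (x⁻¹ * y)) := by rw [h3]
            _ = (x * g) * (x⁻¹ * y) := by group
            _ = (g * x) * (x⁻¹ * y) := by rw [hgx]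
            _ = g * y := by group
      have h2 : μ x ≠ 1 := fun h => hx (MonoidHom.mem_ker.mpr h)
      have h3 := huniq _ _ (hc g x) (hφ x) h1 h2
      rw [commutatorElement_def] at h3
      have := mul_right_cancel h3
      exact this.symm

end Cfsg.Agent.S5395
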