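import Cfsg.Statements.S5420
-- import your own Cfsg.Agent.* helpers here

set_option autoImplicit false
open Cfsg

namespace Cfsg.Agent.S5420

/-- Let Q be an extraspecial 2-subgroup of the finite group G whose centralizer in G is its centre Z and which is normal in the centralizer of Z. If Z lies in the largest normal 2-subgroup of G, then Q is a large extraspecial 2-subgroup of G: it normalizes no non-trivial subgroup of G of odd order. -/
theorem result {G : Type*} [Group G] [Finite G] (Q : Subgroup G) (hL1 : Cfsg.IsExtraspecial 2 ↥Q) (hL2 : Subgroup.centralizer (Q : Set G) = ((Subgroup.center ↥Q).map Q.subtype)) (hL3 : Subgroup.centralizer (((Subgroup.center ↥Q).map Q.subtype) : Set G) ≤ Subgroup.normalizer (Q : Set G)) (hZ : ((Subgroup.center ↥Q).map Q.subtype) ≤ Cfsg.pCore 2 G) : Cfsg.IsLargeExtraspecial Q := by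
  refine ⟨hL1, hL2, hL3, ?_⟩
  intro K hKodd hQK
  have hRn : (Cfsg.pCore 2 G).Normal := Subgroup.sSup_normal _ (fun _ h => h.1)
  have hRp : IsPGroup 2 (Cfsg.pCore 2 G) := Sylow.sSup_of_normal _ (fun _ h => h.2) (fun _ h => h.1)
  have hKP : ∀ R : Subgroup G, IsPGroup 2 R → ∀ x, x ∈ K → x ∈ R → x = 1 := by
    intro R hR x hxK hxR
    obtain ⟨n, hn⟩ := hR ⟨x, hxR⟩
    have h1 : orderOf x ∣ 2 ^ n := orderOf_dvd_of_pow_eq_one (congrArg Subtype.val hn)
    have h2 : orderOf x ∣ Nat.card K := by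
      have h3 := orderOf_dvd_natCard (⟨x, hxK⟩ : K)
      rwa [Subgroup.orderOf_mk] at h3
    have hcop : Nat.Coprime (2 ^ n) (Nat.card K) :=
      Nat.Coprime.pow_left n (Nat.coprime_two_left.mpr hKodd)
    exact orderOf_eq_one_iff.mp (Nat.eq_one_of_dvd_coprimes hcop h1 h2)
  have hKZ : K ≤ Subgroup.centralizer (((Subgroup.center ↥Q).map Q.subtype : Subgroup G) : Set G) := by
    intro k hk
    rw [Subgroup.mem_centralizer_iff]
    intro z hz
    have hzQ : z ∈ Q := by
      obtain ⟨q, _, rfl⟩ := hz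
      exact q.2
    have hzR : z ∈ Cfsg.pCore 2 G := hZ hz
    have h1 : z * k * z⁻¹ ∈ K := ((hQK hzQ) k).mp hk
    have h2 : z * k * z⁻¹ * k⁻¹ ∈ K := K.mul_mem h1 (K.inv_mem hk)
    have h3 : z * k * z⁻¹ * k⁻¹ ∈ Cfsg.pCore 2 G := by
      have h4 : k * z⁻¹ * k⁻¹ ∈ Cfsg.pCore 2 G := hRn.conj_mem _ (inv_mem hzR) k
      have h5 := mul_mem hzR h4
      simpa [mul_assoc] using h5
    have h4 := hKP _ hRp _ h2 h3
    calc z * k = z * k * z⁻¹ * k⁻¹ * (k * z) := by group
      _ = k * z := by rw [h4, one_mul]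
  have hKN : K ≤ Subgroup.normalizer (Q : Set G) := hKZ.trans hL3
  have hQp : IsPGroup 2 Q := hL1.1.1
  have hKC : K ≤ Subgroup.centralizer (Q : Set G) := by
    intro k hk
    rw [Subgroup.mem_centralizer_iff]
    intro q hq
    have h1 : q * k * q⁻¹ ∈ K := ((hQK hq) k).mp hk
    have h2 : q * k * q⁻¹ * k⁻¹ ∈ K := K.mul_mem h1 (K.inv_mem hk)
    have h3 : q * k * q⁻¹ * k⁻¹ ∈ Q := by
      have h4 : k * q⁻¹ * k⁻¹ ∈ Q := ((hKN hk) q⁻¹).mp (Q.inv_mem hq)
      have h5 := Q.mul_mem hq h4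
      simpa [mul_assoc] using h5
    have h4 := hKP Q hQp _ h2 h3
    calc q * k = q * k * q⁻¹ * k⁻¹ * (k * q) := by group
      _ = k * q := by rw [h4, one_mul]
  rw [eq_bot_iff]
  intro k hk
  have h1 : k ∈ ((Subgroup.center ↥Q).map Q.subtype) := by
    rw [← hL2]
    exact hKC hk
  have hkQ : k ∈ Q := by
    obtain ⟨q, _, rfl⟩ := h1
    exact q.2
  rw [Subgroup.mem_bot]
  exact hKP Q hQp k hk hkQ

end Cfsg.Agent.S5420
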