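import Cfsg.Statements.S5433
-- import your own Cfsg.Agent.* helpers here

set_option autoImplicit false
open Cfsg

namespace Cfsg.Agent.S5433

/-- Let Q be a large extraspecial 2-subgroup of the finite group G (extraspecial; centralizer equal to its centre; normal in the centralizer of its centre; normalizing no non-trivial subgroup of odd order), and L a normal subgroup of G containing Q. Then G is the product of L and the normalizer of Q. -/
theorem result {G : Type*} [Group G] [Finite G] (Q : Subgroup G) (hQ : Cfsg.IsLargeExtraspecial Q) (L : Subgroup G) [L.Normal] (hQL : Q ≤ L) : L ⊔ Subgroup.normalizer (Q : Set G) = ⊤ := by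
  classical
  obtain ⟨hes, hcent, hnorm, -⟩ := hQ
  have hfact : Fact (Nat.Prime 2) := ⟨Nat.prime_two⟩
  have hQp : IsPGroup 2 Q := hes.1.1
  have hcard : Nat.card (Subgroup.center Q) = 2 := hes.2
  obtain ⟨z', hz'ne, hz'uniq⟩ := (Nat.card_eq_two_iff' (1 : Subgroup.center Q)).mp hcard
  have hzZ : (((z' : Q) : G)) ∈ (Subgroup.center Q).map Q.subtype := ⟨(z' : Q), z'.2, rfl⟩
  have hzQ : (((z' : Q) : G)) ∈ Q := (z' : Q).2
  have hz1 : (((z' : Q) : G)) ≠ 1 := by
    intro h
    apply hz'ne
    apply Subtype.ext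
    apply Subtype.ext
    exact h
  have hZel : ∀ c ∈ (Subgroup.center Q).map Q.subtype, c ≠ 1 → c = (((z' : Q) : G)) := by
    rintro _ ⟨q, hq, rfl⟩ hne
    have h1 : (⟨q, hq⟩ : Subgroup.center Q) = z' := hz'uniq _ (by
      intro h
      apply hne
      have h2 := congrArg (fun t : Subgroup.center Q => ((t : Q) : G)) h
      simpa using h2)
    rw [← h1]
    rfl
  have hQLp : IsPGroup 2 (Q.subgroupOf L) := hQp.comap_subtype
  obtain ⟨S, hS⟩ := hQLp.exists_le_sylow
  have hQS : Q ≤ (S : Subgroup L).map L.subtype := by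
    intro q hq
    exact ⟨⟨q, hQL hq⟩, hS (show (⟨q, hQL hq⟩ : L) ∈ Q.subgroupOf L from hq), rfl⟩
  have hSnt : Nontrivial (S : Subgroup L) := by
    have hzS : (⟨((z' : Q) : G), hQL hzQ⟩ : L) ∈ (S : Subgroup L) :=
      hS (show (⟨((z' : Q) : G), hQL hzQ⟩ : L) ∈ Q.subgroupOf L from hzQ)
    refine ⟨⟨⟨⟨((z' : Q) : G), hQL hzQ⟩, hzS⟩, 1, ?_⟩⟩
    intro h
    apply hz1
    have h2 := congrArg (fun t : (S : Subgroup L) => ((t : L) : G)) h
    simpa using h2
  have hSp : IsPGroup 2 (S : Subgroup L) := S.isPGroup'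
  have hcnt := hSp.center_nontrivial
  obtain ⟨c', hc'ne⟩ := exists_ne (1 : Subgroup.center (S : Subgroup L))
  have hcS : ∀ s ∈ (S : Subgroup L).map L.subtype,
      s * (((c' : (S : Subgroup L)) : L) : G) = (((c' : (S : Subgroup L)) : L) : G) * s := by
    rintro _ ⟨s, hs, rfl⟩
    have h1 := Subgroup.mem_center_iff.mp c'.2 ⟨s, hs⟩
    exact congrArg (fun t : (S : Subgroup L) => ((t : L) : G)) h1
  have hc1 : (((c' : (S : Subgroup L)) : L) : G) ≠ 1 := by
    intro h
    apply hc'ne
    apply Subtype.ext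
    apply Subtype.ext
    apply Subtype.ext
    exact h
  have hcZ : (((c' : (S : Subgroup L)) : L) : G) ∈ (Subgroup.center Q).map Q.subtype := by
    rw [← hcent, Subgroup.mem_centralizer_iff]
    intro q hq
    exact hcS q (hQS hq)
  have hcz : (((c' : (S : Subgroup L)) : L) : G) = (((z' : Q) : G)) := hZel _ hcZ hc1
  rw [hcz] at hcS
  have hN : Subgroup.normalizer (((S : Subgroup L).map L.subtype : Subgroup G) : Set G) ≤
      Subgroup.normalizer (Q : Set G) := by
    intro n hn
    apply hnorm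
    rw [Subgroup.mem_centralizer_iff]
    intro y hy
    by_cases hy1 : y = 1
    · rw [hy1]; simp
    · have hyz := hZel y hy hy1
      rw [hyz]
      have h1 : n * (((z' : Q) : G)) * n⁻¹ ∈ (Subgroup.center Q).map Q.subtype := by
        rw [← hcent, Subgroup.mem_centralizer_iff]
        intro q hq
        have hq' : n⁻¹ * q * n ∈ (S : Subgroup L).map L.subtype :=
          (Subgroup.mem_normalizer_iff''.mp hn q).mp (hQS hq)
        have h2 := hcS _ hq'
        calc q * (n * (((z' : Q) : G)) * n⁻¹) = n * ((n⁻¹ * q * n) * (((z' : Q) : G))) * n⁻¹ := by group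
          _ = n * ((((z' : Q) : G)) * (n⁻¹ * q * n)) * n⁻¹ := by rw [h2]
          _ = n * (((z' : Q) : G)) * n⁻¹ * q := by group
      have h3 : n * (((z' : Q) : G)) * n⁻¹ ≠ 1 := by
        intro h
        apply hz1
        have e : (((z' : Q) : G)) = n⁻¹ * (n * (((z' : Q) : G)) * n⁻¹) * n := by group
        rw [e, h]
        group
      have h4 := hZel _ h1 h3
      calc (((z' : Q) : G)) * n = (n * (((z' : Q) : G)) * n⁻¹) * n := by rw [h4]
        _ = n * (((z' : Q) : G)) := by group
  have hF := Sylow.normalizer_sup_eq_top S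
  rw [eq_top_iff, ← hF, sup_comm]
  exact sup_le_sup_left hN L

end Cfsg.Agent.S5433
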