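import Cfsg.Statements.S5437
-- import your own Cfsg.Agent.* helpers here

set_option autoImplicit false
open Cfsg

namespace Cfsg.Agent.S5437

/-- Let I be a set of involutions of the finite group G closed under conjugation, and H a subgroup of G. The following are equivalent: (1) for every member x of I lying in H, the conjugates of x lying in H form a single H-class and the centralizer of x lies in H; (2) for every g outside H, no member of I lies in both H and g H g⁻¹; (3) every member of I lying in H fixes exactly one coset in the action of G on the cosets of H. -/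
theorem result {G : Type*} [Group G] [Finite G] (I : Set G) (hI : ∀ x ∈ I, orderOf x = 2) (hIc : ∀ g : G, ∀ x ∈ I, g * x * g⁻¹ ∈ I) (H : Subgroup G) : ((∀ x ∈ I, x ∈ H → (∀ g : G, g * x * g⁻¹ ∈ H → ∃ h ∈ H, h * x * h⁻¹ = g * x * g⁻¹) ∧ Subgroup.centralizer ({x} : Set G) ≤ H) ↔ (∀ g : G, g ∉ H → ∀ x ∈ I, ¬ (x ∈ H ∧ x ∈ (H : Subgroup G).map (MulAut.conj g).toMonoidHom))) ∧ ((∀ g : G, g ∉ H → ∀ x ∈ I, ¬ (x ∈ H ∧ x ∈ (H : Subgroup G).map (MulAut.conj g).toMonoidHom)) ↔ ∀ x ∈ I, x ∈ H → ∃! c : G ⧸ H, x • c = c) := by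
  have hmap : ∀ (g x : G), x ∈ (H : Subgroup G).map (MulAut.conj g).toMonoidHom ↔ g⁻¹ * x * g ∈ H := by
    intro g x
    constructor
    · rintro ⟨y, hy, rfl⟩
      have : g⁻¹ * (g * y * g⁻¹) * g = y := by group
      simp only [MulEquiv.coe_toMonoidHom, MulAut.conj_apply]
      rw [this]
      exact hy
    · intro h
      refine ⟨g⁻¹ * x * g, h, ?_⟩
      simp only [MulEquiv.coe_toMonoidHom, MulAut.conj_apply]
      group
  have hfix : ∀ (g x : G), x • (g : G ⧸ H) = (g : G ⧸ H) ↔ g⁻¹ * x * g ∈ H := by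
    intro g x
    rw [MulAction.Quotient.smul_mk, QuotientGroup.eq, smul_eq_mul]
    have e : (x * g)⁻¹ * g = (g⁻¹ * x * g)⁻¹ := by group
    rw [e, inv_mem_iff]
  have h12 : (∀ x ∈ I, x ∈ H → (∀ g : G, g * x * g⁻¹ ∈ H → ∃ h ∈ H, h * x * h⁻¹ = g * x * g⁻¹) ∧
      Subgroup.centralizer ({x} : Set G) ≤ H) →
      (∀ g : G, g ∉ H → ∀ x ∈ I, ¬ (x ∈ H ∧ x ∈ (H : Subgroup G).map (MulAut.conj g).toMonoidHom)) := by
    intro h1 g hg x hxI ⟨hxH, hxg⟩
    rw [hmap] at hxg
    have hyI : g⁻¹ * x * g ∈ I := by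
      have := hIc g⁻¹ x hxI
      rwa [inv_inv] at this
    obtain ⟨hc, hcent⟩ := h1 _ hyI hxg
    have e : g * (g⁻¹ * x * g) * g⁻¹ = x := by group
    obtain ⟨h, hh, hheq⟩ := hc g (by rw [e]; exact hxH)
    have hmem : h⁻¹ * g ∈ Subgroup.centralizer ({g⁻¹ * x * g} : Set G) := by
      rw [Subgroup.mem_centralizer_iff]
      intro y hy
      rw [Set.mem_singleton_iff] at hy
      subst hy
      have h2 : g⁻¹ * x * g = h⁻¹ * (g * (g⁻¹ * x * g) * g⁻¹) * h := by
        rw [← hheq]; group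
      have h3 : g * (g⁻¹ * x * g) * g⁻¹ = x := by group
      rw [h3] at h2
      calc (g⁻¹ * x * g) * (h⁻¹ * g) = (h⁻¹ * x * h) * (h⁻¹ * g) := by rw [← h2]
        _ = (h⁻¹ * g) * (g⁻¹ * x * g) := by group
    have := hcent hmem
    apply hg
    have h4 := H.mul_mem hh this
    rwa [mul_inv_cancel_left] at h4
  have h21 : (∀ g : G, g ∉ H → ∀ x ∈ I, ¬ (x ∈ H ∧ x ∈ (H : Subgroup G).map (MulAut.conj g).toMonoidHom)) →
      (∀ x ∈ I, x ∈ H → (∀ g : G, g * x * g⁻¹ ∈ H → ∃ h ∈ H, h * x * h⁻¹ = g * x * g⁻¹) ∧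
      Subgroup.centralizer ({x} : Set G) ≤ H) := by
    intro h2 x hxI hxH
    constructor
    · intro g hg
      refine ⟨g, ?_, rfl⟩
      by_contra hgH
      have hgH' : g⁻¹ ∉ H := fun h => hgH (by simpa using H.inv_mem h)
      apply h2 g⁻¹ hgH' x hxI
      refine ⟨hxH, ?_⟩
      rw [hmap, inv_inv]
      exact hg
    · intro c hc
      by_contra hcH
      apply h2 c hcH x hxI
      refine ⟨hxH, ?_⟩
      rw [hmap]
      rw [Subgroup.mem_centralizer_iff] at hc
      have h3 := hc x (Set.mem_singleton x)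
      have e : c⁻¹ * x * c = x := by
        rw [mul_assoc, h3]; group
      rw [e]
      exact hxH
  refine ⟨⟨h12, h21⟩, ⟨?_, ?_⟩⟩
  · intro h2 x hxI hxH
    refine ⟨((1 : G) : G ⧸ H), ?_, ?_⟩
    · show x • ((1 : G) : G ⧸ H) = ((1 : G) : G ⧸ H)
      rw [hfix]
      simpa using hxH
    · intro c hc
      induction c using QuotientGroup.induction_on with
      | H g =>
        have hc' : x • (g : G ⧸ H) = (g : G ⧸ H) := hc
        rw [hfix] at hc'
        have hgH : g ∈ H := by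
          by_contra hgH
          apply h2 g hgH x hxI
          exact ⟨hxH, (hmap g x).mpr hc'⟩
        rw [QuotientGroup.eq]
        simpa using hgH
  · intro h3 g hg x hxI ⟨hxH, hxg⟩
    obtain ⟨c, hc, huniq⟩ := h3 x hxI hxH
    have h1 : ((1 : G) : G ⧸ H) = c := by
      apply huniq
      show x • ((1 : G) : G ⧸ H) = ((1 : G) : G ⧸ H)
      rw [hfix]
      simpa using hxH
    have h2 : (g : G ⧸ H) = c := by
      apply huniq
      show x • (g : G ⧸ H) = (g : G ⧸ H)
      rw [hfix]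
      exact (hmap g x).mp hxg
    have h4 : ((1 : G) : G ⧸ H) = (g : G ⧸ H) := h1.trans h2.symm
    rw [QuotientGroup.eq] at h4
    apply hg
    simpa using h4

end Cfsg.Agent.S5437
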