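import Cfsg.Statements.S5438
import Cfsg.Agent.Helper9.PermAction

set_option autoImplicit false
open Cfsg

namespace Cfsg.Agent.S5438

/-- Let z be a 2-central involution of the finite group G (an involution central in some Sylow 2-subgroup) and H a subgroup containing z such that the coset H is the only coset of H fixed by z (in the action of G on the cosets of H). Then H has odd index in G, and for every 2-element x of H the conjugates of x lying in H form a single H-class. -/
theorem result {G : Type*} [Group G] [Finite G] (z : G) (hz : Cfsg.IsTwoCentralInvolution z) (H : Subgroup G) (hzH : z ∈ H) (hfix : ∀ g : G, g⁻¹ * z * g ∈ H → g ∈ H) : Odd H.index ∧ ∀ x ∈ H, (∃ k : ℕ, orderOf x = 2 ^ k) → ∀ g : G, g * x * g⁻¹ ∈ H → ∃ h ∈ H, h * x * h⁻¹ = g * x * g⁻¹ := by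
  classical
  obtain ⟨hz2, P, hzP, hPz⟩ := hz
  have hfact : Fact (Nat.Prime 2) := ⟨Nat.prime_two⟩
  have hzz : z * z = 1 := by
    have := pow_orderOf_eq_one z
    rwa [hz2, pow_two] at this
  have hPH : (P : Subgroup G) ≤ H := by
    intro t ht
    apply hfix
    have h1 := hPz t ht
    have e : t⁻¹ * z * t = z := by
      rw [mul_assoc, ← h1]; group
    rw [e]
    exact hzH
  have hrel : (P : Subgroup G).relIndex H * H.index = (P : Subgroup G).index :=
    Subgroup.relIndex_mul_index hPH
  have hP2 : ¬ 2 ∣ (P : Subgroup G).index := P.not_dvd_index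
  refine ⟨?_, ?_⟩
  · rw [← Nat.not_even_iff_odd, even_iff_two_dvd]
    intro h
    exact hP2 (hrel ▸ Dvd.dvd.mul_left h _)
  · intro x hxH ⟨k, hk⟩ g hg
    have hfixpt : ∀ (a y : G), y • (a : G ⧸ H) = (a : G ⧸ H) ↔ a⁻¹ * y * a ∈ H := by
      intro a y
      rw [MulAction.Quotient.smul_mk, QuotientGroup.eq, smul_eq_mul]
      have e : (y * a)⁻¹ * a = (a⁻¹ * y * a)⁻¹ := by group
      rw [e, inv_mem_iff]
    have hB : ∀ φ ∈ {c : G ⧸ H | x • c = c},
        ∃ w : Subgroup.centralizer ({x} : Set G), w * w = 1 ∧ ∀ ψ : G ⧸ H, w • ψ = ψ ↔ ψ = φ := by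
      intro φ hφ
      induction φ using QuotientGroup.induction_on with
      | H a =>
        have hy' : a⁻¹ * x * a ∈ H := (hfixpt a x).mp hφ
        have hZ : IsPGroup 2 (Subgroup.zpowers (⟨a⁻¹ * x * a, hy'⟩ : H)) := by
          apply IsPGroup.of_card (n := k)
          rw [Nat.card_zpowers, ← Subgroup.orderOf_coe]
          show orderOf (a⁻¹ * x * a) = 2 ^ k
          rw [← hk]
          have ho := orderOf_injective (MulAut.conj a⁻¹).toMonoidHom (MulAut.conj a⁻¹).injective x
          simpa [MulAut.conj_apply] using ho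
        have hcard : ¬ 2 ∣ Nat.card (H ⧸ (P : Subgroup G).subgroupOf H) := by
          intro h
          apply hP2
          rw [← hrel]
          exact Dvd.dvd.mul_right h _
        obtain ⟨c, hc⟩ := hZ.nonempty_fixed_point_of_prime_not_dvd_card (H ⧸ (P : Subgroup G).subgroupOf H) hcard
        induction c using QuotientGroup.induction_on with
        | H h =>
          have h1 := hc ⟨⟨a⁻¹ * x * a, hy'⟩, Subgroup.mem_zpowers _⟩
          have h2 : (⟨a⁻¹ * x * a, hy'⟩ : H) • (h : H ⧸ (P : Subgroup G).subgroupOf H) = h := h1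
          rw [MulAction.Quotient.smul_mk, QuotientGroup.eq, smul_eq_mul, Subgroup.mem_subgroupOf] at h2
          have h3 : (h : G)⁻¹ * (a⁻¹ * x * a) * h ∈ (P : Subgroup G) := by
            have h4 := (P : Subgroup G).inv_mem h2
            have e : ((((⟨a⁻¹ * x * a, hy'⟩ : H) * h)⁻¹ * h : H) : G)⁻¹ = (h : G)⁻¹ * (a⁻¹ * x * a) * h := by
              push_cast
              group
            rwa [e] at h4
          have h5 := hPz _ h3
          have hwc : a * h * z * (h : G)⁻¹ * a⁻¹ ∈ Subgroup.centralizer ({x} : Set G) := by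
            rw [Subgroup.mem_centralizer_iff]
            intro y hy
            rw [Set.mem_singleton_iff] at hy
            subst hy
            have e1 : y * (a * h * z * (h : G)⁻¹ * a⁻¹) = a * h * ((h : G)⁻¹ * (a⁻¹ * y * a) * h * z) * (h : G)⁻¹ * a⁻¹ := by group
            have e2 : a * h * z * (h : G)⁻¹ * a⁻¹ * y = a * h * (z * ((h : G)⁻¹ * (a⁻¹ * y * a) * h)) * (h : G)⁻¹ * a⁻¹ := by group
            rw [e1, e2, h5]
          refine ⟨⟨a * h * z * (h : G)⁻¹ * a⁻¹, hwc⟩, ?_, ?_⟩
          · apply Subtype.ext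
            show a * h * z * (h : G)⁻¹ * a⁻¹ * (a * h * z * (h : G)⁻¹ * a⁻¹) = 1
            have e : a * h * z * (h : G)⁻¹ * a⁻¹ * (a * h * z * (h : G)⁻¹ * a⁻¹) = a * h * (z * z) * (h : G)⁻¹ * a⁻¹ := by group
            rw [e, hzz]; group
          · intro ψ
            induction ψ using QuotientGroup.induction_on with
            | H b =>
              show (a * h * z * (h : G)⁻¹ * a⁻¹) • (b : G ⧸ H) = (b : G ⧸ H) ↔ (b : G ⧸ H) = (a : G ⧸ H)
              rw [hfixpt, QuotientGroup.eq]
              have e : b⁻¹ * (a * h * z * (h : G)⁻¹ * a⁻¹) * b = ((h : G)⁻¹ * a⁻¹ * b)⁻¹ * z * ((h : G)⁻¹ * a⁻¹ * b) := by group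
              rw [e]
              constructor
              · intro hm
                have h6 := hfix _ hm
                have h7 := H.mul_mem h.2 h6
                have e2 : (h : G) * ((h : G)⁻¹ * a⁻¹ * b) = a⁻¹ * b := by group
                rw [e2] at h7
                have h8 := H.inv_mem h7
                have e3 : (a⁻¹ * b)⁻¹ = b⁻¹ * a := by group
                rwa [e3] at h8
              · intro hm
                have h6 : (h : G)⁻¹ * a⁻¹ * b ∈ H := by
                  have h7 := H.inv_mem hm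
                  have e3 : (b⁻¹ * a)⁻¹ = a⁻¹ * b := by group
                  rw [e3] at h7
                  have h8 := H.mul_mem (H.inv_mem h.2) h7
                  rwa [← mul_assoc] at h8
                exact H.mul_mem (H.mul_mem (H.inv_mem h6) hzH) h6
    have h1mem : ((1 : G) : G ⧸ H) ∈ {c : G ⧸ H | x • c = c} := by
      show x • ((1 : G) : G ⧸ H) = ((1 : G) : G ⧸ H)
      rw [hfixpt]
      simpa using hxH
    have hgmem : ((g⁻¹ : G) : G ⧸ H) ∈ {c : G ⧸ H | x • c = c} := by
      show x • ((g⁻¹ : G) : G ⧸ H) = ((g⁻¹ : G) : G ⧸ H)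
      rw [hfixpt]
      simpa using hg
    obtain ⟨c, hc⟩ := Cfsg.Agent.Helper9.exists_smul_eq_of_unique_fixed _ hB _ h1mem _ hgmem
    have hc' : (c : G) • ((1 : G) : G ⧸ H) = ((g⁻¹ : G) : G ⧸ H) := hc
    rw [MulAction.Quotient.smul_mk, QuotientGroup.eq, smul_eq_mul, mul_one] at hc'
    have hcc := c.2
    rw [Subgroup.mem_centralizer_iff] at hcc
    have hcx := hcc x (Set.mem_singleton x)
    refine ⟨g * c, ?_, ?_⟩
    · have h2 := H.inv_mem hc'
      have e : ((c : G)⁻¹ * g⁻¹)⁻¹ = g * c := by group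
      rwa [e] at h2
    · have e : g * (c : G) * x * (g * (c : G))⁻¹ = g * ((c : G) * x * (c : G)⁻¹) * g⁻¹ := by group
      rw [e, ← hcx]
      group

end Cfsg.Agent.S5438
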