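import Cfsg.Statements.S5439
import Cfsg.Agent.Helper9.Dihedral

set_option autoImplicit false
open Cfsg

namespace Cfsg.Agent.S5439

/-- Let I and J be two different conjugacy classes of involutions of the finite group G and H a subgroup such that every member of I ∪ J fixes exactly one coset in the action on the cosets of H, and such that for every a in I ∩ H and every b in (I ∪ J) ∩ H different from a and commuting with it, the centralizer of a b lies in H. Then H = G. -/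
theorem result {G : Type*} [Group G] [Finite G] (I J : Set G) (a₀ b₀ : G) (ha₀ : orderOf a₀ = 2) (hb₀ : orderOf b₀ = 2) (hI : I = {x | IsConj a₀ x}) (hJ : J = {x | IsConj b₀ x}) (hIJ : I ≠ J) (H : Subgroup G) (hfix : ∀ x ∈ I ∪ J, ∃! c : G ⧸ H, x • c = c) (hcent : ∀ a ∈ I, a ∈ H → ∀ b ∈ I ∪ J, b ∈ H → a ≠ b → a * b = b * a → Subgroup.centralizer ({a * b} : Set G) ≤ H) : H = ⊤ := by
  classical
  by_contra hH
  obtain ⟨g, hg⟩ : ∃ g : G, g ∉ H := by
    by_contra h
    push Not at h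
    exact hH (eq_top_iff.mpr (fun x _ => h x))
  have hfixpt : ∀ (a y : G), y • (a : G ⧸ H) = (a : G ⧸ H) ↔ a⁻¹ * y * a ∈ H := by
    intro a y
    rw [MulAction.Quotient.smul_mk, QuotientGroup.eq, smul_eq_mul]
    have e : (y * a)⁻¹ * a = (a⁻¹ * y * a)⁻¹ := by group
    rw [e, inv_mem_iff]
  have hIconj : ∀ x ∈ I, ∀ c : G, c * x * c⁻¹ ∈ I := by
    intro x hx c
    rw [hI] at hx ⊢
    exact IsConj.trans hx (isConj_iff.mpr ⟨c, rfl⟩)
  have hJconj : ∀ x ∈ J, ∀ c : G, c * x * c⁻¹ ∈ J := by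
    intro x hx c
    rw [hJ] at hx ⊢
    exact IsConj.trans hx (isConj_iff.mpr ⟨c, rfl⟩)
  have hsqI : ∀ x ∈ I, x * x = 1 := by
    intro x hx
    rw [hI] at hx
    obtain ⟨c, rfl⟩ := isConj_iff.mp hx
    have e : c * a₀ * c⁻¹ * (c * a₀ * c⁻¹) = c * (a₀ * a₀) * c⁻¹ := by group
    rw [e, Cfsg.Agent.Helper9.sq_of_orderOf_two ha₀]
    group
  have hsqJ : ∀ x ∈ J, x * x = 1 := by
    intro x hx
    rw [hJ] at hx
    obtain ⟨c, rfl⟩ := isConj_iff.mp hx
    have e : c * b₀ * c⁻¹ * (c * b₀ * c⁻¹) = c * (b₀ * b₀) * c⁻¹ := by group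
    rw [e, Cfsg.Agent.Helper9.sq_of_orderOf_two hb₀]
    group
  have ha₀I : a₀ ∈ I := by rw [hI]; exact IsConj.refl a₀
  have hb₀J : b₀ ∈ J := by rw [hJ]; exact IsConj.refl b₀
  obtain ⟨ca, hca, -⟩ := hfix a₀ (Or.inl ha₀I)
  obtain ⟨k, rfl⟩ := QuotientGroup.mk_surjective ca
  have haH : k⁻¹ * a₀ * k ∈ H := (hfixpt k a₀).mp hca
  have haI : k⁻¹ * a₀ * k ∈ I := by
    have := hIconj a₀ ha₀I k⁻¹
    simpa using this
  obtain ⟨cb, hcb, -⟩ := hfix b₀ (Or.inr hb₀J)
  obtain ⟨l, rfl⟩ := QuotientGroup.mk_surjective cb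
  have hb₁H : l⁻¹ * b₀ * l ∈ H := (hfixpt l b₀).mp hcb
  have hb₁J : l⁻¹ * b₀ * l ∈ J := by
    have := hJconj b₀ hb₀J l⁻¹
    simpa using this
  have hbJ : g * (l⁻¹ * b₀ * l) * g⁻¹ ∈ J := hJconj _ hb₁J g
  generalize hadef : k⁻¹ * a₀ * k = a at haH haI
  generalize hbdef : g * (l⁻¹ * b₀ * l) * g⁻¹ = b at hbJ
  have hbfix : b • (g : G ⧸ H) = (g : G ⧸ H) := by
    rw [hfixpt, ← hbdef]
    have e : g⁻¹ * (g * (l⁻¹ * b₀ * l) * g⁻¹) * g = l⁻¹ * b₀ * l := by group
    rw [e]
    exact hb₁H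
  have hbH : b ∉ H := by
    intro hb
    obtain ⟨c, hc, huniq⟩ := hfix b (Or.inr hbJ)
    have h1 : ((1 : G) : G ⧸ H) = c := huniq _ ((hfixpt 1 b).mpr (by simpa using hb))
    have h2 : (g : G ⧸ H) = c := huniq _ hbfix
    have h3 := h1.trans h2.symm
    rw [QuotientGroup.eq] at h3
    apply hg
    simpa using h3
  have haa : a * a = 1 := hsqI a haI
  have hbb : b * b = 1 := hsqJ b hbJ
  have hnpos : 0 < orderOf (a * b) := orderOf_pos _
  rcases Nat.even_or_odd' (orderOf (a * b)) with ⟨m, hm | hm⟩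
  · have hm0 : 0 < m := by omega
    have hr : (a * b) ^ (2 * m) = 1 := by rw [← hm]; exact pow_orderOf_eq_one _
    have hu1 : (a * b) ^ m ≠ 1 := pow_ne_one_of_lt_orderOf hm0.ne' (by omega)
    have hau : a * (a * b) ^ m = (a * b) ^ m * a := Cfsg.Agent.Helper9.dih_pow_comm_a haa hbb m hr
    have hbu : b * (a * b) ^ m = (a * b) ^ m * b := Cfsg.Agent.Helper9.dih_pow_comm_b haa hbb m hr
    have huH : (a * b) ^ m ∈ H := by
      obtain ⟨c, hc, huniq⟩ := hfix a (Or.inl haI)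
      have h1 : ((1 : G) : G ⧸ H) = c := huniq _ ((hfixpt 1 a).mpr (by simpa using haH))
      have h2 : (((a * b) ^ m : G) : G ⧸ H) = c := by
        apply huniq
        show a • (((a * b) ^ m : G) : G ⧸ H) = (((a * b) ^ m : G) : G ⧸ H)
        rw [hfixpt]
        have e : ((a * b) ^ m)⁻¹ * a * (a * b) ^ m = a := by
          rw [mul_assoc, hau]; group
        rw [e]
        exact haH
      have h3 := h1.trans h2.symm
      rw [QuotientGroup.eq] at h3
      simpa using h3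
    have hauIJ : a * (a * b) ^ m ∈ I ∪ J := by
      rcases Cfsg.Agent.Helper9.dih_mul_pow_conj haa hbb m with ⟨c, hc⟩ | ⟨c, hc⟩
      · left
        rw [← hc]
        exact hIconj a haI c
      · right
        rw [← hc]
        exact hJconj b hbJ c
    have hne : a ≠ a * (a * b) ^ m := by
      intro h
      apply hu1
      have h2 : a * 1 = a * (a * b) ^ m := by rw [mul_one]; exact h
      exact (mul_left_cancel h2).symm
    have hcomm : a * (a * (a * b) ^ m) = a * (a * b) ^ m * a := by rw [mul_assoc, hau]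
    have hC := hcent a haI haH (a * (a * b) ^ m) hauIJ (H.mul_mem haH huH) hne hcomm
    have e : a * (a * (a * b) ^ m) = (a * b) ^ m := by rw [← mul_assoc, haa, one_mul]
    rw [e] at hC
    apply hbH
    apply hC
    rw [Subgroup.mem_centralizer_iff]
    intro y hy
    rw [Set.mem_singleton_iff] at hy
    subst hy
    exact hbu.symm
  · obtain ⟨c, hc⟩ := Cfsg.Agent.Helper9.dih_conj_of_odd haa hbb m (by rw [← hm]; exact pow_orderOf_eq_one _)
    apply hIJ
    have hab : IsConj a b := isConj_iff.mpr ⟨c, hc⟩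
    have haI' : IsConj a₀ a := by rw [hI] at haI; exact haI
    have hbJ' : IsConj b₀ b := by rw [hJ] at hbJ; exact hbJ
    rw [hI, hJ]
    ext x
    constructor
    · intro hx
      exact hbJ'.trans (hab.symm.trans (haI'.symm.trans hx))
    · intro hx
      exact haI'.trans (hab.trans (hbJ'.symm.trans hx))

end Cfsg.Agent.S5439
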