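import Cfsg.Statements.S5459
import Mathlib
import Cfsg.Agent.Helper9.CommGraph9
open Cfsg.Agent.Helper9

set_option autoImplicit false
open Cfsg

namespace Cfsg.Agent.S5459

/-- Let G be a finite group with a quasisimple normal subgroup L and an involution d such that G is generated by L and d, the centre of L has odd order, and d inverts every element of the centre of L. If the commuting graph on the conjugacy class of the image of d in G modulo the centre of L is connected, then the commuting graph on the conjugacy class of d is connected. -/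
theorem result {G : Type*} [Group G] [Finite G] (L : Subgroup G) [L.Normal] (hL : Cfsg.IsQuasisimple ↥L) (d : G) (hd : orderOf d = 2) (hgen : L ⊔ Subgroup.zpowers d = ⊤) (hodd : Odd (Nat.card ↥(Subgroup.center ↥L))) (hinv : ∀ c ∈ (Subgroup.center ↥L).map L.subtype, d * c * d⁻¹ = c⁻¹) [hn : ((Subgroup.center ↥L).map L.subtype).Normal] (hconn : (Cfsg.commutingGraph (conjugatesOf (QuotientGroup.mk d : G ⧸ (Subgroup.center ↥L).map L.subtype))).Connected) : (Cfsg.commutingGraph (conjugatesOf d)).Connected := by
  classical
  have hd2 : d * d = 1 := by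
    have h := pow_orderOf_eq_one d
    rw [hd, pow_two] at h
    exact h
  refine comm_graph_lift9 L hL.1.commutator_eq_top ((Subgroup.center ↥L).map L.subtype)
    ?_ ?_ ?_ d hd2 hinv hconn
  · rintro w ⟨c, hc, rfl⟩
    exact c.2
  · rintro w ⟨c, hc, rfl⟩ l hl
    have h := Subgroup.mem_center_iff.mp hc ⟨l, hl⟩
    exact (congrArg Subtype.val h).symm
  · rintro z ⟨c, hc, rfl⟩
    obtain ⟨k, hk⟩ := hodd
    have h1 : (⟨c, hc⟩ : ↥(Subgroup.center ↥L)) ^ Nat.card ↥(Subgroup.center ↥L) = 1 :=
      pow_card_eq_one'
    have h2 : c ^ (2 * k + 1) = 1 := by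
      have h3 := congrArg Subtype.val h1
      rw [hk] at h3
      exact h3
    refine ⟨L.subtype (c ^ (k + 1)), ⟨c ^ (k + 1), Subgroup.pow_mem _ hc _, rfl⟩, ?_⟩
    rw [← map_mul, ← pow_add, show k + 1 + (k + 1) = (2 * k + 1) + 1 by ring, pow_succ, h2,
      one_mul]


end Cfsg.Agent.S5459
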