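import Cfsg.Statements.S5541
import Mathlib

set_option autoImplicit false
open Cfsg

namespace Cfsg.Agent.S5541

/-- Let ρ be a representation of a group H on a finite-dimensional real vector space U whose only ρ-invariant subspaces are the zero subspace and U, and suppose U carries a non-zero ρ-invariant symmetric bilinear form. Then the following are equivalent: (1) there is a non-zero ρ-equivariant commutative bilinear product on U of which every ρ-equivariant bilinear product is a scalar multiple; (2) there is a non-zero ρ-invariant trilinear form on U that is symmetric under all permutations of its arguments and of which every ρ-invariant trilinear form is a scalar multiple. -/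
theorem result {H : Type*} [Group H] {U : Type*} [AddCommGroup U] [Module ℝ U] [FiniteDimensional ℝ U] (ρ : Representation ℝ H U) (hirr : ∀ W : Submodule ℝ U, (∀ g : H, W.map (ρ g) ≤ W) → W = ⊥ ∨ W = ⊤) (B : LinearMap.BilinForm ℝ U) (hB0 : B ≠ 0) (hBs : ∀ u v, B u v = B v u) (hBi : ∀ (g : H) (u v : U), B (ρ g u) (ρ g v) = B u v) : (∃ m : U →ₗ[ℝ] U →ₗ[ℝ] U, m ≠ 0 ∧ (∀ u v, m u v = m v u) ∧ (∀ (g : H) (u v : U), m (ρ g u) (ρ g v) = ρ g (m u v)) ∧ ∀ m' : U →ₗ[ℝ] U →ₗ[ℝ] U, (∀ (g : H) (u v : U), m' (ρ g u) (ρ g v) = ρ g (m' u v)) → ∃ c : ℝ, m' = c • m) ↔ (∃ t : U →ₗ[ℝ] U →ₗ[ℝ] U →ₗ[ℝ] ℝ, t ≠ 0 ∧ (∀ u v w, t u v w = t v u w ∧ t u v w = t u w v) ∧ (∀ (g : H) (u v w : U), t (ρ g u) (ρ g v) (ρ g w) = t u v w) ∧ ∀ t' : U →ₗ[ℝ] U →ₗ[ℝ] U →ₗ[ℝ] ℝ, (∀ (g : H) (u v w : U), t' (ρ g u) (ρ g v) (ρ g w) = t' u v w) → ∃ c : ℝ, t' = c • t) := by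
  classical
  have hρinv : ∀ (g : H) (y : U), ρ g (ρ g⁻¹ y) = y := by
    intro g y
    have h1 : ρ g * ρ g⁻¹ = 1 := by rw [← map_mul, mul_inv_cancel, map_one]
    exact congrArg (fun f : U →ₗ[ℝ] U => f y) h1
  have hsepL : ∀ x : U, (∀ y, B x y = 0) → x = 0 := by
    intro x hx
    have hW := hirr (LinearMap.ker B) (by
      intro g z hz
      obtain ⟨x', hx', rfl⟩ := Submodule.mem_map.mp hz
      rw [LinearMap.mem_ker] at hx' ⊢
      ext y
      have e : B (ρ g x') y = B x' (ρ g⁻¹ y) := by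
        rw [← hBi g x' (ρ g⁻¹ y), hρinv]
      rw [e, hx']; rfl)
    rcases hW with h | h
    · have h1 : x ∈ LinearMap.ker B := by
        rw [LinearMap.mem_ker]; ext y; rw [hx y]; rfl
      rw [h, Submodule.mem_bot] at h1
      exact h1
    · exfalso; apply hB0
      ext u v
      have h1 : u ∈ LinearMap.ker B := by rw [h]; exact Submodule.mem_top
      rw [LinearMap.mem_ker] at h1
      rw [h1]; rfl
  have hBnd : B.Nondegenerate :=
    ⟨hsepL, fun y hy => hsepL y (fun x => by rw [hBs]; exact hy x)⟩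
  have hinjB : ∀ x x' : U, (∀ w, B x w = B x' w) → x = x' := by
    intro x x' h
    have h1 : x - x' = 0 :=
      hsepL _ (fun w => by rw [map_sub, LinearMap.sub_apply, h w, sub_self])
    exact sub_eq_zero.mp h1
  obtain ⟨Dm, hD⟩ : ∃ Dm : Module.Dual ℝ U →ₗ[ℝ] U,
      ∀ (f : Module.Dual ℝ U) (v : U), B (Dm f) v = f v :=
    ⟨((B.toDual hBnd).symm : Module.Dual ℝ U →ₗ[ℝ] U),
      fun f v => LinearMap.BilinForm.apply_toDual_symm_apply f v⟩
  have hE1 : ∀ m' : U →ₗ[ℝ] U →ₗ[ℝ] U,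
      (∀ (g : H) (u v : U), m' (ρ g u) (ρ g v) = ρ g (m' u v)) →
      ∀ (g : H) (u v w : U), (m'.compr₂ B) (ρ g u) (ρ g v) (ρ g w) = (m'.compr₂ B) u v w := by
    intro m' hm' g u v w
    rw [LinearMap.compr₂_apply, LinearMap.compr₂_apply, hm', hBi]
  have hE2 : ∀ t' : U →ₗ[ℝ] U →ₗ[ℝ] U →ₗ[ℝ] ℝ,
      (∀ (g : H) (u v w : U), t' (ρ g u) (ρ g v) (ρ g w) = t' u v w) →
      ∀ (g : H) (u v : U), (t'.compr₂ Dm) (ρ g u) (ρ g v) = ρ g ((t'.compr₂ Dm) u v) := by
    intro t' ht' g u v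
    apply hinjB
    intro w
    rw [LinearMap.compr₂_apply, LinearMap.compr₂_apply, hD]
    have e1 : t' (ρ g u) (ρ g v) w = t' u v (ρ g⁻¹ w) := by
      rw [← ht' g u v (ρ g⁻¹ w), hρinv]
    have e2 : B (ρ g (Dm (t' u v))) w = B (Dm (t' u v)) (ρ g⁻¹ w) := by
      rw [← hBi g (Dm (t' u v)) (ρ g⁻¹ w), hρinv]
    rw [e1, e2, hD]
  constructor
  · rintro ⟨m, hm0, hmc, hme, hmu⟩
    obtain ⟨m₂, hm₂⟩ : ∃ m₂ : U →ₗ[ℝ] U →ₗ[ℝ] U,
        ∀ u v w : U, B (m₂ u v) w = B (m u w) v := by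
      refine ⟨LinearMap.mk₂ ℝ (fun u v => Dm ((B v).comp (m u))) ?_ ?_ ?_ ?_, ?_⟩
      · intro u₁ u₂ v
        beta_reduce
        rw [map_add, LinearMap.comp_add, map_add]
      · intro c u v
        beta_reduce
        rw [map_smul, LinearMap.comp_smul, map_smul]
      · intro u v₁ v₂
        beta_reduce
        rw [map_add, LinearMap.add_comp, map_add]
      · intro c u v
        beta_reduce
        rw [map_smul, LinearMap.smul_comp, map_smul]
      · intro u v w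
        show B (Dm ((B v).comp (m u))) w = B (m u w) v
        rw [hD, LinearMap.comp_apply, hBs]
    have hm₂e : ∀ (g : H) (u v : U), m₂ (ρ g u) (ρ g v) = ρ g (m₂ u v) := by
      intro g u v
      apply hinjB
      intro w
      have e2 : B (ρ g (m₂ u v)) w = B (m₂ u v) (ρ g⁻¹ w) := by
        rw [← hBi g (m₂ u v) (ρ g⁻¹ w), hρinv]
      rw [e2, hm₂, hm₂]
      have e3 : m (ρ g u) w = ρ g (m u (ρ g⁻¹ w)) := by
        rw [← hme g u (ρ g⁻¹ w), hρinv]
      rw [e3, hBi]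
    obtain ⟨c, hc⟩ := hmu m₂ hm₂e
    have hR2 : ∀ u v w : U, B (m u w) v = c * B (m u v) w := by
      intro u v w
      rw [← hm₂ u v w, hc]
      simp only [LinearMap.smul_apply, map_smul, smul_eq_mul]
    have hR1 : ∀ u v w : U, B (m u v) w = B (m v u) w := fun u v w => by rw [hmc u v]
    obtain ⟨u₀, v₀, w₀, h0⟩ : ∃ u v w : U, B (m u v) w ≠ 0 := by
      by_contra hcon
      apply hm0
      ext u v
      have h1 : m u v = 0 := hsepL _ (fun w => by
        by_contra h; exact hcon ⟨u, v, w, h⟩)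
      rw [h1]; rfl
    have hc1 : c = 1 := by
      have hA : B (m w₀ v₀) u₀ = c * B (m u₀ v₀) w₀ := by
        rw [hR1 w₀ v₀ u₀, hR2 v₀ u₀ w₀, hR1 v₀ u₀ w₀]
      have hB' : B (m w₀ v₀) u₀ = c * (c * B (m u₀ v₀) w₀) := by
        rw [hR2 w₀ u₀ v₀, hR1 w₀ u₀ v₀, hR2 u₀ v₀ w₀]
      have hC : B (m u₀ v₀) w₀ = c * (c * B (m u₀ v₀) w₀) := by
        rw [← hR2 u₀ v₀ w₀, ← hR2 u₀ w₀ v₀]
      have h1 : c * B (m u₀ v₀) w₀ = c * (c * B (m u₀ v₀) w₀) := hA.symm.trans hB'
      have h2 : (c * c - 1) * B (m u₀ v₀) w₀ = 0 := by linear_combination (-1 : ℝ) * hC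
      have h3 : c * c = 1 := by
        rcases mul_eq_zero.mp h2 with h | h
        · linarith
        · exact absurd h h0
      have h4 : (c - c * c) * B (m u₀ v₀) w₀ = 0 := by linear_combination h1
      rcases mul_eq_zero.mp h4 with h | h
      · linarith
      · exact absurd h h0
    refine ⟨m.compr₂ B, ?_, ?_, hE1 m hme, ?_⟩
    · intro h
      apply h0
      exact congrArg (fun t : U →ₗ[ℝ] U →ₗ[ℝ] U →ₗ[ℝ] ℝ => t u₀ v₀ w₀) h
    · intro u v w
      constructor
      · rw [LinearMap.compr₂_apply, LinearMap.compr₂_apply, hmc u v]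
      · rw [LinearMap.compr₂_apply, LinearMap.compr₂_apply, hR2 u v w, hc1, one_mul]
    · intro t' ht'
      obtain ⟨c', hc'⟩ := hmu (t'.compr₂ Dm) (hE2 t' ht')
      refine ⟨c', ?_⟩
      ext u v w
      have e : B ((t'.compr₂ Dm) u v) w = t' u v w := by rw [LinearMap.compr₂_apply, hD]
      rw [← e, hc']
      simp only [LinearMap.smul_apply, map_smul, smul_eq_mul, LinearMap.compr₂_apply]
  · rintro ⟨t, ht0, hts, hti, htu⟩
    have hval : ∀ u v w : U, B ((t.compr₂ Dm) u v) w = t u v w := by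
      intro u v w; rw [LinearMap.compr₂_apply, hD]
    refine ⟨t.compr₂ Dm, ?_, ?_, hE2 t hti, ?_⟩
    · intro h
      apply ht0
      ext u v w
      rw [← hval u v w, h]
      simp
    · intro u v
      apply hinjB
      intro w
      rw [hval, hval, (hts u v w).1]
    · intro m' hm'
      obtain ⟨c, hc⟩ := htu (m'.compr₂ B) (hE1 m' hm')
      refine ⟨c, ?_⟩
      ext u v
      apply hinjB
      intro w
      have e : B (m' u v) w = (m'.compr₂ B) u v w := rfl
      rw [e, hc]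
      simp only [LinearMap.smul_apply, map_smul, smul_eq_mul, hval]


end Cfsg.Agent.S5541
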