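import Cfsg.Statements.S5543
import Mathlib

set_option autoImplicit false
open Cfsg

namespace Cfsg.Agent.S5543

theorem exists_not_mem {E : Type*} [Group E] (X : Subgroup E) (S : Finset E)
    (h : S.card < Nat.card X) : ∃ z ∈ X, z ∉ S := by
  classical
  by_contra hcon
  have hsub : (X : Set E) ⊆ (S : Set E) := by
    intro z hz
    by_contra hzS
    exact hcon ⟨z, hz, hzS⟩
  have h1 : Nat.card X = (X : Set E).ncard := Nat.card_coe_set_eq (X : Set E)
  have h2 := Set.ncard_le_ncard hsub (Finset.finite_toSet S)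
  rw [Set.ncard_coe_finset] at h2
  omega

theorem law_eq : Cfsg.Axial.monsterLaw (1/4 : ℝ) (1/32) (1/4) (1/4) = ({1, 0} : Set ℝ) := by
  unfold Cfsg.Axial.monsterLaw
  have h1 : ¬ ((1/4 : ℝ) = 1/32 ∧ (1/4 : ℝ) = 1/32) := by norm_num
  have h2 : ¬ ((1/4 : ℝ) = 1/32 ∨ (1/4 : ℝ) = 1/32) := by norm_num
  first
    | rw [if_neg h1, if_neg h2, if_pos ⟨rfl, rfl⟩]
    | norm_num

theorem alg {V : Type*} [AddCommGroup V] [Module ℝ V] (mul : V →ₗ[ℝ] V →ₗ[ℝ] V)
    (A Y Z P Q R T : V)
    (hfus : ∀ u ∈ Cfsg.Axial.eigen mul A (1/4), ∀ v ∈ Cfsg.Axial.eigen mul A (1/4),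
       mul u v ∈ Cfsg.Axial.eigenSum mul A ({1, 0} : Set ℝ))
    (hAid : mul A A = A) (hRid : mul R R = R) (hR0 : R ≠ 0)
    (m1 : mul A Y = (1/8 : ℝ) • (A + Y - P))
    (m2 : mul A P = (1/8 : ℝ) • (A + P - Y))
    (m3 : mul A Z = (1/8 : ℝ) • (A + Z - Q))
    (m4 : mul A Q = (1/8 : ℝ) • (A + Q - Z))
    (m5 : mul Y Z = (1/8 : ℝ) • (Y + Z - R))
    (m6 : mul Y Q = (1/8 : ℝ) • (Y + Q - T))
    (m7 : mul P Z = (1/8 : ℝ) • (P + Z - T))
    (m8 : mul P Q = (1/8 : ℝ) • (P + Q - R))
    (m9 : mul A R = (1/8 : ℝ) • (A + R - T))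
    (m10 : mul A T = (1/8 : ℝ) • (A + T - R))
    (m11 : mul R T = (1/8 : ℝ) • (R + T - A)) : False := by
  have ey : Y - P ∈ Cfsg.Axial.eigen mul A (1/4) := by
    unfold Cfsg.Axial.eigen
    rw [Module.End.mem_eigenspace_iff, map_sub, m1, m2]
    module
  have ez : Z - Q ∈ Cfsg.Axial.eigen mul A (1/4) := by
    unfold Cfsg.Axial.eigen
    rw [Module.End.mem_eigenspace_iff, map_sub, m3, m4]
    module
  have hprod : mul (Y - P) (Z - Q) = (-(1/4) : ℝ) • (R - T) := by
    simp only [map_sub, LinearMap.sub_apply, m5, m6, m7, m8]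
    module
  have hw : mul A (R - T) = (1/4 : ℝ) • (R - T) := by
    rw [map_sub, m9, m10]; module
  obtain ⟨w, hwdef⟩ : ∃ w : V, w = (-(1/4) : ℝ) • (R - T) := ⟨_, rfl⟩
  have hwA : mul A w = (1/4 : ℝ) • w := by
    rw [hwdef, map_smul, hw]; module
  have hmem : w ∈ Cfsg.Axial.eigenSum mul A ({1, 0} : Set ℝ) := by
    rw [hwdef, ← hprod]; exact hfus _ ey _ ez
  unfold Cfsg.Axial.eigenSum at hmem
  rw [iSup_pair, Submodule.mem_sup] at hmem
  obtain ⟨e1, h1, e0, h0, hsum⟩ := hmem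
  unfold Cfsg.Axial.eigen at h1 h0
  rw [Module.End.mem_eigenspace_iff] at h1 h0
  rw [one_smul] at h1
  rw [zero_smul] at h0
  have hw1 : mul A w = e1 := by rw [← hsum, map_add, h1, h0, add_zero]
  have hw2 : e1 = (1/4 : ℝ) • w := by rw [← hw1]; exact hwA
  have hw3 : mul A e1 = (1/16 : ℝ) • w := by
    rw [hw2, map_smul, hwA, smul_smul]; norm_num
  have hw4 : (1/4 : ℝ) • w = (1/16 : ℝ) • w := by rw [← hw2, ← hw3, h1]
  have hw0 : w = 0 := by
    have h : ((1/4 : ℝ) - 1/16) • w = 0 := by rw [sub_smul, hw4, sub_self]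
    rcases smul_eq_zero.mp h with h' | h'
    · norm_num at h'
    · exact h'
  have hRT : R = T := by
    rw [hwdef] at hw0
    rcases smul_eq_zero.mp hw0 with h' | h'
    · norm_num at h'
    · exact sub_eq_zero.mp h'
  rw [← hRT] at m11
  have h8 : (8 : ℝ) • R = R + R - A := by
    calc (8 : ℝ) • R = (8 : ℝ) • mul R R := by rw [hRid]
      _ = (8 : ℝ) • ((1/8 : ℝ) • (R + R - A)) := by rw [m11]
      _ = R + R - A := by rw [smul_smul]; norm_num
  have hA : A = (-6 : ℝ) • R := by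
    have h : A = R + R - (8 : ℝ) • R := by rw [h8]; abel
    rw [h]; module
  have h36 : mul A A = (36 : ℝ) • R := by
    rw [hA]
    simp only [map_smul, LinearMap.smul_apply, smul_smul, hRid]
    norm_num
  have h42 : (42 : ℝ) • R = 0 := by
    have h : (36 : ℝ) • R = (-6 : ℝ) • R := by rw [← h36, hAid]; exact hA
    calc (42 : ℝ) • R = (36 : ℝ) • R - (-6 : ℝ) • R := by module
      _ = 0 := by rw [h, sub_self]
  rcases smul_eq_zero.mp h42 with h' | h'
  · norm_num at h'
  · exact hR0 h'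

/-- Let V be a finite-dimensional real vector space with a commutative bilinear product and a positive-definite symmetric bilinear form that associates with the product and satisfies the Norton inequality (the Majorana setting of the definitions). Let X be a group of linear automorphisms of V in which every element squares to the identity, and suppose every non-identity element x of X is a Majorana involution with an axial vector a(x) of squared length 1, such that for any two distinct non-identity x, y the product a(x) ∘ a(y) equals (1/8)(a(x) + a(y) − a(xy)) (the dihedral subalgebra of type 2A whose third axis belongs to the involution xy). Then X has order at most 4. -/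
theorem result {V : Type*} [AddCommGroup V] [Module ℝ V] [FiniteDimensional ℝ V] (mul : V →ₗ[ℝ] V →ₗ[ℝ] V) (B : LinearMap.BilinForm ℝ V) (hV : Cfsg.Axial.IsMajoranaAmbient mul B) (X : Subgroup (V ≃ₗ[ℝ] V)) (hX : ∀ x ∈ X, x * x = 1) (ax : (V ≃ₗ[ℝ] V) → V) (hax : ∀ x ∈ X, x ≠ 1 → Cfsg.Axial.IsMajoranaPair mul B x (ax x)) (h1 : ∀ x ∈ X, x ≠ 1 → B (ax x) (ax x) = 1) (h2A : ∀ x ∈ X, ∀ y ∈ X, x ≠ 1 → y ≠ 1 → x ≠ y → mul (ax x) (ax y) = (1 / 8 : ℝ) • (ax x + ax y - ax (x * y))) : Nat.card ↥X ≤ 4 := by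
  classical
  by_contra hcard
  have hcard' : 4 < Nat.card ↥X := by omega
  obtain ⟨x, hxX, hx1⟩ := exists_not_mem X {1} (by rw [Finset.card_singleton]; omega)
  obtain ⟨y, hyX, hy⟩ := exists_not_mem X {1, x} (lt_of_le_of_lt Finset.card_le_two (by omega))
  obtain ⟨z, hzX, hz⟩ := exists_not_mem X {1, x, y, x * y} (lt_of_le_of_lt Finset.card_le_four hcard')
  simp only [Finset.mem_insert, Finset.mem_singleton, not_or] at hx1 hy hz
  obtain ⟨hy1, hyx⟩ := hy
  obtain ⟨hz1, hzx, hzy, hzxy⟩ := hz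
  have hxx := hX x hxX
  have hyy := hX y hyX
  have hzz := hX z hzX
  have hcommX : ∀ u ∈ X, ∀ v ∈ X, u * v = v * u := by
    intro u hu v hv
    have h1 := hX (u * v) (mul_mem hu hv)
    have hu2 := hX u hu
    have hv2 := hX v hv
    calc u * v = u * (u * v * (u * v)) * v := by rw [h1, mul_one]
      _ = (u * u) * (v * u) * (v * v) := by group
      _ = v * u := by rw [hu2, hv2, one_mul, mul_one]
  have hxy := hcommX x hxX y hyX
  have hxz := hcommX x hxX z hzX
  have hyz := hcommX y hyX z hzX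
  have hxyX : x * y ∈ X := mul_mem hxX hyX
  have hxzX : x * z ∈ X := mul_mem hxX hzX
  have hyzX : y * z ∈ X := mul_mem hyX hzX
  have hxyzX : x * y * z ∈ X := mul_mem hxyX hzX
  have hxy1 : x * y ≠ 1 := fun h => hyx (mul_left_cancel (h.trans hxx.symm))
  have hxz1 : x * z ≠ 1 := fun h => hzx (mul_left_cancel (h.trans hxx.symm))
  have hyz1 : y * z ≠ 1 := fun h => hzy (mul_left_cancel (h.trans hyy.symm))
  have hxyz1 : x * y * z ≠ 1 := fun h => hzxy (mul_left_cancel (h.trans (hX (x * y) hxyX).symm))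
  have d1 : x ≠ y := fun h => hyx h.symm
  have d2 : x ≠ x * y := fun h => hy1 (mul_left_cancel ((mul_one x).trans h)).symm
  have d3 : x ≠ z := fun h => hzx h.symm
  have d4 : x ≠ x * z := fun h => hz1 (mul_left_cancel ((mul_one x).trans h)).symm
  have d5 : y ≠ z := fun h => hzy h.symm
  have d6 : y ≠ x * z := fun h => hzxy (by rw [h, ← mul_assoc, hxx, one_mul])
  have d7 : x * y ≠ z := fun h => hzxy h.symm
  have d8 : x * y ≠ x * z := fun h => hzy (mul_left_cancel h).symm
  have d9 : x ≠ y * z := fun h => hzxy (by rw [hxy, h, ← mul_assoc, hyy, one_mul])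
  have d10 : x ≠ x * y * z := fun h =>
    hyz1 (mul_left_cancel (((mul_one x).trans h).trans (mul_assoc x y z))).symm
  have d11 : y * z ≠ x * y * z := fun h =>
    hx1 (mul_right_cancel (((one_mul (y * z)).trans h).trans (mul_assoc x y z))).symm
  have I1 : x * (x * y) = y := by rw [← mul_assoc, hxx, one_mul]
  have I2 : x * (x * z) = z := by rw [← mul_assoc, hxx, one_mul]
  have I3 : y * (x * z) = x * y * z := by rw [← mul_assoc, ← hxy]
  have I4 : x * y * (x * z) = y * z := by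
    calc x * y * (x * z) = y * (x * x) * z := by rw [hxy]; group
      _ = y * z := by rw [hxx, mul_one]
  have I5 : x * (y * z) = x * y * z := (mul_assoc x y z).symm
  have I6 : x * (x * y * z) = y * z := by
    calc x * (x * y * z) = (x * x) * (y * z) := by group
      _ = y * z := by rw [hxx, one_mul]
  have I7 : y * z * (x * y * z) = x := by
    calc y * z * (x * y * z) = y * (z * x) * (y * z) := by group
      _ = y * (x * z) * (y * z) := by rw [hxz]
      _ = (y * x) * (z * y) * z := by group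
      _ = (x * y) * (y * z) * z := by rw [← hxy, ← hyz]
      _ = x * (y * y) * (z * z) := by group
      _ = x := by rw [hyy, hzz, mul_one, mul_one]
  have m1 := h2A x hxX y hyX hx1 hy1 d1
  have m2 := h2A x hxX (x * y) hxyX hx1 hxy1 d2
  rw [I1] at m2
  have m3 := h2A x hxX z hzX hx1 hz1 d3
  have m4 := h2A x hxX (x * z) hxzX hx1 hxz1 d4
  rw [I2] at m4
  have m5 := h2A y hyX z hzX hy1 hz1 d5
  have m6 := h2A y hyX (x * z) hxzX hy1 hxz1 d6
  rw [I3] at m6
  have m7 := h2A (x * y) hxyX z hzX hxy1 hz1 d7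
  have m8 := h2A (x * y) hxyX (x * z) hxzX hxy1 hxz1 d8
  rw [I4] at m8
  have m9 := h2A x hxX (y * z) hyzX hx1 hyz1 d9
  rw [I5] at m9
  have m10 := h2A x hxX (x * y * z) hxyzX hx1 hxyz1 d10
  rw [I6] at m10
  have m11 := h2A (y * z) hyzX (x * y * z) hxyzX hyz1 hxyz1 d11
  rw [I7] at m11
  obtain ⟨-, -, ⟨⟨-, hAid, -, hAfus⟩, -⟩, -⟩ := hax x hxX hx1
  obtain ⟨-, -, ⟨⟨hR0, hRid, -, -⟩, -⟩, -⟩ := hax (y * z) hyzX hyz1
  have h14 : (1/4 : ℝ) ∈ Cfsg.Axial.majoranaSpectrum := by
    unfold Cfsg.Axial.majoranaSpectrum; simp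
  have hfus := hAfus (1/4) h14 (1/4) h14
  rw [law_eq] at hfus
  exact alg mul (ax x) (ax y) (ax z) (ax (x * y)) (ax (x * z)) (ax (y * z)) (ax (x * y * z))
    hfus hAid hRid hR0 m1 m2 m3 m4 m5 m6 m7 m8 m9 m10 m11


end Cfsg.Agent.S5543
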