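import Cfsg.Statements.S5545
import Mathlib

set_option autoImplicit false
open Cfsg

namespace Cfsg.Agent.S5545

theorem law00 : Cfsg.Axial.monsterLaw (1/4 : ℝ) (1/32) 0 0 = ({0} : Set ℝ) := by
  unfold Cfsg.Axial.monsterLaw
  have h1 : ¬ ((0 : ℝ) = 1/32 ∧ (0 : ℝ) = 1/32) := by norm_num
  have h2 : ¬ ((0 : ℝ) = 1/32 ∨ (0 : ℝ) = 1/32) := by norm_num
  have h3 : ¬ ((0 : ℝ) = 1/4 ∧ (0 : ℝ) = 1/4) := by norm_num
  have h4 : ¬ ((0 : ℝ) = 1/4 ∨ (0 : ℝ) = 1/4) := by norm_num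
  first
    | rw [if_neg h1, if_neg h2, if_neg h3, if_neg h4, if_pos rfl]
    | norm_num

theorem law0q : Cfsg.Axial.monsterLaw (1/4 : ℝ) (1/32) 0 (1/4) = ({1/4} : Set ℝ) := by
  unfold Cfsg.Axial.monsterLaw
  have h1 : ¬ ((0 : ℝ) = 1/32 ∧ (1/4 : ℝ) = 1/32) := by norm_num
  have h2 : ¬ ((0 : ℝ) = 1/32 ∨ (1/4 : ℝ) = 1/32) := by norm_num
  have h3 : ¬ ((0 : ℝ) = 1/4 ∧ (1/4 : ℝ) = 1/4) := by norm_num
  first
    | rw [if_neg h1, if_neg h2, if_neg h3, if_pos (Or.inr rfl)]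
    | norm_num

theorem lawqq : Cfsg.Axial.monsterLaw (1/4 : ℝ) (1/32) (1/4) (1/4) = ({1, 0} : Set ℝ) := by
  unfold Cfsg.Axial.monsterLaw
  have h1 : ¬ ((1/4 : ℝ) = 1/32 ∧ (1/4 : ℝ) = 1/32) := by norm_num
  have h2 : ¬ ((1/4 : ℝ) = 1/32 ∨ (1/4 : ℝ) = 1/32) := by norm_num
  first
    | rw [if_neg h1, if_neg h2, if_pos ⟨rfl, rfl⟩]
    | norm_num

theorem quarter_zero {V : Type*} [AddCommGroup V] [Module ℝ V] (mul : V →ₗ[ℝ] V →ₗ[ℝ] V)
    (A w : V) (hwA : mul A w = (1/4 : ℝ) • w)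
    (hmem : w ∈ Cfsg.Axial.eigenSum mul A ({1, 0} : Set ℝ)) : w = 0 := by
  unfold Cfsg.Axial.eigenSum at hmem
  rw [iSup_pair, Submodule.mem_sup] at hmem
  obtain ⟨e1, h1, e0, h0, hsum⟩ := hmem
  unfold Cfsg.Axial.eigen at h1 h0
  rw [Module.End.mem_eigenspace_iff] at h1 h0
  rw [one_smul] at h1
  rw [zero_smul] at h0
  have hw1 : mul A w = e1 := by rw [← hsum, map_add, h1, h0, add_zero]
  have hw2 : e1 = (1/4 : ℝ) • w := by rw [← hw1]; exact hwA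
  have hw3 : mul A e1 = (1/16 : ℝ) • w := by
    rw [hw2, map_smul, hwA, smul_smul]; norm_num
  have hw4 : (1/4 : ℝ) • w = (1/16 : ℝ) • w := by rw [← hw2, ← hw3, h1]
  have h : ((1/4 : ℝ) - 1/16) • w = 0 := by rw [sub_smul, hw4, sub_self]
  rcases smul_eq_zero.mp h with h' | h'
  · norm_num at h'
  · exact h'

theorem transport {V : Type*} [AddCommGroup V] [Module ℝ V] (mul : V →ₗ[ℝ] V →ₗ[ℝ] V)
    (B : LinearMap.BilinForm ℝ V) (μ₀ φ : V ≃ₗ[ℝ] V) (a₀ : V)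
    (h₀ : Cfsg.Axial.IsMajoranaPair mul B μ₀ a₀)
    (hφm : ∀ u v : V, φ (mul u v) = mul (φ u) (φ v))
    (hc : μ₀ * φ = φ * μ₀) : Cfsg.Axial.IsMajoranaPair mul B μ₀ (φ a₀) := by
  obtain ⟨hm, hB, ⟨⟨ha0, hid, hsum, hfus⟩, hprim⟩, hmiy1, hmiy2⟩ := h₀
  have hc' : ∀ v : V, μ₀ (φ v) = φ (μ₀ v) := fun v => LinearEquiv.congr_fun hc v
  have hφinv : ∀ u v : V, φ.symm (mul u v) = mul (φ.symm u) (φ.symm v) := by
    intro u v
    apply φ.injective
    simp only [hφm, LinearEquiv.apply_symm_apply]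
  have heig1 : ∀ c : ℝ, ∀ v : V, v ∈ Cfsg.Axial.eigen mul a₀ c →
      φ v ∈ Cfsg.Axial.eigen mul (φ a₀) c := by
    intro c v hv
    unfold Cfsg.Axial.eigen at hv ⊢
    rw [Module.End.mem_eigenspace_iff] at hv ⊢
    rw [← hφm, hv, map_smul]
  have heig2 : ∀ c : ℝ, ∀ v : V, v ∈ Cfsg.Axial.eigen mul (φ a₀) c →
      φ.symm v ∈ Cfsg.Axial.eigen mul a₀ c := by
    intro c v hv
    unfold Cfsg.Axial.eigen at hv ⊢
    rw [Module.End.mem_eigenspace_iff] at hv ⊢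
    have e : mul a₀ (φ.symm v) = φ.symm (mul (φ a₀) v) := by
      rw [hφinv, LinearEquiv.symm_apply_apply]
    rw [e, hv, map_smul]
  have hsum1 : ∀ (S : Set ℝ) (v : V), v ∈ Cfsg.Axial.eigenSum mul a₀ S →
      φ v ∈ Cfsg.Axial.eigenSum mul (φ a₀) S := by
    intro S v hv
    have hle : Cfsg.Axial.eigenSum mul a₀ S ≤
        (Cfsg.Axial.eigenSum mul (φ a₀) S).comap (φ : V →ₗ[ℝ] V) := by
      unfold Cfsg.Axial.eigenSum
      apply iSup₂_le
      intro c hc x hx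
      rw [Submodule.mem_comap]
      exact Submodule.mem_iSup_of_mem c (Submodule.mem_iSup_of_mem hc (heig1 c x hx))
    exact Submodule.mem_comap.mp (hle hv)
  have hsum2 : ∀ (S : Set ℝ) (v : V), v ∈ Cfsg.Axial.eigenSum mul (φ a₀) S →
      φ.symm v ∈ Cfsg.Axial.eigenSum mul a₀ S := by
    intro S v hv
    have hle : Cfsg.Axial.eigenSum mul (φ a₀) S ≤
        (Cfsg.Axial.eigenSum mul a₀ S).comap (φ.symm : V →ₗ[ℝ] V) := by
      unfold Cfsg.Axial.eigenSum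
      apply iSup₂_le
      intro c hc x hx
      rw [Submodule.mem_comap]
      exact Submodule.mem_iSup_of_mem c (Submodule.mem_iSup_of_mem hc (heig2 c x hx))
    exact Submodule.mem_comap.mp (hle hv)
  refine ⟨hm, hB, ⟨⟨?_, ?_, ?_, ?_⟩, ?_⟩, ?_, ?_⟩
  · intro h
    apply ha0
    apply φ.injective
    rw [h, map_zero]
  · rw [← hφm, hid]
  · rw [eq_top_iff]
    intro v _
    have h1 : φ.symm v ∈ Cfsg.Axial.eigenSum mul a₀ Cfsg.Axial.majoranaSpectrum := by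
      rw [hsum]; exact Submodule.mem_top
    have h2 := hsum1 _ _ h1
    rw [LinearEquiv.apply_symm_apply] at h2
    exact h2
  · intro c hc d hd u hu v hv
    have h1 := hfus c hc d hd _ (heig2 c u hu) _ (heig2 d v hv)
    have h2 := hsum1 _ _ h1
    simp only [hφm, LinearEquiv.apply_symm_apply] at h2
    exact h2
  · apply le_antisymm
    · intro v hv
      have h1 := heig2 1 v hv
      rw [hprim, Submodule.mem_span_singleton] at h1
      obtain ⟨κ, hκ⟩ := h1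
      rw [Submodule.mem_span_singleton]
      refine ⟨κ, ?_⟩
      have e : κ • φ a₀ = φ (κ • a₀) := (map_smul φ κ a₀).symm
      rw [e, hκ, LinearEquiv.apply_symm_apply]
    · rw [Submodule.span_singleton_le_iff_mem]
      apply heig1 1 a₀
      rw [hprim]; exact Submodule.mem_span_singleton_self a₀
  · intro v hv
    have h1 := hmiy1 _ (hsum2 _ v hv)
    have h2 : μ₀ (φ (φ.symm v)) = φ (φ.symm v) := by rw [hc']; exact congrArg φ h1
    rw [LinearEquiv.apply_symm_apply] at h2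
    exact h2
  · intro v hv
    have h1 := hmiy2 _ (heig2 _ v hv)
    have h2 : μ₀ (φ (φ.symm v)) = φ (-(φ.symm v)) := by rw [hc']; exact congrArg φ h1
    rw [map_neg, LinearEquiv.apply_symm_apply] at h2
    exact h2

theorem half1 {V : Type*} [AddCommGroup V] [Module ℝ V] (mul : V →ₗ[ℝ] V →ₗ[ℝ] V)
    (B : LinearMap.BilinForm ℝ V) (hcomm : ∀ x y : V, mul x y = mul y x)
    (hBa : ∀ u v w : V, B u (mul v w) = B (mul u v) w)
    (μ₁ : V ≃ₗ[ℝ] V) (a₀ a₁ : V) (h₁ : Cfsg.Axial.IsMajoranaPair mul B μ₁ a₁)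
    (hn₁ : B a₁ a₁ = 1) (hid0 : mul a₀ a₀ = a₀) (hfix : μ₁ a₀ = a₀) :
    ∃ u w : V, a₀ = (B a₀ a₁) • a₁ + u + w ∧ mul a₁ u = 0 ∧ mul a₁ w = (1/4 : ℝ) • w ∧
      mul u w = ((2 - B a₀ a₁) / 4) • w := by
  obtain ⟨-, -, ⟨⟨-, hid1, hsum, hfus⟩, hprim⟩, hmiy1, hmiy2⟩ := h₁
  have hmem : a₀ ∈ Cfsg.Axial.eigenSum mul a₁ Cfsg.Axial.majoranaSpectrum := by
    rw [hsum]; exact Submodule.mem_top
  unfold Cfsg.Axial.eigenSum Cfsg.Axial.majoranaSpectrum at hmem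
  rw [iSup_insert, iSup_insert, iSup_pair] at hmem
  obtain ⟨x1, hx1, r1, hr1, hsum1⟩ := Submodule.mem_sup.mp hmem
  obtain ⟨u, hu, r2, hr2, hsum2⟩ := Submodule.mem_sup.mp hr1
  obtain ⟨w, hw, t, ht, hsum3⟩ := Submodule.mem_sup.mp hr2
  have hmem3 : ∀ c ∈ ({1, 0, 1/4} : Set ℝ), ∀ x ∈ Cfsg.Axial.eigen mul a₁ c,
      x ∈ Cfsg.Axial.eigenSum mul a₁ ({1, 0, 1/4} : Set ℝ) := by
    intro c hc x hx
    unfold Cfsg.Axial.eigenSum
    exact Submodule.mem_iSup_of_mem c (Submodule.mem_iSup_of_mem hc hx)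
  have f1 : μ₁ x1 = x1 := hmiy1 x1 (hmem3 1 (by simp) x1 hx1)
  have f2 : μ₁ u = u := hmiy1 u (hmem3 0 (by simp) u hu)
  have f3 : μ₁ w = w := hmiy1 w (hmem3 (1/4) (by simp) w hw)
  have f4 : μ₁ t = -t := hmiy2 t ht
  have ht0 : t = 0 := by
    have e : μ₁ a₀ = x1 + (u + (w + -t)) := by
      rw [← hsum1, ← hsum2, ← hsum3, map_add, map_add, map_add, f1, f2, f3, f4]
    rw [hfix] at e
    have e2 : x1 + (u + (w + t)) = x1 + (u + (w + -t)) := by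
      rw [hsum3, hsum2, hsum1]; exact e
    have e3 : t = -t := add_left_cancel (add_left_cancel (add_left_cancel e2))
    have e4 : (2 : ℝ) • t = 0 := by
      rw [two_smul]; exact eq_neg_iff_add_eq_zero.mp e3
    rcases smul_eq_zero.mp e4 with h | h
    · norm_num at h
    · exact h
  have hu' : mul a₁ u = 0 := by
    have h := hu
    unfold Cfsg.Axial.eigen at h
    rw [Module.End.mem_eigenspace_iff, zero_smul] at h
    exact h
  have hw' : mul a₁ w = (1/4 : ℝ) • w := by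
    have h := hw
    unfold Cfsg.Axial.eigen at h
    rw [Module.End.mem_eigenspace_iff] at h
    exact h
  have hx1' := hx1
  rw [hprim, Submodule.mem_span_singleton] at hx1'
  obtain ⟨κ, hκ⟩ := hx1'
  have hdec : a₀ = κ • a₁ + u + w := by
    rw [← hsum1, ← hsum2, ← hsum3, ht0, ← hκ]; abel
  have hBu : B u a₁ = 0 := by
    have e : B u (mul a₁ a₁) = B (mul u a₁) a₁ := hBa u a₁ a₁
    rw [hid1, hcomm u a₁, hu', map_zero, LinearMap.zero_apply] at e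
    exact e
  have hBw : B w a₁ = 0 := by
    have e : B w (mul a₁ a₁) = B (mul w a₁) a₁ := hBa w a₁ a₁
    rw [hid1, hcomm w a₁, hw', map_smul, LinearMap.smul_apply, smul_eq_mul] at e
    linarith
  have hκ' : B a₀ a₁ = κ := by
    rw [hdec]
    simp only [map_add, map_smul, LinearMap.add_apply, LinearMap.smul_apply, hn₁, hBu, hBw,
      smul_eq_mul, mul_one, add_zero]
  have h0S : (0 : ℝ) ∈ Cfsg.Axial.majoranaSpectrum := by
    unfold Cfsg.Axial.majoranaSpectrum; simp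
  have hqS : (1/4 : ℝ) ∈ Cfsg.Axial.majoranaSpectrum := by
    unfold Cfsg.Axial.majoranaSpectrum; simp
  have fus_uu : mul u u ∈ Cfsg.Axial.eigen mul a₁ 0 := by
    have h := hfus 0 h0S 0 h0S u hu u hu
    rw [law00] at h
    unfold Cfsg.Axial.eigenSum at h
    rw [iSup_singleton] at h
    exact h
  have fus_uw : mul u w ∈ Cfsg.Axial.eigen mul a₁ (1/4) := by
    have h := hfus 0 h0S (1/4) hqS u hu w hw
    rw [law0q] at h
    unfold Cfsg.Axial.eigenSum at h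
    rw [iSup_singleton] at h
    exact h
  have fus_ww : mul w w ∈ Cfsg.Axial.eigenSum mul a₁ ({1, 0} : Set ℝ) := by
    have h := hfus (1/4) hqS (1/4) hqS w hw w hw
    rw [lawqq] at h
    exact h
  have huw' : mul a₁ (mul u w) = (1/4 : ℝ) • mul u w := by
    have h := fus_uw
    unfold Cfsg.Axial.eigen at h
    rw [Module.End.mem_eigenspace_iff] at h
    exact h
  have hsq : κ • a₁ + u + w
      = (κ^2) • a₁ + mul u u + mul w w + (κ/2) • w + (2 : ℝ) • mul u w := by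
    have e0 : mul a₀ a₀ = a₀ := hid0
    rw [hdec] at e0
    rw [← e0]
    simp only [map_add, map_smul, LinearMap.add_apply, LinearMap.smul_apply, hcomm u a₁,
      hcomm w a₁, hcomm w u, hid1, hu', hw', smul_zero]
    module
  have hz_eq : w - (κ/2) • w - (2 : ℝ) • mul u w
      = (κ^2 - κ) • a₁ + (mul u u - u) + mul w w := by
    have h0 := sub_eq_zero.mpr hsq
    have h1 : (w - (κ/2) • w - (2 : ℝ) • mul u w) - ((κ^2 - κ) • a₁ + (mul u u - u) + mul w w)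
        = (κ • a₁ + u + w)
          - ((κ^2) • a₁ + mul u u + mul w w + (κ/2) • w + (2 : ℝ) • mul u w) := by module
    rw [h0] at h1
    exact sub_eq_zero.mp h1
  have hE1 : ∀ x ∈ Cfsg.Axial.eigen mul a₁ 1, x ∈ Cfsg.Axial.eigenSum mul a₁ ({1, 0} : Set ℝ) := by
    intro x hx
    unfold Cfsg.Axial.eigenSum
    exact Submodule.mem_iSup_of_mem 1 (Submodule.mem_iSup_of_mem (by simp) hx)
  have hE0 : ∀ x ∈ Cfsg.Axial.eigen mul a₁ 0, x ∈ Cfsg.Axial.eigenSum mul a₁ ({1, 0} : Set ℝ) := by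
    intro x hx
    unfold Cfsg.Axial.eigenSum
    exact Submodule.mem_iSup_of_mem 0 (Submodule.mem_iSup_of_mem (by simp) hx)
  have ha1E : a₁ ∈ Cfsg.Axial.eigen mul a₁ 1 := by
    unfold Cfsg.Axial.eigen
    rw [Module.End.mem_eigenspace_iff, one_smul]; exact hid1
  have hz_mem : w - (κ/2) • w - (2 : ℝ) • mul u w ∈ Cfsg.Axial.eigenSum mul a₁ ({1, 0} : Set ℝ) := by
    rw [hz_eq]
    exact add_mem (add_mem (Submodule.smul_mem _ _ (hE1 _ ha1E)) (hE0 _ (sub_mem fus_uu hu))) fus_ww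
  have hz_q : mul a₁ (w - (κ/2) • w - (2 : ℝ) • mul u w)
      = (1/4 : ℝ) • (w - (κ/2) • w - (2 : ℝ) • mul u w) := by
    simp only [map_sub, map_smul, hw', huw']
    module
  have hz0 := quarter_zero mul a₁ _ hz_q hz_mem
  have h2 : mul u w = ((2 - κ) / 4) • w := by
    have h1 : mul u w - ((2 - κ) / 4) • w = (-(1/2) : ℝ) • (w - (κ/2) • w - (2 : ℝ) • mul u w) := by
      module
    rw [hz0, smul_zero] at h1
    exact sub_eq_zero.mp h1
  refine ⟨u, w, ?_, hu', hw', ?_⟩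
  · rw [hκ']; exact hdec
  · rw [hκ']; exact h2

theorem side {V : Type*} [AddCommGroup V] [Module ℝ V] (mul : V →ₗ[ℝ] V →ₗ[ℝ] V)
    (a₀ a₁ s q u w : V) (l : ℝ) (hcomm : ∀ x y : V, mul x y = mul y x)
    (hs : mul a₀ a₁ = s) (hid1 : mul a₁ a₁ = a₁) (hq : mul s s = q)
    (hdec : a₀ = l • a₁ + u + w) (hu : mul a₁ u = 0) (hw : mul a₁ w = (1/4 : ℝ) • w)
    (h2 : mul u w = ((2 - l) / 4) • w) :
    mul a₁ s = (1/4 : ℝ) • (s + (3 * l) • a₁) ∧
      (mul a₀ s = (1/4 : ℝ) • (s + (3 * l) • a₀) →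
        (16 : ℝ) • q = (4 * l - 1) • s + (3 * l) • a₀ + (8 * l^2 + 2 * l) • a₁) := by
  have hs1 : mul a₁ a₀ = s := by rw [hcomm]; exact hs
  have hsw : s = l • a₁ + (1/4 : ℝ) • w := by
    rw [← hs1, hdec]
    simp only [map_add, map_smul, hid1, hu, hw, add_zero]
  have hw_eq : w = (4 : ℝ) • (s - l • a₁) := by
    rw [hsw]; module
  have hu_eq : u = a₀ + (3 * l) • a₁ - (4 : ℝ) • s := by
    rw [hsw, hdec]; module
  have h1a : mul a₁ s = (1/4 : ℝ) • (s + (3 * l) • a₁) := by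
    have e : mul a₁ s = l • a₁ + (1/16 : ℝ) • w := by
      rw [hsw]
      simp only [map_add, map_smul, hid1, hw]
      module
    rw [e, hsw]; module
  refine ⟨h1a, fun h1b => ?_⟩
  have hsa1 : mul s a₁ = (1/4 : ℝ) • (s + (3 * l) • a₁) := by rw [hcomm]; exact h1a
  have expand : mul (a₀ + (3 * l) • a₁ - (4 : ℝ) • s) ((4 : ℝ) • (s - l • a₁))
      = (4 : ℝ) • mul a₀ s - (4 * l) • mul a₀ a₁ + (12 * l) • mul a₁ s - (12 * l^2) • mul a₁ a₁
        - (16 : ℝ) • mul s s + (16 * l) • mul s a₁ := by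
    simp only [map_add, map_sub, map_smul, LinearMap.add_apply, LinearMap.sub_apply,
      LinearMap.smul_apply]
    module
  have e1 : mul u w = (1 + 3 * l) • s + (3 * l) • a₀ + (9 * l^2) • a₁ - (16 : ℝ) • q := by
    rw [hu_eq, hw_eq, expand, h1b, hs, h1a, hid1, hq, hsa1]; module
  have e2 : mul u w = (2 - l) • s - (l * (2 - l)) • a₁ := by
    rw [h2, hw_eq]; module
  have e3 : (1 + 3 * l) • s + (3 * l) • a₀ + (9 * l^2) • a₁ - (16 : ℝ) • q
      = (2 - l) • s - (l * (2 - l)) • a₁ := e1.symm.trans e2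
  have h0 := sub_eq_zero.mpr e3
  have h1 : (16 : ℝ) • q - ((4 * l - 1) • s + (3 * l) • a₀ + (8 * l^2 + 2 * l) • a₁)
      = -(((1 + 3 * l) • s + (3 * l) • a₀ + (9 * l^2) • a₁ - (16 : ℝ) • q)
          - ((2 - l) • s - (l * (2 - l)) • a₁)) := by module
  rw [h0, neg_zero] at h1
  exact sub_eq_zero.mp h1

/-- Let V be a finite-dimensional real vector space with a commutative bilinear product and a positive-definite symmetric bilinear form that associates with the product and satisfies the Norton inequality (the Majorana setting of the definitions). Let μ₀, μ₁ be commuting Majorana involutions with distinct axial vectors a₀ ≠ a₁ of squared length 1, each involution having no other axial vector. Then either a₀ and a₁ are orthogonal with a₀ ∘ a₁ = 0 (type 2B), or their inner product is 1/8 and, with a₂ = a₀ + a₁ − 8 a₀ ∘ a₁, the vector a₂ is an idempotent and a₀ ∘ a₂ = (1/8)(a₀ + a₂ −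 a₁), a₁ ∘ a₂ = (1/8)(a₁ + a₂ − a₀) (type 2A: the three idempotents span a subalgebra with aᵢ ∘ aⱼ = (1/8)(aᵢ + aⱼ − aₖ)). -/
theorem result {V : Type*} [AddCommGroup V] [Module ℝ V] [FiniteDimensional ℝ V] (mul : V →ₗ[ℝ] V →ₗ[ℝ] V) (B : LinearMap.BilinForm ℝ V) (hV : Cfsg.Axial.IsMajoranaAmbient mul B) (μ₀ μ₁ : V ≃ₗ[ℝ] V) (a₀ a₁ : V) (h₀ : Cfsg.Axial.IsMajoranaPair mul B μ₀ a₀) (h₁ : Cfsg.Axial.IsMajoranaPair mul B μ₁ a₁) (hu₀ : ∀ a : V, Cfsg.Axial.IsMajoranaPair mul B μ₀ a → a = a₀) (hu₁ : ∀ a : V, Cfsg.Axial.IsMajoranaPair mul B μ₁ a → a = a₁) (hn₀ : B a₀ a₀ = 1) (hn₁ : B a₁ a₁ = 1) (hc : μ₀ * μ₁ = μ₁ * μ₀) (hne : a₀ ≠ a₁) : (B a₀ a₁ = 0 ∧ mul a₀ a₁ = 0) ∨ (B a₀ a₁ = 1 / 8 ∧ mul (a₀ + a₁ - (8 : ℝ) • mul a₀ a₁) (a₀ + a₁ - (8 : ℝ) • mul a₀ a₁) = a₀ + a₁ - (8 : ℝ) • mul a₀ a₁ ∧ mul a₀ (a₀ + a₁ - (8 : ℝ) • mul a₀ a₁) = (1 / 8 : ℝ) • (a₀ + (a₀ + a₁ - (8 : ℝ) • mul a₀ a₁) - a₁) ∧ mul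 a₁ (a₀ + a₁ - (8 : ℝ) • mul a₀ a₁) = (1 / 8 : ℝ) • (a₁ + (a₀ + a₁ - (8 : ℝ) • mul a₀ a₁) - a₀)) := by
  obtain ⟨hcomm, hBs, hpos, hBa, -⟩ := hV
  have hfix1 : μ₁ a₀ = a₀ := hu₀ _ (transport mul B μ₀ μ₁ a₀ h₀ h₁.1 hc)
  have hfix0 : μ₀ a₁ = a₁ := hu₁ _ (transport mul B μ₁ μ₀ a₁ h₁ h₀.1 hc.symm)
  have hid0 : mul a₀ a₀ = a₀ := h₀.2.2.1.1.2.1
  have hid1 : mul a₁ a₁ = a₁ := h₁.2.2.1.1.2.1
  obtain ⟨u, w, hdec, hu, hw, h2⟩ := half1 mul B hcomm hBa μ₁ a₀ a₁ h₁ hn₁ hid0 hfix1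
  obtain ⟨u', w', hdec', hu', hw', h2'⟩ := half1 mul B hcomm hBa μ₀ a₁ a₀ h₀ hn₀ hid1 hfix0
  obtain ⟨lam, hlam⟩ : ∃ l : ℝ, l = B a₀ a₁ := ⟨_, rfl⟩
  rw [← hlam] at hdec h2 ⊢
  rw [hBs a₁ a₀, ← hlam] at hdec' h2'
  obtain ⟨s, hs⟩ : ∃ s : V, s = mul a₀ a₁ := ⟨_, rfl⟩
  obtain ⟨q, hq⟩ : ∃ q : V, q = mul s s := ⟨_, rfl⟩
  rw [← hs]
  have hs1 : mul a₁ a₀ = s := (hcomm a₁ a₀).trans hs.symm
  obtain ⟨h1a, hQa'⟩ := side mul a₀ a₁ s q u w lam hcomm hs.symm hid1 hq.symm hdec hu hw h2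
  obtain ⟨h1b, hQb'⟩ := side mul a₁ a₀ s q u' w' lam hcomm hs1 hid0 hq.symm hdec' hu' hw' h2'
  have hQa := hQa' h1b
  have hQb := hQb' h1a
  have hl : lam * (1 - 8 * lam) = 0 := by
    have e : (lam * (1 - 8 * lam)) • (a₀ - a₁) = 0 := by
      have e1 : (lam * (1 - 8 * lam)) • (a₀ - a₁)
          = ((4 * lam - 1) • s + (3 * lam) • a₀ + (8 * lam^2 + 2 * lam) • a₁)
            - ((4 * lam - 1) • s + (3 * lam) • a₁ + (8 * lam^2 + 2 * lam) • a₀) := by module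
      rw [e1, ← hQa, ← hQb, sub_self]
    rcases smul_eq_zero.mp e with h | h
    · exact h
    · exact absurd (sub_eq_zero.mp h) hne
  rcases mul_eq_zero.mp hl with h0 | h8
  · left
    refine ⟨h0, ?_⟩
    have e2 : B a₀ s = lam := by
      have h := hBa a₀ a₀ a₁
      rw [hid0, ← hs, ← hlam] at h
      exact h
    have hBss : B s s = (lam + 3 * lam^2) / 4 := by
      have e1 : B a₀ (mul a₁ s) = B (mul a₀ a₁) s := hBa a₀ a₁ s
      rw [← hs] at e1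
      rw [← e1, h1a]
      simp only [map_smul, map_add, smul_eq_mul, e2, ← hlam]
      ring
    by_contra hs0
    have h := hpos s hs0
    rw [hBss, h0] at h
    norm_num at h
  · right
    have h8' : lam = 1/8 := by linarith
    subst h8'
    have hsa0 : mul s a₀ = (1/4 : ℝ) • (s + (3 * (1/8 : ℝ)) • a₀) := by rw [hcomm]; exact h1b
    have hsa1 : mul s a₁ = (1/4 : ℝ) • (s + (3 * (1/8 : ℝ)) • a₁) := by rw [hcomm]; exact h1a
    have hq16 : q = (1/16 : ℝ) • ((4 * (1/8 : ℝ) - 1) • s + (3 * (1/8 : ℝ)) • a₀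
        + (8 * (1/8 : ℝ)^2 + 2 * (1/8 : ℝ)) • a₁) := by
      rw [← hQa, smul_smul]; norm_num
    refine ⟨rfl, ?_, ?_, ?_⟩
    · simp only [map_add, map_sub, map_smul, LinearMap.add_apply, LinearMap.sub_apply,
        LinearMap.smul_apply, hid0, hid1, hs.symm, hs1, h1a, h1b, hsa0, hsa1, hq.symm]
      rw [hq16]
      module
    · simp only [map_add, map_sub, map_smul, hid0, hs.symm, h1b]
      module
    · simp only [map_add, map_sub, map_smul, hid1, hs1, h1a]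
      module


end Cfsg.Agent.S5545
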