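import Cfsg.Statements.S5550
import Mathlib
import Cfsg.Agent.Helper9.M24Coset
import Cfsg.Agent.Helper1.GolayMeet
open Cfsg.Agent.Helper9 Cfsg.Agent.Helper1.Golay
open scoped Pointwise

set_option autoImplicit false
open Cfsg

namespace Cfsg.Agent.S5550

/-- Let u be a word of the length-24 binary Golay code of the definitions (possibly zero or all-ones) and w any binary word of length 24 outside the code. Then some automorphism of the code (a coordinate permutation preserving it) fixes u but moves w to a word not congruent to w modulo the code: the stabilizer of a codeword fixes no non-zero element of the quotient of the space of all words by the code. -/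
theorem result (u : (Cfsg.GolayPt → ZMod 2)) (hu : u ∈ Cfsg.golayCode) (w : (Cfsg.GolayPt → ZMod 2)) (hw : w ∉ Cfsg.golayCode) : ∃ σ ∈ Cfsg.M24, (fun p => u (σ.symm p)) = u ∧ (fun p => w (σ.symm p)) - w ∉ Cfsg.golayCode := by
  classical
  obtain ⟨c, hc, h4⟩ := exists_coset_rep9 _ w rfl
  have hwv : w = (w + c) + c := by rw [add_assoc, CharTwo.add_self_eq_zero, add_zero]
  have hvC : w + c ∉ golayCode := by
    intro h
    apply hw
    rw [hwv]
    exact golayCode.add_mem h hc
  have hRne : (support₂ (w + c)).Nonempty := by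
    rw [Finset.nonempty_iff_ne_empty]
    intro h
    apply hvC
    have h0 : w + c = 0 := by
      apply word_eq_zero9
      rw [← card_support₂, h, Finset.card_empty]
    rw [h0]
    exact Submodule.zero_mem _
  have hR4 : (support₂ (w + c)).card ≤ 4 := by rw [card_support₂]; exact h4
  suffices hmain : ∃ (P : Equiv.Perm GolayPt → Prop) (B1 B2 : Finset GolayPt),
      (∀ σ, P σ → (fun p => u (σ.symm p)) = u) ∧ (∀ p, p ∈ B1 ∨ p ∈ B2) ∧
      (∀ x x' y : GolayPt, x ∈ B1 → x' ∈ B1 → y ∈ B1 → x ≠ x' → y ≠ x → y ≠ x' →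
        ∃ σ ∈ M24, P σ ∧ σ x = x ∧ σ x' = y) ∧
      (∀ x x' y : GolayPt, x ∈ B2 → x' ∈ B2 → y ∈ B2 → x ≠ x' → y ≠ x → y ≠ x' →
        ∃ σ ∈ M24, P σ ∧ σ x = x ∧ σ x' = y) ∧ 8 ≤ B1.card ∧ 8 ≤ B2.card by
    obtain ⟨P, B1, B2, hPu, hcov, hB1, hB2, hc1, hc2⟩ := hmain
    obtain ⟨σ, hσ, hP, hne, hor⟩ :=
      blocks_move9 P B1 B2 hcov hB1 hB2 hc1 hc2 (support₂ (w + c)) hRne hR4
    refine ⟨σ, hσ, hPu σ hP, ?_⟩
    have hfin := coset_moved9 hc hσ h4 hne hor
    rw [← hwv] at hfin
    exact hfin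
  have hsupp : ∀ σ : Equiv.Perm GolayPt, σ • support₂ u = support₂ u →
      (fun p => u (σ.symm p)) = u := by
    intro σ h
    apply support₂_injective
    rw [support₂_perm9, h]
  have hu' : support₂ u ∈ supports (golayCode : Set (GolayPt → ZMod 2)) := ⟨u, hu, rfl⟩
  have hcov : ∀ p, p ∈ support₂ u ∨ p ∈ (support₂ u)ᶜ := by
    intro p
    by_cases hp : p ∈ support₂ u
    · exact Or.inl hp
    · exact Or.inr (Finset.mem_compl.mpr hp)
  have hcov' : ∀ p, p ∈ (support₂ u)ᶜ ∨ p ∈ support₂ u := fun p => (hcov p).symm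
  have hcompl : ∀ σ : Equiv.Perm GolayPt, σ • (support₂ u)ᶜ = (support₂ u)ᶜ →
      σ • support₂ u = support₂ u := by
    intro σ hσ
    ext a
    have h1 := mem_iff_of_smul_eq hσ (σ⁻¹ a)
    rw [Equiv.Perm.inv_def, Equiv.apply_symm_apply, Finset.mem_compl, Finset.mem_compl,
      not_iff_not] at h1
    rw [← Finset.inv_smul_mem_iff, Equiv.Perm.smul_def, Equiv.Perm.inv_def]
    exact h1.symm
  have huniv : ∀ x x' y : GolayPt, x ∈ (Finset.univ : Finset GolayPt) →
      x' ∈ (Finset.univ : Finset GolayPt) → y ∈ (Finset.univ : Finset GolayPt) → x ≠ x' →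
      y ≠ x → y ≠ x' → ∃ σ ∈ M24, True ∧ σ x = x ∧ σ x' = y := by
    intro x x' y _ _ _ h1 h2 h3
    obtain ⟨g, hg, hgx, hgx'⟩ := m24_exists_map2 h1 (a' := x) (b' := y) h2.symm
    exact ⟨g, hg, trivial, hgx, hgx'⟩
  have hcuniv : 8 ≤ (Finset.univ : Finset GolayPt).card := by
    rw [Finset.card_univ, card_golayPt]
    norm_num
  rcases hammingNorm_eq u hu with h | h | h | h | h
  · have h0 : support₂ u = ∅ := by
      rw [← Finset.card_eq_zero, card_support₂]
      exact h
    refine ⟨fun _ => True, Finset.univ, Finset.univ, ?_, fun p => Or.inl (Finset.mem_univ _),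
      huniv, huniv, hcuniv, hcuniv⟩
    intro σ _
    apply hsupp
    rw [h0, Finset.smul_finset_empty]
  · have hO : support₂ u ∈ octads := ⟨hu', by rw [card_support₂]; exact h⟩
    refine ⟨fun σ => σ • support₂ u = support₂ u, support₂ u, (support₂ u)ᶜ, hsupp, hcov,
      ?_, ?_, ?_, ?_⟩
    · intro x x' y hx hx' hy h1 h2 h3
      exact stab_octad_two_trans_in hO hx hx' hy h1 h2 h3
    · intro x x' y hx hx' hy h1 h2 h3
      rw [Finset.mem_compl] at hx hx' hy
      exact stab_octad_two_trans_out hO hx hx' hy h1 h2 h3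
    · rw [hO.2]
    · rw [Finset.card_compl, card_golayPt, hO.2]
      norm_num
  · have hd : support₂ u ∈ dodecads := ⟨hu', by rw [card_support₂]; exact h⟩
    have hd' := dodecad_compl hd
    refine ⟨fun σ => σ • support₂ u = support₂ u, support₂ u, (support₂ u)ᶜ, hsupp, hcov,
      ?_, ?_, ?_, ?_⟩
    · intro x x' y hx hx' hy h1 h2 h3
      exact stab_dodecad_two_trans hd hx hx' hy h1 h2 h3
    · intro x x' y hx hx' hy h1 h2 h3
      obtain ⟨σ, hσ, hσd, hσx, hσx'⟩ := stab_dodecad_two_trans hd' hx hx' hy h1 h2 h3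
      exact ⟨σ, hσ, hcompl σ hσd, hσx, hσx'⟩
    · rw [hd.2]
      norm_num
    · rw [hd'.2]
      norm_num
  · have hO : (support₂ u)ᶜ ∈ octads :=
      ⟨supports_compl hu', by rw [Finset.card_compl, card_golayPt, card_support₂, h]⟩
    refine ⟨fun σ => σ • (support₂ u)ᶜ = (support₂ u)ᶜ, (support₂ u)ᶜ, support₂ u,
      fun σ hσ => hsupp σ (hcompl σ hσ), hcov', ?_, ?_, ?_, ?_⟩
    · intro x x' y hx hx' hy h1 h2 h3
      exact stab_octad_two_trans_in hO hx hx' hy h1 h2 h3
    · intro x x' y hx hx' hy h1 h2 h3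
      exact stab_octad_two_trans_out hO (Finset.notMem_compl.mpr hx)
        (Finset.notMem_compl.mpr hx') (Finset.notMem_compl.mpr hy) h1 h2 h3
    · rw [hO.2]
    · rw [card_support₂, h]
      norm_num
  · have h0 : support₂ u = Finset.univ := by
      rw [← Finset.card_eq_iff_eq_univ, card_support₂, h, card_golayPt]
    refine ⟨fun _ => True, Finset.univ, Finset.univ, ?_, fun p => Or.inl (Finset.mem_univ _),
      huniv, huniv, hcuniv, hcuniv⟩
    intro σ _
    apply hsupp
    rw [h0, Finset.smul_finset_univ]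


end Cfsg.Agent.S5550
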