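import Cfsg.Statements.S5599
import Mathlib
import Cfsg.Agent.Helper9.M24Aux
open Cfsg.Agent.Helper9

set_option autoImplicit false
open scoped Pointwise
open Cfsg

namespace Cfsg.Agent.S5599

/-- In the automorphism group of the length-24 code, the two-point Mathieu group (permutations of the code's group fixing the extra point and the residue 0) has index 2 in the setwise stabiliser of that pair of points, and an element of the code's group interchanging the two points normalises the two-point group and induces on it, by conjugation, an automorphism that is not inner. -/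
theorem result (g : Equiv.Perm Cfsg.GolayPt) (hg : g ∈ Cfsg.M24) (h₁ : g none = some 0) (h₂ : g (some 0) = none) : Cfsg.Spor.M22.relIndex (Cfsg.M24 ⊓ MulAction.stabilizer (Equiv.Perm Cfsg.GolayPt) ({none, some 0} : Finset Cfsg.GolayPt)) = 2 ∧ (∀ x ∈ Cfsg.Spor.M22, g * x * g⁻¹ ∈ Cfsg.Spor.M22) ∧ ¬ ∃ h ∈ Cfsg.Spor.M22, ∀ x ∈ Cfsg.Spor.M22, g * x * g⁻¹ = h * x * h⁻¹ := by
  classical
  have hgi1 : g⁻¹ none = some 0 := by
    rw [Equiv.Perm.inv_eq_iff_eq]
    exact h₂.symm
  have hgi2 : g⁻¹ (some 0) = none := by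
    rw [Equiv.Perm.inv_eq_iff_eq]
    exact h₁.symm
  have hM22 : ∀ x : Equiv.Perm Cfsg.GolayPt, x ∈ Cfsg.Spor.M22 ↔
      x ∈ Cfsg.M24 ∧ x none = none ∧ x (some 0) = some 0 := by
    intro x
    unfold Cfsg.Spor.M22 Cfsg.Spor.M23
    rw [Subgroup.mem_inf, Subgroup.mem_inf, MulAction.mem_stabilizer_iff,
      MulAction.mem_stabilizer_iff]
    exact ⟨fun h => ⟨h.1.1, h.1.2, h.2⟩, fun h => ⟨⟨h.1, h.2.1⟩, h.2.2⟩⟩
  have hK : ∀ x : Equiv.Perm Cfsg.GolayPt,
      x ∈ MulAction.stabilizer (Equiv.Perm Cfsg.GolayPt) ({none, some 0} : Finset Cfsg.GolayPt) →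
      (x none = none ∧ x (some 0) = some 0) ∨ (x none = some 0 ∧ x (some 0) = none) := by
    intro x hx
    rw [MulAction.mem_stabilizer_iff] at hx
    have m1 : x none ∈ ({none, some 0} : Finset Cfsg.GolayPt) := by
      rw [← hx]
      exact Finset.smul_mem_smul_finset (by simp)
    have m2 : x (some 0) ∈ ({none, some 0} : Finset Cfsg.GolayPt) := by
      rw [← hx]
      exact Finset.smul_mem_smul_finset (by simp)
    have hne : x none ≠ x (some 0) := fun h => by
      have := x.injective h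
      simp at this
    simp only [Finset.mem_insert, Finset.mem_singleton] at m1 m2
    rcases m1 with m1 | m1 <;> rcases m2 with m2 | m2
    · exact absurd (m1.trans m2.symm) hne
    · exact Or.inl ⟨m1, m2⟩
    · exact Or.inr ⟨m1, m2⟩
    · exact absurd (m1.trans m2.symm) hne
  have hgK : g ∈ MulAction.stabilizer (Equiv.Perm Cfsg.GolayPt)
      ({none, some 0} : Finset Cfsg.GolayPt) := by
    rw [MulAction.mem_stabilizer_iff]
    ext p
    rw [Finset.mem_smul_finset]
    constructor
    · rintro ⟨q, hq, rfl⟩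
      simp only [Finset.mem_insert, Finset.mem_singleton] at hq ⊢
      rcases hq with rfl | rfl
      · right
        exact h₁
      · left
        exact h₂
    · intro hp
      simp only [Finset.mem_insert, Finset.mem_singleton] at hp
      rcases hp with rfl | rfl
      · exact ⟨some 0, by simp, h₂⟩
      · exact ⟨none, by simp, h₁⟩
  refine ⟨?_, ?_, ?_⟩
  · rw [Subgroup.relIndex_eq_two_iff]
    refine ⟨g, Subgroup.mem_inf.mpr ⟨hg, hgK⟩, ?_⟩
    intro b hb
    rw [Subgroup.mem_inf] at hb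
    rw [hM22, hM22]
    rcases hK b hb.2 with ⟨c1, c2⟩ | ⟨c1, c2⟩
    · right
      refine ⟨⟨hb.1, c1, c2⟩, ?_⟩
      rintro ⟨_, c3, _⟩
      rw [Equiv.Perm.mul_apply, h₁, c2] at c3
      simp at c3
    · left
      refine ⟨⟨mul_mem hb.1 hg, ?_, ?_⟩, ?_⟩
      · rw [Equiv.Perm.mul_apply, h₁, c2]
      · rw [Equiv.Perm.mul_apply, h₂, c1]
      · rintro ⟨_, c3, _⟩
        rw [c1] at c3
        simp at c3
  · intro x hx
    rw [hM22] at hx ⊢
    refine ⟨mul_mem (mul_mem hg hx.1) (inv_mem hg), ?_, ?_⟩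
    · rw [Equiv.Perm.mul_apply, Equiv.Perm.mul_apply, hgi1, hx.2.2, h₂]
    · rw [Equiv.Perm.mul_apply, Equiv.Perm.mul_apply, hgi2, hx.2.1, h₁]
  · rintro ⟨h, hh, hconj⟩
    have hh' := (hM22 h).mp hh
    have hhi1 : h⁻¹ none = none := by
      rw [Equiv.Perm.inv_eq_iff_eq]
      exact hh'.2.1.symm
    have hhi2 : h⁻¹ (some 0) = some 0 := by
      rw [Equiv.Perm.inv_eq_iff_eq]
      exact hh'.2.2.symm
    have hc1 : (h⁻¹ * g) none = some 0 := by
      rw [Equiv.Perm.mul_apply, h₁, hhi2]
    have hc2 : (h⁻¹ * g) (some 0) = none := by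
      rw [Equiv.Perm.mul_apply, h₂, hhi1]
    have hcomm : ∀ x ∈ Cfsg.Spor.M22, (h⁻¹ * g) * x = x * (h⁻¹ * g) := by
      intro x hx
      have e := hconj x hx
      have e2 : g * x = h * x * h⁻¹ * g := by
        rw [← e]
        group
      calc (h⁻¹ * g) * x = h⁻¹ * (g * x) := by group
        _ = h⁻¹ * (h * x * h⁻¹ * g) := by rw [e2]
        _ = x * (h⁻¹ * g) := by group
    have hfix : ∀ p : Cfsg.GolayPt, p ≠ none → p ≠ some 0 → (h⁻¹ * g) p = p := by
      intro p hp1 hp2
      by_contra hne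
      have hq1 : (h⁻¹ * g) p ≠ none := by
        intro e
        rw [← hc2] at e
        exact hp2 ((h⁻¹ * g).injective e)
      have hq2 : (h⁻¹ * g) p ≠ some 0 := by
        intro e
        rw [← hc1] at e
        exact hp1 ((h⁻¹ * g).injective e)
      obtain ⟨q', -, hq'⟩ := Finset.exists_mem_notMem_of_card_lt_card
        (s := ({none, some 0, p, (h⁻¹ * g) p} : Finset Cfsg.GolayPt)) (t := Finset.univ)
        (lt_of_le_of_lt (Finset.card_le_four) (by decide))
      simp only [Finset.mem_insert, Finset.mem_singleton, not_or] at hq'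
      obtain ⟨x, hx, x1, x2, x3, x4⟩ := m24_exists_map4
        (a := none) (b := some 0) (c := p) (d := (h⁻¹ * g) p)
        (a' := none) (b' := some 0) (c' := p) (d' := q')
        (nodup4 (by simp) (Ne.symm hp1) (Ne.symm hq1) (Ne.symm hp2) (Ne.symm hq2) (Ne.symm hne))
        (nodup4 (by simp) (Ne.symm hp1) (Ne.symm hq'.1) (Ne.symm hp2) (Ne.symm hq'.2.1)
          (Ne.symm hq'.2.2.1))
      have hxM : x ∈ Cfsg.Spor.M22 := (hM22 x).mpr ⟨hx, x1, x2⟩
      have e := congrArg (fun f : Equiv.Perm Cfsg.GolayPt => f p) (hcomm x hxM)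
      simp only [Equiv.Perm.mul_apply] at e
      rw [x3] at e
      simp only [← Equiv.Perm.mul_apply] at e
      have e' : (h⁻¹ * g) p = x ((h⁻¹ * g) p) := e
      rw [x4] at e'
      exact hq'.2.2.2 e'.symm
    have hsw : h⁻¹ * g = Equiv.swap none (some 0) := by
      ext1 p
      by_cases hp1 : p = none
      · rw [hp1, hc1, Equiv.swap_apply_left]
      · by_cases hp2 : p = some 0
        · rw [hp2, hc2, Equiv.swap_apply_right]
        · rw [hfix p hp1 hp2, Equiv.swap_apply_of_ne_of_ne hp1 hp2]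
    have hmem : h⁻¹ * g ∈ Cfsg.M24 := mul_mem (inv_mem hh'.1) hg
    rw [hsw] at hmem
    exact swap_notMem_M24 (by simp) hmem


end Cfsg.Agent.S5599
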