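import Cfsg.Statements.S5601
import Mathlib
import Cfsg.Agent.Helper9.M24Three2
open Cfsg.Agent.Helper9 Cfsg.Agent.Helper1.Golay
open scoped Pointwise

set_option autoImplicit false
open scoped Pointwise
open Cfsg

namespace Cfsg.Agent.S5601

/-- The group of the length-24 code has exactly two conjugacy classes of subgroups of order 3: a subgroup of order 3 fixes either exactly 6 of the 24 points or none of them, both cases occur, and two subgroups of order 3 with the same number of fixed points are conjugate. -/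
theorem result : (∀ X : Subgroup ↥Cfsg.M24, Nat.card X = 3 → {p : Cfsg.GolayPt | ∀ x ∈ X, ((x : ↥Cfsg.M24) : Equiv.Perm Cfsg.GolayPt) p = p}.ncard = 6 ∨ {p : Cfsg.GolayPt | ∀ x ∈ X, ((x : ↥Cfsg.M24) : Equiv.Perm Cfsg.GolayPt) p = p}.ncard = 0) ∧ (∃ X : Subgroup ↥Cfsg.M24, Nat.card X = 3 ∧ {p : Cfsg.GolayPt | ∀ x ∈ X, ((x : ↥Cfsg.M24) : Equiv.Perm Cfsg.GolayPt) p = p}.ncard = 6) ∧ (∃ X : Subgroup ↥Cfsg.M24, Nat.card X = 3 ∧ {p : Cfsg.GolayPt | ∀ x ∈ X, ((x : ↥Cfsg.M24) : Equiv.Perm Cfsg.GolayPt) p = p}.ncard = 0) ∧ ∀ X Y : Subgroup ↥Cfsg.M24, Nat.card X = 3 → Nat.card Y = 3 → {p : Cfsg.GolayPt | ∀ x ∈ X, ((x : ↥Cfsg.M24) : Equiv.Perm Cfsg.GolayPt) p = p}.ncard = {p : Cfsg.GolayPt | ∀ x ∈ Y, ((x : ↥Cfsg.M24) : Equiv.Perm Cfsg.GolayPt) p = p}.ncard → ∃ k : ↥Cfsg.M24, MulAut.conj k • X = Y := by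
  classical
  have f3 : Fact (Nat.Prime 3) := ⟨by norm_num⟩
  have hmk : ∀ (g : Equiv.Perm GolayPt) (hg : g ∈ M24), g ^ 3 = 1 → g ≠ 1 →
      Nat.card (Subgroup.zpowers (⟨g, hg⟩ : ↥M24)) = 3 ∧
      {p : GolayPt | ∀ x ∈ Subgroup.zpowers (⟨g, hg⟩ : ↥M24),
        ((x : ↥M24) : Equiv.Perm GolayPt) p = p}.ncard
        = (Finset.univ.filter fun p => g p = p).card := by
    intro g hg h3 h1
    have hg1 : (⟨g, hg⟩ : ↥M24) ≠ 1 := fun h => h1 (congrArg Subtype.val h)
    have ho : orderOf (⟨g, hg⟩ : ↥M24) = 3 := orderOf_eq_prime (Subtype.ext h3) hg1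
    have hc : Nat.card (Subgroup.zpowers (⟨g, hg⟩ : ↥M24)) = 3 := by
      rw [Nat.card_zpowers, ho]
    refine ⟨hc, ?_⟩
    have hmem : (⟨g, hg⟩ : ↥M24) ∈ Subgroup.zpowers (⟨g, hg⟩ : ↥M24) := Subgroup.mem_zpowers _
    rw [sub3_fix _ hmem (sub3_cases _ hc hmem hg1)]
  have hfix : ∀ (X : Subgroup ↥M24), Nat.card X = 3 → ∃ x : ↥M24, x ∈ X ∧ x ≠ 1 ∧
      (x : Equiv.Perm GolayPt) ≠ 1 ∧ (x : Equiv.Perm GolayPt) ^ 3 = 1 ∧
      {p : GolayPt | ∀ y ∈ X, ((y : ↥M24) : Equiv.Perm GolayPt) p = p}.ncard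
        = (Finset.univ.filter fun p => (x : Equiv.Perm GolayPt) p = p).card := by
    intro X hX
    obtain ⟨x, hxX, hx1, hx1', hx3⟩ := sub3_exists X hX
    exact ⟨x, hxX, hx1, hx1', hx3, sub3_fix X hxX (sub3_cases X hX hxX hx1)⟩
  refine ⟨?_, ?_, ?_, ?_⟩
  · intro X hX
    obtain ⟨x, hxX, hx1, hx1', hx3, hn⟩ := hfix X hX
    rw [hn]
    rcases ord3_fix x.2 hx3 hx1' with h | h
    · exact Or.inr h
    · exact Or.inl h
  · have hO := baseOctad_mem
    obtain ⟨F, hFO, hF5⟩ := Finset.exists_subset_card_eq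
      (show 5 ≤ (support₂ (ofBits (comb 15))).card by rw [hO.2]; norm_num)
    obtain ⟨q, hq⟩ : ∃ q, q ∉ support₂ (ofBits (comb 15)) := by
      by_contra hcon
      rw [not_exists] at hcon
      have hU : support₂ (ofBits (comb 15)) = Finset.univ :=
        Finset.eq_univ_iff_forall.mpr (fun x => not_not.mp (hcon x))
      have h8 := hO.2
      rw [hU, Finset.card_univ, card_golayPt] at h8
      norm_num at h8
    have hcard := card_fixGrp_six_out hO hFO hF5 hq
    have hnt : Nontrivial ↥(fixGrp (insert q F)) := by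
      rw [← Finite.one_lt_card_iff_nontrivial, hcard]
      norm_num
    obtain ⟨⟨w, hw⟩, hw1⟩ := exists_ne (1 : ↥(fixGrp (insert q F)))
    have hw1' : w ≠ 1 := fun h => hw1 (Subtype.ext h)
    have hw' := (mem_fixGrp _ _).mp hw
    have hw3 : w ^ 3 = 1 := pow_three_of_six_out hw'.1 hO hFO hF5
      (fun p hp => hw'.2 p (Finset.mem_insert_of_mem hp)) hq (hw'.2 q (Finset.mem_insert_self _ _))
    have h6 : (Finset.univ.filter fun p => w p = p).card = 6 := by
      rcases ord3_fix hw'.1 hw3 hw1' with h | h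
      · exfalso
        have hmem : q ∈ Finset.univ.filter fun p => w p = p := by
          rw [Finset.mem_filter]
          exact ⟨Finset.mem_univ _, hw'.2 q (Finset.mem_insert_self _ _)⟩
        rw [Finset.card_eq_zero] at h
        rw [h] at hmem
        exact absurd hmem (Finset.notMem_empty _)
      · exact h
    obtain ⟨hc, hn⟩ := hmk w hw'.1 hw3 hw1'
    exact ⟨_, hc, by rw [hn, h6]⟩
  · have h0 : ∀ p : GolayPt, (permA * projInv) p ≠ p := by decide +kernel
    have h3 : ∀ p : GolayPt,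
        (permA * projInv) ((permA * projInv) ((permA * projInv) p)) = p := by decide +kernel
    have hM : permA * projInv ∈ M24 := genGroup_le (mul_mem permA_mem projInv_mem)
    have h3' : (permA * projInv) ^ 3 = 1 := by
      apply Equiv.ext
      intro p
      rw [pow_succ, pow_two, Equiv.Perm.mul_apply, Equiv.Perm.mul_apply]
      exact h3 p
    have h1 : permA * projInv ≠ 1 := fun h => h0 none (by rw [h]; rfl)
    obtain ⟨hc, hn⟩ := hmk _ hM h3' h1
    refine ⟨_, hc, ?_⟩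
    rw [hn, Finset.card_eq_zero, Finset.filter_eq_empty_iff]
    intro p _
    exact h0 p
  · intro X Y hX hY heq
    obtain ⟨x, hxX, hx1, hx1', hx3, hnx⟩ := hfix X hX
    obtain ⟨y, hyY, hy1, hy1', hy3, hny⟩ := hfix Y hY
    rw [hnx, hny] at heq
    rcases ord3_fix x.2 hx3 hx1' with h | h
    · have hy0 : (Finset.univ.filter fun p => (y : Equiv.Perm GolayPt) p = p).card = 0 := by
        rw [← heq, h]
      have hxf : ∀ p, (x : Equiv.Perm GolayPt) p ≠ p := by
        intro p hp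
        rw [Finset.card_eq_zero, Finset.filter_eq_empty_iff] at h
        exact h (Finset.mem_univ p) hp
      have hyf : ∀ p, (y : Equiv.Perm GolayPt) p ≠ p := by
        intro p hp
        rw [Finset.card_eq_zero, Finset.filter_eq_empty_iff] at hy0
        exact hy0 (Finset.mem_univ p) hp
      obtain ⟨k, hk, hkc⟩ := conj_fpf3 x.2 y.2 hx3 hy3 hxf hyf
      exact sub3_conj X Y hX hY hxX hx1 hyY hk (Or.inl hkc)
    · have hy6 : (Finset.univ.filter fun p => (y : Equiv.Perm GolayPt) p = p).card = 6 := by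
        rw [← heq, h]
      obtain ⟨k, hk, hkc⟩ := conj_six3 x.2 y.2 hx3 hy3 hx1' hy1' h hy6
      exact sub3_conj X Y hX hY hxX hx1 hyY hk hkc


end Cfsg.Agent.S5601
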