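import Cfsg.Statements.S5602
import Mathlib
import Cfsg.Agent.Helper9.M24Cls3A
import Cfsg.Agent.Helper9.M24Three2
open Cfsg.Agent.Helper9 Cfsg.Agent.Helper1.Golay
open scoped Pointwise

set_option autoImplicit false
open scoped Pointwise
open Cfsg

namespace Cfsg.Agent.S5602

/-- An element of order 3 of the group of the length-24 code having exactly 6 fixed points maps to themselves exactly 21 octads, exactly 15 trios, exactly 16 sextets and exactly 20 dodecads. -/
theorem result (g : Equiv.Perm Cfsg.GolayPt) (hg : g ∈ Cfsg.M24) (h₃ : orderOf g = 3) (h₆ : (Finset.univ.filter fun p => g p = p).card = 6) : {o : Finset Cfsg.GolayPt | o ∈ Cfsg.octads ∧ g • o = o}.ncard = 21 ∧ {T : Finset (Finset Cfsg.GolayPt) | T ∈ Cfsg.trios ∧ g • T = T}.ncard = 15 ∧ {S : Finset (Finset Cfsg.GolayPt) | S ∈ Cfsg.sextets ∧ g • S = S}.ncard = 16 ∧ {d : Finset Cfsg.GolayPt | d ∈ Cfsg.dodecads ∧ g • d = d}.ncard = 20 := by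
  have hg3 : g ^ 3 = 1 := by
    rw [← h₃]
    exact pow_orderOf_eq_one g
  have hg1 : g ≠ 1 := by
    intro h
    rw [h, orderOf_one] at h₃
    norm_num at h₃
  obtain ⟨k, hk, hkk⟩ := conj_six3 (Model9.mem model3A) hg h3A_pow hg3 h3A_ne_one hg1 h3A_fix h₆
  have hk' : k⁻¹ ∈ M24 := inv_mem hk
  have key : ∀ g' : Equiv.Perm GolayPt, k * h3A * k⁻¹ = g' →
      {o : Finset Cfsg.GolayPt | o ∈ Cfsg.octads ∧ g' • o = o}.ncard = 21 ∧
      {T : Finset (Finset Cfsg.GolayPt) | T ∈ Cfsg.trios ∧ g' • T = T}.ncard = 15 ∧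
      {S : Finset (Finset Cfsg.GolayPt) | S ∈ Cfsg.sextets ∧ g' • S = S}.ncard = 16 ∧
      {d : Finset Cfsg.GolayPt | d ∈ Cfsg.dodecads ∧ g' • d = d}.ncard = 20 := by
    rintro g' rfl
    rw [ncard_conj_inv9 octads k h3A (fun x hx => smul_octad_mem hk hx)
        (fun x hx => smul_octad_mem hk' hx),
      ncard_conj_inv9 trios k h3A (fun x hx => smul_trio_mem hk hx)
        (fun x hx => smul_trio_mem hk' hx),
      ncard_conj_inv9 sextets k h3A (fun x hx => smul_sextet_mem hk hx)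
        (fun x hx => smul_sextet_mem hk' hx),
      ncard_conj_inv9 dodecads k h3A (fun x hx => smul_mem_wordsOfWeight hk hx)
        (fun x hx => smul_mem_wordsOfWeight hk' hx)]
    exact ⟨oct3A, trio3A, sext3A, dod3A⟩
  rcases hkk with h | h
  · exact key g h
  · have h2 := key (g ^ 2) h
    rw [ncard_sq_inv9 octads g hg3, ncard_sq_inv9 trios g hg3, ncard_sq_inv9 sextets g hg3,
      ncard_sq_inv9 dodecads g hg3] at h2
    exact h2


end Cfsg.Agent.S5602
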