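import Cfsg.Statements.S5603
import Mathlib
import Cfsg.Agent.Helper9.M24Cls3B
import Cfsg.Agent.Helper9.M24Three2
open Cfsg.Agent.Helper9 Cfsg.Agent.Helper1.Golay
open scoped Pointwise

set_option autoImplicit false
open scoped Pointwise
open Cfsg

namespace Cfsg.Agent.S5603

/-- A fixed-point-free element of order 3 of the group of the length-24 code maps to themselves exactly 7 sextets and exactly 15 trios. -/
theorem result (g : Equiv.Perm Cfsg.GolayPt) (hg : g ∈ Cfsg.M24) (h₃ : orderOf g = 3) (h₀ : ∀ p, g p ≠ p) : {S : Finset (Finset Cfsg.GolayPt) | S ∈ Cfsg.sextets ∧ g • S = S}.ncard = 7 ∧ {T : Finset (Finset Cfsg.GolayPt) | T ∈ Cfsg.trios ∧ g • T = T}.ncard = 15 := by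
  have hg3 : g ^ 3 = 1 := by
    rw [← h₃]
    exact pow_orderOf_eq_one g
  obtain ⟨k, hk, rfl⟩ := conj_fpf3 (Model9.mem model3B) hg h3B_pow hg3 h3B_fpf h₀
  have hk' : k⁻¹ ∈ M24 := inv_mem hk
  rw [ncard_conj_inv9 sextets k h3B (fun x hx => smul_sextet_mem hk hx)
      (fun x hx => smul_sextet_mem hk' hx),
    ncard_conj_inv9 trios k h3B (fun x hx => smul_trio_mem hk hx)
      (fun x hx => smul_trio_mem hk' hx)]
  exact ⟨sext3B, trio3B⟩


end Cfsg.Agent.S5603
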