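import Cfsg.Statements.S5605
import Mathlib
import Cfsg.Agent.Helper9.M24Cls2A
import Cfsg.Agent.Helper9.M24Three2
open Cfsg.Agent.Helper9 Cfsg.Agent.Helper1.Golay
open scoped Pointwise

set_option autoImplicit false
open scoped Pointwise
open Cfsg

namespace Cfsg.Agent.S5605

/-- An involution of the group of the length-24 code with exactly 8 fixed points maps to themselves exactly 71 octads, exactly 99 trios and exactly 91 sextets. -/
theorem result (g : Equiv.Perm Cfsg.GolayPt) (hg : g ∈ Cfsg.M24) (h₂ : orderOf g = 2) (h₈ : (Finset.univ.filter fun p => g p = p).card = 8) : {o : Finset Cfsg.GolayPt | o ∈ Cfsg.octads ∧ g • o = o}.ncard = 71 ∧ {T : Finset (Finset Cfsg.GolayPt) | T ∈ Cfsg.trios ∧ g • T = T}.ncard = 99 ∧ {S : Finset (Finset Cfsg.GolayPt) | S ∈ Cfsg.sextets ∧ g • S = S}.ncard = 91 := by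
  have hgg : g ^ 2 = 1 := by
    rw [← h₂]
    exact pow_orderOf_eq_one g
  have hg1 : g ≠ 1 := by
    intro h
    rw [h, orderOf_one] at h₂
    norm_num at h₂
  have hOg : (Finset.univ.filter fun a => g a = a) ∈ octads := by
    rcases invol_fix hg hgg hg1 with h | h
    · rw [h] at h₈
      simp at h₈
    · exact h
  have hOh : (Finset.univ.filter fun a => h2A a = a) ∈ octads := by
    rcases invol_fix (Model9.mem model2A) h2A_pow h2A_ne_one with h | h
    · have h8 := h2A_fix
      rw [h] at h8
      simp at h8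
    · exact h
  obtain ⟨k, hk, rfl⟩ := conj_octad_invol (Model9.mem model2A) hg h2A_ne_one hg1 hOh hOg
    (fun p hp => (Finset.mem_filter.mp hp).2) (fun p hp => (Finset.mem_filter.mp hp).2)
  have hk' : k⁻¹ ∈ M24 := inv_mem hk
  rw [ncard_conj_inv9 octads k h2A (fun x hx => smul_octad_mem hk hx)
      (fun x hx => smul_octad_mem hk' hx),
    ncard_conj_inv9 trios k h2A (fun x hx => smul_trio_mem hk hx)
      (fun x hx => smul_trio_mem hk' hx),
    ncard_conj_inv9 sextets k h2A (fun x hx => smul_sextet_mem hk hx)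
      (fun x hx => smul_sextet_mem hk' hx)]
  exact ⟨oct2A, trio2A, sext2A⟩


end Cfsg.Agent.S5605
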