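import Cfsg.Statements.S5606
import Mathlib
import Cfsg.Agent.Helper9.M24Cls2B
import Cfsg.Agent.Helper9.M24Three2
open Cfsg.Agent.Helper9 Cfsg.Agent.Helper1.Golay
open scoped Pointwise

set_option autoImplicit false
open scoped Pointwise
open Cfsg

namespace Cfsg.Agent.S5606

/-- A fixed-point-free involution of the group of the length-24 code maps to themselves exactly 15 octads, exactly 75 trios and exactly 51 sextets. -/
theorem result (g : Equiv.Perm Cfsg.GolayPt) (hg : g ∈ Cfsg.M24) (h₂ : orderOf g = 2) (h₀ : ∀ p, g p ≠ p) : {o : Finset Cfsg.GolayPt | o ∈ Cfsg.octads ∧ g • o = o}.ncard = 15 ∧ {T : Finset (Finset Cfsg.GolayPt) | T ∈ Cfsg.trios ∧ g • T = T}.ncard = 75 ∧ {S : Finset (Finset Cfsg.GolayPt) | S ∈ Cfsg.sextets ∧ g • S = S}.ncard = 51 := by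
  have hgg : g * g = 1 := by
    have h := pow_orderOf_eq_one g
    rw [h₂, pow_two] at h
    exact h
  obtain ⟨k, hk, rfl⟩ := conj_fpf_invol (Model9.mem model2B) hg h2B_sq hgg h2B_fpf h₀
  have hk' : k⁻¹ ∈ M24 := inv_mem hk
  rw [ncard_conj_inv9 octads k h2B (fun x hx => smul_octad_mem hk hx)
      (fun x hx => smul_octad_mem hk' hx),
    ncard_conj_inv9 trios k h2B (fun x hx => smul_trio_mem hk hx)
      (fun x hx => smul_trio_mem hk' hx),
    ncard_conj_inv9 sextets k h2B (fun x hx => smul_sextet_mem hk hx)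
      (fun x hx => smul_sextet_mem hk' hx)]
  exact ⟨oct2B, trio2B, sext2B⟩


end Cfsg.Agent.S5606
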