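import Cfsg.Statements.S5607
import Mathlib
import Cfsg.Agent.Helper9.M24Centr2B
open Cfsg.Agent.Helper9 Cfsg.Agent.Helper1.Golay
open scoped Pointwise

set_option autoImplicit false
open scoped Pointwise
open Cfsg

namespace Cfsg.Agent.S5607

/-- For a fixed-point-free involution t of the group of the length-24 code: its centraliser in that group has order 7680, is transitive on the 24 points, and is contained, together with t, in the stabiliser of some sextet. -/
theorem result (t : Equiv.Perm Cfsg.GolayPt) (ht : t ∈ Cfsg.M24) (h₂ : orderOf t = 2) (h₀ : ∀ p, t p ≠ p) : Nat.card {c : Equiv.Perm Cfsg.GolayPt // c ∈ Cfsg.M24 ∧ c * t = t * c} = 7680 ∧ (∀ p q : Cfsg.GolayPt, ∃ c ∈ Cfsg.M24, c * t = t * c ∧ c p = q) ∧ ∃ S ∈ Cfsg.sextets, t • S = S ∧ ∀ c ∈ Cfsg.M24, c * t = t * c → c • S = S := by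
  have htt : t * t = 1 := by
    have h := pow_orderOf_eq_one t
    rw [h₂, pow_two] at h
    exact h
  obtain ⟨k, hk, rfl⟩ := conj_fpf_invol (Model9.mem model2B) ht h2B_sq htt h2B_fpf h₀
  exact centr_transfer hk 7680 centr2B


end Cfsg.Agent.S5607
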