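import Cfsg.Statements.S5608
import Mathlib
import Cfsg.Agent.Helper9.M24Comm
open Cfsg.Agent.Helper9

set_option autoImplicit false
open scoped Pointwise
open Cfsg

namespace Cfsg.Agent.S5608

/-- If an element of order 3 and an involution of the group of the length-24 code commute, then either the element of order 3 has exactly 6 fixed points and the involution exactly 8, or both are fixed-point-free. -/
theorem result (x s : Equiv.Perm Cfsg.GolayPt) (hx : x ∈ Cfsg.M24) (hs : s ∈ Cfsg.M24) (h₃ : orderOf x = 3) (h₂ : orderOf s = 2) (hc : Commute x s) : ((Finset.univ.filter fun p => x p = p).card = 6 ∧ (Finset.univ.filter fun p => s p = p).card = 8) ∨ ((Finset.univ.filter fun p => x p = p).card = 0 ∧ (Finset.univ.filter fun p => s p = p).card = 0) := by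
  have hx3 : x ^ 3 = 1 := by
    rw [← h₃]
    exact pow_orderOf_eq_one x
  have hx1 : x ≠ 1 := by
    rintro rfl
    rw [orderOf_one] at h₃
    omega
  have hs2 : s ^ 2 = 1 := by
    rw [← h₂]
    exact pow_orderOf_eq_one s
  have hs1 : s ≠ 1 := by
    rintro rfl
    rw [orderOf_one] at h₂
    omega
  rcases ord3_fix hx hx3 hx1 with h0 | h6 <;> rcases invol_fix hs hs2 hs1 with he | ho
  · right
    exact ⟨h0, by rw [he]; rfl⟩
  · exfalso
    apply no_commute_fpf3_inv8 hx3 hc ?_ ho.2
    intro p hp
    have h1 : p ∈ (Finset.univ.filter fun p => x p = p) := by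
      rw [Finset.mem_filter]
      exact ⟨Finset.mem_univ _, hp⟩
    rw [Finset.card_eq_zero.mp h0] at h1
    exact absurd h1 (Finset.notMem_empty _)
  · exfalso
    apply no_commute_six_fpf hx hs hx3 hx1 hs2 hc h6
    intro p hp
    have h1 : p ∈ (Finset.univ.filter fun p => s p = p) := by
      rw [Finset.mem_filter]
      exact ⟨Finset.mem_univ _, hp⟩
    rw [he] at h1
    exact absurd h1 (Finset.notMem_empty _)
  · left
    exact ⟨h6, ho.2⟩


end Cfsg.Agent.S5608
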