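import Cfsg.Statements.S5610
import Mathlib
import Cfsg.Agent.Helper1.FamIOT
import Cfsg.Agent.Helper1.FamIOS
import Cfsg.Agent.Helper1.FamFinal2

set_option autoImplicit false
open scoped Pointwise
open Cfsg

namespace Cfsg.Agent.S5610

/-- The stabiliser of an octad in the group of the length-24 code has exactly three orbits on the 3795 trios, of sizes 15, 420 and 3360, and exactly three orbits on the 1771 sextets, of sizes 35, 840 and 896. -/
theorem result (o : Finset Cfsg.GolayPt) (ho : o ∈ Cfsg.octads) : (∃ X₁ ∈ Cfsg.trios, ∃ X₂ ∈ Cfsg.trios, ∃ X₃ ∈ Cfsg.trios, (MulAction.orbit ↥(MulAction.stabilizer Cfsg.M24 o) X₁).ncard = 15 ∧ (MulAction.orbit ↥(MulAction.stabilizer Cfsg.M24 o) X₂).ncard = 420 ∧ (MulAction.orbit ↥(MulAction.stabilizer Cfsg.M24 o) X₃).ncard = 3360 ∧ Cfsg.trios = MulAction.orbit ↥(MulAction.stabilizer Cfsg.M24 o) X₁ ∪ MulAction.orbit ↥(MulAction.stabilizer Cfsg.M24 o) X₂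 ∪ MulAction.orbit ↥(MulAction.stabilizer Cfsg.M24 o) X₃) ∧ (∃ Y₁ ∈ Cfsg.sextets, ∃ Y₂ ∈ Cfsg.sextets, ∃ Y₃ ∈ Cfsg.sextets, (MulAction.orbit ↥(MulAction.stabilizer Cfsg.M24 o) Y₁).ncard = 35 ∧ (MulAction.orbit ↥(MulAction.stabilizer Cfsg.M24 o) Y₂).ncard = 840 ∧ (MulAction.orbit ↥(MulAction.stabilizer Cfsg.M24 o) Y₃).ncard = 896 ∧ Cfsg.sextets = MulAction.orbit ↥(MulAction.stabilizer Cfsg.M24 o) Y₁ ∪ MulAction.orbit ↥(MulAction.stabilizer Cfsg.M24 o) Y₂ ∪ MulAction.orbit ↥(MulAction.stabilizer Cfsg.M24 o) Y₃) := by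
  have hla : Cfsg.Agent.Helper1.Golay.famOf Cfsg.Agent.Helper1.Golay.laOT
      = {Cfsg.support₂ (Cfsg.Agent.Helper1.Golay.ofBits (Cfsg.Agent.Helper1.Golay.comb 15))} :=
    Cfsg.Agent.Helper1.Golay.famOf_singleton_base _ (by decide +kernel)
  have hla' : Cfsg.Agent.Helper1.Golay.famOf Cfsg.Agent.Helper1.Golay.laOS
      = {Cfsg.support₂ (Cfsg.Agent.Helper1.Golay.ofBits (Cfsg.Agent.Helper1.Golay.comb 15))} :=
    Cfsg.Agent.Helper1.Golay.famOf_singleton_base _ (by decide +kernel)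
  have hT := Cfsg.Agent.Helper1.Golay.orbData_octad hla Cfsg.Agent.Helper1.Golay.orbOT
    Cfsg.Agent.Helper1.Golay.trios_inv o ho
  have hS := Cfsg.Agent.Helper1.Golay.orbData_octad hla' Cfsg.Agent.Helper1.Golay.orbOS
    Cfsg.Agent.Helper1.Golay.sextets_inv o ho
  have e1 : ({24, 32, 64} : Finset ℕ) = {64, 32, 24} := by decide
  have e2 : ({14, 16, 32} : Finset ℕ) = {32, 16, 14} := by decide
  have r1 := Cfsg.Agent.Helper1.Golay.orbits3 hT Cfsg.Agent.Helper1.Golay.trios_inv e1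
    (by decide) (by decide) (by decide)
  have r2 := Cfsg.Agent.Helper1.Golay.orbits3 hS Cfsg.Agent.Helper1.Golay.sextets_inv e2
    (by decide) (by decide) (by decide)
  rw [Cfsg.Agent.Helper1.Golay.stabilizer_singleton] at r1 r2
  obtain ⟨X₁, h1, X₂, h2, X₃, h3, c1, c2, c3, hU⟩ := r1
  obtain ⟨Y₁, k1, Y₂, k2, Y₃, k3, d1, d2, d3, hV⟩ := r2
  exact ⟨⟨X₁, h1, X₂, h2, X₃, h3, c1.trans (by decide), c2.trans (by decide),
    c3.trans (by decide), hU⟩, ⟨Y₁, k1, Y₂, k2, Y₃, k3, d1.trans (by decide),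
    d2.trans (by decide), d3.trans (by decide), hV⟩⟩


end Cfsg.Agent.S5610
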