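import Cfsg.Statements.S5611
import Mathlib
import Cfsg.Agent.Helper1.FamISO
import Cfsg.Agent.Helper1.FamIST
import Cfsg.Agent.Helper1.FamSext
import Cfsg.Agent.Helper1.FamFinal2

set_option autoImplicit false
open scoped Pointwise
open Cfsg

namespace Cfsg.Agent.S5611

/-- The stabiliser of a sextet in the group of the length-24 code has exactly three orbits on the 759 octads, of sizes 15, 360 and 384, and exactly four orbits on the 3795 trios, of sizes 15, 180, 720 and 2880. -/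
theorem result (S : Finset (Finset Cfsg.GolayPt)) (hS : S ∈ Cfsg.sextets) : (∃ X₁ ∈ Cfsg.octads, ∃ X₂ ∈ Cfsg.octads, ∃ X₃ ∈ Cfsg.octads, (MulAction.orbit ↥(MulAction.stabilizer Cfsg.M24 S) X₁).ncard = 15 ∧ (MulAction.orbit ↥(MulAction.stabilizer Cfsg.M24 S) X₂).ncard = 360 ∧ (MulAction.orbit ↥(MulAction.stabilizer Cfsg.M24 S) X₃).ncard = 384 ∧ Cfsg.octads = MulAction.orbit ↥(MulAction.stabilizer Cfsg.M24 S) X₁ ∪ MulAction.orbit ↥(MulAction.stabilizer Cfsg.M24 S) X₂ ∪ MulAction.orbit ↥(MulAction.stabilizer Cfsg.M24 S) X₃) ∧ (∃ Y₁ ∈ Cfsg.trios, ∃ Y₂ ∈ Cfsg.trios, ∃ Y₃ ∈ Cfsg.trios, ∃ Y₄ ∈ Cfsg.trios, (MulAction.orbit ↥(MulAction.stabilizer Cfsg.M24 S) Y₁).ncard = 15 ∧ (MulAction.orbit ↥(MulAction.stabilizer Cfsg.M24 S) Y₂).ncard = 180 ∧ (MulAction.orbit ↥(MulAction.stabilizer Cfsg.M24 S) Y₃).ncard = 720 ∧ (MulAction.orbit ↥(MulAction.stabilizer Cfsg.M24 S) Y₄).ncard = 2880 ∧ Cfsg.trios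 = MulAction.orbit ↥(MulAction.stabilizer Cfsg.M24 S) Y₁ ∪ MulAction.orbit ↥(MulAction.stabilizer Cfsg.M24 S) Y₂ ∪ MulAction.orbit ↥(MulAction.stabilizer Cfsg.M24 S) Y₃ ∪ MulAction.orbit ↥(MulAction.stabilizer Cfsg.M24 S) Y₄) := by
  have hbase : Cfsg.Agent.Helper1.Golay.famOf Cfsg.Agent.Helper1.Golay.laSO ∈ Cfsg.sextets := by
    have e : Cfsg.Agent.Helper1.Golay.laSO = Cfsg.Agent.Helper1.Golay.sextTb 0 := by
      decide +kernel
    rw [e]
    exact Cfsg.Agent.Helper1.Golay.sext_base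
  have hbase' : Cfsg.Agent.Helper1.Golay.famOf Cfsg.Agent.Helper1.Golay.laST ∈ Cfsg.sextets := by
    have e : Cfsg.Agent.Helper1.Golay.laST = Cfsg.Agent.Helper1.Golay.sextTb 0 := by
      decide +kernel
    rw [e]
    exact Cfsg.Agent.Helper1.Golay.sext_base
  obtain ⟨hO, _⟩ := Cfsg.Agent.Helper1.Golay.orbData_any
    Cfsg.Agent.Helper1.Golay.sext_isTable hbase Cfsg.Agent.Helper1.Golay.orbSO
    Cfsg.Agent.Helper1.Golay.octFam_inv S hS
  obtain ⟨hT, _⟩ := Cfsg.Agent.Helper1.Golay.orbData_any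
    Cfsg.Agent.Helper1.Golay.sext_isTable hbase' Cfsg.Agent.Helper1.Golay.orbST
    Cfsg.Agent.Helper1.Golay.trios_inv S hS
  have e1 : ({14, 16, 32} : Finset ℕ) = {32, 16, 14} := by decide
  have e2 : ({44, 48, 64, 96} : Finset ℕ) = {96, 64, 48, 44} := by decide
  obtain ⟨X₁, h1, X₂, h2, X₃, h3, c1, c2, c3, hU⟩ :=
    Cfsg.Agent.Helper1.Golay.orbits3_oct hO e1 (by decide) (by decide) (by decide)
  obtain ⟨Y₁, k1, Y₂, k2, Y₃, k3, Y₄, k4, d1, d2, d3, d4, hV⟩ :=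
    Cfsg.Agent.Helper1.Golay.orbits4 hT Cfsg.Agent.Helper1.Golay.trios_inv e2
      (by decide) (by decide) (by decide) (by decide)
  exact ⟨⟨X₁, h1, X₂, h2, X₃, h3, c1.trans (by decide), c2.trans (by decide),
    c3.trans (by decide), hU⟩, ⟨Y₁, k1, Y₂, k2, Y₃, k3, Y₄, k4, d1.trans (by decide),
    d2.trans (by decide), d3.trans (by decide), d4.trans (by decide), hV⟩⟩


end Cfsg.Agent.S5611
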