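import Cfsg.Statements.S5612
import Mathlib
import Cfsg.Agent.Helper1.FamITO
import Cfsg.Agent.Helper1.FamITS
import Cfsg.Agent.Helper1.FamFinal2

set_option autoImplicit false
open scoped Pointwise
open Cfsg

namespace Cfsg.Agent.S5612

/-- The stabiliser of a trio in the group of the length-24 code has exactly three orbits on the 759 octads, of sizes 3, 84 and 672, and exactly four orbits on the 1771 sextets, of sizes 7, 84, 336 and 1344. -/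
theorem result (T : Finset (Finset Cfsg.GolayPt)) (hT : T ∈ Cfsg.trios) : (∃ X₁ ∈ Cfsg.octads, ∃ X₂ ∈ Cfsg.octads, ∃ X₃ ∈ Cfsg.octads, (MulAction.orbit ↥(MulAction.stabilizer Cfsg.M24 T) X₁).ncard = 3 ∧ (MulAction.orbit ↥(MulAction.stabilizer Cfsg.M24 T) X₂).ncard = 84 ∧ (MulAction.orbit ↥(MulAction.stabilizer Cfsg.M24 T) X₃).ncard = 672 ∧ Cfsg.octads = MulAction.orbit ↥(MulAction.stabilizer Cfsg.M24 T) X₁ ∪ MulAction.orbit ↥(MulAction.stabilizer Cfsg.M24 T) X₂ ∪ MulAction.orbit ↥(MulAction.stabilizer Cfsg.M24 T) X₃) ∧ (∃ Y₁ ∈ Cfsg.sextets, ∃ Y₂ ∈ Cfsg.sextets, ∃ Y₃ ∈ Cfsg.sextets, ∃ Y₄ ∈ Cfsg.sextets, (MulAction.orbit ↥(MulAction.stabilizer Cfsg.M24 T) Y₁).ncard = 7 ∧ (MulAction.orbit ↥(MulAction.stabilizer Cfsg.M24 T) Y₂).ncard = 84 ∧ (MulAction.orbit ↥(MulAction.stabilizer Cfsg.M24 T) Y₃).ncard = 336 ∧ (MulAction.orbit ↥(MulAction.stabilizer Cfsg.M24 T) Y₄).ncard = 1344 ∧ Cfsg.sextets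 = MulAction.orbit ↥(MulAction.stabilizer Cfsg.M24 T) Y₁ ∪ MulAction.orbit ↥(MulAction.stabilizer Cfsg.M24 T) Y₂ ∪ MulAction.orbit ↥(MulAction.stabilizer Cfsg.M24 T) Y₃ ∪ MulAction.orbit ↥(MulAction.stabilizer Cfsg.M24 T) Y₄) := by
  have hbase : Cfsg.Agent.Helper1.Golay.famOf Cfsg.Agent.Helper1.Golay.laTO ∈ Cfsg.trios := by
    have e : Cfsg.Agent.Helper1.Golay.laTO = Cfsg.Agent.Helper1.Golay.trioTb 0 := by
      decide +kernel
    rw [e]
    exact Cfsg.Agent.Helper1.Golay.trio_base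
  have hbase' : Cfsg.Agent.Helper1.Golay.famOf Cfsg.Agent.Helper1.Golay.laTS ∈ Cfsg.trios := by
    have e : Cfsg.Agent.Helper1.Golay.laTS = Cfsg.Agent.Helper1.Golay.trioTb 0 := by
      decide +kernel
    rw [e]
    exact Cfsg.Agent.Helper1.Golay.trio_base
  obtain ⟨hO, _⟩ := Cfsg.Agent.Helper1.Golay.orbData_any
    Cfsg.Agent.Helper1.Golay.trio_isTable hbase Cfsg.Agent.Helper1.Golay.orbTO
    Cfsg.Agent.Helper1.Golay.octFam_inv T hT
  obtain ⟨hS, _⟩ := Cfsg.Agent.Helper1.Golay.orbData_any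
    Cfsg.Agent.Helper1.Golay.trio_isTable hbase' Cfsg.Agent.Helper1.Golay.orbTS
    Cfsg.Agent.Helper1.Golay.sextets_inv T hT
  have e1 : ({24, 32, 64} : Finset ℕ) = {64, 32, 24} := by decide
  have e2 : ({44, 48, 64, 96} : Finset ℕ) = {96, 64, 48, 44} := by decide
  obtain ⟨X₁, h1, X₂, h2, X₃, h3, c1, c2, c3, hU⟩ :=
    Cfsg.Agent.Helper1.Golay.orbits3_oct hO e1 (by decide) (by decide) (by decide)
  obtain ⟨Y₁, k1, Y₂, k2, Y₃, k3, Y₄, k4, d1, d2, d3, d4, hV⟩ :=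
    Cfsg.Agent.Helper1.Golay.orbits4 hS Cfsg.Agent.Helper1.Golay.sextets_inv e2
      (by decide) (by decide) (by decide) (by decide)
  exact ⟨⟨X₁, h1, X₂, h2, X₃, h3, c1.trans (by decide), c2.trans (by decide),
    c3.trans (by decide), hU⟩, ⟨Y₁, k1, Y₂, k2, Y₃, k3, Y₄, k4, d1.trans (by decide),
    d2.trans (by decide), d3.trans (by decide), d4.trans (by decide), hV⟩⟩


end Cfsg.Agent.S5612
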