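import Cfsg.Statements.S5614
import Mathlib
import Cfsg.Agent.Helper9.M24Hexad
open Cfsg.Agent.Helper9

set_option autoImplicit false
open scoped Pointwise
open Cfsg

namespace Cfsg.Agent.S5614

/-- In the group of the length-24 code, the joint stabiliser of two octads meeting in exactly two points is isomorphic to the symmetric group of degree 6. -/
theorem result (o o' : Finset Cfsg.GolayPt) (ho : o ∈ Cfsg.octads) (ho' : o' ∈ Cfsg.octads) (h₂ : (o ∩ o').card = 2) : Nonempty (↥(MulAction.stabilizer Cfsg.M24 o ⊓ MulAction.stabilizer Cfsg.M24 o') ≃* Equiv.Perm (Fin 6)) := by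
  obtain ⟨hd, hC, heq⟩ := octad_pair_two o o' ho ho' h₂
  rw [heq]
  exact (hexad_stab _ hd _ hC).1


end Cfsg.Agent.S5614
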