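import Cfsg.Statements.S5613
import Mathlib
import Cfsg.Agent.Helper9.M24Pair
import Cfsg.Agent.S5614
open Cfsg.Agent.Helper9 Cfsg.Agent.Helper1.Golay
open scoped Pointwise

set_option autoImplicit false
open scoped Pointwise
open Cfsg

namespace Cfsg.Agent.S5613

/-- In the group of the length-24 code, the joint stabiliser of two octads has order 10752, 1152 or 720 according as the octads meet in 0, 4 or 2 points. -/
theorem result (o o' : Finset Cfsg.GolayPt) (ho : o ∈ Cfsg.octads) (ho' : o' ∈ Cfsg.octads) : ((o ∩ o').card = 0 → Nat.card ↥(MulAction.stabilizer Cfsg.M24 o ⊓ MulAction.stabilizer Cfsg.M24 o') = 10752) ∧ ((o ∩ o').card = 4 → Nat.card ↥(MulAction.stabilizer Cfsg.M24 o ⊓ MulAction.stabilizer Cfsg.M24 o') = 1152) ∧ ((o ∩ o').card = 2 → Nat.card ↥(MulAction.stabilizer Cfsg.M24 o ⊓ MulAction.stabilizer Cfsg.M24 o') = 720) := by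
  classical
  have hH := card_stab_octad ho
  have hnum := octad_interNums ho
  have horb : ∀ k : ℕ, (o ∩ o').card = k →
      (∀ c ∈ Cfsg.octads, (o ∩ c).card = k → ∃ g ∈ Cfsg.M24, g • o = o ∧ g • o' = c) →
      {x : Finset Cfsg.GolayPt | ∃ h ∈ MulAction.stabilizer ↥Cfsg.M24 o, h • o' = x}
        = {c : Finset Cfsg.GolayPt | c ∈ Cfsg.octads ∧ (o ∩ c).card = k} := by
    intro k hk htrans
    ext x
    constructor
    · rintro ⟨h, hh, rfl⟩
      refine ⟨smul_octad_mem h.2 ho', ?_⟩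
      have hho : (h.1 : Equiv.Perm Cfsg.GolayPt) • o = o := hh
      have e : o ∩ (h.1 : Equiv.Perm Cfsg.GolayPt) • o' = (h.1 : Equiv.Perm Cfsg.GolayPt) • (o ∩ o') := by
        rw [Finset.smul_finset_inter, hho]
      show (o ∩ (h.1 : Equiv.Perm Cfsg.GolayPt) • o').card = k
      rw [e, Finset.card_smul_finset, hk]
    · rintro ⟨hx, hxk⟩
      obtain ⟨g, hg, hgo, hgx⟩ := htrans x hx hxk
      exact ⟨⟨g, hg⟩, hgo, hgx⟩
  refine ⟨fun h0 => ?_, fun h4 => ?_, fun h2 => ?_⟩
  · have h := card_eq_orbit_mul' (MulAction.stabilizer ↥Cfsg.M24 o) o'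
    rw [horb 0 h0 (fun c hc hc0 => stab_octad_trans_zero ho ho' hc
      (Finset.disjoint_iff_inter_eq_empty.mpr (Finset.card_eq_zero.mp h0))
      (Finset.disjoint_iff_inter_eq_empty.mpr (Finset.card_eq_zero.mp hc0))),
      Cfsg.Agent.Helper1.ncard_setOf_inter, hnum.1, hH] at h
    omega
  · have h := card_eq_orbit_mul' (MulAction.stabilizer ↥Cfsg.M24 o) o'
    rw [horb 4 h4 (fun c hc hc4 => stab_octad_trans_four ho ho' hc h4 hc4),
      Cfsg.Agent.Helper1.ncard_setOf_inter, hnum.2.2, hH] at h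
    omega
  · obtain ⟨e⟩ := Cfsg.Agent.S5614.result o o' ho ho' h2
    rw [Nat.card_congr e.toEquiv, Nat.card_eq_fintype_card, Fintype.card_perm, Fintype.card_fin]
    rfl


end Cfsg.Agent.S5613
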