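import Cfsg.Statements.S5617
import Mathlib
import Cfsg.Agent.Helper1.FamIDS
import Cfsg.Agent.Helper1.FamFinal2

set_option autoImplicit false
open scoped Pointwise
open Cfsg

namespace Cfsg.Agent.S5617

/-- The setwise stabiliser, in the group of the length-24 code, of a complementary pair of dodecads has exactly three orbits on the 1771 sextets, of sizes 396, 495 and 880. -/
theorem result (d : Finset Cfsg.GolayPt) (hd : d ∈ Cfsg.dodecads) : ∃ X₁ ∈ Cfsg.sextets, ∃ X₂ ∈ Cfsg.sextets, ∃ X₃ ∈ Cfsg.sextets, (MulAction.orbit ↥(MulAction.stabilizer Cfsg.M24 ({d, Finset.univ \ d} : Finset (Finset Cfsg.GolayPt))) X₁).ncard = 396 ∧ (MulAction.orbit ↥(MulAction.stabilizer Cfsg.M24 ({d, Finset.univ \ d} : Finset (Finset Cfsg.GolayPt))) X₂).ncard = 495 ∧ (MulAction.orbit ↥(MulAction.stabilizer Cfsg.M24 ({d, Finset.univ \ d} : Finset (Finset Cfsg.GolayPt))) X₃).ncard = 880 ∧ Cfsg.sextets = MulAction.orbit ↥(MulAction.stabilizer Cfsg.M24 ({d, Finset.univ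 \ d} : Finset (Finset Cfsg.GolayPt))) X₁ ∪ MulAction.orbit ↥(MulAction.stabilizer Cfsg.M24 ({d, Finset.univ \ d} : Finset (Finset Cfsg.GolayPt))) X₂ ∪ MulAction.orbit ↥(MulAction.stabilizer Cfsg.M24 ({d, Finset.univ \ d} : Finset (Finset Cfsg.GolayPt))) X₃ := by
  have hO := Cfsg.Agent.Helper1.Golay.orbData_dodpair (la := Cfsg.Agent.Helper1.Golay.laDS)
    (by decide +kernel) Cfsg.Agent.Helper1.Golay.orbDS Cfsg.Agent.Helper1.Golay.sextets_inv d hd
  have e1 : ({48, 60, 64} : Finset ℕ) = {48, 64, 60} := by decide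
  obtain ⟨X₁, h1, X₂, h2, X₃, h3, c1, c2, c3, hU⟩ :=
    Cfsg.Agent.Helper1.Golay.orbits3 hO Cfsg.Agent.Helper1.Golay.sextets_inv e1
      (by decide) (by decide) (by decide)
  exact ⟨X₁, h1, X₂, h2, X₃, h3, c1.trans (by decide), c2.trans (by decide),
    c3.trans (by decide), hU⟩


end Cfsg.Agent.S5617
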