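import Cfsg.Statements.S5620
import Mathlib
import Cfsg.Agent.Helper9.M24Dodecad
open Cfsg.Agent.Helper9 Cfsg.Agent.Helper1.Golay

set_option autoImplicit false
open scoped Pointwise
open Cfsg

namespace Cfsg.Agent.S5620

/-- Inside the stabiliser of the dodecad of squares (a Mathieu group of degree 12), the stabiliser of the residue 0 (a point of the dodecad) and the stabiliser of the extra point (a point outside the dodecad) are isomorphic but not conjugate; conjugation by a suitable element of the code's group that maps the dodecad of squares onto its complement carries the first onto the second. -/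
theorem result : Nonempty (↥(Cfsg.Spor.M12 ⊓ MulAction.stabilizer (Equiv.Perm Cfsg.GolayPt) (none : Cfsg.GolayPt)) ≃* ↥Cfsg.Spor.M11) ∧ (¬ ∃ k ∈ Cfsg.Spor.M12, MulAut.conj k • Cfsg.Spor.M11 = Cfsg.Spor.M12 ⊓ MulAction.stabilizer (Equiv.Perm Cfsg.GolayPt) (none : Cfsg.GolayPt)) ∧ ∃ g ∈ Cfsg.M24, g • Cfsg.Spor.squareDodecad = Finset.univ \ Cfsg.Spor.squareDodecad ∧ MulAut.conj g • Cfsg.Spor.M11 = Cfsg.Spor.M12 ⊓ MulAction.stabilizer (Equiv.Perm Cfsg.GolayPt) (none : Cfsg.GolayPt) := by
  classical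
  have hD := squareDodecad_mem
  have hDc := compl_dodecad hD
  have key : ∀ g ∈ Cfsg.M24, g • Cfsg.Spor.squareDodecad = Finset.univ \ Cfsg.Spor.squareDodecad →
      g (some 0) = none →
      MulAut.conj g • Cfsg.Spor.M11 = Cfsg.Spor.M12 ⊓
        MulAction.stabilizer (Equiv.Perm Cfsg.GolayPt) (none : Cfsg.GolayPt) := by
    intro g hg hgD hg0
    ext y
    rw [mem_conj_M11_iff hg, hgD, hg0, smul_compl_iff, Subgroup.mem_inf, mem_M12_iff,
      MulAction.mem_stabilizer_iff]
    exact ⟨fun h => ⟨⟨h.1, h.2.1⟩, h.2.2⟩, fun h => ⟨h.1.1, h.1.2, h.2⟩⟩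
  have hex : ∃ g ∈ Cfsg.M24, g • Cfsg.Spor.squareDodecad = Finset.univ \ Cfsg.Spor.squareDodecad ∧
      g (some 0) = none := by
    obtain ⟨t, ht⟩ := dodecads_transitive _ _ hD hDc
    have ht' : (t : Equiv.Perm Cfsg.GolayPt) • Cfsg.Spor.squareDodecad
        = Finset.univ \ Cfsg.Spor.squareDodecad := ht
    have h1 : (t : Equiv.Perm Cfsg.GolayPt) (some 0) ∈ Finset.univ \ Cfsg.Spor.squareDodecad := by
      rw [← ht']
      exact Finset.smul_mem_smul_finset zero_mem_squareDodecad
    have h2 : (none : Cfsg.GolayPt) ∈ Finset.univ \ Cfsg.Spor.squareDodecad :=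
      Finset.mem_sdiff.mpr ⟨Finset.mem_univ _, none_notMem_squareDodecad⟩
    obtain ⟨h, hh, hhD, hh0⟩ := dodecad_stab_trans _ hDc _ _ h1 h2
    refine ⟨h * t, mul_mem hh t.2, ?_, ?_⟩
    · rw [mul_smul, ht', hhD]
    · rw [Equiv.Perm.mul_apply, hh0]
  obtain ⟨g, hg, hgD, hg0⟩ := hex
  have heq := key g hg hgD hg0
  refine ⟨?_, ?_, ⟨g, hg, hgD, heq⟩⟩
  · exact ⟨((Subgroup.equivSMul (MulAut.conj g) Cfsg.Spor.M11).trans
      (MulEquiv.subgroupCongr heq)).symm⟩
  · rintro ⟨k, hk, hkeq⟩
    have hk' := (mem_M12_iff k).mp hk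
    have hp : k (some 0) ∈ Cfsg.Spor.squareDodecad := by
      have h1 := Finset.smul_mem_smul_finset (a := k) zero_mem_squareDodecad
      rw [hk'.2] at h1
      exact h1
    let x : Fin 3 ↪ Cfsg.GolayPt := ⟨[none, some 5, some 7].get,
      List.nodup_iff_injective_get.mp (by decide)⟩
    let y : Fin 3 ↪ Cfsg.GolayPt := ⟨[some 5, none, some 7].get,
      List.nodup_iff_injective_get.mp (by decide)⟩
    have hx : ∀ i, x i ∉ Cfsg.Spor.squareDodecad := by
      intro i
      fin_cases i
      · exact none_notMem_squareDodecad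
      · exact five_notMem_squareDodecad
      · exact seven_notMem_squareDodecad
    have hy : ∀ i, y i ∉ Cfsg.Spor.squareDodecad := by
      intro i
      fin_cases i
      · exact five_notMem_squareDodecad
      · exact none_notMem_squareDodecad
      · exact seven_notMem_squareDodecad
    obtain ⟨g', hg', hg'D, hg'p, hg'xy⟩ := m11_exists _ hD _ hp x y hx hy
    have hmem : g' ∈ MulAut.conj k • Cfsg.Spor.M11 := by
      rw [mem_conj_M11_iff hk'.1, hk'.2]
      exact ⟨hg', hg'D, hg'p⟩
    rw [hkeq, Subgroup.mem_inf, MulAction.mem_stabilizer_iff] at hmem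
    have h3 : g' none = some 5 := hg'xy 0
    have h4 : g' none = none := hmem.2
    rw [h4] at h3
    exact absurd h3 (by decide)


end Cfsg.Agent.S5620
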