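import Cfsg.Statements.S5624
import Mathlib
import Cfsg.Agent.Helper9.GolayAbstract
open Cfsg.Agent.Helper9

set_option autoImplicit false
open Cfsg

namespace Cfsg.Agent.S5624

/-- Let C be a self-dual binary code of length 24 with minimum weight at least 8 (a 12-dimensional subspace of the 24-dimensional space over the field with two elements, any two of whose words have dot product zero, with no non-zero word of weight below 8 — an abstract extended binary Golay code). Then C is spanned, as a vector space over the field with two elements, by its words of weight 8. -/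
theorem result (C : Submodule (ZMod 2) (Fin 24 → ZMod 2)) (hdim : Module.finrank (ZMod 2) C = 12) (horth : ∀ v ∈ C, ∀ w ∈ C, ∑ i, v i * w i = 0) (hmin : ∀ w ∈ C, w ≠ 0 → 8 ≤ hammingNorm w) : Submodule.span (ZMod 2) {w : Fin 24 → ZMod 2 | w ∈ C ∧ hammingNorm w = 8} = C := by
  have hmin' : ∀ w ∈ C, w ≠ 0 → 8 ≤ (Cfsg.support₂ w).card := hmin
  have key := golay_key C hdim hmin'
  apply le_antisymm
  · rw [Submodule.span_le]
    intro w hw
    exact hw.1
  · have main : ∀ n : ℕ, ∀ c ∈ C, (Cfsg.support₂ c).card ≤ n →
        c ∈ Submodule.span (ZMod 2) {w : Fin 24 → ZMod 2 | w ∈ C ∧ hammingNorm w = 8} := by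
      intro n
      induction n with
      | zero =>
        intro c _ h0
        rw [support₂_eq_empty (Nat.le_zero.mp h0)]
        exact zero_mem _
      | succ n ih =>
        intro c hc hn
        by_cases h0 : c = 0
        · rw [h0]
          exact zero_mem _
        · have h8 := hmin' c hc h0
          obtain ⟨s, hsc, hs⟩ := Finset.exists_subset_card_eq
            (show 5 ≤ (Cfsg.support₂ c).card by omega)
          obtain ⟨o, ho, ho8, hso⟩ := key s hs
          have hsum := card_support₂_add c o
          have hinter : 5 ≤ (Cfsg.support₂ c ∩ Cfsg.support₂ o).card := by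
            rw [← hs]
            exact Finset.card_le_card (Finset.subset_inter hsc hso)
          have hlt : (Cfsg.support₂ (c + o)).card ≤ n := by omega
          have h1 := ih (c + o) (C.add_mem hc ho) hlt
          have h2 : o ∈ Submodule.span (ZMod 2)
              {w : Fin 24 → ZMod 2 | w ∈ C ∧ hammingNorm w = 8} :=
            Submodule.subset_span ⟨ho, ho8⟩
          have h3 : c = (c + o) + o := by
            rw [add_assoc, add_self_zmod2, add_zero]
          rw [h3]
          exact add_mem h1 h2
    intro c hc
    exact main _ c hc le_rfl


end Cfsg.Agent.S5624
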