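import Cfsg.Statements.S5621
import Mathlib
import Cfsg.Agent.Helper9.GolayAbstract2
import Cfsg.Agent.S5624
open Cfsg.Agent.Helper9

set_option autoImplicit false
open Cfsg

namespace Cfsg.Agent.S5621

/-- Let C be a self-dual binary code of length 24 with minimum weight at least 8 (a 12-dimensional subspace of the 24-dimensional space over the field with two elements, any two of whose words have dot product zero, with no non-zero word of weight below 8 — an abstract extended binary Golay code). Then C is doubly even: every word of C has weight divisible by 4. -/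
theorem result (C : Submodule (ZMod 2) (Fin 24 → ZMod 2)) (hdim : Module.finrank (ZMod 2) C = 12) (horth : ∀ v ∈ C, ∀ w ∈ C, ∑ i, v i * w i = 0) (hmin : ∀ w ∈ C, w ≠ 0 → 8 ≤ hammingNorm w) : ∀ w ∈ C, 4 ∣ hammingNorm w := by
  have hspan := Cfsg.Agent.S5624.result C hdim horth hmin
  intro w hw
  rw [← hspan] at hw
  have key : w ∈ C ∧ 4 ∣ (Cfsg.support₂ w).card := by
    induction hw using Submodule.span_induction with
    | mem x hx =>
      refine ⟨hx.1, ?_⟩
      have h8 : (Cfsg.support₂ x).card = 8 := hx.2
      rw [h8]
      norm_num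
    | zero =>
      refine ⟨C.zero_mem, ?_⟩
      have h0 : Cfsg.support₂ (0 : Fin 24 → ZMod 2) = ∅ := by
        ext i
        simp [Cfsg.support₂]
      rw [h0]
      simp
    | add x y _ _ hx hy =>
      refine ⟨C.add_mem hx.1 hy.1, ?_⟩
      have hsum := card_support₂_add x y
      have hdot := horth x hx.1 y hy.1
      rw [dot_eq_card_inter24, ZMod.natCast_eq_zero_iff] at hdot
      obtain ⟨k1, hk1⟩ := hx.2
      obtain ⟨k2, hk2⟩ := hy.2
      obtain ⟨k3, hk3⟩ := hdot
      omega
    | smul a x _ hx =>
      rcases (by decide : ∀ a : ZMod 2, a = 0 ∨ a = 1) a with h | h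
      · rw [h, zero_smul]
        refine ⟨C.zero_mem, ?_⟩
        have h0 : Cfsg.support₂ (0 : Fin 24 → ZMod 2) = ∅ := by
          ext i
          simp [Cfsg.support₂]
        rw [h0]
        simp
      · rw [h, one_smul]
        exact hx
  exact key.2


end Cfsg.Agent.S5621
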