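import Cfsg.Statements.S5622
import Mathlib
import Cfsg.Agent.Helper9.GolayAbstract
open Cfsg.Agent.Helper9

set_option autoImplicit false
open Cfsg

namespace Cfsg.Agent.S5622

/-- Let C be a self-dual binary code of length 24 with minimum weight at least 8 (a 12-dimensional subspace of the 24-dimensional space over the field with two elements, any two of whose words have dot product zero, with no non-zero word of weight below 8 — an abstract extended binary Golay code). Then the minimum weight of C is exactly 8, and the supports of the words of weight 8 (the octads) form a Steiner system S(5, 8, 24) on the 24 coordinates: every 5 coordinates lie in the support of exactly one word of weight 8. -/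
theorem result (C : Submodule (ZMod 2) (Fin 24 → ZMod 2)) (hdim : Module.finrank (ZMod 2) C = 12) (horth : ∀ v ∈ C, ∀ w ∈ C, ∑ i, v i * w i = 0) (hmin : ∀ w ∈ C, w ≠ 0 → 8 ≤ hammingNorm w) : (∃ w ∈ C, hammingNorm w = 8) ∧ Cfsg.IsSteinerSystem 5 8 (Cfsg.wordsOfWeight (C : Set (Fin 24 → ZMod 2)) 8) := by
  have hmin' : ∀ w ∈ C, w ≠ 0 → 8 ≤ (Cfsg.support₂ w).card := hmin
  have key := golay_key C hdim hmin'
  constructor
  · obtain ⟨s, -, hs⟩ := Finset.exists_subset_card_eq
      (show 5 ≤ (Finset.univ : Finset (Fin 24)).card by simp)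
    obtain ⟨c, hc, h8, -⟩ := key s hs
    exact ⟨c, hc, h8⟩
  · refine ⟨fun b hb => hb.2, ?_⟩
    intro s hs
    obtain ⟨c, hc, h8, hsc⟩ := key s hs
    refine ⟨Cfsg.support₂ c, ⟨⟨⟨c, hc, rfl⟩, h8⟩, hsc⟩, ?_⟩
    rintro b ⟨⟨⟨c', hc', rfl⟩, h8'⟩, hsc'⟩
    have hsum := card_support₂_add c' c
    have hinter : 5 ≤ (Cfsg.support₂ c' ∩ Cfsg.support₂ c).card := by
      rw [← hs]
      exact Finset.card_le_card (Finset.subset_inter hsc' hsc)
    have h0 : c' + c = 0 := by
      by_contra h0
      have := hmin' _ (C.add_mem hc' hc) h0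
      omega
    rw [eq_of_add_eq_zero2 h0]


end Cfsg.Agent.S5622
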