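import Cfsg.Statements.S5625
import Mathlib
import Cfsg.Agent.Helper1.Steiner
open Cfsg.Agent.Helper1

set_option autoImplicit false
open Cfsg

namespace Cfsg.Agent.S5625

/-- In any Steiner system S(5, 8, 24) and for any set Y of three points, the blocks meeting Y in exactly 3, 2, 1 and 0 points number 21, 168, 360 and 210 respectively (so there are 759 blocks in all). -/
theorem result (α : Type*) [Fintype α] [DecidableEq α] (hα : Fintype.card α = 24) (B : Set (Finset α)) (hB : Cfsg.IsSteinerSystem 5 8 B) (Y : Finset α) (hY : Y.card = 3) : {b : Finset α | b ∈ B ∧ (b ∩ Y).card = 3}.ncard = 21 ∧ {b : Finset α | b ∈ B ∧ (b ∩ Y).card = 2}.ncard = 168 ∧ {b : Finset α | b ∈ B ∧ (b ∩ Y).card = 1}.ncard = 360 ∧ {b : Finset α | b ∈ B ∧ (b ∩ Y).card = 0}.ncard = 210 := by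
  classical
  have hv : ∀ J : Finset α, J ⊆ Y → ∀ j v : ℕ, J.card = j → j ≤ 5 →
      v * Nat.choose (8 - j) (5 - j) = Nat.choose (24 - j) (5 - j) →
      ((blocks B).filter (fun b => J ⊆ b)).card = v := by
    intro J _ j v hJ hj hv
    have h1 := steiner_lam hB J (by rw [hJ]; exact hj)
    rw [hJ, hα, ← hv] at h1
    have hpos : 0 < Nat.choose (8 - j) (5 - j) := Nat.choose_pos (by omega)
    exact Nat.eq_of_mul_eq_mul_right hpos h1
  have hmaps : ∀ c ∈ blocks B, (Y ∩ c).card ∈ Finset.range 4 := by
    intro c _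
    rw [Finset.mem_range, Nat.lt_succ_iff, ← hY]
    exact Finset.card_le_card Finset.inter_subset_left
  have hS : ∀ j, ∑ c ∈ blocks B, Nat.choose (Y ∩ c).card j =
      ∑ i ∈ Finset.range 4, interNum B Y i * Nat.choose i j := by
    intro j
    rw [← Finset.sum_fiberwise_of_maps_to hmaps]
    refine Finset.sum_congr rfl ?_
    intro i _
    rw [interNum, Finset.sum_congr rfl (g := fun _ => Nat.choose i j)]
    · rw [Finset.sum_const, smul_eq_mul]
    · intro c hc
      rw [Finset.mem_filter] at hc
      rw [hc.2]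
  have hT : ∀ j v : ℕ, j ≤ 5 → v * Nat.choose (8 - j) (5 - j) = Nat.choose (24 - j) (5 - j) →
      ∑ i ∈ Finset.range 4, interNum B Y i * Nat.choose i j = Nat.choose 3 j * v := by
    intro j v hj hvj
    rw [← hS j, steiner_double_count]
    rw [Finset.sum_congr rfl (g := fun _ => v)]
    · rw [Finset.sum_const, smul_eq_mul, Finset.card_powersetCard, hY]
    · intro J hJ
      rw [Finset.mem_powersetCard] at hJ
      exact hv J hJ.1 j v hJ.2 hj hvj
  have e3 := hT 3 21 (by norm_num) (by decide)
  have e2 := hT 2 77 (by norm_num) (by decide)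
  have e1 := hT 1 253 (by norm_num) (by decide)
  have e0 := hT 0 759 (by norm_num) (by decide)
  simp [Finset.sum_range_succ, Nat.choose] at e3 e2 e1 e0
  have hset : ∀ i, {b : Finset α | b ∈ B ∧ (b ∩ Y).card = i}.ncard = interNum B Y i := by
    intro i
    rw [interNum, ← Set.ncard_coe_finset]
    congr 1
    ext b
    simp [mem_blocks, Finset.inter_comm]
  rw [hset, hset, hset, hset]
  omega


end Cfsg.Agent.S5625
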