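import Cfsg.Statements.S5632
import Mathlib
import Cfsg.Agent.Helper9.Transv9
open Cfsg.Agent.Helper9

set_option autoImplicit false
open Cfsg

namespace Cfsg.Agent.S5632

/-- For a finite field F and subspaces 0 < W < U of F^n with dim W + dim U = n, the elements of SL_n(F) stabilising both W and U form a subgroup that is not maximal in SL_n(F): some subgroup lies strictly between it and SL_n(F). -/
theorem result {F : Type*} [Field F] [Fintype F] (n : ℕ) (W U : Submodule F (Fin n → F)) (hW0 : W ≠ ⊥) (hWU : W < U) (hdim : Module.finrank F W + Module.finrank F U = n) : ∃ K : Subgroup (Matrix.GeneralLinearGroup (Fin n) F), Cfsg.Geo.subspaceStabilizer W ⊓ Cfsg.Geo.subspaceStabilizer U ⊓ Cfsg.Geo.specialLinear (Fin n) F < K ∧ K < Cfsg.Geo.specialLinear (Fin n) F := by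
  have hU1 : U ≠ ⊤ := by
    intro hU
    rw [hU, finrank_top, Module.finrank_fin_fun] at hdim
    have h0 : Module.finrank F W = 0 := by omega
    exact hW0 (Submodule.finrank_eq_zero.mp h0)
  have hW1 : W ≠ ⊤ := by
    intro h
    rw [h] at hWU
    exact hU1 (top_le_iff.mp hWU.le)
  obtain ⟨u, huU, huW⟩ := SetLike.exists_of_lt hWU
  obtain ⟨v, hv⟩ : ∃ v : Fin n → F, v ∉ U := by
    by_contra hcon
    push_neg at hcon
    exact hU1 (eq_top_iff.mpr fun x _ => hcon x)
  refine stab_between9 W U hW0 hW1 u v huU ?_ hv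
  intro hmem
  obtain ⟨w, hw, y, hy, hsum⟩ := Submodule.mem_sup.mp hmem
  obtain ⟨c, rfl⟩ := Submodule.mem_span_singleton.mp hy
  by_cases hc : c = 0
  · rw [hc, zero_smul, add_zero] at hsum
    rw [← hsum] at huW
    exact huW hw
  · apply hv
    have h1 : c • v ∈ U := by
      have h2 : c • v = u - w := by
        rw [← hsum]
        simp
      rw [h2]
      exact U.sub_mem huU (hWU.le hw)
    have h3 : v = c⁻¹ • (c • v) := by
      rw [smul_smul, inv_mul_cancel₀ hc, one_smul]
    rw [h3]
    exact U.smul_mem _ h1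


end Cfsg.Agent.S5632
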