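import Cfsg.Statements.S5633
import Mathlib
import Cfsg.Agent.Helper9.Transv9
open Cfsg.Agent.Helper9

set_option autoImplicit false
open Cfsg

namespace Cfsg.Agent.S5633

/-- For a finite field F and complementary non-zero subspaces W ⊕ U = F^n with dim W < dim U, the elements of SL_n(F) stabilising both W and U form a subgroup that is not maximal in SL_n(F): some subgroup lies strictly between it and SL_n(F). -/
theorem result {F : Type*} [Field F] [Fintype F] (n : ℕ) (W U : Submodule F (Fin n → F)) (hW0 : W ≠ ⊥) (hWU : W ⊓ U = ⊥) (hWU' : W ⊔ U = ⊤) (hdim : Module.finrank F W < Module.finrank F U) : ∃ K : Subgroup (Matrix.GeneralLinearGroup (Fin n) F), Cfsg.Geo.subspaceStabilizer W ⊓ Cfsg.Geo.subspaceStabilizer U ⊓ Cfsg.Geo.specialLinear (Fin n) F < K ∧ K < Cfsg.Geo.specialLinear (Fin n) F := by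
  have hU0 : U ≠ ⊥ := by
    intro hU
    rw [hU, finrank_bot] at hdim
    omega
  have hW1 : W ≠ ⊤ := by
    intro hW
    rw [hW, top_inf_eq] at hWU
    exact hU0 hWU
  obtain ⟨u, huU, hu0⟩ := (Submodule.ne_bot_iff U).mp hU0
  obtain ⟨v, hvW, hv0⟩ := (Submodule.ne_bot_iff W).mp hW0
  have hdisj : ∀ x, x ∈ W → x ∈ U → x = 0 := fun x hxW hxU => by
    have h1 : x ∈ W ⊓ U := ⟨hxW, hxU⟩
    rw [hWU] at h1
    exact (Submodule.mem_bot F).mp h1
  refine stab_between9 W U hW0 hW1 u v huU ?_ (fun hvU => hv0 (hdisj v hvW hvU))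
  intro hmem
  have hle : W ⊔ Submodule.span F {v} ≤ W :=
    sup_le le_rfl ((Submodule.span_singleton_le_iff_mem v W).mpr hvW)
  exact hu0 (hdisj u (hle hmem) huU)


end Cfsg.Agent.S5633
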