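import Cfsg.Statements.S5638
import Mathlib
import Cfsg.Agent.Helper9.Tens2
open Cfsg.Agent.Helper9

set_option autoImplicit false
open Cfsg

namespace Cfsg.Agent.S5638

/-- Over the field with 2 elements, for n = 2 n₂ ≥ 13, the stabiliser in SL_n of a tensor decomposition with factors of dimensions 2 and n₂ (the conjugate by any P of the Kronecker-product subgroup transported along any bijection Fin n ≃ Fin 2 × Fin n₂, intersected with SL_n) is not a maximal subgroup: some subgroup lies strictly between it and SL_n. -/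
theorem result {F : Type*} [Field F] [Fintype F] (n : ℕ) (hn : 13 ≤ n) (hq : Fintype.card F = 2) (n₂ : ℕ) (e : Fin n ≃ Fin 2 × Fin n₂) (P : Matrix.GeneralLinearGroup (Fin n) F) : ∃ K : Subgroup (Matrix.GeneralLinearGroup (Fin n) F), Cfsg.Geo.tensorProductSubgroup 2 n₂ e P ⊓ Cfsg.Geo.specialLinear (Fin n) F < K ∧ K < Cfsg.Geo.specialLinear (Fin n) F := by
  classical
  have hSL := sl_top_f2_9 hq (Fin n)
  have hcard : n = 2 * n₂ := by
    have := Fintype.card_congr e
    rw [Fintype.card_fin, Fintype.card_prod, Fintype.card_fin, Fintype.card_fin] at this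
    exact this
  obtain ⟨K₀, h1, h2⟩ := tens2_notmax9 hq n₂ (by omega)
  have hi1 : Function.Injective (Cfsg.Geo.glReindex (F := F) e.symm).toMonoidHom :=
    (Cfsg.Geo.glReindex e.symm).injective
  have hi2 : Function.Injective (MulAut.conj P).toMonoidHom := (MulAut.conj P).injective
  refine ⟨(K₀.map (Cfsg.Geo.glReindex e.symm).toMonoidHom).map (MulAut.conj P).toMonoidHom, ?_, ?_⟩
  · rw [hSL, inf_top_eq]
    exact (Subgroup.map_lt_map_iff_of_injective hi2).mpr
      ((Subgroup.map_lt_map_iff_of_injective hi1).mpr h1)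
  · rw [hSL]
    have h3 := (Subgroup.map_lt_map_iff_of_injective hi2).mpr
      ((Subgroup.map_lt_map_iff_of_injective hi1).mpr h2)
    have t1 : (⊤ : Subgroup (Matrix.GeneralLinearGroup (Fin 2 × Fin n₂) F)).map
        (Cfsg.Geo.glReindex (F := F) e.symm).toMonoidHom = ⊤ :=
      Subgroup.map_top_of_surjective _ (Cfsg.Geo.glReindex (F := F) e.symm).surjective
    have t2 : (⊤ : Subgroup (Matrix.GeneralLinearGroup (Fin n) F)).map
        (MulAut.conj P).toMonoidHom = ⊤ :=
      Subgroup.map_top_of_surjective _ (MulAut.conj P).surjective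
    rw [t1, t2] at h3
    exact h3


end Cfsg.Agent.S5638
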