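import Cfsg.Statements.S5652
import Mathlib
import Cfsg.Agent.Helper9.SpOrth
open Cfsg.Agent.Helper9

set_option autoImplicit false
open Cfsg

namespace Cfsg.Agent.S5652

/-- For a finite field F of characteristic two and m ≥ 7, let Q be a non-degenerate quadratic form on F^(2m) whose polar form is the standard alternating form. Then the elements of Sp_2m(F) that are similarities of Q (they are exactly the isometries of Q) form a maximal subgroup of Sp_2m(F). -/
theorem result {F : Type*} [Field F] [Fintype F] (m : ℕ) (hm : 7 ≤ m) (heven : ¬ Odd (Fintype.card F)) (Q : (Fin m ⊕ Fin m → F) → F) (hQ : Cfsg.Geo.IsNondegenerateQuadraticForm Q) (hpol : ∀ u v, QuadraticMap.polar Q u v = Cfsg.sympForm m F u v) : Cfsg.Geo.IsMaximalIn (Cfsg.spGL m F) (Cfsg.Geo.quadSimilarityGroup Q ⊓ Cfsg.spGL m F) := by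
  have hchar : ringChar F = 2 := FiniteField.even_card_iff_char_two.mpr (by
    rcases Nat.even_or_odd (Fintype.card F) with h | h
    · exact Nat.even_iff.mp h
    · exact absurd h heven)
  haveI : CharP F 2 := ringChar.of_eq hchar
  have hq : QData9 m F Q :=
    { add := fun u v => by
        have h := hpol u v
        rw [QuadraticMap.polar] at h
        rw [← h]
        ring
      smul := hQ.smul
      two := fun a => CharTwo.add_self_eq_zero a
      sq := fun a => by
        obtain ⟨r, hr⟩ := FiniteField.isSquare_of_char_two hchar a
        exact ⟨r, hr.symm⟩ }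
  exact sp_orth_maximal9 hq (by omega)


end Cfsg.Agent.S5652
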