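import Cfsg.Statements.S5944
import Mathlib

set_option autoImplicit false
open Cfsg

namespace Cfsg.Agent.S5944

/-- For n ≠ 4, every proper subgroup of the symmetric group S_n other than the alternating group A_n has index at least n. -/
theorem result (n : ℕ) (hn : n ≠ 4) (H : Subgroup (Equiv.Perm (Fin n))) (hH : H ≠ ⊤) (hA : H ≠ alternatingGroup (Fin n)) : n ≤ H.index := by
  classical
  have hidx0 : H.index ≠ 0 := Subgroup.index_ne_zero_of_finite
  have hidx1 : H.index ≠ 1 := fun h => hH (Subgroup.index_eq_one.mp h)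
  have hidx2 : H.index ≠ 2 := fun h => hA (Equiv.Perm.eq_alternatingGroup_of_index_eq_two h)
  by_contra hlt
  push Not at hlt
  have hn5 : 5 ≤ n := by omega
  set N : Subgroup (Equiv.Perm (Fin n)) := H.normalCore with hN
  have hNH : N ≤ H := Subgroup.normalCore_le H
  have hNn : N.Normal := Subgroup.normalCore_normal H
  -- N is nontrivial
  have hNbot : N ≠ ⊥ := by
    intro hbot
    have h1 : N.index ≤ (H.index).factorial := by
      rw [hN, Subgroup.normalCore_eq_ker, Subgroup.index_ker]
      calc Nat.card (MulAction.toPermHom (Equiv.Perm (Fin n)) (Equiv.Perm (Fin n) ⧸ H)).range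
          ≤ Nat.card (Equiv.Perm (Equiv.Perm (Fin n) ⧸ H)) := Finite.card_subtype_le _
        _ = (H.index).factorial := by
          rw [Nat.card_perm]
          rfl
    have h2 : N.index = n.factorial := by
      have := Subgroup.index_mul_card N
      rw [hbot] at this ⊢
      simp only [Subgroup.card_bot, mul_one] at this
      rw [this, Nat.card_eq_fintype_card, Fintype.card_perm, Fintype.card_fin]
    have h3 : (H.index).factorial < n.factorial := (Nat.factorial_lt (Nat.pos_of_ne_zero hidx0)).mpr hlt
    omega
  -- N contains a nontrivial even element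
  obtain ⟨z, hzN, hz1⟩ : ∃ z ∈ N, z ≠ 1 := by
    by_contra hcon
    push Not at hcon
    exact hNbot ((Subgroup.eq_bot_iff_forall N).mpr hcon)
  obtain ⟨a, ha⟩ : ∃ a, z a ≠ a := by
    by_contra hcon
    push Not at hcon
    exact hz1 (Equiv.ext hcon)
  obtain ⟨c, hca, hcz⟩ : ∃ c : Fin n, c ≠ a ∧ c ≠ z a := by
    have : 2 < Fintype.card (Fin n) := by rw [Fintype.card_fin]; omega
    by_contra hcon
    push Not at hcon
    have hsub : (Finset.univ : Finset (Fin n)) ⊆ {a, z a} := by
      intro c _
      by_cases h : c = a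
      · simp [h]
      · simp [hcon c h]
    have := Finset.card_le_card hsub
    rw [Finset.card_univ, Fintype.card_fin] at this
    have h2 : ({a, z a} : Finset (Fin n)).card ≤ 2 := Finset.card_le_two
    omega
  set g : Equiv.Perm (Fin n) := Equiv.swap (z a) c with hg
  have hcomm : z * g * z⁻¹ * g⁻¹ ≠ 1 := by
    intro h
    have h1 : z * g = g * z := by
      have := congrArg (fun t => t * g * z) h
      simpa [mul_assoc] using this
    have h2 := congrArg (fun t : Equiv.Perm (Fin n) => t a) h1
    simp only [Equiv.Perm.mul_apply] at h2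
    rw [hg, Equiv.swap_apply_of_ne_of_ne ha.symm hca.symm, Equiv.swap_apply_left] at h2
    exact hcz h2.symm
  have hcN : z * g * z⁻¹ * g⁻¹ ∈ N := by
    have : z * g * z⁻¹ * g⁻¹ = z * (g * z⁻¹ * g⁻¹) := by group
    rw [this]
    exact N.mul_mem hzN (hNn.conj_mem _ (N.inv_mem hzN) g)
  have hcA : z * g * z⁻¹ * g⁻¹ ∈ alternatingGroup (Fin n) := by
    rw [Equiv.Perm.mem_alternatingGroup]
    simp only [map_mul, map_inv, Int.units_inv_eq_self]
    rw [mul_assoc, mul_mul_mul_comm, Int.units_mul_self, Int.units_mul_self, one_mul]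
  -- simplicity of A_n
  have hsimp : IsSimpleGroup (alternatingGroup (Fin n)) :=
    alternatingGroup.isSimpleGroup (by rw [Nat.card_eq_fintype_card, Fintype.card_fin]; exact hn5)
  have hNn' : (N.subgroupOf (alternatingGroup (Fin n))).Normal := Subgroup.Normal.subgroupOf hNn _
  have hAN : alternatingGroup (Fin n) ≤ N := by
    rcases hNn'.eq_bot_or_eq_top with h | h
    · exfalso
      have : (⟨z * g * z⁻¹ * g⁻¹, hcA⟩ : alternatingGroup (Fin n)) ∈ N.subgroupOf (alternatingGroup (Fin n)) :=
        Subgroup.mem_subgroupOf.mpr hcN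
      rw [h, Subgroup.mem_bot] at this
      exact hcomm (congrArg Subtype.val this)
    · exact Subgroup.subgroupOf_eq_top.mp h
  have hAH : alternatingGroup (Fin n) ≤ H := hAN.trans hNH
  have hle : H.index ≤ 2 := by
    have h1 := Subgroup.index_dvd_of_le hAH
    have : Nontrivial (Fin n) := Fin.nontrivial_iff_two_le.mpr (by omega)
    rw [alternatingGroup.index_eq_two] at h1
    exact Nat.le_of_dvd (by norm_num) h1
  omega


end Cfsg.Agent.S5944
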