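import Cfsg.Statements.S5952
import Mathlib

set_option autoImplicit false
open Cfsg

namespace Cfsg.Agent.S5952

section s5952
variable {F V : Type*} [Field F] [AddCommGroup V] [Module F V] [FiniteDimensional F V]

lemma finrank_biSup_indep {ι : Type*} [DecidableEq ι] (A : ι → Submodule F V)
    (hA : iSupIndep A) (S : Finset ι) :
    Module.finrank F ↥(⨆ i ∈ S, A i) = ∑ i ∈ S, Module.finrank F ↥(A i) := by
  induction S using Finset.induction_on with
  | empty => simp
  | insert k S hk ih =>
    rw [Finset.iSup_insert, Finset.sum_insert hk, ← ih]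
    have hd : Disjoint (A k) (⨆ i ∈ S, A i) := by
      refine (hA k).mono_right ?_
      exact iSup₂_le fun i hi => le_iSup₂_of_le i (fun h => hk (h ▸ hi)) le_rfl
    have := Submodule.finrank_sup_add_finrank_inf_eq (A k) (⨆ i ∈ S, A i)
    rw [disjoint_iff.1 hd, finrank_bot, add_zero] at this
    exact this

lemma exists_sub_finrank (E : Submodule F V) (k : ℕ) (hk : k ≤ Module.finrank F ↥E) :
    ∃ W : Submodule F V, W ≤ E ∧ Module.finrank F ↥W = k := by
  let b := Module.finBasis F ↥E
  let v : Fin k → V := fun i => (b (Fin.castLE hk i) : V)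
  have hv : LinearIndependent F v := by
    have h1 : LinearIndependent F (fun i : Fin k => b (Fin.castLE hk i)) :=
      b.linearIndependent.comp _ (Fin.castLE_injective hk)
    exact h1.map' E.subtype (Submodule.ker_subtype E)
  refine ⟨Submodule.span F (Set.range v), ?_, ?_⟩
  · rw [Submodule.span_le]; rintro _ ⟨i, rfl⟩; exact (b (Fin.castLE hk i)).2
  · rw [finrank_span_eq_card hv, Fintype.card_fin]

lemma inv_biSup {ι : Type*} (f : V →ₗ[F] V) (A : ι → Submodule F V)
    (hA : ∀ i, (A i).map f ≤ A i) (S : Finset ι) :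
    (⨆ i ∈ S, A i).map f ≤ ⨆ i ∈ S, A i := by
  rw [Submodule.map_iSup]
  refine iSup_mono fun i => ?_
  rw [Submodule.map_iSup]
  exact iSup_mono fun _ => hA i

lemma inv_sup (f : V →ₗ[F] V) {P Q : Submodule F V} (hP : P.map f ≤ P) (hQ : Q.map f ≤ Q) :
    (P ⊔ Q).map f ≤ P ⊔ Q := by
  rw [Submodule.map_sup]; exact sup_le_sup hP hQ

lemma inv_inf (f : V →ₗ[F] V) {P Q : Submodule F V} (hP : P.map f ≤ P) (hQ : Q.map f ≤ Q) :
    (P ⊓ Q).map f ≤ P ⊓ Q := by
  rintro _ ⟨x, hx, rfl⟩
  exact ⟨hP ⟨x, hx.1, rfl⟩, hQ ⟨x, hx.2, rfl⟩⟩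

end s5952

/-- Which dimensions of invariant subspaces a semisimple linear map has. Let `V` be a finite-dimensional vector space over a field `F` and `f` an invertible semisimple linear map of `V`. Suppose `V` is the internal direct sum of the fixed space `C_V(f)` (the eigenspace for 1) and subspaces `U_1, …, U_s`, each `f`-invariant of dimension `a ≥ 1` on which `f` acts irreducibly (no `f`-invariant subspaces other than 0 and `U_j`). Let `0 < m < dim V` and `ℓ = m mod a`. Then `f` leaves some `m`-dimensional subspace invariant if and only if `dim C_V(f) ≥ m`, or `a ≤ m` and `dim C_V(f) ≥ ℓ`. -/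
theorem result {F V : Type*} [Field F] [AddCommGroup V] [Module F V]
    [FiniteDimensional F V] (f : V →ₗ[F] V) (hf : Function.Bijective f) (hss : Module.End.IsSemisimple f)
    {s a : ℕ} (ha : 1 ≤ a) (U : Fin s → Submodule F V)
    (hUinv : ∀ j, (U j).map f ≤ U j) (hUdim : ∀ j, Module.finrank F ↥(U j) = a)
    (hUirr : ∀ j, ∀ W : Submodule F V, W ≤ U j → W.map f ≤ W → W = ⊥ ∨ W = U j)
    (hdec : DirectSum.IsInternal (fun o : Option (Fin s) => o.elim (Module.End.eigenspace f 1) U))
    (m : ℕ) (hm : 0 < m) (hmV : m < Module.finrank F V) :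
    (∃ W : Submodule F V, Module.finrank F ↥W = m ∧ W.map f ≤ W) ↔
    (m ≤ Module.finrank F ↥(Module.End.eigenspace f 1) ∨
      (a ≤ m ∧ m % a ≤ Module.finrank F ↥(Module.End.eigenspace f 1))) := by
  classical
  set E := Module.End.eigenspace f 1 with hE
  have hEmem : ∀ x, x ∈ E ↔ f x = x := by
    intro x; rw [hE, Module.End.mem_eigenspace_iff, one_smul]
  have hind := hdec.submodule_iSupIndep
  have htop := hdec.submodule_iSup_eq_top
  have hUind : iSupIndep U := hind.comp (Option.some_injective _)
  set Ut : Submodule F V := ⨆ j ∈ (Finset.univ : Finset (Fin s)), U j with hUt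
  have hUt_dim : Module.finrank F ↥Ut = s * a := by
    rw [hUt, finrank_biSup_indep U hUind, Finset.sum_congr rfl (fun j _ => hUdim j),
      Finset.sum_const, Finset.card_univ, Fintype.card_fin, smul_eq_mul]
  have hEUS : ∀ S : Finset (Fin s), Disjoint E (⨆ j ∈ S, U j) := by
    intro S
    refine (hind none).mono_right ?_
    exact iSup₂_le fun j _ => le_iSup₂_of_le (some j) (by simp) le_rfl
  have hEU : Disjoint E Ut := hEUS _
  have hEUtop : Ut ⊔ E = ⊤ := by
    rw [← htop, iSup_option, sup_comm]
    congr 1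
    rw [hUt]; simp
  have hVdim : Module.finrank F V = s * a + Module.finrank F ↥E := by
    have := Submodule.finrank_sup_add_finrank_inf_eq Ut E
    rw [hEUtop, finrank_top, disjoint_iff.1 hEU.symm, finrank_bot, add_zero, hUt_dim] at this
    exact this
  constructor
  · rintro ⟨W, hWm, hWinv⟩
    obtain ⟨S, hS, hmax⟩ : ∃ S : Finset (Fin s), Disjoint W (⨆ j ∈ S, U j) ∧
        ∀ T : Finset (Fin s), Disjoint W (⨆ j ∈ T, U j) → T.card ≤ S.card := by
      have hne : ((Finset.univ : Finset (Finset (Fin s))).filter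
          (fun S => Disjoint W (⨆ j ∈ S, U j))).Nonempty := ⟨∅, by simp⟩
      obtain ⟨S, hS, hmax⟩ := Finset.exists_max_image _ Finset.card hne
      exact ⟨S, (Finset.mem_filter.1 hS).2, fun T hT =>
        hmax T (Finset.mem_filter.2 ⟨Finset.mem_univ _, hT⟩)⟩
    set US := ⨆ j ∈ S, U j with hUS
    have hUSinv : US.map f ≤ US := inv_biSup f U hUinv S
    have hYinv : (W ⊔ US).map f ≤ W ⊔ US := inv_sup f hWinv hUSinv
    have hUj : ∀ j, U j ≤ W ⊔ US := by
      intro j
      by_cases hj : j ∈ S
      · exact le_trans (le_iSup₂_of_le j hj le_rfl) le_sup_right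
      · have hnd : ¬ Disjoint W (⨆ i ∈ insert j S, U i) := by
          intro hd
          have := hmax _ hd
          rw [Finset.card_insert_of_notMem hj] at this
          omega
        rw [Finset.iSup_insert, disjoint_iff, ← ne_eq, Submodule.ne_bot_iff] at hnd
        obtain ⟨x, hx, hx0⟩ := hnd
        obtain ⟨hxW, hxs⟩ := Submodule.mem_inf.1 hx
        obtain ⟨z, hz, y, hy, hzy⟩ := Submodule.mem_sup.1 hxs
        have hz0 : z ≠ 0 := by
          rintro rfl
          rw [zero_add] at hzy
          have h1 : x ∈ W ⊓ US := ⟨hxW, hzy ▸ hy⟩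
          rw [disjoint_iff.1 hS] at h1
          exact hx0 ((Submodule.mem_bot F).1 h1)
        have hzY : z ∈ W ⊔ US := by
          have h1 : z = x - y := by rw [← hzy]; abel
          rw [h1]
          exact Submodule.sub_mem _ (Submodule.mem_sup_left hxW) (Submodule.mem_sup_right hy)
        rcases hUirr j ((W ⊔ US) ⊓ U j) inf_le_right (inv_inf f hYinv (hUinv j)) with h | h
        · exfalso
          have h1 : z ∈ (W ⊔ US) ⊓ U j := ⟨hzY, hz⟩
          rw [h] at h1
          exact hz0 ((Submodule.mem_bot F).1 h1)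
        · rw [← h]; exact inf_le_left
    have hUtY : Ut ≤ W ⊔ US := iSup₂_le fun j _ => hUj j
    have hYdim : Module.finrank F ↥(W ⊔ US) = m + S.card * a := by
      have := Submodule.finrank_sup_add_finrank_inf_eq W US
      rw [disjoint_iff.1 hS, finrank_bot, add_zero, hWm, hUS, finrank_biSup_indep U hUind,
        Finset.sum_congr rfl (fun j _ => hUdim j), Finset.sum_const, smul_eq_mul] at this
      exact this
    have hmod : Ut ⊔ (E ⊓ (W ⊔ US)) = W ⊔ US := by
      rw [← sup_inf_assoc_of_le E hUtY, hEUtop, top_inf_eq]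
    have hYdim2 : Module.finrank F ↥(W ⊔ US) =
        s * a + Module.finrank F ↥(E ⊓ (W ⊔ US)) := by
      have := Submodule.finrank_sup_add_finrank_inf_eq Ut (E ⊓ (W ⊔ US))
      have hbot : Ut ⊓ (E ⊓ (W ⊔ US)) = ⊥ := by
        rw [eq_bot_iff, ← disjoint_iff.1 hEU.symm]
        exact inf_le_inf_left _ inf_le_left
      rw [hmod, hbot, finrank_bot, add_zero, hUt_dim] at this
      exact this
    have hc'' : Module.finrank F ↥(E ⊓ (W ⊔ US)) ≤ Module.finrank F ↥E :=
      Submodule.finrank_mono inf_le_left
    have hScard : S.card ≤ s := by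
      have := Finset.card_le_univ S; rwa [Fintype.card_fin] at this
    have heq : m + S.card * a = s * a + Module.finrank F ↥(E ⊓ (W ⊔ US)) := by
      rw [← hYdim, hYdim2]
    generalize Module.finrank F ↥(E ⊓ (W ⊔ US)) = c'' at heq hc''
    generalize Module.finrank F ↥E = c at hc'' ⊢
    obtain ⟨t, ht⟩ := Nat.exists_eq_add_of_le hScard
    generalize S.card = n at heq ht
    subst ht
    have hm' : m = t * a + c'' := by nlinarith [heq]
    rcases Nat.eq_zero_or_pos t with h0 | hpos
    · left; rw [hm', h0, zero_mul, zero_add]; exact hc''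
    · right
      refine ⟨?_, ?_⟩
      · rw [hm']; exact le_trans (Nat.le_mul_of_pos_left a hpos) (Nat.le_add_right _ _)
      · rw [hm', add_comm, Nat.add_mul_mod_self_right]
        exact le_trans (Nat.mod_le _ _) hc''
  · rintro (h | ⟨h1, h2⟩)
    · obtain ⟨W, hWE, hWd⟩ := exists_sub_finrank E m h
      refine ⟨W, hWd, ?_⟩
      rintro _ ⟨x, hx, rfl⟩
      rw [(hEmem x).1 (hWE hx)]; exact hx
    · set t := min s (m / a) with ht
      have hts : t ≤ s := min_le_left _ _
      have hta : t * a ≤ m :=
        le_trans (Nat.mul_le_mul_right a (min_le_right _ _)) (Nat.div_mul_le_self m a)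
      have hrem : m - t * a ≤ Module.finrank F ↥E := by
        rcases le_total (m / a) s with hle | hle
        · have h3 : t = m / a := min_eq_right hle
          rw [h3]
          have h4 : m - m / a * a = m % a :=
            Nat.sub_eq_of_eq_add (by rw [mul_comm]; exact (Nat.mod_add_div m a).symm)
          rw [h4]; exact h2
        · have h3 : t = s := min_eq_left hle
          rw [h3]
          have h5 := hmV
          rw [hVdim] at h5
          generalize s * a = N at h5 ⊢
          omega
      obtain ⟨S, -, hScard⟩ := Finset.exists_subset_card_eq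
        (s := (Finset.univ : Finset (Fin s))) (n := t)
        (by rw [Finset.card_univ, Fintype.card_fin]; exact hts)
      obtain ⟨W₀, hW₀E, hW₀d⟩ := exists_sub_finrank E (m - t * a) hrem
      have hdis : Disjoint (⨆ j ∈ S, U j) W₀ := ((hEUS S).mono_left hW₀E).symm
      refine ⟨(⨆ j ∈ S, U j) ⊔ W₀, ?_, ?_⟩
      · have := Submodule.finrank_sup_add_finrank_inf_eq (⨆ j ∈ S, U j) W₀
        rw [disjoint_iff.1 hdis, finrank_bot, add_zero, hW₀d, finrank_biSup_indep U hUind,
          Finset.sum_congr rfl (fun j _ => hUdim j), Finset.sum_const, smul_eq_mul, hScard] at this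
        rw [this]
        generalize t * a = N at hta ⊢
        omega
      · apply inv_sup f (inv_biSup f U hUinv S)
        rintro _ ⟨x, hx, rfl⟩
        rw [(hEmem x).1 (hW₀E hx)]; exact hx

end Cfsg.Agent.S5952
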